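import Mathlib
import Cfsg.Prelude.Def_LieExceptional

/-!
Double cosets in a group with a (B, N)-pair, and the Hecke operators on the chambers.
-/

set_option autoImplicit false

namespace Cfsg.Agent.H1.BN

open Cfsg

section Alt

variable {M : Type*} [Monoid M]

/-- alternating product with `k` factors -/
def alt : M → M → ℕ → M
  | _, _, 0 => 1
  | x, y, k + 1 => x * alt y x k

theorem alt_zero (x y : M) : alt x y 0 = 1 := rfl

theorem alt_succ (x y : M) (k : ℕ) : alt x y (k + 1) = x * alt y x k := rfl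

theorem alt_add (x y : M) (j k : ℕ) :
    alt x y (j + k) = alt x y j * if Even j then alt x y k else alt y x k := by
  induction j generalizing x y with
  | zero => simp [alt_zero]
  | succ j ih =>
    rw [add_right_comm, alt_succ, alt_succ, ih, mul_assoc]
    simp only [Nat.even_add_one, ite_not]

theorem alt_two_mul (x y : M) (n : ℕ) : alt x y (2 * n) = (x * y) ^ n := by
  induction n with
  | zero => simp [alt_zero]
  | succ n ih => rw [mul_add, mul_one, alt_succ, alt_succ, ih, pow_succ', mul_assoc]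

theorem alt_two_mul_add_one (x y : M) (n : ℕ) : alt x y (2 * n + 1) = (x * y) ^ n * x := by
  rw [alt_add, alt_two_mul, if_pos (even_two_mul n), alt_succ, alt_zero, mul_one]

theorem map_alt {M' F : Type*} [Monoid M'] [FunLike F M M'] [MonoidHomClass F M M'] (f : F)
    (x y : M) (k : ℕ) : f (alt x y k) = alt (f x) (f y) k := by
  induction k generalizing x y with
  | zero => exact map_one f
  | succ k ih => rw [alt_succ, alt_succ, map_mul, ih]

theorem alt_eq_pow_mul {x y : M} (hx : x * x = 1) (hy : y * y = 1) (k : ℕ) :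
    alt x y k = (x * y) ^ k * alt y x k := by
  induction k with
  | zero => simp [alt_zero]
  | succ k ih =>
    have h1 : (x * y) ^ k * x = x * (y * x) ^ k :=
      ((SemiconjBy.pow_right (show SemiconjBy x (y * x) (x * y) from
        (mul_assoc _ _ _).symm) k).eq).symm
    have h2 : y * x * (x * y) = 1 := by rw [mul_assoc, ← mul_assoc x, hx, one_mul, hy]
    have h3 : x * y * (y * x) = 1 := by rw [mul_assoc, ← mul_assoc y, hy, one_mul, hx]
    have h4 : Commute (y * x) (x * y) := h2.trans h3.symm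
    rw [alt_succ, alt_succ, ih, pow_succ, mul_assoc _ (x * y), mul_assoc x, ← mul_assoc y y, hy,
      one_mul, ← mul_assoc, h1, mul_assoc x, ← mul_assoc _ ((x * y) ^ k), ← h4.mul_pow, h2, one_pow,
      one_mul]

end Alt

theorem card_dihedral {W : Type*} [Group W] {x y : W} (hx : x * x = 1) (hy : y * y = 1)
    (hx1 : x ≠ 1) (hy1 : y ≠ 1) (hgen : Subgroup.closure {x, y} = ⊤) :
    Nat.card W = 2 * orderOf (x * y) := by
  have hxi : x⁻¹ = x := inv_eq_of_mul_eq_one_right hx
  have hyi : y⁻¹ = y := inv_eq_of_mul_eq_one_right hy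
  have hconj : ∀ h ∈ Subgroup.zpowers (x * y), x * h * x ∈ Subgroup.zpowers (x * y) := by
    rintro _ ⟨i, rfl⟩
    have : x * (x * y) ^ i * x = ((x * y)⁻¹) ^ i := by
      rw [mul_inv_rev, hxi, hyi]
      conv_lhs => arg 2; rw [← hxi]
      rw [← conj_zpow, hxi, ← mul_assoc, hx, one_mul]
    change x * (x * y) ^ i * x ∈ _
    rw [this]
    exact zpow_mem (inv_mem (Subgroup.mem_zpowers _)) _
  have hidx : (Subgroup.zpowers (x * y)).index = 2 := by
    rw [Subgroup.index_eq_two_iff]
    refine ⟨x, fun b => ?_⟩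
    have h1 : b ∈ Subgroup.zpowers (x * y) ∨ b * x ∈ Subgroup.zpowers (x * y) := by
      have hb : b ∈ Subgroup.closure {x, y} := hgen.ge trivial
      induction hb using Subgroup.closure_induction with
      | mem z hz =>
        right
        rcases hz with rfl | rfl
        · rw [hx]
          exact one_mem _
        · have := inv_mem (Subgroup.mem_zpowers (x * z))
          rwa [mul_inv_rev, hxi, hyi] at this
      | one => exact Or.inl (one_mem _)
      | mul u v _ _ hu hv =>
        rcases hu with hu | hu <;> rcases hv with hv | hv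
        · exact Or.inl (mul_mem hu hv)
        · exact Or.inr (by rw [mul_assoc]; exact mul_mem hu hv)
        · right
          have := mul_mem hu (hconj _ hv)
          rwa [mul_assoc, ← mul_assoc x, ← mul_assoc x, hx, one_mul, ← mul_assoc] at this
        · left
          have := mul_mem hu (hconj _ hv)
          rwa [mul_assoc, ← mul_assoc x, ← mul_assoc x, hx, one_mul, mul_assoc, hx, mul_one] at this
      | inv u _ hu =>
        rcases hu with hu | hu
        · exact Or.inl (inv_mem hu)
        · right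
          have := hconj _ (inv_mem hu)
          rwa [mul_inv_rev, hxi, ← mul_assoc, hx, one_mul] at this
    have h2 : ¬ (b ∈ Subgroup.zpowers (x * y) ∧ b * x ∈ Subgroup.zpowers (x * y)) := by
      rintro ⟨h3, h4⟩
      obtain ⟨i, hi⟩ := (Subgroup.mul_mem_cancel_left _ h3).1 h4
      have hi' : (x * y) ^ i = x := hi
      have h5 : Commute (x * y) x := by
        conv_rhs => rw [← hi']
        exact Commute.zpow_right (Commute.refl _) i
      have h6 : (x * y) ^ (2 : ℤ) = 1 := by
        rw [zpow_two, ← mul_assoc, h5.eq, ← mul_assoc, hx, one_mul, hy]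
      rcases Int.even_or_odd' i with ⟨j, rfl | rfl⟩
      · rw [zpow_mul, h6, one_zpow] at hi'
        exact hx1 hi'.symm
      · rw [zpow_add, zpow_mul, h6, one_zpow, one_mul, zpow_one] at hi'
        exact hy1 (mul_eq_left.1 hi')
    unfold Xor
    tauto
  rw [← Nat.card_zpowers, ← hidx, Subgroup.index_mul_card]

variable {G : Type*} [Group G]

/-- `x` lies in the double coset of `w`. -/
def DC (B : Subgroup G) (x w : G) : Prop := ∃ b ∈ B, ∃ b' ∈ B, x = b * w * b'

section DC

variable {B : Subgroup G} {x y w : G}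

theorem DC.refl (B : Subgroup G) (x : G) : DC B x x := ⟨1, one_mem _, 1, one_mem _, by simp⟩

theorem DC.symm (h : DC B x w) : DC B w x := by
  obtain ⟨b, hb, c, hc, rfl⟩ := h
  exact ⟨b⁻¹, inv_mem hb, c⁻¹, inv_mem hc, by group⟩

theorem DC.trans (h : DC B x y) (h' : DC B y w) : DC B x w := by
  obtain ⟨b, hb, c, hc, rfl⟩ := h
  obtain ⟨b', hb', c', hc', rfl⟩ := h'
  exact ⟨b * b', mul_mem hb hb', c' * c, mul_mem hc' hc, by group⟩

theorem DC.inv (h : DC B x w) : DC B x⁻¹ w⁻¹ := by
  obtain ⟨b, hb, c, hc, rfl⟩ := h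
  exact ⟨c⁻¹, inv_mem hc, b⁻¹, inv_mem hb, by group⟩

theorem DC.of_mem (h : x⁻¹ * y ∈ B) : DC B y x := ⟨1, one_mem _, _, h, by group⟩

theorem dc_one : DC B x 1 ↔ x ∈ B := by
  constructor
  · rintro ⟨b, hb, c, hc, rfl⟩
    exact mul_mem (mul_mem hb (one_mem _)) hc
  · exact fun h => ⟨x, h, 1, one_mem _, by simp⟩

theorem dc_out (g h : G) : DC B ((g : G ⧸ B).out⁻¹ * (h : G ⧸ B).out) (g⁻¹ * h) := by
  obtain ⟨b, hb⟩ := QuotientGroup.mk_out_eq_mul B g
  obtain ⟨c, hc⟩ := QuotientGroup.mk_out_eq_mul B h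
  rw [hb, hc]
  exact ⟨b⁻¹, inv_mem b.2, c, c.2, by group⟩

open Classical in
/-- the Hecke operator of a double coset -/
noncomputable def mat (B : Subgroup G) (w : G) : Matrix (G ⧸ B) (G ⧸ B) ℂ :=
  Matrix.of fun c d => if DC B (c.out⁻¹ * d.out) w then 1 else 0

theorem mat_pos {g h : G} (h1 : DC B (g⁻¹ * h) w) : mat B w g h = 1 :=
  if_pos ((dc_out g h).trans h1)

theorem mat_neg {g h : G} (h1 : ¬ DC B (g⁻¹ * h) w) : mat B w g h = 0 :=
  if_neg fun h2 => h1 ((dc_out g h).symm.trans h2)

theorem mat_congr (h : DC B x w) : mat B x = mat B w := by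
  classical
  ext c d
  exact if_congr ⟨fun h1 => h1.trans h, fun h1 => h1.trans h.symm⟩ rfl rfl

theorem mat_one [DecidableEq (G ⧸ B)] : mat B 1 = 1 := by
  ext c d
  induction c using QuotientGroup.induction_on with
  | H g =>
  induction d using QuotientGroup.induction_on with
  | H h =>
  by_cases h1 : g⁻¹ * h ∈ B
  · rw [mat_pos (dc_one.2 h1), QuotientGroup.eq.2 h1, Matrix.one_apply_eq]
  · rw [mat_neg (mt dc_one.1 h1), Matrix.one_apply_ne (mt QuotientGroup.eq.1 h1)]

end DC

variable (P : BNPair G)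

/-- products of distinguished generators -/
inductive Word : G → Prop
  | one : Word 1
  | mul {s w : G} : s ∈ P.S → Word w → Word (s * w)

variable {P}

theorem Word.mem {w : G} (h : Word P w) : w ∈ P.N := by
  induction h with
  | one => exact one_mem _
  | mul hs _ ih => exact mul_mem (P.subset hs) ih

theorem word_alt {s t : G} (hs : s ∈ P.S) (ht : t ∈ P.S) (k : ℕ) : Word P (alt s t k) := by
  induction k generalizing s t with
  | zero => exact Word.one
  | succ k ih => exact Word.mul hs (ih ht hs)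

theorem exists_conj_notMem {s : G} (hs : s ∈ P.S) : ∃ b ∈ P.B, s⁻¹ * b * s ∉ P.B := by
  by_contra hcon
  push Not at hcon
  apply P.conj_ne s hs
  apply Set.Subset.antisymm
  · rintro _ ⟨b, hb, rfl⟩
    have := mul_mem (P.sq_mem s hs) (hcon b hb)
    change s * b * s ∈ P.B
    convert this using 1
    group
  · intro b hb
    refine ⟨_, mul_mem (hcon b hb) (inv_mem (P.sq_mem s hs)), ?_⟩
    change _ * _ * _ = _
    group

theorem notMem {s : G} (hs : s ∈ P.S) : s ∉ P.B := by
  intro h
  obtain ⟨b, hb, h1⟩ := exists_conj_notMem hs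
  exact h1 (mul_mem (mul_mem (inv_mem h) hb) h)

theorem dc_inv {s : G} (hs : s ∈ P.S) : DC P.B s⁻¹ s :=
  ⟨1, one_mem _, _, inv_mem (P.sq_mem s hs), by group⟩

theorem left {s n x y : G} (hs : s ∈ P.S) (hn : n ∈ P.N) (hx : DC P.B x s) (hy : DC P.B y n) :
    DC P.B (x * y) (s * n) ∨ DC P.B (x * y) n := by
  obtain ⟨b, hb, c, hc, rfl⟩ := hx
  obtain ⟨b', hb', c', hc', rfl⟩ := hy
  have h1 : DC P.B (b * s * c * (b' * n * c')) (s * (c * b') * n) := ⟨b, hb, c', hc', by group⟩
  exact (P.mul_mem_union s hs n hn _ (mul_mem hc hb')).imp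
    (fun h => h1.trans (DoubleCoset.mem_doubleCoset.1 h))
    (fun h => h1.trans (DoubleCoset.mem_doubleCoset.1 h))

theorem right {s n x y : G} (hs : s ∈ P.S) (hn : n ∈ P.N) (hx : DC P.B x n) (hy : DC P.B y s) :
    DC P.B (x * y) (n * s) ∨ DC P.B (x * y) n := by
  rcases left hs (inv_mem hn) (hy.inv.trans (dc_inv hs)) hx.inv with h | h
  · left
    have h1 := h.inv
    rw [mul_inv_rev, inv_inv, inv_inv, mul_inv_rev, inv_inv] at h1
    exact h1.trans ⟨1, one_mem _, _, inv_mem (P.sq_mem s hs), by group⟩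
  · right
    have h1 := h.inv
    rwa [mul_inv_rev, inv_inv, inv_inv, inv_inv] at h1

/-- Distinct elements of the Weyl group have distinct double cosets. -/
theorem bruhat {w : G} (hw : Word P w) {n : G} (hn : n ∈ P.N) (h : DC P.B w n) :
    w⁻¹ * n ∈ P.B := by
  induction hw generalizing n with
  | one => simpa using dc_one.1 h.symm
  | @mul s p hs hp ih =>
    have h1 := left hs hn (dc_inv hs) h
    rw [inv_mul_cancel_left] at h1
    rcases h1 with h1 | h1
    · have h2 := ih (mul_mem (P.subset hs) hn) h1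
      have h3 := P.conj_mem n⁻¹ (inv_mem hn) (s * s)⁻¹
        (inv_mem ⟨P.sq_mem s hs, mul_mem (P.subset hs) (P.subset hs)⟩)
      convert mul_mem h2 h3 using 1
      group
    · have h2 := ih (mul_mem (P.subset hs) hp.mem) (h1.trans h.symm)
      convert mul_mem (inv_mem h2) (ih hn h1) using 1
      group

theorem not_dc_mul {s w : G} (hs : s ∈ P.S) (hw : Word P w) : ¬ DC P.B w (s * w) := by
  intro h
  have h1 := bruhat hw (mul_mem (P.subset hs) hw.mem) h
  have h2 := P.conj_mem w hw.mem _
    ⟨h1, P.N.mul_mem (P.N.inv_mem hw.mem) (P.N.mul_mem (P.subset hs) hw.mem)⟩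
  apply notMem hs
  convert h2 using 1
  group

theorem dc_alt {s t : G} (hs : s ∈ P.S) (ht : t ∈ P.S) {m : ℕ}
    (hm : ∀ k, (alt s t k)⁻¹ * alt t s k ∈ P.B → m ∣ k) {k : ℕ} (hk : k < m) {x y : G}
    (hx : DC P.B x s) (hy : DC P.B y (alt t s k)) : DC P.B (x * y) (s * alt t s k) := by
  induction k generalizing y with
  | zero =>
    rw [alt_zero, mul_one]
    exact DC.trans ⟨1, one_mem _, y, dc_one.1 hy, by rw [one_mul]⟩ hx
  | succ k ih =>
    rcases left hs (word_alt ht hs _).mem hx hy with h1 | h1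
    · exact h1
    obtain ⟨r, hr, hr'⟩ : ∃ r ∈ P.S, alt t s (k + 1) = alt t s k * r := by
      rw [alt_add]
      split_ifs
      · exact ⟨t, ht, by rw [alt_succ, alt_zero, mul_one]⟩
      · exact ⟨s, hs, by rw [alt_succ, alt_zero, mul_one]⟩
    obtain ⟨b, hb, c, hc, rfl⟩ := hy
    have h2 := right hr (word_alt hs ht (k + 1)).mem
      (ih (by omega) (y := b * alt t s k) ⟨b, hb, 1, one_mem _, by rw [mul_one]⟩)
      (y := r * c) ⟨1, one_mem _, c, hc, by rw [one_mul]⟩
    have h3 : x * (b * alt t s k) * (r * c) = x * (b * alt t s (k + 1) * c) := by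
      rw [hr']
      group
    rw [h3] at h2
    rcases h2 with h2 | h2
    · rwa [alt_succ s, mul_assoc s, ← hr'] at h2
    · have := Nat.le_of_dvd (by omega)
        (hm _ (bruhat (word_alt hs ht _) (word_alt ht hs _).mem (h2.symm.trans h1)))
      omega

variable [Fintype (G ⧸ P.B)]

theorem mat_mul {s w : G} (hs : s ∈ P.S) (hw : Word P w)
    (h : ∀ x y, DC P.B x s → DC P.B y w → DC P.B (x * y) (s * w)) :
    mat P.B s * mat P.B w = mat P.B (s * w) := by
  ext c d
  induction c using QuotientGroup.induction_on with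
  | H g =>
  induction d using QuotientGroup.induction_on with
  | H k =>
  rw [Matrix.mul_apply]
  by_cases h1 : DC P.B (g⁻¹ * k) (s * w)
  · rw [mat_pos h1]
    obtain ⟨b, hb, c, hc, h2⟩ := h1
    have e1 : DC P.B (g⁻¹ * (g * b * s)) s := ⟨b, hb, 1, one_mem _, by group⟩
    have e2 : DC P.B ((g * b * s)⁻¹ * k) w := ⟨1, one_mem _, c, hc, by
      rw [← mul_right_inj (b * s), ← mul_assoc, show b * s * (g * b * s)⁻¹ = g⁻¹ by group, h2]
      group⟩
    rw [Finset.sum_eq_single ((g * b * s : G) : G ⧸ P.B), mat_pos e1, mat_pos e2, mul_one]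
    · intro e _ he
      induction e using QuotientGroup.induction_on with
      | H e =>
      by_cases e3 : DC P.B (g⁻¹ * e) s
      swap
      · rw [mat_neg e3, zero_mul]
      by_cases e4 : DC P.B (e⁻¹ * k) w
      swap
      · rw [mat_neg e4, mul_zero]
      exfalso
      have h3 := left hs (P.subset hs) (e3.inv.trans (dc_inv hs)) e1
      rw [show (g⁻¹ * e)⁻¹ * (g⁻¹ * (g * b * s)) = e⁻¹ * (g * b * s) by group] at h3
      rcases h3 with h3 | h3
      · exact he (QuotientGroup.eq.2 (dc_one.1 (h3.trans (dc_one.2 (P.sq_mem s hs)))))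
      · have h4 := h _ _ h3 e2
        rw [show e⁻¹ * (g * b * s) * ((g * b * s)⁻¹ * k) = e⁻¹ * k by group] at h4
        exact not_dc_mul hs hw (e4.symm.trans h4)
    · simp
  · rw [mat_neg h1]
    refine Finset.sum_eq_zero fun e _ => ?_
    induction e using QuotientGroup.induction_on with
    | H e =>
    by_cases e3 : DC P.B (g⁻¹ * e) s
    swap
    · rw [mat_neg e3, zero_mul]
    rw [mat_neg (g := e) fun e4 => h1 (by simpa [mul_assoc] using h _ _ e3 e4), mul_zero]

variable [DecidableEq (G ⧸ P.B)]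

theorem alt_mat {s t : G} (hs : s ∈ P.S) (ht : t ∈ P.S) {m : ℕ}
    (hm : ∀ k, (alt s t k)⁻¹ * alt t s k ∈ P.B → m ∣ k) {k : ℕ} (hk : k ≤ m) :
    alt (mat P.B s) (mat P.B t) k = mat P.B (alt s t k) := by
  induction k generalizing s t with
  | zero => exact mat_one.symm
  | succ k ih =>
    rw [alt_succ, alt_succ, ih ht hs (fun j hj => hm j (by simpa using inv_mem hj)) (by omega),
      mat_mul hs (word_alt ht hs k) fun x y => dc_alt hs ht hm (by omega)]

omit [DecidableEq (G ⧸ P.B)] in
theorem trace_mat {s : G} (hs : s ∉ P.B) : (mat P.B s).trace = 0 := by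
  refine Finset.sum_eq_zero fun c _ => ?_
  induction c using QuotientGroup.induction_on with
  | H g => exact mat_neg fun h => hs (dc_one.1 (by simpa using h.symm))

omit [DecidableEq (G ⧸ P.B)] in
theorem trace_mat_mul {u v : G} (hu : Word P u) (hv : v ∈ P.N) (h : u * v ∉ P.B) :
    (mat P.B u * mat P.B v).trace = 0 := by
  refine Finset.sum_eq_zero fun c _ => ?_
  rw [Matrix.diag_apply, Matrix.mul_apply]
  refine Finset.sum_eq_zero fun d _ => ?_
  induction c using QuotientGroup.induction_on with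
  | H g =>
  induction d using QuotientGroup.induction_on with
  | H k =>
  by_cases e3 : DC P.B (g⁻¹ * k) u
  swap
  · rw [mat_neg e3, zero_mul]
  rw [mat_neg (g := k) fun e4 => h ?_, mul_zero]
  have h1 := e4.inv
  rw [mul_inv_rev, inv_inv] at h1
  have h2 := bruhat hu (inv_mem hv) (e3.symm.trans h1)
  have h3 := P.conj_mem u hu.mem _ 
    (inv_mem ⟨h2, P.N.mul_mem (P.N.inv_mem hu.mem) (P.N.inv_mem hv)⟩)
  convert h3 using 1
  group

theorem trace_pow {s t : G} (hs : s ∈ P.S) (ht : t ∈ P.S) {m : ℕ}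
    (hm : ∀ k, (alt s t k)⁻¹ * alt t s k ∈ P.B → m ∣ k) {k : ℕ} (hk : k ≤ m)
    (h : (s * t) ^ k ∉ P.B) : ((mat P.B s * mat P.B t) ^ k).trace = 0 := by
  rw [← alt_two_mul, two_mul, alt_add] at h ⊢
  rw [alt_mat hs ht hm hk, alt_mat ht hs (fun j hj => hm j (by simpa using inv_mem hj)) hk]
  split_ifs at h ⊢
  · exact trace_mat_mul (word_alt hs ht k) (word_alt hs ht k).mem h
  · exact trace_mat_mul (word_alt hs ht k) (word_alt ht hs k).mem h

theorem quad {s : G} (hs : s ∈ P.S) : ∃ a : ℕ, 2 ≤ a ∧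
    mat P.B s * mat P.B s = ((a : ℂ) - 1) • mat P.B s + (a : ℂ) • 1 := by
  classical
  let R : G → Prop := fun x => x ∈ P.B ∨ DC P.B x s
  have hR : ∀ g h : G, (1 + mat P.B s) g h = if R (g⁻¹ * h) then 1 else 0 := by
    intro g h
    rw [← mat_one, Matrix.add_apply]
    by_cases h1 : g⁻¹ * h ∈ P.B
    · rw [mat_pos (dc_one.2 h1), if_pos (Or.inl h1),
        mat_neg fun h2 => notMem hs (dc_one.1 (h2.symm.trans (dc_one.2 h1))), add_zero]
    · rw [mat_neg (mt dc_one.1 h1), zero_add]
      by_cases h2 : DC P.B (g⁻¹ * h) s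
      · rw [mat_pos h2, if_pos (Or.inr h2)]
      · rw [mat_neg h2, if_neg fun h3 => h3.elim h1 h2]
  have hinv : ∀ x, R x → R x⁻¹ := fun x h => h.imp inv_mem fun h => h.inv.trans (dc_inv hs)
  have hmul : ∀ x y, R x → R y → R (x * y) := by
    rintro x y (hx | hx) (hy | hy)
    · exact Or.inl (mul_mem hx hy)
    · exact Or.inr (DC.trans ⟨x, hx, 1, one_mem _, by rw [mul_one]⟩ hy)
    · exact Or.inr (DC.trans ⟨1, one_mem _, y, hy, by rw [one_mul]⟩ hx)
    · exact (left hs (P.subset hs) hx hy).imp_left fun h =>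
        dc_one.1 (h.trans (dc_one.2 (P.sq_mem s hs)))
  let A : Finset (G ⧸ P.B) := Finset.univ.filter fun e => DC P.B (((1 : G) : G ⧸ P.B).out⁻¹ * e.out) s
  have hA : ∀ g : G, ∑ e, mat P.B s g e = A.card := by
    intro g
    have h1 : ∑ e, mat P.B s (1 : G) e = A.card := by
      simp only [mat, Matrix.of_apply, Finset.sum_boole, A]
    rw [← h1]
    refine Fintype.sum_equiv (MulAction.toPerm g⁻¹) _ _ fun e => ?_
    induction e using QuotientGroup.induction_on with
    | H e =>
    change _ = mat P.B s (1 : G) ((g⁻¹ * e : G) : G ⧸ P.B)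
    by_cases h2 : DC P.B (g⁻¹ * e) s
    · rw [mat_pos h2, mat_pos (by simpa using h2)]
    · rw [mat_neg h2, mat_neg (by simpa using h2)]
  refine ⟨A.card, ?_, ?_⟩
  · obtain ⟨b, hb, h1⟩ := exists_conj_notMem hs
    refine Finset.one_lt_card.2 ⟨(s : G), ?_, (b * s : G), ?_, fun h => h1 ?_⟩
    · exact Finset.mem_filter.2 ⟨Finset.mem_univ _, (dc_out 1 s).trans (by simpa using DC.refl _ s)⟩
    · exact Finset.mem_filter.2 ⟨Finset.mem_univ _,
        (dc_out 1 (b * s)).trans ⟨b, hb, 1, one_mem _, by simp⟩⟩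
    · rw [mul_assoc]
      exact QuotientGroup.eq.1 h
  · have h1 : (1 + mat P.B s) * (1 + mat P.B s) = ((A.card : ℂ) + 1) • (1 + mat P.B s) := by
      ext c d
      induction c using QuotientGroup.induction_on with
      | H g =>
      induction d using QuotientGroup.induction_on with
      | H k =>
      have h2 : ∀ e, (1 + mat P.B s) g e * (1 + mat P.B s) e k =
          (1 + mat P.B s) g e * (1 + mat P.B s) g k := by
        intro e
        induction e using QuotientGroup.induction_on with
        | H e =>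
        rw [hR, hR, hR]
        by_cases h3 : R (g⁻¹ * e)
        · congr 1
          refine if_congr ⟨fun h4 => ?_, fun h4 => ?_⟩ rfl rfl
          · simpa [mul_assoc] using hmul _ _ h3 h4
          · simpa [mul_assoc] using hmul _ _ (hinv _ h3) h4
        · rw [if_neg h3, zero_mul, zero_mul]
      rw [Matrix.mul_apply, Finset.sum_congr rfl fun e _ => h2 e, ← Finset.sum_mul,
        Matrix.smul_apply, smul_eq_mul]
      congr 1
      simp only [Matrix.add_apply, Finset.sum_add_distrib, hA, Matrix.one_apply]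
      simp [add_comm]
    simp only [mul_add, add_mul, mul_one, one_mul] at h1
    linear_combination (norm := module) h1

end Cfsg.Agent.H1.BN
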