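import Mathlib

/-!
Burnside's theorem for subalgebras of an endomorphism algebra.
-/

set_option autoImplicit false

namespace Cfsg.Agent.H1.Burnside

open Module

variable {F M : Type*} [Field F] [AddCommGroup M] [Module F M] [FiniteDimensional F M]

/-- An irreducible subalgebra of `End M` with scalar centraliser is everything. -/
theorem eq_top_of_irred (A : Subalgebra F (End F M))
    (hirr : ∀ N : Submodule F M, (∀ a ∈ A, ∀ x ∈ N, a x ∈ N) → N = ⊥ ∨ N = ⊤)
    (hc : ∀ z : End F M, (∀ a ∈ A, z * a = a * z) → ∃ c : F, ∀ x, z x = c • x) : A = ⊤ := by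
  rcases subsingleton_or_nontrivial M with hM | hM
  · rw [eq_top_iff]
    intro f _
    rw [Subsingleton.elim f 0]
    exact A.zero_mem
  have hs : IsSimpleModule A M := by
    refine { eq_bot_or_eq_top := fun N => ?_ }
    let N' : Submodule F M :=
      { carrier := N
        add_mem' := N.add_mem
        zero_mem' := N.zero_mem
        smul_mem' := fun c x hx => by
          have := N.smul_mem (algebraMap F A c) hx
          rwa [algebraMap_smul] at this }
    rcases hirr N' (fun a ha x hx => N.smul_mem ⟨a, ha⟩ hx) with h | h
    · left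
      rw [eq_bot_iff]
      intro x hx
      exact (h.le (show x ∈ N' from hx) : x ∈ (⊥ : Submodule F M))
    · right
      rw [eq_top_iff]
      intro x _
      exact (h.ge (Submodule.mem_top) : x ∈ N')
  rw [eq_top_iff]
  intro f _
  have hz : ∀ z : End A M, ∃ c : F, ∀ x, z x = c • x := fun z =>
    hc (z.restrictScalars F) fun a ha => LinearMap.ext fun x => z.map_smul (⟨a, ha⟩ : A) x
  let f' : End (End A M) M :=
    { toFun := f
      map_add' := f.map_add
      map_smul' := fun z x => by
        obtain ⟨c, hc⟩ := hz z
        simp only [End.smul_def, RingHom.id_apply, hc, map_smul] }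
  obtain ⟨s, hs⟩ := Module.Finite.fg_top (R := F) (M := M)
  obtain ⟨r, hr⟩ := jacobson_density f' s
  have : f = (r : End F M) := by
    refine LinearMap.ext_on hs fun x hx => ?_
    exact hr x hx
  rw [this]
  exact r.2

end Cfsg.Agent.H1.Burnside
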