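import Cfsg.Agent.H1.Sub4C
import Cfsg.Agent.H8.LamBlk

/-!
Stabilisers of orthogonal decompositions into two summands in symplectic and unitary groups.
-/

set_option autoImplicit false
set_option linter.unusedSectionVars false

namespace Cfsg.Agent.H1.Dec2

open Module H7 H7.Polar H8

variable {F : Type*} [Field F] {V : Type*} [AddCommGroup V] [Module F V] {P : Polar F V}
variable [Finite F] [FiniteDimensional F V]

theorem exists_partner {W : Submodule F V} (hW : W ⊓ P.perp W = ⊥) {u : V} (hu : u ∈ W)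
    (hus : P.Val u 0) (h0 : u ≠ 0) : ∃ f ∈ W, P.Val f 0 ∧ P.B u f = 1 := by
  obtain ⟨f, h1, h2, h3⟩ := exists_hyperbolic (U := P.perp W) hus (notMem_perp_of_nd hW hu h0)
    (by rwa [perp_perp]) 1 one_ne_zero
  exact ⟨f, by rwa [perp_perp] at h1, h2, h3⟩

/-- two tori compensating each other -/
theorem exists_torus_pair (hrc : P.ReflCongr) {W W' : Submodule F V} {u f u' f' : V}
    (hu : P.Val u 0) (hf : P.Val f 0) (huf : P.B u f = 1) (huW : u ∈ W) (hfW : f ∈ W)
    (hu' : P.Val u' 0) (hf' : P.Val f' 0) (huf' : P.B u' f' = 1) (huW' : u' ∈ W') (hfW' : f' ∈ W')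
    {b : F} (hb : b ≠ 0) : ∃ t ∈ FixIso P W, ∃ t' ∈ FixIso P W', t u = b • u ∧
      t' u' = b⁻¹ • u' ∧ t * t' ∈ P.E := by
  have hb' : P.σ b ≠ 0 := by simpa using hb
  have key : ∀ {u f : V}, P.Val u 0 → P.Val f 0 → P.B u f = 1 →
      ∃ (h1 : P.Val (u + b • f) (P.σ b)) (h2 : P.Val (u + (1 : F) • f) 1),
        ((reflE h2 one_ne_zero)⁻¹ * reflE h1 hb') u = b • u := by
    intro u f hu hf huf
    have h2 : P.Val (u + (1 : F) • f) 1 := val_congr (val_add_sing hu hf 1) (by simp [huf])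
    refine ⟨val_congr (val_add_sing hu hf b) (by simp [huf]), h2, ?_⟩
    rw [LinearEquiv.mul_apply]
    refine (reflE h2 one_ne_zero).symm_apply_eq.2 ?_
    simp only [reflE_apply, Polar.refl, map_add, map_smul, LinearMap.smul_apply, B_smul_right, huf,
      sing_B hu, smul_eq_mul, map_one]
    match_scalars <;> field_simp <;> ring
  obtain ⟨h1, h2, h3⟩ := key hu hf huf
  obtain ⟨h1', h2', h3'⟩ := key hu' hf' huf'
  refine ⟨_, Subgroup.mul_mem _ (Subgroup.inv_mem _ (reflE_mem_FixIso h2 one_ne_zero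
      (W.add_mem huW (W.smul_mem _ hfW)))) (reflE_mem_FixIso h1 hb' (W.add_mem huW (W.smul_mem _ hfW))),
    _, Subgroup.inv_mem _ (Subgroup.mul_mem _ (Subgroup.inv_mem _ (reflE_mem_FixIso h2' one_ne_zero
      (W'.add_mem huW' (W'.smul_mem _ hfW'))))
      (reflE_mem_FixIso h1' hb' (W'.add_mem huW' (W'.smul_mem _ hfW')))), h3, ?_, ?_⟩
  · refine ((reflE h2' one_ne_zero)⁻¹ * reflE h1' hb').symm_apply_eq.2 ?_
    rw [map_smul, h3', smul_smul, inv_mul_cancel₀ hb, one_smul]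
  · have h4 := E_normal (P.Iso.inv_mem (reflE_mem_Iso h2 one_ne_zero))
      (P.E.mul_mem (hrc _ _ _ h1 h1' hb') (hrc _ _ _ h2' h2 one_ne_zero))
    simpa [mul_assoc] using h4

variable {k : ℕ} {D : Fin 2 → Submodule F V} (hD : PDec P k D)
include hD

theorem maximal_two (hrc : P.ReflCongr) (hs : ∀ i, ∃ e ∈ D i, P.Val e 0 ∧ e ≠ 0) {c c' : F}
    (hc0 : c ≠ 0) (hc : P.Val 0 c) (hc0' : c' ≠ 0) (hc' : P.Val 0 c') (hcc : c ≠ c') :
    Geo.IsMaximalIn P.E (decStab D ⊓ P.E) := by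
  have hσ : P.σ c ≠ 0 := by simpa using hc0
  refine isMaximalIn_of inf_le_right ?_ fun X hH hXE g hg hg' => ?_
  · obtain ⟨x, hx, hxs, hx0⟩ := hs 0
    obtain ⟨y, hy, hys, hy0⟩ := hs 1
    have hxy := hD.orth zero_ne_one hx hy
    have h1 : P.Val (x + y) 0 := by simpa using val_add_orth hxs hys hxy
    refine ⟨_, eichE_mem_E h1 (w := 0) (by simp) hc, fun h => ?_⟩
    obtain ⟨σ, hσ'⟩ := Dec.exists_perm h.1
    have h2 := hσ' 0 x hx
    rw [eichE_apply, eich_fix _ (by simp [sing_B hxs, hxy]) (by simp)] at h2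
    obtain ⟨z, hz, hz'⟩ := exists_B_ne_of_nd (hD.nd 0) hx hx0
    have h3 := hσ' 0 z hz
    rw [← hD.eq_of_mem hx h2 hx0, eichE_apply, eich_tv, Submodule.sub_mem_iff_right _ hz,
      Submodule.smul_mem_iff _ (by simp [hc0, hz', hD.orth zero_ne_one hz hy]),
      Submodule.add_mem_iff_right _ hx] at h3
    exact zero_ne_one (hD.eq_of_mem h3 hy hy0)
  have hX := hXE.trans E_le_Iso
  obtain ⟨v, hv, hv'⟩ := hD.exists_TX_out hH hX hs hg fun h => hg' ⟨h, hXE hg⟩
  obtain ⟨i, j, hij, hi, hj⟩ := hD.exists_two hv'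
  have key : ∀ i, hD.pr i v ≠ 0 → ∃ e ∈ D i, P.Val e 0 ∧ P.B v e ≠ 0 := fun i hi => by
    obtain ⟨u, h1, h2, h3⟩ := hs i
    obtain ⟨e, h4, h5, h6⟩ := exists_sing_ne' h1 h2 (notMem_perp_of_nd (hD.nd i) h1 h3)
      (mt hD.mem_perp_iff.1 hi)
    exact ⟨e, h4, h5, P.B_ne_symm h6⟩
  obtain ⟨e, he, hes, hve⟩ := key i hi
  obtain ⟨f, hf, hfs, hvf⟩ := key j hj
  obtain ⟨b, hb0, hb, hb'⟩ : ∃ b, b ≠ 0 ∧ P.Val 0 b ∧
      c * P.σ (P.B v e) * P.B v e + b * P.σ (P.B v f) * P.B v f ≠ 0 := by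
    by_contra! h
    have := mul_ne_zero (mul_ne_zero (sub_ne_zero.2 hcc) (P.σ_eq_zero.not.2 hvf)) hvf
    exact this (by linear_combination h c hc0 hc - h c' hc0' hc')
  have h1 := (hD.TX_of_mem hH he hes).sub ((hD.TX_of_mem hH hf hfs).sub hv hb) hc
  set p := -(P.σ c * P.B v e) • e with hp
  set r := -(P.σ b * P.B v f) • f with hr
  have hpm : p ∈ D i := Submodule.smul_mem _ _ he
  have hrm : r ∈ D j := Submodule.smul_mem _ _ hf
  have hps : P.Val p 0 := sing_smul hes _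
  have hrs : P.Val r 0 := sing_smul hfs _
  have hp0 : p ≠ 0 := smul_ne_zero (by simp [hc0, hve]) (by rintro rfl; simp at hve)
  have hr0 : r ≠ 0 := smul_ne_zero (by simp [hb0, hvf]) (by rintro rfl; simp at hvf)
  have h2 : TX P X (p + r) := hv.sub_of_sing (by
      convert h1 using 1
      simp only [hp, hr, map_sub, map_smul, LinearMap.sub_apply, LinearMap.smul_apply,
        hD.orth hij.symm hf he]
      module)
    (by simpa using val_add_orth hps hrs (hD.orth hij hpm hrm))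
    (fun h => hb' (by simp [hp, hr] at h; linear_combination -h))
  clear_value p r
  have hrp := hD.orth hij.symm hrm hpm
  have h3 : -P.σ c • r ∈ P.zSub X hps := ⟨by simp [hrp], 0, sing_smul hrs _,
    (hD.TX_of_mem hH hpm hps).EI (hD.TX_of_mem hH hrm hrs) h2 (hD.orth hij hpm hrm) hc⟩
  obtain ⟨p', hp', hp's, hpp'⟩ := exists_partner (hD.nd i) hpm hps hp0
  obtain ⟨r', hr', hr's, hrr'⟩ := exists_partner (hD.nd j) hrm hrs hr0
  let A : AddSubgroup F :=
    { carrier := {a | a • (-P.σ c) • r ∈ P.zSub X hps}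
      zero_mem' := by simp
      add_mem' := fun {a b} ha hb => by
        have := (P.zSub X hps).add_mem ha hb
        rwa [← add_smul] at this
      neg_mem' := fun {a} ha => by
        have := (P.zSub X hps).neg_mem ha
        rwa [← neg_smul] at this }
  have hA : ∀ l : F, l * l ∈ A := by
    intro l
    by_cases hl : l = 0
    · simp [hl]
    have hσl : P.σ l ≠ 0 := by simpa using hl
    obtain ⟨t, ht, t', ht', h4, h5, h6⟩ := exists_torus_pair hrc hps hp's hpp' hpm hp'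
      hrs hr's hrr' hrm hr' hσl
    have h7 : t * t' ∈ X :=
      hH ⟨Subgroup.mul_mem _ (hD.FixIso_le i ht) (hD.FixIso_le j ht'), h6⟩
    have h8 := map_mem_zSub hps h7 (hX h7) hσl
      (by rw [LinearEquiv.mul_apply, ht'.2 p (hD.le_perp hij hpm), h4]) h3
    rw [map_smul, LinearEquiv.mul_apply, h5, map_smul, ht.2 r (hD.le_perp hij.symm hrm)] at h8
    have hf' := Submodule.smul_mem _ (P.σ (l / P.σ c)) hr'
    have h9 := (P.zSub X hps).neg_mem (Sub4.tv_mem_zSub (Sub4.tv_mem_zSub h8 (sing_smul hr's _) hc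
      ((hD.TX_of_mem hH hf' (sing_smul hr's _)).2 c hc) (hD.orth hij.symm hf' hpm)) hrs hc
      ((hD.TX_of_mem hH hrm hrs).2 c hc) hrp)
    show (l * l) • (-P.σ c) • r ∈ P.zSub X hps
    convert h9 using 1
    have h10 : P.B r' r = P.ε := by rw [P.herm, hrr']; simp
    simp only [map_smul, LinearMap.smul_apply, smul_eq_mul, B_smul_right, hrr', h10, σσ,
      map_div₀, lam_σ hc, map_neg, map_mul, σ_ε]
    have h11 := P.ε_ne_zero
    have h12 := P.ε_sq
    match_scalars
    field_simp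
    rw [h12]
  have h4 : r ∈ P.eSub X hps := ⟨hrp, fun a => by
    have := Sub4.mem_of_sq A hA (-a / P.σ c)
    have h5 : (-a / P.σ c) • (-P.σ c) • r = a • r := by
      rw [smul_smul]; congr 1; field_simp
    exact (h5 ▸ this : a • r ∈ P.zSub X hps).2⟩
  have hirr : ∀ j, Irr P (D j) := fun j => by
    obtain ⟨e, h1, h2, h3⟩ := hs j
    exact irr_of_lam (hD.nd j) h1 h2 h3 hc0 hc
  have h5 : D j ≤ P.eSub X hps := hirr j _ (fun e he w' hw' c h1 h2 h3 x hx =>
    apply_mem_eSub hps (hH (hD.eichE_mem h1 h2 h3 he hw')) (eichE_mem_Iso _ _ _)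
      (eich_fix c (hD.orth hij hpm he) (hD.orth hij hpm hw')) hx) r h4
    (notMem_perp_of_nd (hD.nd j) hrm hr0)
  refine hD.E_le_of_fullA' hH hX (hirr i) hpm hps hp0 (fullA_of_eSub hps
    (fun c hc => hD.EI_of_mem hH hps (by simp) hc hpm (Submodule.zero_mem _)) fun x hx => ?_)
  rw [← hD.sum_pr x]
  refine Submodule.sum_mem _ fun l _ => ?_
  by_cases hl : l = i
  · subst hl
    exact hD.mem_eSub hH hps (by rw [hD.B_pr_left hpm]; exact hx) hpm (hD.pr_mem _ _)
  · have : l = j := by omega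
    exact this ▸ h5 (hD.pr_mem _ _)

end Cfsg.Agent.H1.Dec2

namespace Cfsg.Agent.H1.Dec2

open Module H7 H8 Geo

variable {F : Type*} [Field F] [Fintype F]

theorem sp_two {m k : ℕ} (hm : 2 ≤ m) (hq : Fintype.card F ≠ 2)
    (D : Fin 2 → Submodule F (Fin m ⊕ Fin m → F))
    (hD : IsNondegenerateMDecomposition (sympForm m F) k D) :
    IsMaximalIn (spGL m F) (decompositionStabilizer D ⊓ spGL m F) := by
  have hn := finrank_sum_fun (F := F) m
  have h := H8.pDec_of_geo (P := spStd m F) (Or.inl fun _ _ => trivial) (fun _ _ => rfl) hD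
  obtain ⟨c, hc0, hc⟩ := exists_two_ne_of_card hq
  refine isMaximalIn_of_equiv toLE (mem_spGL_iff m) (fun g => ?_)
    (maximal_two h (Small.reflCongr (spPolar_wild _) (by omega) (by omega)) (fun i => ?_)
      one_ne_zero trivial hc0 trivial hc)
  · simp only [Subgroup.mem_inf, mem_spGL_iff, mem_decompositionStabilizer_iff]
  · obtain ⟨x, hx, hx0⟩ := h.exists_ne_zero i
    exact ⟨x, hx, trivial, hx0⟩

theorem su_two {n q k : ℕ} (hF : Fintype.card F = q ^ 2) (hn : 4 ≤ n) (hq : 3 ≤ q)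
    (D : Fin 2 → Submodule F (Fin n → F))
    (hD : IsNondegenerateMDecomposition (hermForm n F q) k D) :
    IsMaximalIn (GU n F q ⊓ specialLinear (Fin n) F)
      (decompositionStabilizer D ⊓ (GU n F q ⊓ specialLinear (Fin n) F)) := by
  have hn' : finrank F (Fin n → F) = n := by simp
  have hσ := GenSU.σ_ne (n := n) hF
  have h := H8.pDec_of_geo (P := uStd hF n) (Or.inr ⟨hσ, rfl⟩) (fun _ _ => rfl) hD
  obtain ⟨c, hc0, hc⟩ := GenSU.lam (n := n) hF
  obtain ⟨a, ha0, ha⟩ : ∃ a : F, a ≠ 0 ∧ a * (uStd hF n).σ a ≠ 1 := by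
    by_contra! hcon
    have h1 : ∀ a : Fˣ, a ^ (q + 1) = 1 := fun a => Units.ext (by
      have := hcon a a.ne_zero
      rw [unitPowPolar_σ] at this
      simpa [pow_succ'] using this)
    have h2 := Monoid.exponent_dvd_of_forall_pow_eq_one h1
    rw [IsCyclic.exponent_eq_card, Nat.card_units, Nat.card_eq_fintype_card, hF] at h2
    have h3 := Nat.le_of_dvd (by omega) h2
    have : q * 3 ≤ q * q := Nat.mul_le_mul_left q hq
    rw [sq] at h3
    omega
  refine isMaximalIn_of_equiv toLE (Small.mem_SU_iff hF hn) (fun g => ?_)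
    (maximal_two h (Small.reflCongr (GenSU.wild hF) (by omega) (by omega)) (fun i => ?_)
      hc0 hc (by simp [ha0, hc0]) (Polar.lam_smul a hc) fun h => ha ?_)
  · rw [Subgroup.mem_inf, Small.mem_SU_iff hF hn, mem_decompositionStabilizer_iff,
      Subgroup.mem_inf]
  · obtain ⟨x, hx, hx0, hxs⟩ := GenSU.wild hF (D i) (by
      have := h.mul_eq
      rw [h.dim]
      simp at this
      omega)
    exact ⟨x, hx, hxs, hx0⟩
  · exact mul_right_cancel₀ hc0 (by rw [← h, one_mul])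

end Cfsg.Agent.H1.Dec2
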