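import Mathlib

/-!
Calculus of the difference operator `s - 1` of a multiplicative linear map `s` of a commutative
algebra.
-/

set_option autoImplicit false

namespace Cfsg.Agent.H1.Delta

variable {K R : Type*} [Field K] [CommRing R] [Algebra K R] {s : Module.End K R}

theorem sub_one_mul (hs : ∀ u v, s (u * v) = s u * s v) (u v : R) :
    (s - 1) (u * v) = (s - 1) u * s v + u * (s - 1) v := by
  simp only [LinearMap.sub_apply, Module.End.one_apply, hs]
  ring

theorem pow_succ_apply (D : Module.End K R) (n : ℕ) (u : R) :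
    (D ^ (n + 1)) u = (D ^ n) (D u) := by
  rw [pow_succ, Module.End.mul_apply]

theorem pow_succ_apply' (D : Module.End K R) (n : ℕ) (u : R) :
    (D ^ (n + 1)) u = D ((D ^ n) u) := by
  rw [pow_succ', Module.End.mul_apply]

theorem pow_add_apply (D : Module.End K R) (m n : ℕ) (u : R) :
    (D ^ (m + n)) u = (D ^ m) ((D ^ n) u) := by
  rw [pow_add, Module.End.mul_apply]

theorem pow_eq_zero_of_le (D : Module.End K R) {m n : ℕ} (h : m ≤ n) {u : R}
    (hu : (D ^ m) u = 0) : (D ^ n) u = 0 := by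
  obtain ⟨k, rfl⟩ := Nat.exists_eq_add_of_le' h
  rw [pow_add_apply, hu, map_zero]

theorem pow_apply_comm (n : ℕ) (v : R) : ((s - 1) ^ n) (s v) = s (((s - 1) ^ n) v) := by
  have : Commute ((s - 1) ^ n) s := ((Commute.refl s).sub_left (Commute.one_left s)).pow_left n
  rw [← Module.End.mul_apply, this.eq, Module.End.mul_apply]

theorem pow_mul_of_fixed (hs : ∀ u v, s (u * v) = s u * s v) {u : R} (hu : (s - 1) u = 0) (b : ℕ)
    (v : R) : ((s - 1) ^ b) (u * v) = u * ((s - 1) ^ b) v := by
  induction b generalizing v with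
  | zero => simp
  | succ b ih => rw [pow_succ_apply, sub_one_mul hs, hu, zero_mul, zero_add, ih, pow_succ_apply]

/-- The top term of the Leibniz rule. -/
theorem pow_add_mul (hs : ∀ u v, s (u * v) = s u * s v) (a b : ℕ) (u v : R)
    (hu : ((s - 1) ^ (a + 1)) u = 0) (hv : ((s - 1) ^ (b + 1)) v = 0) :
    ((s - 1) ^ (a + b)) (u * v) =
      ((a + b).choose a : R) * (((s - 1) ^ a) u * ((s - 1) ^ b) v) := by
  induction a generalizing b u v with
  | zero =>
    rw [zero_add, pow_one] at hu
    simp [pow_mul_of_fixed hs hu]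
  | succ a iha =>
    induction b generalizing u v with
    | zero =>
      rw [zero_add, pow_one] at hv
      rw [mul_comm u v, pow_mul_of_fixed hs hv]
      simp [mul_comm]
    | succ b ihb =>
      have hsv : ((s - 1) ^ (b + 1)) (s v) = ((s - 1) ^ (b + 1)) v := by
        rw [pow_apply_comm]
        rw [pow_succ_apply', LinearMap.sub_apply, Module.End.one_apply, sub_eq_zero] at hv
        exact hv
      have h1 := iha (b + 1) ((s - 1) u) (s v) (by rw [← pow_succ_apply]; exact hu)
        (by rw [pow_apply_comm, hv, map_zero])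
      have h2 := ihb u ((s - 1) v) hu (by rw [← pow_succ_apply]; exact hv)
      rw [show a + 1 + (b + 1) = (a + 1 + b) + 1 by ring, pow_succ_apply, sub_one_mul hs, map_add,
        h2, show a + 1 + b = a + (b + 1) by ring, h1, hsv, ← pow_succ_apply, ← pow_succ_apply,
        Nat.choose_succ_succ]
      push_cast
      ring

theorem pow_add_succ_mul (hs : ∀ u v, s (u * v) = s u * s v) (a b : ℕ) (u v : R)
    (hu : ((s - 1) ^ (a + 1)) u = 0) (hv : ((s - 1) ^ (b + 1)) v = 0) :
    ((s - 1) ^ (a + b + 1)) (u * v) = 0 := by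
  rw [pow_succ_apply', pow_add_mul hs a b u v hu hv, ← nsmul_eq_mul, map_nsmul, sub_one_mul hs,
    ← pow_succ_apply', ← pow_succ_apply', hu, hv]
  simp

theorem pow_pow_of_step (hs : ∀ u v, s (u * v) = s u * s v) (h1 : s 1 = 1) {ξ : R}
    (hξ : (s - 1) ξ = 1) (a : ℕ) :
    ((s - 1) ^ a) (ξ ^ a) = (a.factorial : R) ∧ ((s - 1) ^ (a + 1)) (ξ ^ a) = 0 := by
  have h2 : ((s - 1) ^ (1 + 1 : ℕ) : Module.End K R) ξ = 0 := by
    rw [pow_succ_apply, hξ, pow_one, LinearMap.sub_apply, h1]
    simp
  induction a with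
  | zero => simp [h1]
  | succ a ih =>
    rw [pow_succ ξ]
    refine ⟨?_, pow_add_succ_mul hs a 1 _ _ ih.2 h2⟩
    rw [pow_add_mul hs a 1 _ _ ih.2 h2, ih.1, pow_one, hξ, Nat.choose_succ_self_right,
      Nat.factorial_succ]
    push_cast
    ring

theorem exists_height {V : Type*} [AddCommGroup V] [Module K V] (D : Module.End K V) {n : ℕ}
    {u : V} (hu : u ≠ 0) (hn : (D ^ n) u = 0) :
    ∃ a, a < n ∧ (D ^ a) u ≠ 0 ∧ (D ^ (a + 1)) u = 0 := by
  induction n with
  | zero => exact absurd hn hu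
  | succ n ih =>
    by_cases h : (D ^ n) u = 0
    · obtain ⟨a, ha, h'⟩ := ih h
      exact ⟨a, by omega, h'⟩
    · exact ⟨n, by omega, h, hn⟩

theorem sub_one_pow_pred {V : Type*} [AddCommGroup V] [Module K V] (p : ℕ) [hp : Fact p.Prime]
    [CharP K p] (t : Module.End K V) : (t - 1) ^ (p - 1) = ∑ i ∈ Finset.range p, t ^ i := by
  have key : ((Polynomial.X : Polynomial K) - 1) ^ (p - 1) =
      ∑ i ∈ Finset.range p, Polynomial.X ^ i := by
    have hne : (Polynomial.X : Polynomial K) - 1 ≠ 0 := Polynomial.X_sub_C_ne_zero 1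
    apply mul_right_cancel₀ hne
    rw [geom_sum_mul, ← pow_succ, Nat.sub_add_cancel hp.out.pos, sub_pow_char, one_pow]
  have := congrArg (Polynomial.aeval t) key
  simpa using this

end Cfsg.Agent.H1.Delta
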