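import Cfsg.Agent.H1.Elus
import Cfsg.Agent.H3.ExtMat

/-!
Elements of prime order and normalisers of extension fields.
-/

set_option autoImplicit false
set_option linter.unusedSectionVars false

namespace Cfsg.Agent.H1.El

open Module Polynomial Matrix Cfsg.Agent.H8 Cfsg.Agent.H7 Cfsg.Agent.H3.Ext
open scoped MatrixGroups

section

variable {F K V : Type*} [Field F] [Field K] [Algebra F K] [AddCommGroup V] [Module F V]
  [Module K V] [IsScalarTower F K V] [FiniteDimensional F K] [FiniteDimensional K V]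
  [FiniteDimensional F V]

theorem semi_ker (hr : (finrank F K).Prime) {g : V ≃ₗ[F] V} (hg : Semi K g) {c : F} (hc : c ≠ 0) :
    finrank F K ∣ finrank F (LinearMap.ker ((g : Module.End F V) - c • 1)) ∨
      (2 * finrank F (LinearMap.ker ((g : Module.End F V) - c • 1)) ≤ finrank F V ∧
        (finrank K V = 1 → finrank F (LinearMap.ker ((g : Module.End F V) - c • 1)) ≤ 1)) := by
  obtain ⟨E, hE⟩ : ∃ E, E = LinearMap.ker ((g : Module.End F V) - c • 1) := ⟨_, rfl⟩
  have hm : ∀ v, v ∈ E ↔ g v = c • v := fun v => by simp [hE, sub_eq_zero]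
  rw [← hE]
  by_cases h : ∀ (l : K) x, g (l • x) = l • g x
  · left
    let E' : Submodule K V :=
      { E.toAddSubmonoid with
        smul_mem' := fun l x hx => (hm _).mpr (by rw [h, (hm x).mp hx, smul_comm]) }
    have h1 : finrank F E = finrank F E' := (LinearEquiv.refl F E).finrank_eq
    rw [h1, ← finrank_mul_finrank F K E']
    exact dvd_mul_right _ _
  · right
    have key : ∀ v ∈ E, v ≠ 0 → ∀ l : K, l • v ∈ E → l ∈ (algebraMap F K).range := by
      intro v hv hv0 l hl
      by_contra hl'
      obtain ⟨m, hm'⟩ := hg l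
      have h1 : m = l := by
        have h2 := hm' v
        rw [(hm _).mp hl, (hm _).mp hv, smul_comm m c v] at h2
        exact (smul_left_injective K hv0 (smul_right_injective V hc h2)).symm
      subst h1
      let D : Submodule F K :=
        { carrier := {k | ∀ x, g (k • x) = k • g x}
          add_mem' := fun {a b} ha hb x => by rw [add_smul, map_add, ha, hb, add_smul]
          zero_mem' := fun x => by simp
          smul_mem' := fun a k hk x => by rw [smul_assoc, map_smul, hk, smul_assoc] }
      refine h fun k => ?_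
      have := smul_mem_of_prime (V := K) hr (D := D) hl' (fun d hd x => by
        rw [smul_eq_mul, mul_smul, hm', hd, mul_smul]) k (d := 1) (fun x => by simp)
      rwa [smul_eq_mul, mul_one] at this
    constructor
    · obtain ⟨l, -, hl⟩ := exists_notMem_of_finrank_lt (U := F ∙ (1 : K)) (W := ⊤) (by
        have := finrank_span_singleton_le (F := F) (1 : K)
        have := hr.two_le
        rw [finrank_top]; omega)
      have hl' : l ∉ (algebraMap F K).range := fun ⟨a, ha⟩ =>
        hl (Submodule.mem_span_singleton.mpr ⟨a, by rw [← ha, Algebra.algebraMap_eq_smul_one]⟩)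
      have hl0 : l ≠ 0 := fun e => hl (e ▸ zero_mem _)
      let T : V ≃ₗ[F] V := (LinearEquiv.smulOfNeZero K V l hl0).restrictScalars F
      have h1 := Submodule.finrank_sup_add_finrank_inf_eq E (E.map (T : V →ₗ[F] V))
      have h2 : E ⊓ E.map (T : V →ₗ[F] V) = ⊥ := by
        rw [eq_bot_iff]
        rintro _ ⟨h3, v, hv, rfl⟩
        by_cases hv0 : v = 0
        · simp [hv0]
        · exact absurd (key v hv hv0 l h3) hl'
      have h3 := Submodule.finrank_le (E ⊔ E.map (T : V →ₗ[F] V))
      rw [h2, finrank_bot, LinearEquiv.finrank_map_eq] at h1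
      omega
    · intro h1
      by_cases hb : E = ⊥
      · rw [hb, finrank_bot]; omega
      obtain ⟨v, hv, hv0⟩ := Submodule.exists_mem_ne_zero_of_ne_bot hb
      refine (Submodule.finrank_mono (t := F ∙ v) fun w hw => ?_).trans
        (finrank_span_singleton_le v)
      obtain ⟨l, rfl⟩ := (finrank_eq_one_iff_of_nonzero' v hv0).mp h1 w
      obtain ⟨a, rfl⟩ := key v hv hv0 l hw
      exact Submodule.mem_span_singleton.mpr ⟨a, by simp⟩

/-- the semilinear map acting coordinatewise -/
noncomputable def slm {ι : Type*} [Fintype ι] (b : Basis ι K V) (φ : K ≃ₐ[F] K) : V ≃ₗ[F] V :=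
  (b.equivFun.restrictScalars F).trans ((LinearEquiv.piCongrRight fun _ => φ.toLinearEquiv).trans
    (b.equivFun.restrictScalars F).symm)

theorem slm_apply {ι : Type*} [Fintype ι] (b : Basis ι K V) (φ : K ≃ₐ[F] K) (v : V) (i : ι) :
    b.equivFun (slm b φ v) i = φ (b.equivFun v i) :=
  congrFun (b.equivFun.apply_symm_apply _) i

theorem slm_semi {ι : Type*} [Fintype ι] (b : Basis ι K V) (φ : K ≃ₐ[F] K) : Semi K (slm b φ) :=
  fun l => ⟨φ l, fun x => b.equivFun.injective (by
    ext i
    rw [slm_apply, map_smul, map_smul, Pi.smul_apply, Pi.smul_apply, slm_apply, smul_eq_mul,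
      map_mul, smul_eq_mul])⟩

theorem slm_sim {ι : Type*} [Fintype ι] (b : Basis ι K V) (φ : K ≃ₐ[F] K) :
    Sim (slm b φ : Module.End F V) (LinearMap.piMap fun _ : ι => φ.toLinearMap) :=
  ⟨b.equivFun.restrictScalars F, fun v => funext fun i => slm_apply b φ v i⟩

theorem semi_of_linear (g : V ≃ₗ[K] V) : Semi K (g.restrictScalars F) :=
  fun l => ⟨l, fun x => by simp⟩

theorem finrank_ker_restrict (f : Module.End K V) :
    finrank F (LinearMap.ker (f.restrictScalars F)) = finrank F K * finrank K (LinearMap.ker f) := by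
  rw [finrank_mul_finrank]
  exact (LinearEquiv.refl F _).finrank_eq

variable [Fintype F]

theorem exists_semi_frob (h : finrank K V = 1) : ∃ g : V ≃ₗ[F] V, Semi K g ∧
    (g : Module.End F V) ^ finrank F K = 1 ∧
    LinearMap.charpoly (g : Module.End F V) = X ^ finrank F K - 1 ∧
    (2 ≤ finrank F K → ∀ c : F, (g : Module.End F V) ≠ c • 1) := by
  have : Finite K := Module.finite_of_finite F
  let φ := FiniteField.frobeniusAlgEquivOfAlgebraic F K
  let b : Basis (Fin 1) K V := finBasisOfFinrankEq K V h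
  have hs := slm_sim b φ
  have hmin : minpoly F φ.toLinearMap = X ^ finrank F K - 1 :=
    FiniteField.minpoly_frobeniusAlgHom F K
  have hch : LinearMap.charpoly φ.toLinearMap = X ^ finrank F K - 1 := by
    rw [← hmin]
    refine eq_of_monic_of_dvd_of_natDegree_le (minpoly.monic (LinearMap.isIntegral _))
      (LinearMap.charpoly_monic _) (LinearMap.minpoly_dvd_charpoly _) ?_
    rw [hmin, LinearMap.charpoly_natDegree]
    have := natDegree_X_pow_sub_C (n := finrank F K) (r := (1 : F))
    simp only [map_one] at this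
    omega
  have h2 : LinearMap.charpoly (slm b φ : Module.End F V) = X ^ finrank F K - 1 := by
    rw [hs.charpoly_eq, charpoly_piMap]
    simp [hch]
  refine ⟨slm b φ, slm_semi b φ, ?_, h2, fun h3 c e => ?_⟩
  · rw [← aeval_X_pow_sub_one_eq_zero_iff (F := F), ← h2]
    exact LinearMap.aeval_self_charpoly _
  · have h4 : φ.toLinearMap = c • 1 := LinearMap.ext fun x =>
      congrFun (LinearMap.congr_fun ((hs.eq_smul_one_iff c).mp e) fun _ => x) 0
    have h5 := minpoly.min F φ.toLinearMap (monic_X_sub_C c) (by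
      simp [h4, Algebra.algebraMap_eq_smul_one])
    have h6 := degree_X_pow_sub_C (n := finrank F K) (by omega) (1 : F)
    rw [map_one] at h6
    rw [hmin, degree_X_sub_C, h6] at h5
    have : finrank F K ≤ 1 := by exact_mod_cast h5
    omega

theorem exists_semi_invol (h2 : (2 : F) ≠ 0) {j : ℕ} (hj : j ≤ finrank K V) :
    ∃ g : V ≃ₗ[F] V, Semi K g ∧ (g : Module.End F V) ^ 2 = 1 ∧
      finrank F (LinearMap.ker ((g : Module.End F V) - 1)) = finrank F K * j := by
  classical
  obtain ⟨f, hf⟩ := exists_diag (V := V) (F := K)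
    (fun i : Fin (finrank K V) => if (i : ℕ) < j then (1 : K) else -1) (by simp)
  have h1 : f ^ 2 = (1 : K) • 1 := hf.pow_eq fun i => by split_ifs <;> simp
  rw [one_smul, sq] at h1
  let g : V ≃ₗ[K] V := LinearEquiv.ofInvolutive f fun x => LinearMap.congr_fun h1 x
  refine ⟨g.restrictScalars F, semi_of_linear g, LinearMap.ext fun x => LinearMap.congr_fun h1 x,
    ?_⟩
  have h3 := hf.finrank_ker 1
  have h4 : (-1 : K) ≠ 1 := fun e => h2 ((algebraMap F K).injective (by
    rw [map_ofNat, map_zero]; linear_combination -e))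
  have h5 : (Finset.univ.filter fun i : Fin (finrank K V) =>
      (if (i : ℕ) < j then (1 : K) else -1) = 1) =
      Finset.univ.filter fun i : Fin (finrank K V) => (i : ℕ) < j :=
    Finset.filter_congr fun i _ => by split_ifs with h <;> simp [h, h4]
  rw [one_smul, h5, Fin.card_filter_val_lt, min_eq_right hj] at h3
  rw [← h3, ← finrank_ker_restrict]
  rfl

theorem exists_semi_sq (h : finrank F K = 2) {z : F} (hz : ∀ w : F, w ^ 2 ≠ z) :
    ∃ g : V ≃ₗ[F] V, Semi K g ∧ (g : Module.End F V) ^ 2 = z • 1 := by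
  have hi : Irreducible (X ^ 2 - C z : F[X]) := X_pow_sub_C_irreducible_of_prime Nat.prime_two hz
  have := Fact.mk hi
  have : Finite K := Module.finite_of_finite F
  have hd : finrank F (AdjoinRoot (X ^ 2 - C z : F[X])) = 2 := by
    rw [finrank_adjoinRoot, natDegree_X_pow_sub_C]
  have := finiteDimensional_adjoinRoot hi.ne_zero
  have : Finite (AdjoinRoot (X ^ 2 - C z : F[X])) := Module.finite_of_finite F
  obtain ⟨ψ⟩ := FiniteField.nonempty_algHom_of_finrank_dvd (F := F)
    (K := AdjoinRoot (X ^ 2 - C z : F[X])) (L := K) (by rw [hd, h])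
  have h1 : ψ (AdjoinRoot.root _) ^ 2 = algebraMap F K z := by
    have := congrArg ψ (AdjoinRoot.aeval_eq (f := X ^ 2 - C z) (X ^ 2 - C z : F[X]))
    rw [← ψ.commutes z]
    simpa [sub_eq_zero] using this
  have h0 : ψ (AdjoinRoot.root _) ≠ 0 := fun e => hz 0 ((algebraMap F K).injective (by
    rw [← h1, e]; simp))
  refine ⟨(LinearEquiv.smulOfNeZero K V _ h0).restrictScalars F, semi_of_linear _,
    LinearMap.ext fun x => ?_⟩
  change ψ (AdjoinRoot.root _) • ψ (AdjoinRoot.root _) • x = z • x
  rw [smul_smul, ← sq, h1, algebraMap_smul]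

end

section

variable {F : Type*} [Field F] [Fintype F] {ι : Type} [Fintype ι] [DecidableEq ι] [Nonempty ι]
  {k : ℕ} {K : Subalgebra F (Matrix ι ι F)}

theorem hasScal_normalizer : HasScal (Geo.subalgebraNormalizer K) := fun x c hx => by
  rw [mem_normalizer_iff]
  refine fun l => ⟨l, fun v => ?_⟩
  change (x : Matrix ι ι F) *ᵥ (l : Matrix ι ι F) *ᵥ v = (l : Matrix ι ι F) *ᵥ (x : Matrix ι ι F) *ᵥ v
  simp [hx, mulVec_smul, smul_mulVec]

theorem in_normalizer_ker (hK : Geo.IsFieldSubalgebra k K) (hk : k.Prime) {V : Type*}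
    [AddCommGroup V] [Module F V] {f : Module.End F V} (hf : In (Geo.subalgebraNormalizer K) f)
    {c : F} (hc : c ≠ 0) : k ∣ finrank F (LinearMap.ker (f - c • 1)) ∨
      (2 * finrank F (LinearMap.ker (f - c • 1)) ≤ Fintype.card ι ∧
        (k = Fintype.card ι → finrank F (LinearMap.ker (f - c • 1)) ≤ 1)) := by
  obtain ⟨h, hh, hs⟩ := hf
  let _ : Field K := (Asch.isField_of_inv hK.comm hK.inv).toField
  have : FiniteDimensional K (ι → F) := Module.Finite.of_restrictScalars_finite F K _
  have h1 := semi_ker (K := K) (hK.finrank_eq ▸ hk) (g := toLE h) ((mem_normalizer_iff h).mp hh) hc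
  have h2 := finrank_mul_finrank F K (ι → F)
  rw [hK.finrank_eq, finrank_fintype_fun_eq_card] at h2
  rw [toLE_coe, ← (hs.sub_smul_one c).finrank_ker_eq, hK.finrank_eq,
    finrank_fintype_fun_eq_card] at h1
  refine h1.imp id fun h3 => ⟨h3.1, fun e => h3.2 ?_⟩
  rw [← e] at h2
  exact Nat.eq_of_mul_eq_mul_left hk.pos (by rw [h2, mul_one])

theorem exists_frob (hK : Geo.IsFieldSubalgebra k K) (hk : k = Fintype.card ι) :
    ∃ g : Module.End F (ι → F), In (Geo.subalgebraNormalizer K) g ∧ g ^ k = 1 ∧
      LinearMap.charpoly g = X ^ k - 1 ∧ (2 ≤ k → ∀ c : F, g ≠ c • 1) ∧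
      ∃ h ∈ Geo.subalgebraNormalizer K, toLin' (h : Matrix ι ι F) = g := by
  let _ : Field K := (Asch.isField_of_inv hK.comm hK.inv).toField
  have : FiniteDimensional K (ι → F) := Module.Finite.of_restrictScalars_finite F K _
  have h2 := finrank_mul_finrank F K (ι → F)
  rw [hK.finrank_eq, finrank_fintype_fun_eq_card, ← hk] at h2
  obtain ⟨g, h3, h4⟩ := exists_semi_frob (F := F) (K := K) (V := ι → F)
    (Nat.eq_of_mul_eq_mul_left (hk ▸ Fintype.card_pos) (by rw [h2, mul_one]))
  rw [hK.finrank_eq] at h4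
  have h5 : toLE.symm g ∈ Geo.subalgebraNormalizer K :=
    (mem_normalizer_iff _).mpr (by rwa [MulEquiv.apply_symm_apply])
  exact ⟨g, in_toLE h5, h4.1, h4.2.1, h4.2.2, _, h5, by rw [← toLE_coe, MulEquiv.apply_symm_apply]⟩

theorem in_normalizer_invol (hK : Geo.IsFieldSubalgebra 2 K) (h2 : (2 : F) ≠ 0)
    {y : Module.End F (ι → F)} (hy : y ^ 2 = 1) (he : Even (finrank F (LinearMap.ker (y - 1)))) :
    In (Geo.subalgebraNormalizer K) y := by
  let _ : Field K := (Asch.isField_of_inv hK.comm hK.inv).toField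
  have : FiniteDimensional K (ι → F) := Module.Finite.of_restrictScalars_finite F K _
  have h1 := finrank_mul_finrank F K (ι → F)
  rw [hK.finrank_eq] at h1
  obtain ⟨j, hj⟩ := he
  have h3 := Submodule.finrank_le (LinearMap.ker (y - 1))
  obtain ⟨g, h4, h5, h6⟩ := exists_semi_invol (F := F) (K := K) (V := ι → F) h2 (j := j) (by omega)
  rw [hK.finrank_eq] at h6
  exact (in_toLE ((mem_normalizer_iff _).mpr (by rwa [MulEquiv.apply_symm_apply]))).of_sim
    (sim_of_sq_one hy h5 rfl (by omega))

theorem in_normalizer_sq (hK : Geo.IsFieldSubalgebra 2 K) {f : Module.End F (ι → F)} {z : F}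
    (hf : f ^ 2 = z • 1) (hz : ∀ w : F, w ^ 2 ≠ z) : In (Geo.subalgebraNormalizer K) f := by
  let _ : Field K := (Asch.isField_of_inv hK.comm hK.inv).toField
  have : FiniteDimensional K (ι → F) := Module.Finite.of_restrictScalars_finite F K _
  obtain ⟨g, h4, h5⟩ := exists_semi_sq (F := F) (K := K) (V := ι → F) hK.finrank_eq hz
  exact (in_toLE ((mem_normalizer_iff _).mpr (by rwa [MulEquiv.apply_symm_apply]))).of_sim
    (sim_of_irreducible (X_pow_sub_C_irreducible_of_prime Nat.prime_two hz)
      (monic_X_pow_sub_C z two_ne_zero) ((aeval_X_pow_sub_C_eq_zero_iff _ _ _).mpr hf)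
      ((aeval_X_pow_sub_C_eq_zero_iff _ _ _).mpr h5) rfl)

end

end Cfsg.Agent.H1.El
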