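import Cfsg.Agent.H7.Irr
import Cfsg.Agent.H7.Types

/-!
Orthogonal polar spaces: small-dimensional tools (tori, transitivity on singular points,
generation of the centre of a unipotent radical).
-/

set_option autoImplicit false
set_option linter.unusedSectionVars false
set_option linter.unusedSimpArgs false

namespace Cfsg.Agent.H1

open Module Cfsg.Agent.H7

variable {F : Type*} [Field F] {V : Type*} [AddCommGroup V] [Module F V]

/-- The polar space comes from a quadratic form. -/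
structure IsO (P : Polar F V) : Prop where
  σ : ∀ a, P.σ a = a
  ε : P.ε = 1
  lam : ∀ c, P.Val 0 c → c = 0

namespace IsO

variable {P : Polar F V} (h : IsO P)
include h

theorem comm (x y : V) : P.B x y = P.B y x := by rw [P.herm y x, h.σ, h.ε, one_mul]

theorem uniq {x : V} {c c' : F} (hc : P.Val x c) (hc' : P.Val x c') : c = c' :=
  sub_eq_zero.1 (h.lam _ (Polar.val_sub_val hc hc'))

theorem self {x : V} {c : F} (hc : P.Val x c) : P.B x x = 2 * c := by
  rw [P.val_self hc, h.σ, h.ε]; ring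

theorem smul_right (x y : V) (a : F) : P.B x (a • y) = a * P.B x y := by
  rw [Polar.B_smul_right, h.σ]

theorem val_iff (h2 : (2 : F) ≠ 0) {x : V} {c : F} : P.Val x c ↔ P.B x x = 2 * c := by
  refine ⟨h.self, fun e => ?_⟩
  obtain ⟨d, hd⟩ := P.val_ex x
  rw [h.self hd] at e
  exact Polar.val_congr hd (mul_left_cancel₀ h2 e)

theorem sing_iff (h2 : (2 : F) ≠ 0) {x : V} : P.Val x 0 ↔ P.B x x = 0 := by
  rw [h.val_iff h2, mul_zero]

theorem mem_Iso (h2 : (2 : F) ≠ 0) {g : V ≃ₗ[F] V} (hg : ∀ x y, P.B (g x) (g y) = P.B x y) :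
    g ∈ P.Iso :=
  ⟨hg, fun x c hc => by rwa [h.val_iff h2, hg, ← h.val_iff h2]⟩

theorem val_smul {x : V} {c : F} (a : F) (hc : P.Val x c) : P.Val (a • x) (a * a * c) :=
  Polar.val_congr (P.val_smul a hc) (by rw [h.σ])

theorem eich_eq (u w : V) (c : F) (x : V) :
    P.eich u w c x = x + P.B x u • w - (P.B x w + c * P.B x u) • u := by
  rw [Polar.eich, h.σ, h.ε, one_mul]

theorem eich_add_smul (a : F) (u w : V) (c : F) (x : V) :
    P.eich u (w + a • u) c x = P.eich u w c x := by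
  rw [Polar.eich_add_smul, h.σ, h.ε, one_mul, sub_self, add_zero]

theorem EI_congr {X : Subgroup (V ≃ₗ[F] V)} {u w : V} {c c' : F} (hX : P.EI X u w c)
    (hc : P.Val w c) (hc' : P.Val w c') : P.EI X u w c' := h.uniq hc hc' ▸ hX

/-- the torus of a hyperbolic pair, as a product of two reflections -/
theorem exists_torus {u f : V} (hu : P.Val u 0) (hf : P.Val f 0) (huf : P.B u f = 1) {a : F}
    (ha : a ≠ 0) : ∃ t ∈ P.Iso, ∃ s ∈ P.Iso, t u = a • u ∧ t f = a⁻¹ • f ∧
      (∀ z, P.B z u = 0 → P.B z f = 0 → t z = z) ∧ s * t⁻¹ * s⁻¹ = t := by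
  have h1 : P.Val (u + a • f) a := Polar.val_congr (Polar.val_add_sing hu hf a) (by simp [huf, h.σ])
  have h2 : P.Val (u + (1 : F) • f) 1 :=
    Polar.val_congr (Polar.val_add_sing hu hf 1) (by simp [huf])
  have hfu : P.B f u = 1 := by rw [h.comm, huf]
  have hinv : ∀ {d : V} {c : F} (hc : P.Val d c) (h0 : c ≠ 0),
      (Polar.reflE hc h0)⁻¹ = Polar.reflE hc h0 := fun {d c} hc h0 => by
    rw [inv_eq_iff_mul_eq_one]
    ext x
    have := Polar.refl_inv hc h0 x
    rwa [h.σ, h.ε, one_mul] at this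
  refine ⟨Polar.reflE h2 one_ne_zero * Polar.reflE h1 ha, P.Iso.mul_mem (Polar.reflE_mem_Iso _ _)
    (Polar.reflE_mem_Iso _ _), Polar.reflE h2 one_ne_zero, Polar.reflE_mem_Iso _ _, ?_, ?_,
    fun z h3 h4 => ?_, ?_⟩
  · simp only [LinearEquiv.mul_apply, Polar.reflE_apply, Polar.refl, map_add, map_sub, map_smul,
      LinearMap.add_apply, LinearMap.sub_apply, LinearMap.smul_apply, h.smul_right, huf, hfu,
      Polar.sing_B hu, Polar.sing_B hf, smul_eq_mul]
    match_scalars <;> field_simp <;> ring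
  · simp only [LinearEquiv.mul_apply, Polar.reflE_apply, Polar.refl, map_add, map_sub, map_smul,
      LinearMap.add_apply, LinearMap.sub_apply, LinearMap.smul_apply, h.smul_right, huf, hfu,
      Polar.sing_B hu, Polar.sing_B hf, smul_eq_mul]
    match_scalars <;> field_simp <;> ring
  · simp [Polar.refl, h3, h4]
  · have h3 : (Polar.reflE h2 one_ne_zero)⁻¹ * (Polar.reflE h2 one_ne_zero)⁻¹ = 1 := by
      nth_rewrite 1 [hinv]; exact mul_inv_cancel _
    rw [mul_inv_rev, hinv h1 ha, mul_assoc, mul_assoc, h3, mul_one]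

variable [Finite F] [FiniteDimensional F V]

theorem exists_partner {u : V} (hu : P.Val u 0) (h0 : u ≠ 0) : ∃ f, P.Val f 0 ∧ P.B u f = 1 := by
  obtain ⟨f, -, h1, h2⟩ := Polar.exists_hyperbolic (U := ⊥) hu (by simpa using h0)
    (by simp [Polar.perp_bot]) 1 one_ne_zero
  exact ⟨f, h1, h2⟩

/-- The elementary group is contained in the commutator subgroup of the isometry group. -/
theorem E_le_of_comm {a : F} (ha0 : a ≠ 0) (ha1 : a ≠ 1) {X : Subgroup (V ≃ₗ[F] V)}
    (hX : ∀ g ∈ P.Iso, ∀ k ∈ P.Iso, g * k * g⁻¹ * k⁻¹ ∈ X) : P.E ≤ X := by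
  refine Polar.E_le_of_EI fun u w c hu hw hc => ?_
  by_cases h0 : u = 0
  · exact Has.id.congr fun x => by simp [h0, Polar.eich]
  obtain ⟨f, hf, huf⟩ := h.exists_partner hu h0
  obtain ⟨t, ht, -, -, htu, htf, htz, -⟩ := h.exists_torus hu hf huf ha0
  have ha : a - 1 ≠ 0 := sub_ne_zero.2 ha1
  obtain ⟨w', hw'⟩ : ∃ w', w' = (a - 1)⁻¹ • (w - P.B w f • u) := ⟨_, rfl⟩
  have h1 : P.B w' u = 0 := by simp [hw', hw, Polar.sing_B hu]
  have h2 : P.B w' f = 0 := by simp [hw', huf]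
  obtain ⟨c', hc'⟩ := P.val_ex w'
  have h3 : w = (a • w' + -w') + P.B w f • u := by
    rw [hw']; match_scalars <;> field_simp <;> ring
  have h4 : P.Val (a • w' + -w') c := by
    have := Polar.val_add_sing hc hu (-P.B w f)
    exact Polar.val_congr' this (by nth_rewrite 1 [h3]; module) (by simp [hw])
  refine ⟨_, hX t ht _ (Polar.eichE_mem_Iso hu h1 hc'), fun x => ?_⟩
  have h5 : ∀ y, t (P.eich u w' c' (t⁻¹ y)) = P.eich u (a • w') (a * a * c') y := fun y => by
    rw [← Polar.eich_conj ht, htu, htz w' h1 h2, Polar.eich_smul, h.σ,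
      show t (t⁻¹ y) = y from t.apply_symm_apply y]
  rw [LinearEquiv.mul_apply, LinearEquiv.mul_apply, LinearEquiv.mul_apply, Polar.eichE_apply, h5,
    show (Polar.eichE hu h1 hc')⁻¹ x = P.eich u (-w') (P.ε * P.σ c') x from rfl,
    Polar.eich_comp _ _ (Polar.sing_B hu) (by simp [h1]) (by simp [h1])]
  nth_rewrite 1 [h3]
  rw [h.eich_add_smul, h.uniq h4 (P.val_add (h.val_smul a hc') (Polar.val_conj (Polar.val_neg hc')))]

omit [Finite F] [FiniteDimensional F V] in
theorem exists_aniso (h2 : (2 : F) ≠ 0) {W : Submodule F V} {x y : V} (hx : x ∈ W) (hy : y ∈ W)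
    (hxy : P.B x y ≠ 0) : ∃ a ∈ W, P.B a a ≠ 0 := by
  by_contra! hcon
  have := hcon _ (W.add_mem hx hy)
  simp only [map_add, LinearMap.add_apply, hcon x hx, hcon y hy, h.comm y x] at this
  exact hxy (mul_left_cancel₀ h2 (by linear_combination this))

omit [Finite F] [FiniteDimensional F V] in
theorem exists_aniso_ne (h2 : (2 : F) ≠ 0) {W : Submodule F V} {x y : V} (hx : x ∈ W) (hy : y ∈ W)
    (hxy : P.B x y ≠ 0) {z w : V} (hw : w ∈ W) (hzw : P.B z w ≠ 0) :
    ∃ a ∈ W, P.B a a ≠ 0 ∧ P.B z a ≠ 0 := by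
  obtain ⟨a, ha, haa⟩ := h.exists_aniso h2 hx hy hxy
  by_cases hza : P.B z a = 0
  swap
  · exact ⟨a, ha, haa, hza⟩
  by_contra! hcon
  have key : ∀ t : F, P.B (w + t • a) (w + t • a) = 0 := fun t => by
    by_contra hne
    exact hzw (by simpa [hza] using hcon _ (W.add_mem hw (W.smul_mem t ha)) hne)
  have h3 := key 0
  have h4 := key 1
  have h5 := key (-1)
  simp only [map_add, LinearMap.add_apply, map_smul, LinearMap.smul_apply, h.smul_right,
    smul_eq_mul, h.comm a w] at h3 h4 h5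
  exact haa (mul_left_cancel₀ h2 (by linear_combination h4 + h5 - 2 * h3))

omit h in
/-- the orthogonal complement of a hyperbolic pair inside a subspace is non-degenerate -/
theorem exists_ne_perp_pair {N : Submodule F V} {u f z : V} (hu : P.B u u = 0) (hf : P.B f f = 0)
    (huf : P.B u f ≠ 0) (huN : u ∈ N) (hfN : f ∈ N) (hzu : P.B z u = 0) (hzf : P.B z f = 0)
    (hz : z ∉ P.perp N) : ∃ w ∈ N, P.B w u = 0 ∧ P.B w f = 0 ∧ P.B z w ≠ 0 := by
  obtain ⟨y, hy, hy'⟩ : ∃ y ∈ N, P.B z y ≠ 0 := by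
    by_contra! hcon; exact hz hcon
  have hfu := P.B_ne_symm huf
  refine ⟨y - (P.B y u / P.B f u) • f - (P.B y f / P.B u f) • u,
    N.sub_mem (N.sub_mem hy (N.smul_mem _ hfN)) (N.smul_mem _ huN), by simp [hu, hfu],
    by simp [hf, huf], by simpa [hzu, hzf] using hy'⟩

omit h in
theorem exists_perp_pair {N : Submodule F V} (u f : V)
    (hd : finrank F ↥(N ⊓ P.perp N) + 3 ≤ finrank F N) :
    ∃ z ∈ N, P.B z u = 0 ∧ P.B z f = 0 ∧ z ∉ P.perp N := by
  obtain ⟨z, hz, hz'⟩ := exists_notMem_of_finrank_lt (U := N ⊓ P.perp N)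
    (W := N ⊓ P.pp u ⊓ P.pp f) (by
      have := Polar.finrank_inf_pp_ge (P := P) N u
      have := Polar.finrank_inf_pp_ge (P := P) (N ⊓ P.pp u) f
      omega)
  exact ⟨z, hz.1.1, hz.1.2, hz.2, fun e => hz' ⟨hz.1.1, e⟩⟩

theorem exists_aniso_perp_pair (h2 : (2 : F) ≠ 0) {N : Submodule F V} {u f : V} (hu : P.B u u = 0)
    (hf : P.B f f = 0) (huf : P.B u f ≠ 0) (huN : u ∈ N) (hfN : f ∈ N)
    (hd : finrank F ↥(N ⊓ P.perp N) + 3 ≤ finrank F N) :
    ∃ z ∈ N, P.B z u = 0 ∧ P.B z f = 0 ∧ P.B z z ≠ 0 := by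
  obtain ⟨z, hz, h3, h4, h5⟩ := exists_perp_pair (P := P) u f hd
  obtain ⟨w, hw, h6, h7, h8⟩ := exists_ne_perp_pair hu hf huf huN hfN h3 h4 h5
  obtain ⟨a, ha, haa⟩ := h.exists_aniso h2 (W := N ⊓ P.pp u ⊓ P.pp f) ⟨⟨hz, h3⟩, h4⟩
    ⟨⟨hw, h6⟩, h7⟩ h8
  exact ⟨a, ha.1.1, ha.1.2, ha.2, haa⟩

omit h in
theorem top_inf_perp : finrank F ↥((⊤ : Submodule F V) ⊓ P.perp ⊤) = 0 := by
  rw [Polar.perp_top, inf_bot_eq, finrank_bot]

theorem exists_sing_not_perp (h2 : (2 : F) ≠ 0) (hd : 3 ≤ finrank F V) {u v : V} (hu : P.Val u 0)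
    (hu0 : u ≠ 0) (hv : P.Val v 0) (hv0 : v ≠ 0) :
    ∃ y, P.Val y 0 ∧ P.B u y ≠ 0 ∧ P.B v y ≠ 0 := by
  by_cases huv : P.B u v = 0
  · obtain ⟨y, h3, h4, h5⟩ := Polar.exists_sing_not_perp hu hu0 hv0 huv
    exact ⟨y, h3, P.B_ne_symm h4, P.B_ne_symm h5⟩
  obtain ⟨z, -, h3, h4, h5⟩ := h.exists_aniso_perp_pair h2 (N := ⊤) (Polar.sing_B hu)
    (Polar.sing_B hv) huv trivial trivial (by rw [top_inf_perp, finrank_top]; omega)
  obtain ⟨c, hc⟩ := P.val_ex z
  have hc0 : c ≠ 0 := fun e => h5 (by rw [h.self hc, e, mul_zero])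
  refine ⟨_, Polar.eich_val hu h3 hc hv, ?_, ?_⟩
  · simpa [h.eich_eq, h.smul_right, Polar.sing_B hu, P.B_symm h3] using huv
  · simpa [h.eich_eq, h.smul_right, Polar.sing_B hv, P.B_symm h4, hc0] using P.B_ne_symm huv

/-- The elementary group is transitive on singular points. -/
theorem exists_move (h2 : (2 : F) ≠ 0) (hd : 3 ≤ finrank F V) {u v : V} (hu : P.Val u 0)
    (hu0 : u ≠ 0) (hv : P.Val v 0) (hv0 : v ≠ 0) : ∃ g ∈ P.E, ∃ a : F, a ≠ 0 ∧ g u = a • v := by
  obtain ⟨y, hy, h3, h4⟩ := h.exists_sing_not_perp h2 hd hu hu0 hv hv0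
  obtain ⟨g, hg, -, hgu⟩ := (Polar.fullA_E hy).exists_move hy hu
    (Polar.sing_smul hv (P.B u y / P.B v y)) (by simp [h4]) h3
  exact ⟨g, hg, _, div_ne_zero h3 h4, hgu⟩

/-- singular vectors span -/
theorem exists_sing_ne_of_sub {N : Submodule F V} {z e : V} (he : e ∈ N) (hes : P.Val e 0)
    (heN : e ∉ P.perp N) (hz : z ∉ P.perp N) : ∃ e ∈ N, P.Val e 0 ∧ P.B z e ≠ 0 := by
  obtain ⟨y, hy, hy'⟩ : ∃ y ∈ N, P.B e y ≠ 0 := by
    by_contra! hcon; exact heN hcon
  obtain ⟨a, ha⟩ := Polar.exists_val_add_sing hes (P.B_ne_symm hy') 0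
  obtain ⟨f, hf⟩ : ∃ f, f = y + a • e := ⟨_, rfl⟩
  rw [← hf] at ha
  have hfN : f ∈ N := hf ▸ N.add_mem hy (N.smul_mem _ he)
  have hef : P.B e f ≠ 0 := by simpa [hf, Polar.sing_B hes] using hy'
  by_contra! hcon
  obtain ⟨w, hw, h3, h4, h5⟩ := exists_ne_perp_pair (Polar.sing_B hes) (Polar.sing_B ha) hef he hfN
    (hcon e he hes) (hcon f hfN ha) hz
  obtain ⟨c, hc⟩ := P.val_ex w
  have h6 := hcon _ (show P.eich e w c f ∈ N from
    N.sub_mem (N.add_mem hfN (N.smul_mem _ hw)) (N.smul_mem _ he)) (Polar.eich_val hes h3 hc ha)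
  simp [h.eich_eq, h.smul_right, hcon e he hes, hcon f hfN ha, h5, P.B_ne_symm hef] at h6

/-- An isometry fixing a totally singular subspace pointwise commutes with the isometries
fixing its orthogonal complement pointwise. -/
theorem sub_mem_of_fix {L : Submodule F V} {g : V ≃ₗ[F] V} (hg : g ∈ P.Iso)
    (hgL : ∀ z ∈ L, g z = z) (x : V) : g x - x ∈ P.perp L := fun z hz => by
  rw [map_sub, LinearMap.sub_apply, ← Polar.Iso.B hg x z, hgL z hz, sub_self]

/-- The isometries fixing the orthogonal complement of a totally singular subspace pointwise are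
products of Siegel transformations. -/
theorem mem_of_fix_perp {L : Submodule F V} (hL : ∀ a ∈ L, P.Val a 0)
    {X : Subgroup (V ≃ₗ[F] V)} (hX : ∀ a ∈ L, ∀ b ∈ L, P.EI X a b 0) {g : V ≃ₗ[F] V}
    (hg : g ∈ P.Iso) (hgL : ∀ z ∈ P.perp L, g z = z) : g ∈ X := by
  have hLL : ∀ a ∈ L, ∀ b ∈ L, P.B a b = 0 := fun a ha b hb => by
    simpa using h.uniq (P.val_add (hL a ha) (hL b hb)) (hL _ (L.add_mem ha hb))
  suffices H : ∀ (k : ℕ) (U : Submodule F V), finrank F V ≤ finrank F U + k → P.perp L ≤ U →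
      ∀ g ∈ P.Iso, (∀ z ∈ U, g z = z) → g ∈ X from H (finrank F V) _ (by omega) le_rfl g hg hgL
  intro k
  induction k with
  | zero =>
    intro U hU _ g _ hg
    have : U = ⊤ := Submodule.eq_top_of_finrank_eq (le_antisymm (Submodule.finrank_le U) hU)
    rw [show g = 1 from LinearEquiv.ext fun x => hg x (this ▸ trivial)]
    exact X.one_mem
  | succ k ih =>
    intro U hU hLU g hg hgU
    by_cases h1 : ∀ x, g x = x
    · rw [show g = 1 from LinearEquiv.ext h1]
      exact X.one_mem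
    obtain ⟨x, hx⟩ := not_forall.1 h1
    have hN : ∀ y, g y - y ∈ L := fun y => by
      have := h.sub_mem_of_fix hg (fun z hz => hgU z (hLU hz)) y
      rwa [Polar.perp_perp] at this
    have hskew : ∀ y z, P.B (g y - y) z = -P.B y (g z - z) := fun y z => by
      have h2 := hLL _ (hN y) _ (hN z)
      simp only [map_sub, LinearMap.sub_apply, Polar.Iso.B hg] at h2 ⊢
      linear_combination -h2
    have halt : P.B x (g x - x) = 0 := by
      obtain ⟨c, hc⟩ := P.val_ex x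
      have h2 := P.val_add hc (hL _ (hN x))
      rw [add_sub_cancel] at h2
      have := h.uniq h2 (Polar.Iso.val hg hc)
      linear_combination this
    obtain ⟨y, -, hy⟩ := Polar.exists_sep (P := P) (U := ⊥) (v := g x - x)
      (by simpa [sub_eq_zero] using hx) 1
    obtain ⟨t, ht, ht'⟩ := hX _ (hN x) _ (hN y)
    have htI : t ∈ P.Iso := by
      rw [show t = Polar.eichE (hL _ (hN x)) (hLL _ (hN y) _ (hN x)) (hL _ (hN y)) from
        LinearEquiv.ext ht']
      exact Polar.eichE_mem_Iso _ _ _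
    have hxU : x ∉ U := fun e => hx (hgU x e)
    have h3 := ih (U ⊔ F ∙ x) (by rw [Submodule.finrank_sup_span_singleton hxU]; omega)
      (hLU.trans le_sup_left) (t⁻¹ * g) (P.Iso.mul_mem (P.Iso.inv_mem htI) hg) fun z hz => by
        obtain ⟨v, hv, c, rfl⟩ := mem_sup_span_singleton.1 hz
        rw [LinearEquiv.mul_apply, show ∀ y, t⁻¹ y = t.symm y from fun _ => rfl,
          LinearEquiv.symm_apply_eq, map_add, map_add, map_smul, map_smul, hgU v hv, ht', ht']
        have h4 : ∀ y, P.B v (g y - y) = 0 := fun y => by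
          have := hskew v y
          rw [hgU v hv, sub_self, map_zero, LinearMap.zero_apply] at this
          linear_combination this
        have h5 : P.B x (g y - y) = -1 := by rw [← hy, hskew, neg_neg]
        rw [h.eich_eq, h.eich_eq, h4, h4, halt, h5]
        simp
    simpa using X.mul_mem ht h3

/-- Commutators modulo the centre of the unipotent radical. -/
theorem EI_comm {L : Submodule F V} {X : Subgroup (V ≃ₗ[F] V)} (hXI : X ≤ P.Iso) {l w : V} {c : F}
    (hl : l ∈ L) (hls : P.Val l 0) (hw : P.B w l = 0) (hc : P.Val w c) {y k : V ≃ₗ[F] V}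
    (hy : y ∈ X) (hy' : ∀ z ∈ P.perp L, y z = P.eich l w c z) (hk : k ∈ X)
    (hk' : ∀ z ∈ L, k z = z) {c' : F} (hc' : P.Val (k w - w) c') : P.EI X l (k w - w) c' := by
  obtain ⟨z, hz⟩ : ∃ z, z = (Polar.eichE hls hw hc)⁻¹ * y := ⟨_, rfl⟩
  have hzI : z ∈ P.Iso :=
    hz ▸ P.Iso.mul_mem (P.Iso.inv_mem (Polar.eichE_mem_Iso _ _ _)) (hXI hy)
  have hyz : y = Polar.eichE hls hw hc * z := by rw [hz, mul_inv_cancel_left]
  have hz1 : ∀ x ∈ P.perp L, z x = x := fun x hx => by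
    rw [hz, LinearEquiv.mul_apply, hy' x hx]
    exact (Polar.eichE hls hw hc).symm_apply_apply x
  have hcomm : k * z = z * k := by
    ext x
    have h1 := h.sub_mem_of_fix hzI hz1 x
    rw [Polar.perp_perp] at h1
    have h2 := hk' _ h1
    have h3 := hz1 _ (h.sub_mem_of_fix (hXI hk) hk' x)
    rw [map_sub] at h2 h3
    rw [LinearEquiv.mul_apply, LinearEquiv.mul_apply]
    linear_combination (norm := module) h2 - h3
  have h1 : k * y * k⁻¹ * y⁻¹ = k * Polar.eichE hls hw hc * k⁻¹ * (Polar.eichE hls hw hc)⁻¹ := by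
    rw [hyz, ← mul_assoc k, mul_assoc _ z, show z * k⁻¹ = k⁻¹ * z by
      rw [mul_inv_eq_iff_eq_mul, mul_assoc, ← hcomm, inv_mul_cancel_left]]
    group
  have hkw : P.B (k w) l = 0 := by rw [← hk' l hl, Polar.Iso.B (hXI hk), hw]
  refine ⟨_, X.mul_mem (X.mul_mem (X.mul_mem hk hy) (X.inv_mem hk)) (X.inv_mem hy), fun x => ?_⟩
  have h5 : ∀ y, k (P.eich l w c (k⁻¹ y)) = P.eich l (k w) c y := fun y => by
    rw [← Polar.eich_conj (hXI hk), hk' l hl, show k (k⁻¹ y) = y from k.apply_symm_apply y]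
  rw [h1, LinearEquiv.mul_apply, LinearEquiv.mul_apply, LinearEquiv.mul_apply, Polar.eichE_apply,
    h5, show (Polar.eichE hls hw hc)⁻¹ x = P.eich l (-w) (P.ε * P.σ c) x from rfl,
    Polar.eich_comp _ _ (Polar.sing_B hls) hkw (by simp [hw]), sub_eq_add_neg (k w),
    h.uniq (Polar.val_congr' hc' (sub_eq_add_neg (k w) w) rfl)
      (P.val_add (Polar.Iso.val (hXI hk) hc) (Polar.val_conj (Polar.val_neg hc)))]

end IsO

end Cfsg.Agent.H1
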