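import Cfsg.Agent.H4.ElSU
import Cfsg.Agent.H4.ElUsp
import Cfsg.Agent.H1.OApi
import Cfsg.Agent.Asch.FinField

/-!
Numbers of singular vectors and divisors of the orders of the classical groups.
-/

set_option autoImplicit false
set_option linter.unusedSectionVars false

namespace Cfsg.Agent.H1.Ord

open Module H7 H7.Polar H8 H4.El

variable {F : Type*} [Field F] {V : Type*} [AddCommGroup V] [Module F V] {P : Polar F V}
  [Fintype F] [FiniteDimensional F V]

variable (P) in
/-- the number of vectors of `W` with value `c` -/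
noncomputable def nv (W : Submodule F V) (c : F) : ℕ := Nat.card {v : V // v ∈ W ∧ P.Val v c}

variable (P) in
/-- the number of non-zero vectors of `W` with value `c` -/
noncomputable def ns (W : Submodule F V) (c : F) : ℕ :=
  Nat.card {v : V // v ∈ W ∧ v ≠ 0 ∧ P.Val v c}

theorem nv_zero (W : Submodule F V) : nv P W 0 = ns P W 0 + 1 := by
  have : Finite V := finite_V (F := F)
  have h : {v : V | v ∈ W ∧ P.Val v 0} = insert 0 {v : V | v ∈ W ∧ v ≠ 0 ∧ P.Val v 0} := by
    ext v
    by_cases h : v = 0 <;> simp [h, val_zero]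
  exact (congrArg Set.ncard h).trans (Set.ncard_insert_of_notMem (by simp))

theorem nv_eq_one {W : Submodule F V} (h : ∀ v ∈ W, P.Val v 0 → v = 0) : nv P W 0 = 1 :=
  Nat.card_eq_one_iff_exists.mpr ⟨⟨0, zero_mem _, val_zero⟩, fun v => Subtype.ext (h _ v.2.1 v.2.2)⟩

theorem ns_mul_dvd {W W' : Submodule F V} (hW : Nd P W) (hle : W' ≤ W) {v : V} (hv : v ∈ W)
    (h0 : v ≠ 0) {c : F} (hc : P.Val v c) (hp : v ∈ P.perp W') :
    ns P W c * Nat.card (FixIso P W') ∣ Nat.card (FixIso P W) := by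
  have h1 := (MulAction.stabilizer (FixIso P W) v).card_mul_index
  have h2 : MulAction.orbit (FixIso P W) v = {x : V | x ∈ W ∧ x ≠ 0 ∧ P.Val x c} := by
    ext x
    constructor
    · rintro ⟨g, rfl⟩
      exact ⟨FixIso.apply_mem g.2 le_rfl hv, (g.1.map_ne_zero_iff).mpr h0, Iso.val g.2.1 hc⟩
    · rintro ⟨a, b, d⟩
      obtain ⟨g, hg, e⟩ := exists_FixIso_apply hW hv a h0 b hc d
      exact ⟨⟨g, hg⟩, e⟩
  rw [MulAction.index_stabilizer, h2, mul_comm] at h1
  rw [← h1, ← Nat.card_congr (Subgroup.subgroupOfEquivOfLe (FixIso.mono (P := P) hle)).toEquiv]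
  exact Nat.mul_dvd_mul_left _ (Subgroup.card_dvd_of_le fun g hg => hg.2 v hp)

theorem val_iff_lam {v : V} {c d : F} (h : P.Val v d) : P.Val v c ↔ P.Val 0 (c - d) :=
  ⟨fun h' => val_sub_val h' h, fun h' => val_congr (val_add_lam h h') (by ring)⟩

theorem nv_rec {W : Submodule F V} {e f : V} (h : HP P e f) (he : e ∈ W) (hf : f ∈ W) (c : F) :
    nv P W c = Fintype.card F * nv P (W ⊓ P.perp ((F ∙ e) ⊔ (F ∙ f))) c + (Fintype.card F - 1) *
      (Fintype.card F ^ finrank F ↥(W ⊓ P.perp ((F ∙ e) ⊔ (F ∙ f))) *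
        Nat.card {a : F // P.Val 0 a}) := by
  classical
  have : Finite V := finite_V (F := F)
  obtain ⟨U, hU⟩ : ∃ U, U = W ⊓ P.perp ((F ∙ e) ⊔ (F ∙ f)) := ⟨_, rfl⟩
  have h1 : ∀ w : U, (w : V) ∈ W ∧ P.B w e = 0 ∧ P.B w f = 0 := fun w => by
    have := hU.le w.2
    exact ⟨this.1, mem_perp_pair.mp this.2⟩
  rw [← hU]
  let _ := Fintype.ofFinite U
  have h2 : nv P W c =
      Nat.card {t : F × U × F // P.Val ((t.2.1 : V) + t.1 • f + t.2.2 • e) c} := by
    refine (Nat.card_congr (Equiv.ofBijective (fun t => ⟨_, W.add_mem (W.add_mem (h1 _).1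
      (W.smul_mem _ hf)) (W.smul_mem _ he), t.2⟩) ⟨?_, ?_⟩)).symm
    · rintro ⟨⟨y, w, x⟩, _⟩ ⟨⟨y', w', x'⟩, _⟩ e1
      replace e1 : (w : V) + y • f + x • e = w' + y' • f + x' • e := Subtype.ext_iff.mp e1
      have e2 := congrArg (P.B · e) e1
      have e3 := congrArg (P.B · f) e1
      simp only [map_add, map_smul, LinearMap.add_apply, LinearMap.smul_apply, (h1 _).2, h.ee, h.ff,
        h.pol, h.pol', smul_eq_mul, mul_zero, add_zero, zero_add, mul_one,
        mul_left_inj' P.ε_ne_zero] at e2 e3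
      subst e2 e3
      simpa using e1
    · rintro ⟨v, hv, hc⟩
      obtain ⟨a, ha, b, hb, rfl⟩ := h.nd.exists_decomp (pair_le he hf) hv
      obtain ⟨x, y, rfl⟩ := mem_span_pair'.mp ha
      have e1 : b + y • f + x • e = x • e + y • f + b := by abel
      exact ⟨⟨⟨y, ⟨b, hU ▸ hb⟩, x⟩, e1 ▸ hc⟩, Subtype.ext e1⟩
  choose val hval using P.val_ex
  have h3 : ∀ (y : F) (w : U) (x : F), P.Val ((w : V) + y • f + x • e) c ↔
      P.Val 0 (c - (val w + P.σ x * (y * P.ε))) := fun y w x => val_iff_lam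
    (val_congr (val_add_sing (val_add_sing (hval w) h.right y) h.left x) (by
      simp [(h1 w).2, h.pol']))
  have h4 : ∀ (y : F) (w : U), y ≠ 0 → ∑ x : F, (if P.Val ((w : V) + y • f + x • e) c then 1 else 0)
      = Nat.card {a : F // P.Val 0 a} := fun y w hy => by
    rw [← Finset.card_filter, ← Fintype.card_subtype, ← Nat.card_eq_fintype_card]
    have hb : Function.Bijective fun x : F => c - (val w + P.σ x * (y * P.ε)) :=
      Finite.injective_iff_bijective.mp fun x x' e1 => P.σ.injective (mul_right_cancel₀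
        (mul_ne_zero hy P.ε_ne_zero) (by linear_combination -e1))
    exact Nat.card_congr ((Equiv.ofBijective _ hb).subtypeEquiv fun x => h3 y w x)
  have h5 : ∀ w : U, ∑ x : F, (if P.Val ((w : V) + (0 : F) • f + x • e) c then 1 else 0) =
      Fintype.card F * if P.Val (w : V) c then 1 else 0 := fun w => by
    simp only [h3, zero_mul, mul_zero, add_zero, ← val_iff_lam (hval _)]
    simp
  have h6 : nv P U c = ∑ w : U, if P.Val (w : V) c then 1 else 0 := by
    rw [← Finset.card_filter, ← Fintype.card_subtype, ← Nat.card_eq_fintype_card]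
    exact (Nat.card_congr (Equiv.subtypeSubtypeEquivSubtypeInter _ _)).symm
  rw [h2, Nat.card_eq_fintype_card, Fintype.card_subtype, Finset.card_filter,
    Fintype.sum_prod_type, ← Finset.add_sum_erase _ _ (Finset.mem_univ 0), h6, Finset.mul_sum]
  simp only [Fintype.sum_prod_type]
  rw [Finset.sum_congr rfl fun w _ => h5 w, Finset.sum_congr rfl fun y hy =>
    Finset.sum_congr rfl fun w _ => h4 y w (Finset.ne_of_mem_erase hy)]
  simp [Finset.card_erase_of_mem, Module.card_eq_pow_finrank (K := F) (V := U)]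

theorem step {W : Submodule F V} (hW : Nd P W) {e f : V} (h : HP P e f) (he : e ∈ W) :
    ns P W 0 * Nat.card (FixIso P (W ⊓ P.perp ((F ∙ e) ⊔ (F ∙ f)))) ∣ Nat.card (FixIso P W) :=
  ns_mul_dvd hW inf_le_left he h.ne_zero h.left fun _ hx => P.B_symm (mem_perp_pair.mp hx.2).1

/-! ### symplectic groups -/

theorem sp_dvd (h : ∀ x c, P.Val x c) (m : ℕ) {W : Submodule F V} (hW : Nd P W)
    (hd : finrank F W = 2 * m) :
    ∏ i ∈ Finset.range m, (Fintype.card F ^ (2 * (i + 1)) - 1) ∣ Nat.card (FixIso P W) := by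
  have : Finite V := finite_V (F := F)
  induction m generalizing W with
  | zero => simp
  | succ m ih =>
    obtain ⟨e, he, f, hf, h1⟩ := hW.exists_hp_of_wild (wild_one_of_sp fun x => h x 0) (by omega)
    have h2 := h1.finrank_inf_perp hW he hf
    have h3 : nv P W 0 = Fintype.card F ^ (2 * (m + 1)) := by
      rw [← hd, ← Nat.card_eq_fintype_card, ← Module.natCard_eq_pow_finrank]
      exact Nat.card_congr (Equiv.subtypeEquivRight fun x => by simp [h])
    rw [Finset.prod_range_succ, mul_comm, ← h3, nv_zero, Nat.add_sub_cancel]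
    exact (Nat.mul_dvd_mul_left _ (ih (hW.inf_perp h1.nd (pair_le he hf)) (by omega))).trans
      (step hW h1 he)

/-! ### unitary groups -/

section unitary

variable {q : ℕ} (hU : Uni P q)
include hU

theorem card_lam_u : Nat.card {a : F // P.Val 0 a} = q := by
  obtain ⟨δ, h0, hδ⟩ := exists_lam_ne_of_unitary hU.ne hU.ε
  rw [← Asch.card_fixed_pow (L := F) q hU.one_lt (by
    rw [Nat.card_eq_fintype_card, hU.card_sub]; exact dvd_mul_left _ _)]
  refine (Nat.card_congr ((Equiv.mulRight₀ δ h0).subtypeEquiv fun x => ?_)).symm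
  have h1 := lam_σ hδ
  rw [val_iff_of_unitary hU.ne hU.ε, Equiv.mulRight₀_apply, map_mul, h1, hU.ε, ← hU.σ, map_zero]
  exact ⟨fun e => by rw [e]; simp, fun e => mul_right_cancel₀ h0 (by linear_combination e)⟩

theorem u_aux (d : ℕ) : ∀ {W : Submodule F V}, Nd P W → finrank F W = d →
    (nv P W 0 : ℤ) * q = q ^ (2 * d) + (-1) ^ d * (q ^ (d + 1) - q ^ d) ∧
      ∏ j ∈ Finset.range d, ((q : ℤ) ^ (j + 1) - (-1) ^ (j + 1)) ∣ Nat.card (FixIso P W) := by
  have := finite_equiv (F := F) (V := V)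
  induction d using Nat.twoStepInduction with
  | zero =>
    intro W _ hd
    rw [nv_eq_one fun v hv _ => by rwa [Submodule.finrank_eq_zero.mp hd] at hv]
    simp
  | one =>
    intro W hW hd
    obtain ⟨v, hv, h0⟩ := exists_B_self_ne_of_unitary hU.ne hU.ε hW (by rintro rfl; simp at hd)
    have hv0 : v ≠ 0 := by rintro rfl; simp at h0
    have h1 : F ∙ v = W := Submodule.eq_of_le_of_finrank_eq
      ((Submodule.span_singleton_le_iff_mem _ _).mpr hv) (by rw [finrank_span_singleton hv0, hd])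
    refine ⟨?_, ?_⟩
    · rw [nv_eq_one fun x hx h2 => ?_]
      · ring
      obtain ⟨a, rfl⟩ := Submodule.mem_span_singleton.mp (h1 ▸ hx)
      have h3 := sing_B h2
      simp only [map_smul, LinearMap.smul_apply, smul_eq_mul, B_smul_right, mul_eq_zero, h0,
        or_false, map_eq_zero, or_self] at h3
      rw [h3, zero_smul]
    · obtain ⟨a, ha⟩ := exists_isPrimitiveRoot (F := F) (d := q + 1)
        (hU.card_sub ▸ dvd_mul_right _ _)
      obtain ⟨y, hy, h2, -⟩ := hW.exists_scal (hU.norm_iff.mpr ha.pow_eq_one)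
      have h3 : (⟨y, hy⟩ : FixIso P W) ^ Nat.card (FixIso P W) = 1 := pow_card_eq_one'
      have h4 : ∀ k, (y ^ k) v = a ^ k • v := fun k => by
        induction k with
        | zero => simp
        | succ k ih => rw [pow_succ_apply, ih, map_smul, h2 v hv, smul_smul, pow_succ]
      have h5 := h4 (Nat.card (FixIso P W))
      rw [show y ^ Nat.card (FixIso P W) = 1 from congrArg Subtype.val h3] at h5
      have h6 := ha.dvd_of_pow_eq_one _ (smul_left_injective F hv0 (h5.symm.trans
        (one_smul F v).symm))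
      simpa using Int.natCast_dvd_natCast.mpr h6
  | more d ih _ =>
    intro W hW hd
    obtain ⟨e, he, f, hf, h1⟩ := hW.exists_hp_of_wild hU.wild (by omega)
    have h2 := h1.finrank_inf_perp hW he hf
    obtain ⟨h3, h4⟩ := ih (hW.inf_perp h1.nd (pair_le he hf)) (by omega)
    have h5 := congrArg (Nat.cast : ℕ → ℤ) (nv_rec h1 he hf 0)
    rw [card_lam_u hU, show finrank F ↥(W ⊓ P.perp ((F ∙ e) ⊔ (F ∙ f))) = d by omega] at h5
    push_cast [Nat.cast_sub (Fintype.card_pos (α := F))] at h5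
    rw [hU.card] at h5
    push_cast at h5
    have h6 : (nv P W 0 : ℤ) * q =
        q ^ (2 * (d + 2)) + (-1) ^ (d + 2) * (q ^ (d + 2 + 1) - q ^ (d + 2)) := by
      rw [h5]
      linear_combination (q : ℤ) ^ 2 * h3
    refine ⟨h6, ?_⟩
    have h7 : (ns P W 0 : ℤ) =
        (q ^ (d + 1) - (-1) ^ (d + 1)) * (q ^ (d + 1 + 1) - (-1) ^ (d + 1 + 1)) := by
      rw [nv_zero] at h6
      push_cast at h6
      refine mul_right_cancel₀ (b := (q : ℤ)) (by have := hU.one_lt; omega) ?_
      have h8 : ((-1 : ℤ) ^ d) ^ 2 = 1 := by rw [← pow_mul, mul_comm, pow_mul]; simp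
      linear_combination h6 + q * h8
    rw [Finset.prod_range_succ, Finset.prod_range_succ, mul_assoc, ← h7, mul_comm]
    exact (mul_dvd_mul_left _ h4).trans (by exact_mod_cast step hW h1 he)

end unitary

/-! ### orthogonal groups -/

section orthogonal

variable (hO : IsO P) (h2 : (2 : F) ≠ 0)
include hO

theorem card_lam_o : Nat.card {a : F // P.Val 0 a} = 1 :=
  Nat.card_eq_one_iff_exists.mpr ⟨⟨0, val_zero⟩, fun v => Subtype.ext (hO.lam _ v.2)⟩

include h2

theorem exists_B_self_ne_of_o {W : Submodule F V} (hW : Nd P W) (h0 : W ≠ ⊥) :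
    ∃ v ∈ W, P.B v v ≠ 0 := by
  obtain ⟨x, hx, h1⟩ := Submodule.exists_mem_ne_zero_of_ne_bot h0
  obtain ⟨y, hy, h3⟩ := hW.exists_ne hx h1
  exact hO.exists_aniso h2 hx hy h3

theorem o_odd (k : ℕ) {W : Submodule F V} (hW : Nd P W) (hd : finrank F W = 2 * k + 1) :
    nv P W 0 = Fintype.card F ^ (2 * k) ∧
      ∏ i ∈ Finset.range k, (Fintype.card F ^ (2 * (i + 1)) - 1) ∣ Nat.card (FixIso P W) := by
  induction k generalizing W with
  | zero =>
    obtain ⟨v, hv, h0⟩ := exists_B_self_ne_of_o hO h2 hW (by rintro rfl; simp at hd)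
    have hv0 : v ≠ 0 := by rintro rfl; simp at h0
    have h1 : F ∙ v = W := Submodule.eq_of_le_of_finrank_eq
      ((Submodule.span_singleton_le_iff_mem _ _).mpr hv) (by rw [finrank_span_singleton hv0, hd])
    refine ⟨nv_eq_one fun x hx h4 => ?_, by simp⟩
    obtain ⟨a, rfl⟩ := Submodule.mem_span_singleton.mp (h1 ▸ hx)
    have h3 := sing_B h4
    simp only [map_smul, LinearMap.smul_apply, smul_eq_mul, B_smul_right, mul_eq_zero, h0,
      or_false, map_eq_zero, or_self] at h3
    rw [h3, zero_smul]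
  | succ k ih =>
    obtain ⟨e, he, f, hf, h1⟩ := hW.exists_hp_of_wild (wild_three_of_σ hO.σ) (by omega)
    have h3 := h1.finrank_inf_perp hW he hf
    obtain ⟨h4, h5⟩ := ih (hW.inf_perp h1.nd (pair_le he hf)) (by omega)
    have h6 : nv P W 0 = Fintype.card F ^ (2 * (k + 1)) := by
      rw [nv_rec h1 he hf, h4, card_lam_o hO,
        show finrank F ↥(W ⊓ P.perp ((F ∙ e) ⊔ (F ∙ f))) = 2 * k + 1 by omega]
      zify [Nat.succ_le_of_lt (Fintype.card_pos (α := F))]
      ring
    refine ⟨h6, ?_⟩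
    rw [Finset.prod_range_succ, mul_comm, ← h6, nv_zero, Nat.add_sub_cancel]
    exact (Nat.mul_dvd_mul_left _ h5).trans (step hW h1 he)

theorem o_aniso {W : Submodule F V} (hW : Nd P W) (hd : finrank F W = 2)
    (h : ∀ v ∈ W, P.Val v 0 → v = 0) : Fintype.card F + 1 ∣ Nat.card (FixIso P W) := by
  obtain ⟨u, hu, hu0⟩ := Submodule.exists_mem_ne_zero_of_ne_bot (p := W) (by rintro rfl; simp at hd)
  have huu : P.B u u ≠ 0 := fun e => hu0 (h u hu ((hO.sing_iff h2).mpr e))
  have h1 := hW.finrank_inf_perp ((Submodule.span_singleton_le_iff_mem _ _).mpr hu)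
  rw [finrank_span_singleton hu0] at h1
  obtain ⟨v, ⟨hv, hvu⟩, hv0⟩ := Submodule.exists_mem_ne_zero_of_ne_bot
    (p := W ⊓ P.perp (F ∙ u)) fun e => by rw [e, finrank_bot] at h1; omega
  replace hvu : P.B v u = 0 := hvu u (Submodule.mem_span_singleton_self u)
  have huv := P.B_symm hvu
  have h3 : (F ∙ u) ⊔ (F ∙ v) = W := Submodule.eq_of_le_of_finrank_eq (pair_le hu hv) (by
    rw [hd, H8.finrank_pair hu0 fun e => ?_]
    obtain ⟨a, rfl⟩ := Submodule.mem_span_singleton.mp e
    simp only [map_smul, LinearMap.smul_apply, smul_eq_mul, mul_eq_zero, huu, or_false] at hvu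
    simp [hvu] at hv0)
  obtain ⟨a, ha⟩ := P.val_ex u
  obtain ⟨b, hb⟩ := P.val_ex v
  have h4 : ∀ x y c : F, P.Val (x • u + y • v) c ↔ x ^ 2 * a + y ^ 2 * b = c := fun x y c => by
    have := val_add_orth (hO.val_smul x ha) (hO.val_smul y hb) (by simp [huv])
    exact ⟨fun e => by rw [← hO.uniq this e]; ring, fun e => val_congr this (by rw [← e]; ring)⟩
  have h5 : ∀ x y x' y' : F, x • u + y • v = x' • u + y' • v → x = x' ∧ y = y' :=
    fun x y x' y' e => by
      have e1 := congrArg (P.B · u) e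
      simp only [map_add, map_smul, LinearMap.add_apply, LinearMap.smul_apply, smul_eq_mul, hvu,
        mul_zero, add_zero, mul_left_inj' huu] at e1
      subst e1
      exact ⟨rfl, smul_left_injective F hv0 (add_left_cancel e)⟩
  have hmem : ∀ x y : F, x • u + y • v ∈ W := fun x y =>
    W.add_mem (W.smul_mem _ hu) (W.smul_mem _ hv)
  have ha0 : a ≠ 0 := fun e => hu0 (h u hu (e ▸ ha))
  have h6 : ∀ t : F, a + b * t ^ 2 ≠ 0 := fun t e => one_ne_zero (h5 1 t 0 0 (by
    rw [h _ (hmem 1 t) ((h4 _ _ _).mpr (by linear_combination e))]; simp)).1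
  have h7 : ∀ x : V, P.Val x a → x ≠ 0 := fun x hx e => ha0 (hO.lam _ (e ▸ hx))
  have h8 : ns P W a = Fintype.card F + 1 := by
    rw [← Fintype.card_option, ← Nat.card_eq_fintype_card]
    have v1 : P.Val ((-1 : F) • u + (0 : F) • v) a := (h4 _ _ _).mpr (by ring)
    have v2 : ∀ t : F, P.Val (((a - b * t ^ 2) / (a + b * t ^ 2)) • u +
        (2 * a * t / (a + b * t ^ 2)) • v) a := fun t => (h4 _ _ _).mpr (by
      have := h6 t
      field_simp
      ring)
    have v3 : ∀ t : F, (a - b * t ^ 2) / (a + b * t ^ 2) + 1 = 2 * a / (a + b * t ^ 2) :=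
      fun t => by
        have := h6 t
        field_simp
        ring
    refine (Nat.card_congr (Equiv.ofBijective (fun t : Option F => t.elim
      ⟨_, hmem _ _, h7 _ v1, v1⟩ fun t => ⟨_, hmem _ _, h7 _ (v2 t), v2 t⟩) ⟨?_, ?_⟩)).symm
    · have v4 : ∀ t : F, (a - b * t ^ 2) / (a + b * t ^ 2) ≠ -1 := fun t e => by
        have := v3 t
        rw [e, neg_add_cancel] at this
        exact div_ne_zero (mul_ne_zero h2 ha0) (h6 t) this.symm
      rintro (_ | t) (_ | t') e
      · rfl
      · exact absurd (h5 _ _ _ _ (congrArg Subtype.val e)).1.symm (v4 _)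
      · exact absurd (h5 _ _ _ _ (congrArg Subtype.val e)).1 (v4 _)
      · obtain ⟨e1, e2⟩ := h5 _ _ _ _ (congrArg Subtype.val e)
        have e3 := v3 t
        rw [e1, v3] at e3
        rw [mul_div_right_comm, mul_div_right_comm (2 * a), e3] at e2
        rw [mul_left_cancel₀ (div_ne_zero (mul_ne_zero h2 ha0) (h6 t)) e2]
    · rintro ⟨w, hw, -, hc⟩
      obtain ⟨x, y, rfl⟩ := mem_span_pair'.mp (h3 ▸ hw)
      replace hc := (h4 _ _ _).mp hc
      by_cases hx : x + 1 = 0
      · obtain rfl : x = -1 := by linear_combination hx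
        have hb0 : b ≠ 0 := fun e => hv0 (h v hv (e ▸ hb))
        obtain rfl : y = 0 := by
          simpa [hb0] using (show y ^ 2 * b = 0 by linear_combination hc)
        exact ⟨none, rfl⟩
      · have e1 : a + b * (y / (x + 1)) ^ 2 = 2 * a / (x + 1) := by
          field_simp
          linear_combination hc
        refine ⟨some (y / (x + 1)), Subtype.ext ?_⟩
        have e2 := v3 (y / (x + 1))
        change _ • u + _ • v = _
        rw [eq_sub_of_add_eq e2, e1]
        congr 2
        · field_simp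
          ring
        · field_simp
  have h9 := ns_mul_dvd hW bot_le hu hu0 ha (by rw [perp_bot]; trivial)
  exact h8 ▸ (Dvd.intro _ rfl).trans h9

theorem o_even (k : ℕ) {W : Submodule F V} (hW : Nd P W) (hd : finrank F W = 2 * (k + 1)) :
    ∃ ε : ℤ, (ε = 1 ∨ ε = -1) ∧
      (ns P W 0 : ℤ) = (Fintype.card F ^ (k + 1) - ε) * (Fintype.card F ^ k + ε) ∧
      (Fintype.card F ^ (k + 1) - ε) *
        (∏ i ∈ Finset.range k, (Fintype.card F ^ (2 * (i + 1)) - 1) : ℕ) ∣
          Nat.card (FixIso P W) := by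
  have hq := Nat.succ_le_of_lt (Fintype.card_pos (α := F))
  induction k generalizing W with
  | zero =>
    by_cases h : ∀ v ∈ W, P.Val v 0 → v = 0
    · have h1 := nv_eq_one h
      rw [nv_zero] at h1
      refine ⟨-1, Or.inr rfl, by simp [show ns P W 0 = 0 by omega], ?_⟩
      simpa using Int.natCast_dvd_natCast.mpr (o_aniso hO h2 hW hd h)
    · push Not at h
      obtain ⟨e, he, h1, h0⟩ := h
      obtain ⟨f, hf, h3⟩ := hW.exists_hp he h0 h1
      have h4 := h3.finrank_inf_perp hW he hf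
      have h5 : W ⊓ P.perp ((F ∙ e) ⊔ (F ∙ f)) = ⊥ := Submodule.finrank_eq_zero.mp (by omega)
      have h6 := nv_rec h3 he hf 0
      rw [h5, nv_eq_one (W := ⊥) (fun v hv _ => by simpa using hv), card_lam_o hO, finrank_bot,
        nv_zero] at h6
      have h7 : (ns P W 0 : ℤ) = (Fintype.card F ^ (0 + 1) - 1) * (Fintype.card F ^ 0 + 1) := by
        zify [hq] at h6
        linear_combination h6
      refine ⟨1, Or.inl rfl, h7, ?_⟩
      have h8 := Int.natCast_dvd_natCast.mpr ((Dvd.intro _ rfl).trans (step hW h3 he))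
      rw [h7] at h8
      simpa using (Dvd.intro _ rfl).trans h8
  | succ k ih =>
    obtain ⟨e, he, f, hf, h1⟩ := hW.exists_hp_of_wild (wild_three_of_σ hO.σ) (by omega)
    have h3 := h1.finrank_inf_perp hW he hf
    obtain ⟨ε, h4, h5, h6⟩ := ih (hW.inf_perp h1.nd (pair_le he hf)) (by omega)
    have h7 := nv_rec h1 he hf 0
    rw [card_lam_o hO, nv_zero, nv_zero,
      show finrank F ↥(W ⊓ P.perp ((F ∙ e) ⊔ (F ∙ f))) = 2 * (k + 1) by omega] at h7
    zify [hq] at h7
    have h8 : ε ^ 2 = 1 := by rcases h4 with rfl | rfl <;> simp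
    have h9 : (ns P W 0 : ℤ) =
        (Fintype.card F ^ (k + 1 + 1) - ε) * (Fintype.card F ^ (k + 1) + ε) := by
      rw [h5] at h7
      linear_combination h7 + (1 - Fintype.card F) * h8
    refine ⟨ε, h4, h9, ?_⟩
    have h10 := (mul_dvd_mul_left _ h6).trans (by exact_mod_cast step hW h1 he :
      (ns P W 0 : ℤ) * _ ∣ Nat.card (FixIso P W))
    refine (dvd_of_eq ?_).trans h10
    rw [h9, Finset.prod_range_succ]
    generalize ∏ i ∈ Finset.range k, (Fintype.card F ^ (2 * (i + 1)) - 1) = A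
    rw [Nat.cast_mul, Nat.cast_sub (Nat.one_le_pow _ _ hq)]
    push_cast
    linear_combination (Fintype.card F ^ (k + 1 + 1) - ε) * A * h8

end orthogonal

theorem fixIso_top_eq : FixIso P ⊤ = P.Iso := le_antisymm (fun _ h => h.1) fun _ => fixIso_top

end Cfsg.Agent.H1.Ord
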