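import Cfsg.Agent.H1.ElTensor
import Cfsg.Agent.H1.Orders

/-!
Elements of prime order and similarity groups of forms.
-/

set_option autoImplicit false
set_option linter.unusedSectionVars false

namespace Cfsg.Agent.H1.El

open Module Polynomial Matrix Cfsg.Agent.H8 Cfsg.Agent.H7 Cfsg.Agent.H7.Polar
open Cfsg.Agent.H4.El hiding scal exists_diag
open scoped MatrixGroups

section

variable {F : Type*} [Field F] {V : Type*} [AddCommGroup V] [Module F V] {P : Polar F V}

variable (P) in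
/-- similarity with multiplier `μ` -/
def Sml (y : Module.End F V) (μ : F) : Prop := ∀ u v, P.B (y u) (y v) = μ * P.B u v

theorem sml_of_basis {ι : Type*} (b : Basis ι F V) {y : Module.End F V} {μ : F}
    (h : ∀ i j, P.B (y (b i)) (y (b j)) = μ * P.B (b i) (b j)) : Sml P y μ := fun u v => by
  have h1 : ∀ i, P.B (y (b i)) (y v) = μ * P.B (b i) v := fun i =>
    LinearMap.congr_fun (b.ext (f₁ := (P.B (y (b i))).comp y) (f₂ := μ • P.B (b i)) (h i)) v
  exact LinearMap.congr_fun (b.ext (f₁ := (P.B.flip (y v)).comp y) (f₂ := μ • P.B.flip v) h1) u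

theorem Sml.pow {y : Module.End F V} {μ : F} (h : Sml P y μ) (k : ℕ) : Sml P (y ^ k) (μ ^ k) := by
  induction k with
  | zero => intro u v; simp
  | succ k ih =>
    intro u v
    rw [pow_succ', Module.End.mul_apply, Module.End.mul_apply, h, ih, pow_succ', mul_assoc]

theorem Sml.pow_eq [Nontrivial V] {y : Module.End F V} {μ z : F} {k : ℕ} (h : Sml P y μ)
    (hy : y ^ k = z • 1) : μ ^ k = z * P.σ z := by
  obtain ⟨v, hv⟩ := exists_ne (0 : V)
  obtain ⟨w, hw⟩ := P.exists_B_ne hv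
  have := h.pow k v w
  simp only [hy, LinearMap.smul_apply, Module.End.one_apply, map_smul, B_smul_right,
    smul_eq_mul] at this
  exact mul_right_cancel₀ hw (by linear_combination -this)

theorem Sml.σ_eq [Nontrivial V] {y : Module.End F V} {μ : F} (h : Sml P y μ) : P.σ μ = μ := by
  obtain ⟨v, hv⟩ := exists_ne (0 : V)
  obtain ⟨w, hw⟩ := P.exists_B_ne hv
  have h1 := P.herm (y w) (y v)
  rw [h, h, map_mul, σ_herm, mul_left_comm, ← mul_assoc P.ε, ε_mul_ε, one_mul] at h1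
  exact (mul_right_cancel₀ hw h1).symm

theorem Sml.inj {y : Module.End F V} {μ : F} (h : Sml P y μ) (h0 : μ ≠ 0) :
    Function.Injective y := (injective_iff_map_eq_zero y).mpr fun v hv => P.nondeg' fun w => by
  have := h v w
  rw [hv, map_zero, LinearMap.zero_apply] at this
  exact (mul_eq_zero.mp this.symm).resolve_left h0

theorem Sml.exists_perm {y : Module.End F V} {μ : F} (h : Sml P y μ) {ι : Type*} [Fintype ι]
    {l : ι → F} (hy : Diag y l) : ∃ π : Equiv.Perm ι, ∀ i, l i * P.σ (l (π i)) = μ ∧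
      ((∀ v, P.B v v = 0) → π i ≠ i) := by
  classical
  obtain ⟨b, hb⟩ := hy
  have h1 : (of fun j i => P.B (b i) (b j) : Matrix ι ι F).det ≠ 0 := fun e => by
    obtain ⟨v, h0, hv⟩ := exists_mulVec_eq_zero_iff.mpr e
    refine h0 (b.equivFun.symm.map_eq_zero_iff.mp (P.nondeg' fun w => LinearMap.congr_fun
      (b.ext (f₁ := P.B (b.equivFun.symm v)) (f₂ := 0) fun j => ?_) w))
    simpa [mulVec, dotProduct, mul_comm] using congrFun hv j
  rw [det_apply] at h1
  obtain ⟨π, -, h2⟩ := Finset.exists_ne_zero_of_sum_ne_zero h1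
  have h3 : ∀ i, P.B (b i) (b (π i)) ≠ 0 := fun i e => h2 (by
    rw [Finset.prod_eq_zero (Finset.mem_univ i) e, smul_zero])
  refine ⟨π, fun i => ⟨mul_right_cancel₀ (h3 i) ?_, fun h4 e => h3 i (by rw [e, h4])⟩⟩
  have := h (b i) (b (π i))
  simp only [hb, map_smul, LinearMap.smul_apply, B_smul_right, smul_eq_mul] at this
  linear_combination this

theorem false_of_rank_one {T : Module.End F V} (h1 : finrank F (LinearMap.range T) = 1)
    (h : ∀ v, P.B (T v) v = 0) : False := by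
  obtain ⟨⟨_, v, rfl⟩, h0, h2⟩ := finrank_eq_one_iff'.mp h1
  obtain ⟨w, hw⟩ := P.exists_B_ne (x := T v) fun e => h0 (Subtype.ext e)
  obtain ⟨c, hc⟩ := h2 ⟨T w, w, rfl⟩
  replace hc : c • T v = T w := congrArg Subtype.val hc
  have h3 := h w
  have h4 := h (v + w)
  rw [← hc, map_smul, LinearMap.smul_apply, smul_eq_mul, mul_eq_zero, or_iff_left hw] at h3
  rw [h3, zero_smul] at hc
  simp [← hc, h v, hw] at h4

theorem exists_basis_of_dual [FiniteDimensional F V] {ι : Type*} [Fintype ι] (v w : ι → V)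
    (h1 : ∀ i j, i ≠ j → P.B (v i) (w j) = 0) (h2 : ∀ i, P.B (v i) (w i) ≠ 0)
    (h : Fintype.card ι = finrank F V) : ∃ b : Basis ι F V, ∀ i, b i = v i := by
  have h3 : LinearIndependent F v := Fintype.linearIndependent_iff.mpr fun g hg j => by
    have := congrArg (P.B · (w j)) hg
    simp only [map_sum, map_smul, LinearMap.sum_apply, LinearMap.smul_apply, smul_eq_mul, map_zero,
      LinearMap.zero_apply] at this
    rw [Finset.sum_eq_single j (fun i _ hi => by rw [h1 i j hi, mul_zero]) (by simp)] at this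
    exact (mul_eq_zero.mp this).resolve_right (h2 j)
  exact ⟨Basis.mk h3 (h3.span_eq_top_of_card_eq_finrank' h).ge, by simp⟩

variable (P) in
/-- hyperbolic pairs together with an orthogonal family of anisotropic vectors -/
structure Frame {κ ν : Type*} [DecidableEq κ] (e f : κ → V) (g : ν → V) : Prop where
  ee : ∀ i j, P.B (e i) (e j) = 0
  ff : ∀ i j, P.B (f i) (f j) = 0
  ef : ∀ i j, P.B (e i) (f j) = if i = j then 1 else 0
  eg : ∀ i j, P.B (e i) (g j) = 0
  fg : ∀ i j, P.B (f i) (g j) = 0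
  gg : ∀ i j, i ≠ j → P.B (g i) (g j) = 0
  g0 : ∀ i, P.B (g i) (g i) ≠ 0

theorem Frame.fe {κ ν : Type*} [DecidableEq κ] {e f : κ → V} {g : ν → V} (h : Frame P e f g)
    (i j : κ) : P.B (f i) (e j) = if i = j then P.ε else 0 := by
  rw [P.herm, h.ef]
  by_cases hij : i = j <;> simp [hij, eq_comm]

theorem Frame.ge {κ ν : Type*} [DecidableEq κ] {e f : κ → V} {g : ν → V} (h : Frame P e f g)
    (i : ν) (j : κ) : P.B (g i) (e j) = 0 := P.B_symm (h.eg j i)

theorem Frame.gf {κ ν : Type*} [DecidableEq κ] {e f : κ → V} {g : ν → V} (h : Frame P e f g)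
    (i : ν) (j : κ) : P.B (g i) (f j) = 0 := P.B_symm (h.fg j i)

variable [Fintype F] [FiniteDimensional F V]

theorem exists_orth (h : ∀ W, Nd P W → W ≠ ⊥ → ∃ v ∈ W, P.B v v ≠ 0) (l : ℕ) {W : Submodule F V}
    (hW : Nd P W) (hl : l ≤ finrank F W) : ∃ g : Fin l → V, (∀ i, g i ∈ W) ∧
      (∀ i j, i ≠ j → P.B (g i) (g j) = 0) ∧ ∀ i, P.B (g i) (g i) ≠ 0 := by
  induction l generalizing W with
  | zero => exact ⟨Fin.elim0, by simp, by simp, by simp⟩
  | succ l ih =>
    obtain ⟨v, hv, h0⟩ := h W hW (by rintro rfl; simp at hl)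
    have h1 := (Submodule.span_singleton_le_iff_mem _ _).mpr hv
    have h2 := hW.finrank_inf_perp h1
    rw [finrank_span_singleton (by rintro rfl; simp at h0)] at h2
    obtain ⟨g, h3, h4, h5⟩ := ih (hW.inf_perp (nd_span h0) h1) (by omega)
    have h6 : ∀ i, P.B (g i) v = 0 := fun i => (h3 i).2 v (Submodule.mem_span_singleton_self v)
    refine ⟨Fin.cons v g, Fin.cases hv fun i => (h3 i).1, ?_, Fin.cases h0 h5⟩
    exact Fin.cases (Fin.cases (by simp) fun j _ => P.B_symm (h6 j))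
      fun i => Fin.cases (fun _ => h6 i) fun j hij => h4 i j fun e => hij (by rw [e])

theorem exists_frame_aux {d : ℕ} (hw : P.Wild d) {l : ℕ} (hd : d ≤ l + 2)
    (h : l = 0 ∨ ∀ W, Nd P W → W ≠ ⊥ → ∃ v ∈ W, P.B v v ≠ 0) (k : ℕ) {W : Submodule F V}
    (hW : Nd P W) (hl : 2 * k + l ≤ finrank F W) : ∃ (e f : Fin k → V) (g : Fin l → V),
      (∀ i, e i ∈ W) ∧ (∀ i, f i ∈ W) ∧ (∀ i, g i ∈ W) ∧ Frame P e f g := by
  induction k generalizing W with
  | zero =>
    obtain ⟨g, h1, h2, h3⟩ : ∃ g : Fin l → V, (∀ i, g i ∈ W) ∧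
        (∀ i j, i ≠ j → P.B (g i) (g j) = 0) ∧ ∀ i, P.B (g i) (g i) ≠ 0 := by
      rcases h with rfl | h
      · exact ⟨Fin.elim0, by simp, by simp, by simp⟩
      · exact exists_orth h l hW (by omega)
    exact ⟨Fin.elim0, Fin.elim0, g, by simp, by simp, h1,
      by simp, by simp, by simp, by simp, by simp, h2, h3⟩
  | succ k ih =>
    obtain ⟨a, ha, b, hb, h1⟩ := hW.exists_hp_of_wild hw (by omega)
    have h2 := h1.finrank_inf_perp hW ha hb
    obtain ⟨e, f, g, he, hf, hg, h3⟩ := ih (hW.inf_perp h1.nd (pair_le ha hb)) (by omega)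
    have he' := fun i => mem_perp_pair.mp (he i).2
    have hf' := fun i => mem_perp_pair.mp (hf i).2
    have hg' := fun i => mem_perp_pair.mp (hg i).2
    refine ⟨Fin.cons a e, Fin.cons b f, g, Fin.cases ha fun i => (he i).1,
      Fin.cases hb fun i => (hf i).1, fun i => (hg i).1, ?_, ?_, ?_, ?_, ?_, h3.gg, h3.g0⟩
    · exact Fin.cases (Fin.cases h1.ee fun j => P.B_symm (he' j).1)
        fun i => Fin.cases (he' i).1 (h3.ee i)
    · exact Fin.cases (Fin.cases h1.ff fun j => P.B_symm (hf' j).2)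
        fun i => Fin.cases (hf' i).2 (h3.ff i)
    · exact Fin.cases (Fin.cases (by simpa using h1.pol) fun j => by
          simpa [(Fin.succ_ne_zero j).symm] using P.B_symm (hf' j).1)
        fun i => Fin.cases (by simpa using (he' i).2) fun j => by simpa using h3.ef i j
    · exact Fin.cases (fun j => P.B_symm (hg' j).1) h3.eg
    · exact Fin.cases (fun j => P.B_symm (hg' j).2) h3.fg

theorem exists_frame {d k l : ℕ} (hw : k = 0 ∨ P.Wild d) (hd : d ≤ l + 2)
    (h : l = 0 ∨ ∀ W, Nd P W → W ≠ ⊥ → ∃ v ∈ W, P.B v v ≠ 0) (hn : finrank F V = 2 * k + l) :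
    ∃ b : Basis ((Fin k ⊕ Fin k) ⊕ Fin l) F V, Frame P (fun i => b (.inl (.inl i)))
      (fun i => b (.inl (.inr i))) fun i => b (.inr i) := by
  obtain ⟨e, f, g, h1⟩ : ∃ (e f : Fin k → V) (g : Fin l → V), Frame P e f g := by
    rcases hw with rfl | hw
    · rcases h with rfl | h
      · exact ⟨Fin.elim0, Fin.elim0, Fin.elim0, by constructor <;> simp⟩
      · obtain ⟨g, -, h2, h3⟩ := exists_orth h l nd_top (by simp [hn])
        exact ⟨Fin.elim0, Fin.elim0, g, by simp, by simp, by simp, by simp, by simp, h2, h3⟩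
    · obtain ⟨e, f, g, -, -, -, h1⟩ := exists_frame_aux hw hd h k nd_top (by simp [hn])
      exact ⟨e, f, g, h1⟩
  obtain ⟨b, hb⟩ := exists_basis_of_dual (P := P) (Sum.elim (Sum.elim e f) g)
    (Sum.elim (Sum.elim f e) g) (by
      rintro ((i | i) | i) ((j | j) | j) hij <;>
        simp_all [h1.ee, h1.ff, h1.ef, h1.fe, h1.eg, h1.fg, h1.ge, h1.gf, h1.gg])
    (by rintro ((i | i) | i) <;> simp [h1.ef, h1.fe, h1.g0]) (by simp [hn, two_mul])
  exact ⟨b, by simpa [hb] using h1⟩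

end

section

variable {F : Type*} [Field F] {n : Type} [Fintype n] [DecidableEq n] {P : Polar F (n → F)}
  {H : Subgroup (GL n F)}

variable (P H) in
/-- `H` is the group of similarities -/
structure IsSml : Prop where
  mem : ∀ g, g ∈ H ↔ ∃ μ, μ ≠ 0 ∧ Sml P (toLin' (g : Matrix n n F)) μ
  iso : ∀ g : (n → F) ≃ₗ[F] (n → F), (∀ x y, P.B (g x) (g y) = P.B x y) → g ∈ P.Iso

theorem mem_similarityGroup_iff {f : (n → F) → (n → F) → F} (h : ∀ x y, P.B x y = f x y)
    (g : GL n F) :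
    g ∈ Geo.similarityGroup f ↔ ∃ μ, μ ≠ 0 ∧ Sml P (toLin' (g : Matrix n n F)) μ :=
  ⟨fun ⟨c, hc⟩ => ⟨c, c.ne_zero, fun u v => by rw [h, h]; exact hc u v⟩,
    fun ⟨c, h0, hc⟩ => ⟨Units.mk0 c h0, fun u v => by rw [← h, ← h]; exact hc u v⟩⟩

theorem isSml_sp {f : (n → F) → (n → F) → F} (hf : Geo.IsSymplecticForm f) :
    IsSml (spPolar hf) (Geo.similarityGroup f) :=
  ⟨mem_similarityGroup_iff fun _ _ => rfl, fun _ h => (mem_spPolar_Iso hf).mpr h⟩

theorem isSml_u [Fintype F] {q : ℕ} (hF : Fintype.card F = q ^ 2) {f : (n → F) → (n → F) → F}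
    (hf : Geo.IsUnitaryFormPow q f) : IsSml (unitPowPolar hF hf) (Geo.similarityGroup f) :=
  ⟨mem_similarityGroup_iff fun _ _ => rfl,
    fun _ h => mem_Iso_of_unitary (unitPowPolar_ne hF hf) rfl h⟩

theorem isO_oPolar' {Q : (n → F) → F} (hQ : Geo.IsNondegenerateQuadraticForm Q) :
    IsO (oPolar hQ) := ⟨fun _ => rfl, rfl, oPolar_lam hQ⟩

theorem isSml_o {Q : (n → F) → F} (hQ : Geo.IsNondegenerateQuadraticForm Q) (h2 : (2 : F) ≠ 0) :
    IsSml (oPolar hQ) (Geo.quadSimilarityGroup Q) := by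
  refine ⟨fun g => ⟨fun ⟨c, hc⟩ => ⟨c, c.ne_zero, fun u v => ?_⟩,
    fun ⟨c, h0, hc⟩ => ⟨Units.mk0 c h0, fun v => mul_left_cancel₀ h2 ?_⟩⟩,
    fun _ => (isO_oPolar' hQ).mem_Iso h2⟩
  · simp only [oPolar_B, QuadraticMap.polar, toLin'_apply, ← mulVec_add, hc]
    ring
  · have := hc v v
    rw [(isO_oPolar' hQ).self rfl, (isO_oPolar' hQ).self rfl] at this
    rw [mul_left_comm]
    exact this

namespace IsSml

variable (hH : IsSml P H)
include hH

theorem hasScal [Nonempty n] : HasScal H := fun x c hx => by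
  have hc : c ≠ 0 := fun e => x.det_ne_zero (by simp [hx, e])
  refine (hH.mem x).mpr ⟨c * P.σ c, by simp [hc], fun u v => ?_⟩
  rw [hx, toLin'_smul_one]
  simp only [LinearMap.smul_apply, Module.End.one_apply, map_smul, B_smul_right, smul_eq_mul]
  ring

theorem in_of {y : Module.End F (n → F)} {μ : F} (h : Sml P y μ) (h0 : μ ≠ 0) : In H y := by
  refine in_toLE (g := LinearEquiv.ofInjectiveEndo y (h.inj h0)) ((hH.mem _).mpr ⟨μ, h0, ?_⟩)
  rw [← toLE_coe, MulEquiv.apply_symm_apply]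
  exact h

theorem of_in {V : Type*} [AddCommGroup V] [Module F V] {f : Module.End F V} (h : In H f) :
    ∃ (y : Module.End F (n → F)) (μ : F), μ ≠ 0 ∧ Sml P y μ ∧ Sim f y := by
  obtain ⟨x, hx, hs⟩ := h
  obtain ⟨μ, h0, h1⟩ := (hH.mem x).mp hx
  exact ⟨_, μ, h0, h1, hs⟩

theorem exists_iso {y : Module.End F (n → F)} (h : Sml P y 1) :
    ∃ x ∈ P.Iso, (x : Module.End F (n → F)) = y :=
  ⟨LinearEquiv.ofInjectiveEndo y (h.inj one_ne_zero),
    hH.iso _ fun u v => (h u v).trans (one_mul _), rfl⟩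

theorem card_dvd : Nat.card P.Iso ∣ Nat.card H :=
  Subgroup.card_dvd_of_injective (((toLE.symm : _ ≃* GL n F).toMonoidHom.comp
    P.Iso.subtype).codRestrict H fun g => (hH.mem _).mpr ⟨1, one_ne_zero, fun u v => by
      rw [← toLE_coe, one_mul]
      simpa using Iso.B g.2 u v⟩)
    fun _ _ e => Subtype.ext (toLE.symm.injective (congrArg Subtype.val e))

variable [Fintype F] {p : ℕ} [Fact p.Prime] [CharP F p] {r : ℕ} [Fact r.Prime]

theorem relIndex_dvd {A B : ℤ} (hA : A ∣ Nat.card P.Iso) (h : (Nat.card (GL n F) : ℤ) = A * B) :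
    (H.relIndex (Geo.specialLinear n F) : ℤ) ∣ B :=
  Int.natCast_dvd.mpr (relIndex_dvd_of_GL ((Int.natAbs_dvd_natAbs.mpr hA).trans hH.card_dvd)
    (by rw [← Int.natAbs_mul, ← h, Int.natAbs_natCast]))

theorem symm_of_in {ζ : F} (hζ : IsPrimitiveRoot ζ r) (hσ : P.σ ζ = ζ) {m : ℕ}
    {y : Module.End F (n → F)} {a : Fin m → ZMod r} (hy : Diag y fun i => zp ζ (a i))
    (h : In H y) : ∃ (π : Equiv.Perm (Fin m)), (∀ i j, a i + a (π i) = a j + a (π j)) ∧
      ((∀ v, P.B v v = 0) → ∀ i, π i ≠ i) := by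
  obtain ⟨x, μ, -, h1, h2⟩ := hH.of_in h
  obtain ⟨π, h3⟩ := h1.exists_perm (hy.of_sim h2.symm)
  refine ⟨π, fun i j => (zp_inj hζ).mp ?_, fun h4 i => (h3 i).2 h4⟩
  have h5 : ∀ i, zp ζ (a i + a (π i)) = μ := fun i => by
    rw [← (h3 i).1, zp_add hζ, zp, zp, map_pow, hσ]
  rw [h5, h5]

theorem symm_of_in' {ζ : F} (hζ : IsPrimitiveRoot ζ r) (hσ : P.σ ζ = ζ) {m : ℕ}
    {y : Module.End F (n → F)} {a : Fin m → ZMod r} (hy : Diag y fun i => zp ζ (a i))
    (h : In H y) : Symm a := by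
  obtain ⟨π, h1, -⟩ := hH.symm_of_in hζ hσ hy h
  rcases isEmpty_or_nonempty (Fin m) with h4 | ⟨⟨i⟩⟩
  · exact ⟨0, fun x => by rw [cnt_eq_zero (fun i => h4.elim i)]; exact Nat.zero_le _⟩
  exact ⟨a i + a (π i), fun x => cnt_le_of_inj π π.injective fun j hj => by
    rw [h1 i j, hj, add_sub_cancel_left]⟩

theorem exists_iso_of_in [Nonempty n] (hr : ¬ r ∣ Fintype.card F - 1)
    {y : Module.End F (n → F)} (hy : y ^ r = 1) (h : In H y) :
    ∃ x ∈ P.Iso, x ^ r = 1 ∧ Sim y (x : Module.End F (n → F)) := by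
  obtain ⟨x, μ, -, h1, h2⟩ := hH.of_in h
  have h3 : x ^ r = (1 : F) • 1 := ((h2.pow r).eq_smul_one_iff 1).mp (by rw [hy, one_smul])
  obtain rfl : μ = 1 := eq_one_of_pow_eq_one hr (by simpa using h1.pow_eq h3)
  obtain ⟨x, h4, rfl⟩ := hH.exists_iso h1
  exact ⟨x, h4, LinearEquiv.toLinearMap_injective (by rw [coe_pow', h3, one_smul]; rfl), h2⟩

omit hH in
theorem finrank_Fix {y : Module.End F (n → F)} {x : (n → F) ≃ₗ[F] (n → F)}
    (h : Sim y (x : Module.End F (n → F))) :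
    finrank F (Fix x) = finrank F (LinearMap.ker (y - 1)) := by
  have := (h.sub_smul_one 1).finrank_ker_eq
  rw [one_smul] at this
  rw [this, ← Kr_X_sub_one, Kr, ker_aeval_X_sub_one]

theorem not_elus_block [Nonempty n] (hrp : r ≠ p) (hc : orderOf (Fintype.card F : ZMod r) ≠ 1)
    (hn : orderOf (Fintype.card F : ZMod r) ≤ Fintype.card n)
    (h : NSP P.σ (cyclotomic r F) (orderOf (Fintype.card F : ZMod r))) : ¬ Elus H r := by
  obtain ⟨y, h1, h2, h3, h4, -⟩ := exists_irr_block (V := n → F) hrp hc 1 one_pos (by simpa)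
  refine not_elus y 1 h1 (by rw [h2, one_smul]) h3 fun h5 => ?_
  obtain ⟨x, h6, h7, h8⟩ := hH.exists_iso_of_in
    (fun e => hc ((orderOf_eq_one_iff_dvd Fintype.card_pos).mpr e)) h2 h5
  obtain ⟨N, -, h9⟩ := Blk.exists_finrank_top hrp (Or.inr ⟨h, rfl⟩) h6 h7
  have h10 := orderOf_card_pos (F := F) hrp
  have h11 : 1 = N * 2 := Nat.eq_of_mul_eq_mul_right h10 (by
    rw [finrank_Fix h8] at h9
    rw [mul_assoc]
    omega)
  omega

theorem not_elus_fpf [Nonempty n] (hrp : r ≠ p) (hc : orderOf (Fintype.card F : ZMod r) ≠ 1)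
    (hn : orderOf (Fintype.card F : ZMod r) ∣ Fintype.card n) (h : ¬ r ∣ Ord.ns P ⊤ 0) :
    ¬ Elus H r := by
  obtain ⟨s, hs⟩ := hn
  have := Fintype.card_pos (α := n)
  obtain ⟨y, h1, h2, h3, h4, -⟩ := exists_irr_block (V := n → F) hrp hc s
    (Nat.pos_of_ne_zero (by rintro rfl; omega)) (by simp [hs, mul_comm])
  refine not_elus y 1 h1 (by rw [h2, one_smul]) h3 fun h5 => ?_
  obtain ⟨x, h6, h7, h8⟩ := hH.exists_iso_of_in
    (fun e => hc ((orderOf_eq_one_iff_dvd Fintype.card_pos).mpr e)) h2 h5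
  have h9 : Fix x = ⊥ := Submodule.finrank_eq_zero.mp (by
    rw [finrank_fintype_fun_eq_card, hs, mul_comm] at h4
    rw [finrank_Fix h8]
    omega)
  obtain ⟨v, h10, h11⟩ := exists_fixed_of_not_dvd (G := Subgroup.zpowers x) (X := n → F)
    (IsPGroup.of_card (n := 1) (by
      rw [Nat.card_zpowers, pow_one]
      refine orderOf_eq_prime h7 ?_
      rintro rfl
      obtain ⟨v, hv⟩ := exists_ne (0 : n → F)
      exact hv (by simpa [h9] using (show v ∈ Fix (1 : (n → F) ≃ₗ[F] (n → F)) from rfl))))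
    (fun v => v ∈ (⊤ : Submodule F (n → F)) ∧ v ≠ 0 ∧ P.Val v 0)
    (fun g v hv => ⟨trivial, (g.1.map_ne_zero_iff).mpr hv.2.1,
      Iso.val ((Subgroup.zpowers_le.mpr h6) g.2) hv.2.2⟩) h
  have h12 : v ∈ Fix x := h11 ⟨x, Subgroup.mem_zpowers x⟩
  exact h10.2.1 (by simpa [h9] using h12)

theorem in_invol (h2 : (2 : F) ≠ 0) {y : Module.End F (n → F)} (hy : y ^ 2 = 1)
    {U : Submodule F (n → F)} (hU : Nd P U)
    (h : finrank F (LinearMap.ker (y - 1)) + finrank F U = Fintype.card n) : In H y := by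
  obtain ⟨x, h1, h3, -⟩ := hU.exists_scal (a := -1) (by simp)
  have h4 : Fpf P 2 x U := ⟨h1, fixIso_pow_eq_one hU h1 fun v hv => by
    rw [sq_apply, h3 v hv, map_smul, h3 v hv]; simp, fun v hv e => by
      rw [h3 v hv, neg_one_smul, neg_eq_iff_add_eq_zero, ← two_smul F] at e
      exact (smul_eq_zero.mp e).resolve_left h2⟩
  refine (hH.in_of (y := x) (fun u v => (Iso.B h1.1 u v).trans (one_mul _).symm)
    one_ne_zero).of_sim (sim_of_sq_one hy (by rw [← coe_pow', h4.pow]; rfl) rfl ?_)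
  have h5 := nd_top.finrank_inf_perp (P := P) (U := U) le_top
  rw [top_inf_eq, finrank_top, finrank_fintype_fun_eq_card] at h5
  rw [← finrank_Fix (Sim.refl _), h4.Fix_eq hU]
  omega

theorem in_invol_two [CharP F 2] (hε : P.ε = 1 ∨ P.ε = -1) {k l : ℕ} (hl : l ≤ 1)
    (b : Basis ((Fin k ⊕ Fin k) ⊕ Fin l) F (n → F)) (hb : Frame P (fun i => b (.inl (.inl i)))
      (fun i => b (.inl (.inr i))) fun i => b (.inr i))
    {y : Module.End F (n → F)} (hy : y ^ 2 = 1) : In H y := by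
  classical
  have h0 : ∀ N : Module.End F (n → F), N + N = 0 := fun N => by
    rw [← two_smul F, CharTwo.two_eq_zero, zero_smul]
  have hn := finrank_eq_card_basis b
  simp only [Fintype.card_sum, Fintype.card_fin] at hn
  obtain ⟨a, ha⟩ : ∃ a, a = finrank F (LinearMap.range (y - 1)) := ⟨_, rfl⟩
  have h1 := LinearMap.finrank_range_add_finrank_ker (y - 1)
  have h2 : a ≤ finrank F (LinearMap.ker (y - 1)) := ha ▸ Submodule.finrank_mono
    (LinearMap.range_le_ker_iff.mpr (by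
      rw [← Module.End.mul_eq_comp, show (y - 1) * (y - 1) = y ^ 2 + 1 - (y + y) by
        simp only [sq, mul_sub, sub_mul, mul_one, one_mul]; abel, hy, h0, h0, sub_zero]))
  obtain ⟨c, hc⟩ : ∃ c : Fin k → F, ∀ i, c i = if (i : ℕ) < a then 1 else 0 := ⟨_, fun _ => rfl⟩
  have hc' : ∀ i, P.σ (c i) = c i := fun i => by rw [hc]; split_ifs <;> simp
  let d : (Fin k ⊕ Fin k) ⊕ Fin l → F := Sum.elim (Sum.elim c 0) 0
  let s := (Equiv.sumComm (Fin k) (Fin k)).sumCongr (Equiv.refl (Fin l))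
  obtain ⟨N, hN⟩ : ∃ N : Module.End F (n → F), ∀ i, N (b i) = d (s i) • b (s i) :=
    ⟨b.constr F _, b.constr_basis F _⟩
  have h3 : finrank F (LinearMap.range N) = a := by
    have e1 : Diag (N ∘ₗ (b.equiv b s : Module.End F (n → F))) d := ⟨b, fun i => by
      rw [LinearMap.comp_apply, LinearEquiv.coe_coe, Basis.equiv_apply, hN]
      rcases i with (i | i) | i <;> rfl⟩
    rw [← LinearMap.range_comp_of_range_eq_top N (b.equiv b s).range, e1.finrank_range,
      Finset.card_filter]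
    simp only [Fintype.sum_sum_type, d, Sum.elim_inl, Sum.elim_inr, Pi.zero_apply]
    simp [hc, Fin.card_filter_val_lt]
    omega
  have h4 : N * N = 0 := b.ext fun i => by
    rcases i with (i | i) | i <;> simp [hN, d, s]
  have h5 : P.ε + 1 = 0 := by
    rcases hε with e | e <;> simp [e, CharTwo.add_self_eq_zero]
  refine (hH.in_of (y := 1 + N) (μ := 1) (sml_of_basis b ?_) one_ne_zero).of_sim
    (sim_of_sq_one hy (by
      rw [show (1 + N) ^ 2 = 1 + (N + N) + N * N by noncomm_ring, h0, h4]; simp) rfl ?_)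
  · rintro ((i | i) | i) ((j | j) | j) <;>
      simp [hN, d, s, hb.ee, hb.ff, hb.ef, hb.fe, hb.eg, hb.fg, hb.ge, hb.gf]
    by_cases hij : i = j
    · subst hij
      simp only [if_true, hc']
      linear_combination (c i) * h5
    · simp [hij]
  · have h6 := LinearMap.finrank_range_add_finrank_ker N
    rw [add_sub_cancel_left]
    omega

theorem in_of_frame {k l : ℕ} (b : Basis ((Fin k ⊕ Fin k) ⊕ Fin l) F (n → F))
    (hb : Frame P (fun i => b (.inl (.inl i))) (fun i => b (.inl (.inr i))) fun i => b (.inr i))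
    {V : Type*} [AddCommGroup V] [Module F V] {y : Module.End F V}
    {d : (Fin k ⊕ Fin k) ⊕ Fin l → F} (hy : Diag y d)
    (h1 : ∀ i, d (.inl (.inl i)) * P.σ (d (.inl (.inr i))) = 1)
    (h2 : ∀ i, d (.inr i) * P.σ (d (.inr i)) = 1) : In H y := by
  obtain ⟨N, hN⟩ : ∃ N : Module.End F (n → F), ∀ i, N (b i) = d i • b i :=
    ⟨b.constr F _, b.constr_basis F _⟩
  have h3 : ∀ i, d (.inl (.inr i)) * P.σ (d (.inl (.inl i))) = 1 := fun i => by
    simpa [mul_comm] using congrArg P.σ (h1 i)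
  refine (hH.in_of (μ := 1) (sml_of_basis b ?_) one_ne_zero).of_sim (hy.sim ⟨b, hN⟩)
  have h4 : ∀ i j, P.B (b i) (b j) = 0 ∨ d i * P.σ (d j) = 1 := by
    rintro ((i | i) | i) ((j | j) | j)
    exacts [.inl (hb.ee _ _), (eq_or_ne i j).symm.imp (fun e => by simpa [e] using hb.ef i j)
      (by rintro rfl; exact h1 i), .inl (hb.eg _ _),
      (eq_or_ne i j).symm.imp (fun e => by simpa [e] using hb.fe i j) (by rintro rfl; exact h3 i),
      .inl (hb.ff _ _), .inl (hb.fg _ _), .inl (hb.ge _ _), .inl (hb.gf _ _),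
      (eq_or_ne i j).symm.imp (hb.gg i j) (by rintro rfl; exact h2 i)]
  intro i j
  simp only [hN, map_smul, LinearMap.smul_apply, B_smul_right, smul_eq_mul]
  rcases h4 i j with e | e
  · simp [e]
  · linear_combination (P.B (b i) (b j)) * e

end IsSml

end

section

variable {F : Type*} [Field F] [Fintype F] {p : ℕ} [Fact p.Prime] [CharP F p] {r : ℕ}
  [Fact r.Prime] {n : ℕ} {P : Polar F (Fin n → F)} {H : Subgroup (GL (Fin n) F)}

theorem IsSml.elus_exc (hH : IsSml P H) (hrp : r ≠ p) (hw : P.Wild 3)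
    (ha : ∀ W, Nd P W → W ≠ ⊥ → ∃ v ∈ W, P.B v v ≠ 0) {ζ : F} (hζ : IsPrimitiveRoot ζ r)
    (hσ : P.σ ζ = ζ) (hr : r = 3 ∨ r = 5) (hn : n = r)
    (hv : padicValNat r (Fintype.card F - 1) = 1) : Elus H r := by
  have : Nonempty (Fin n) := ⟨⟨0, by omega⟩⟩
  have hr' : r.Prime := Fact.out
  refine elus_of_in' hH.hasScal (Or.inl hrp) (fun y w hy h5 _ => ?_) fun f z h5 h6 h => ?_
  · obtain ⟨a, ha'⟩ := exists_diag_zp hζ hy (n := n) (by simp)
    have h6 := eq_one_of_pow_mul (r := r) (n := n) (w := w) (x := LinearMap.det y) (by omega)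
      (by rw [hv, hn, padicValNat_self]) (by rw [← map_pow, hy, map_one]) (by simpa using h5)
    rw [ha'.det, zp_sum hζ, zp_eq_one hζ] at h6
    obtain ⟨k, e, he⟩ := exists_pairing hn.symm (by omega) a h6
    obtain ⟨b, hb⟩ := exists_frame (P := P) (k := k) (l := 1) (Or.inr hw) le_rfl (Or.inr ha) (by
      simpa [two_mul] using (Fintype.card_congr e).symm)
    let e' : (Fin k ⊕ Fin k) ⊕ Fin 1 ≃ Fin n :=
      ((Equiv.refl _).sumCongr (Equiv.ofUnique _ _)).trans e
    have h7 : ∀ x : ZMod r, P.σ (zp ζ x) = zp ζ x := fun x => by rw [zp, map_pow, hσ]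
    refine In.of_smul hH.hasScal (zp_ne_zero hζ (-a (e (.inr ())))) (hH.in_of_frame b hb
      (d := fun i => zp ζ (a (e' i) - a (e (.inr ())))) ((ha'.smul _).reindex e'.symm fun i => by
        rw [← zp_add hζ, Equiv.apply_symm_apply, neg_add_eq_sub]) (fun i => ?_) fun i => ?_)
    · rw [h7, ← zp_add hζ, zp_eq_one hζ]
      simp only [e', Equiv.trans_apply, Equiv.sumCongr_apply, Sum.map_inl, Equiv.refl_apply]
      linear_combination he i
    · rw [h7, ← zp_add hζ, zp_eq_one hζ]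
      simp [e']
  · obtain ⟨N, h7, h8⟩ := det_of_X_pow_sub_C hr'.ne_zero
      (X_pow_sub_C_irreducible_of_prime hr' h) h6
    obtain rfl : N = 1 := Nat.eq_of_mul_eq_mul_right hr'.pos (by simpa [hn] using h7.symm)
    rw [h5, pow_one, ((hr'.odd_of_ne_two (by omega)).add_one).neg_one_pow, one_mul] at h8
    exact absurd (by rw [one_pow, h8]) (h 1)

theorem qfact_two_mul (q m : ℕ) : qfact q (2 * m) =
    (∏ i ∈ Finset.range m, (q ^ (2 * (i + 1)) - 1)) *
      ∏ i ∈ Finset.range m, (q ^ (2 * i + 1) - 1) := by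
  induction m with
  | zero => simp [qfact_zero]
  | succ m ih =>
    rw [show 2 * (m + 1) = 2 * m + 1 + 1 by ring, qfact_succ, qfact_succ, ih,
      Finset.prod_range_succ, Finset.prod_range_succ, show 2 * (m + 1) = 2 * m + 1 + 1 by ring]
    ring

theorem odd_orderOf_of_dvd (hrp : r ≠ p) {N m : ℕ} (h : r ∣ Fintype.card F ^ N *
    ∏ i ∈ Finset.range m, (Fintype.card F ^ (2 * i + 1) - 1)) :
    Odd (orderOf (Fintype.card F : ZMod r)) := by
  have hr : r.Prime := Fact.out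
  rcases hr.dvd_mul.mp h with h | h
  · exact absurd (hr.dvd_of_dvd_pow h) (not_dvd_card_of_ne hrp)
  · obtain ⟨j, -, h⟩ := (hr.prime.dvd_finsetProd_iff _).mp h
    exact Odd.of_dvd_nat (odd_two_mul_add_one j)
      ((dvd_pow_sub_one_iff_orderOf Fintype.card_pos).mp h)

end

end Cfsg.Agent.H1.El
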