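import Cfsg.Agent.H1.ElForm

/-!
Further lemmas on elements of prime order and similarity groups of forms.
-/

set_option autoImplicit false
set_option linter.unusedSectionVars false

namespace Cfsg.Agent.H1.El

open Module Polynomial Matrix Cfsg.Agent.H8 Cfsg.Agent.H7 Cfsg.Agent.H7.Polar
open Cfsg.Agent.H4.El hiding scal exists_diag
open scoped MatrixGroups

variable {F : Type*} [Field F] [Fintype F] {p : ℕ} [Fact p.Prime] [CharP F p] {r : ℕ}
  [Fact r.Prime] {n : ℕ} {P : Polar F (Fin n → F)} {H : Subgroup (GL (Fin n) F)}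

theorem IsSml.not_elus_unip (hH : IsSml P H) {k : ℕ} (hk : 1 ≤ k) (hkp : k + 1 ≤ p)
    (hn : k + 1 ≤ n) (h : ∀ y : Module.End F (Fin n → F), Sml P y 1 → (y - 1) ^ (k + 1) = 0 →
      ∀ v, P.B (((y - 1) ^ k) v) v = 0) : ¬ Elus H p := by
  have : Nonempty (Fin n) := ⟨⟨0, by omega⟩⟩
  obtain ⟨y, h1, h2, h3, h4⟩ := exists_unipotent (F := F) (V := Fin n → F) (p := p)
    ((k + 1) ::ₘ Multiset.replicate (n - (k + 1)) 1) (fun a ha => by
      rcases Multiset.mem_cons.mp ha with rfl | ha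
      · exact hkp
      · rw [Multiset.eq_of_mem_replicate ha]; omega) (by simp; omega) ⟨k + 1, by simp, by omega⟩
  refine not_elus y 1 h1 (by rw [h2, one_smul]) h3 fun h5 => ?_
  obtain ⟨x, μ, -, h6, h7⟩ := hH.of_in h5
  have h8 : x ^ p = (1 : F) • 1 := ((h7.pow p).eq_smul_one_iff 1).mp (by rw [h2, one_smul])
  obtain rfl : μ = 1 := eq_one_of_pow_char (p := p) (by simpa using h6.pow_eq h8)
  have h9 := HasJordanType.finrank_ker_pow (h4.of_sim h7.symm) k
  have h10 := HasJordanType.finrank_ker_pow (h4.of_sim h7.symm) (k + 1)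
  have h11 := LinearMap.finrank_range_add_finrank_ker ((x - 1) ^ k)
  rw [one_smul] at h9 h10
  simp only [Multiset.map_cons, Multiset.map_replicate, Multiset.sum_cons,
    Multiset.sum_replicate, smul_eq_mul, min_eq_left hk, min_eq_left (Nat.le_add_left 1 k),
    finrank_fintype_fun_eq_card, Fintype.card_fin] at h9 h10 h11
  exact false_of_rank_one (T := (x - 1) ^ k) (by omega) (h x h6 (LinearMap.ker_eq_top.mp
    (Submodule.eq_top_of_finrank_eq (by simp; omega))))

theorem not_dvd_two_of_char [CharP F 2] : padicValNat 2 (Fintype.card F - 1) = 0 :=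
  have := Fact.mk Nat.prime_two
  padicValNat.eq_zero_of_not_dvd
    (by simpa using not_dvd_pow_sub_one_char (F := F) (p := 2) one_pos)

theorem IsSml.elus_two [CharP F 2] (hH : IsSml P H) (hn : 0 < n) (hε : P.ε = 1 ∨ P.ε = -1)
    {k l : ℕ} (hl : l ≤ 1) (b : Basis ((Fin k ⊕ Fin k) ⊕ Fin l) F (Fin n → F))
    (hb : Frame P (fun i => b (.inl (.inl i))) (fun i => b (.inl (.inr i))) fun i => b (.inr i)) :
    Elus H 2 := by
  have : Nonempty (Fin n) := ⟨⟨0, hn⟩⟩
  have := Fact.mk Nat.prime_two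
  refine elus_of_in' (p := 2) hH.hasScal (Or.inr rfl) (fun y w hy _ _ =>
    hH.in_invol_two hε hl b hb hy) fun f z _ _ h => ?_
  obtain ⟨w, hw⟩ := exists_pow_char_eq (p := 2) z
  exact absurd hw (h w)

theorem IsSml.in_invol_of_aniso (hH : IsSml P H) (h2 : (2 : F) ≠ 0)
    (ha : ∀ W, Nd P W → W ≠ ⊥ → ∃ v ∈ W, P.B v v ≠ 0) {y : Module.End F (Fin n → F)}
    (hy : y ^ 2 = 1) : In H y := by
  have h1 := Submodule.finrank_le (LinearMap.ker (y - 1))
  obtain ⟨U, -, h3, h4⟩ := exists_nd_of_aniso ha nd_top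
    (finrank F (Fin n → F) - finrank F (LinearMap.ker (y - 1))) (by simp)
  refine hH.in_invol h2 hy h3 ?_
  rw [h4, ← finrank_fintype_fun_eq_card F]
  omega

theorem exists_quad_add (h2 : (2 : F) ≠ 0) {a b : F} (ha : a ≠ 0) (hb : b ≠ 0) (c : F) :
    ∃ x y : F, a * x * x + b * y * y = c := by
  obtain ⟨x, y, h⟩ := FiniteField.exists_root_sum_quadratic
    (f := C a * X ^ 2 - C c) (g := C b * X ^ 2) (R := F)
    (by rw [degree_sub_C (by rw [degree_C_mul_X_pow _ ha]; simp), degree_C_mul_X_pow _ ha]; rfl)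
    (by rw [degree_C_mul_X_pow _ hb]; rfl)
    (FiniteField.odd_card_of_char_ne_two fun h => h2 (by
      have := (ringChar.spec F 2).2 (by rw [h]); exact_mod_cast this))
  refine ⟨x, y, ?_⟩
  simp at h
  linear_combination h


theorem IsSml.in_sq_o (hH : IsSml P H) (hO : IsO P) (h2 : (2 : F) ≠ 0)
    {f : Module.End F (Fin n → F)} {z : F} (hf : f ^ 2 = z • 1) (hz : ∀ w : F, w ^ 2 ≠ z) :
    In H f := by
  have hi := X_pow_sub_C_irreducible_of_prime Nat.prime_two hz
  obtain ⟨m, hm, -⟩ := det_of_X_pow_sub_C two_ne_zero hi hf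
  obtain ⟨b, hb⟩ := exists_frame (P := P) (k := 0) (l := m + m) (d := 0) (Or.inl rfl) (by omega)
    (Or.inr fun _ => Ord.exists_B_self_ne_of_o hO h2) (by omega)
  replace hb : (∀ i j, i ≠ j → P.B (b i) (b j) = 0) ∧ ∀ i, P.B (b i) (b i) ≠ 0 := by
    constructor
    · rintro ((⟨_, ⟨⟩⟩ | ⟨_, ⟨⟩⟩) | i) ((⟨_, ⟨⟩⟩ | ⟨_, ⟨⟩⟩) | j) h
      exact hb.gg i j fun e => h (by rw [e])
    · rintro ((⟨_, ⟨⟩⟩ | ⟨_, ⟨⟩⟩) | i)
      exact hb.g0 i
  obtain ⟨c, h3, h4⟩ : ∃ c : Basis (Fin m ⊕ Fin m) F (Fin n → F),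
      (∀ i j, i ≠ j → P.B (c i) (c j) = 0) ∧ ∀ i, P.B (c i) (c i) ≠ 0 :=
    ⟨b.reindex ((Equiv.emptySum _ _).trans finSumFinEquiv.symm),
      fun i j h => by simpa using hb.1 _ _ (by simpa using h), fun i => by simpa using hb.2 _⟩
  have h5 := fun i => exists_quad_add h2 one_ne_zero
    (mul_ne_zero (h4 (.inl i)) (h4 (.inr i))) z
  choose s t hst using h5
  obtain ⟨N, h6, h7⟩ : ∃ N : Module.End F (Fin n → F),
      (∀ i, N (c (.inl i)) = s i • c (.inl i) + (t i * P.B (c (.inl i)) (c (.inl i))) • c (.inr i)) ∧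
      ∀ i, N (c (.inr i)) = (t i * P.B (c (.inr i)) (c (.inr i))) • c (.inl i) - s i • c (.inr i) :=
    ⟨c.constr F (Sum.elim _ _), fun i => c.constr_basis F _ (.inl i),
      fun i => c.constr_basis F _ (.inr i)⟩
  have h8 : ∀ i j, P.B (c (.inl i)) (c (.inr j)) = 0 := fun i j => h3 _ _ (by simp)
  have h9 : ∀ i j, P.B (c (.inr i)) (c (.inl j)) = 0 := fun i j => h3 _ _ (by simp)
  have h10 : ∀ i j, i ≠ j → P.B (c (.inl i)) (c (.inl j)) = 0 := fun i j h => h3 _ _ (by simpa)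
  have h11 : ∀ i j, i ≠ j → P.B (c (.inr i)) (c (.inr j)) = 0 := fun i j h => h3 _ _ (by simpa)
  refine (hH.in_of (y := N) (μ := z) (sml_of_basis c ?_) fun e => hz 0 (by simp [e])).of_sim
    (sim_of_pow_irr hi two_ne_zero hf (c.ext ?_) rfl)
  · rintro (i | i) (j | j) <;> rcases eq_or_ne i j with rfl | h <;>
      simp only [h6, h7, map_add, map_sub, map_smul, LinearMap.add_apply, LinearMap.sub_apply,
        LinearMap.smul_apply, B_smul_right, smul_eq_mul, hO.σ, h8, h9]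
    · linear_combination (P.B (c (.inl i)) (c (.inl i))) * hst i
    · simp [h10 i j h, h11 i j h]
    · ring
    · simp [h10 i j h, h11 i j h]
    · ring
    · simp [h10 i j h, h11 i j h]
    · linear_combination (P.B (c (.inr i)) (c (.inr i))) * hst i
    · simp [h10 i j h, h11 i j h]
  · rintro (i | i) <;>
      simp only [sq, Module.End.mul_apply, h6, h7, map_add, map_sub, map_smul,
        LinearMap.smul_apply, Module.End.one_apply, ← hst i] <;> module

theorem dvd_of_dvd_relIndex {A B : ℤ} (hH : IsSml P H) (hA : A ∣ Nat.card P.Iso)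
    (h : (Nat.card (GL (Fin n) F) : ℤ) = A * B) (hr : r ∣ H.relIndex (Geo.specialLinear (Fin n) F)) :
    (r : ℤ) ∣ B := (Int.natCast_dvd_natCast.mpr hr).trans (hH.relIndex_dvd hA h)

end Cfsg.Agent.H1.El
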