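import Cfsg.Agent.H1.Elus

/-!
Standard elements of prime order and combinatorics of eigenvalue multisets.
-/

set_option autoImplicit false
set_option linter.unusedSectionVars false

namespace Cfsg.Agent.H1.El

open Module Polynomial Matrix Cfsg.Agent.H8 Cfsg.Agent.H7
open scoped MatrixGroups

section Comb

/-- the number of indices with a given value -/
noncomputable def cnt {ι α : Type*} [Fintype ι] (a : ι → α) (x : α) : ℕ :=
  open Classical in (Finset.univ.filter fun i => a i = x).card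

theorem cnt_le_of_inj {ι α : Type*} [Fintype ι] {a : ι → α} {x y : α} (e : ι → ι)
    (he : Function.Injective e) (h : ∀ i, a i = x → a (e i) = y) : cnt a x ≤ cnt a y := by
  classical
  unfold cnt
  refine Finset.card_le_card_of_injOn e (fun i hi => ?_) he.injOn
  simp only [Finset.coe_filter, Finset.mem_univ, true_and, Set.mem_ofPred_eq] at hi ⊢
  exact h i hi

theorem cnt_eq_zero {ι α : Type*} [Fintype ι] {a : ι → α} {x : α} (h : ∀ i, a i ≠ x) :
    cnt a x = 0 := by
  unfold cnt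
  simp [h]

theorem exists_of_cnt_pos {ι α : Type*} [Fintype ι] {a : ι → α} {x : α} (h : 0 < cnt a x) :
    ∃ i, a i = x := by
  by_contra! h'
  rw [cnt_eq_zero h'] at h
  omega

theorem cnt_congr {ι α β : Type*} [Fintype ι] {a : ι → α} {b : ι → β} {x : α} {y : β}
    (h : ∀ i, a i = x ↔ b i = y) : cnt a x = cnt b y := by
  unfold cnt
  congr 1
  ext i
  simp [h]

theorem cnt_append {α : Type*} {m k : ℕ} (a : Fin m → α) (b : Fin k → α) (x : α) :
    cnt (Fin.append a b) x = cnt a x + cnt b x := by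
  classical
  unfold cnt
  simp only [Finset.card_filter]
  rw [Fin.sum_univ_add]
  simp

theorem cnt_const {α : Type*} [DecidableEq α] (m : ℕ) (y x : α) :
    cnt (fun _ : Fin m => y) x = if y = x then m else 0 := by
  unfold cnt
  split_ifs with h <;> simp [h]

/-- the multiset of values is symmetric under a reflection -/
def Symm {ι α : Type*} [Fintype ι] [AddGroup α] (a : ι → α) : Prop :=
  ∃ b, ∀ x, cnt a x ≤ cnt a (b - x)

/-- the exponents `1, 0, …, 0` -/
def exA (r m : ℕ) : Fin (1 + m) → ZMod r := Fin.append (fun _ => 1) fun _ => 0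

/-- the exponents `1, 1, -2, 0, …, 0` -/
def exB (r m : ℕ) : Fin (2 + 1 + m) → ZMod r :=
  Fin.append (Fin.append (fun _ => 1) fun _ => -2) fun _ => 0

/-- the exponents `1, -1, 0, …, 0` -/
def exC (r m : ℕ) : Fin (1 + 1 + m) → ZMod r :=
  Fin.append (Fin.append (fun _ => 1) fun _ => -1) fun _ => 0

theorem cnt_exA (r m : ℕ) (x : ZMod r) :
    cnt (exA r m) x = (if 1 = x then 1 else 0) + if 0 = x then m else 0 := by
  rw [exA, cnt_append, cnt_const, cnt_const]

theorem cnt_exB (r m : ℕ) (x : ZMod r) : cnt (exB r m) x =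
    (if 1 = x then 2 else 0) + (if -2 = x then 1 else 0) + if 0 = x then m else 0 := by
  rw [exB, cnt_append, cnt_append, cnt_const, cnt_const, cnt_const]

theorem cnt_exC (r m : ℕ) (x : ZMod r) : cnt (exC r m) x =
    (if 1 = x then 1 else 0) + (if -1 = x then 1 else 0) + if 0 = x then m else 0 := by
  rw [exC, cnt_append, cnt_append, cnt_const, cnt_const, cnt_const]

theorem sum_exA (r m : ℕ) : ∑ i, exA r m i = 1 := by simp [exA, Fin.sum_univ_add]

theorem sum_exB (r m : ℕ) : ∑ i, exB r m i = 0 := by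
  simp only [exB, Fin.sum_univ_add, Fin.append_left, Fin.append_right]
  simp

theorem sum_exC (r m : ℕ) : ∑ i, exC r m i = 0 := by
  simp only [exC, Fin.sum_univ_add, Fin.append_left, Fin.append_right]
  simp

variable {r : ℕ} [hr : Fact r.Prime]

theorem zmod_natCast_ne {k : ℕ} (h : ¬ r ∣ k) : (k : ZMod r) ≠ 0 := by
  rwa [Ne, ZMod.natCast_eq_zero_iff]

theorem zmod_two_ne (h : r ≠ 2) : (2 : ZMod r) ≠ 0 :=
  zmod_natCast_ne (k := 2) fun e => h ((Nat.prime_dvd_prime_iff_eq hr.out Nat.prime_two).mp e)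

theorem zmod_three_ne (h : r ≠ 3) : (3 : ZMod r) ≠ 0 :=
  zmod_natCast_ne (k := 3) fun e => h ((Nat.prime_dvd_prime_iff_eq hr.out Nat.prime_three).mp e)

theorem zmod_five_ne (h : r ≠ 5) : (5 : ZMod r) ≠ 0 :=
  zmod_natCast_ne (k := 5) fun e => h ((Nat.prime_dvd_prime_iff_eq hr.out Nat.prime_five).mp e)

theorem not_symm_exA (h2 : r ≠ 2) {m : ℕ} (hm : 2 ≤ m) : ¬ Symm (exA r m) := by
  rintro ⟨b, hb⟩
  have h0 := hb 0
  have h1 := hb 1
  have h3 := zmod_two_ne h2
  simp only [cnt_exA, one_ne_zero, zero_ne_one, if_true, if_false, sub_zero] at h0 h1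
  obtain rfl : 0 = b := by
    by_contra e
    rw [if_neg e] at h0
    split_ifs at h0 <;> omega
  rw [if_neg (fun e => h3 (by linear_combination e)),
    if_neg (fun e => one_ne_zero (by linear_combination e))] at h1
  omega

theorem not_symm_exB (h2 : r ≠ 2) {m : ℕ} (hm : 2 ≤ m) (h3 : r = 3 → 4 ≤ m) (h5 : r = 5 → 3 ≤ m) :
    ¬ Symm (exB r m) := by
  rintro ⟨b, hb⟩
  have h0 := hb 0
  have h1 := hb 1
  have h4 := hb (-2)
  have e2 := zmod_two_ne h2
  have e2' : ¬ (-2 : ZMod r) = 0 := neg_ne_zero.mpr e2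
  have e2'' : ¬ (0 : ZMod r) = -2 := fun e => e2' e.symm
  by_cases h6 : r = 3
  · have e3 : (-2 : ZMod r) = 1 := by subst h6; rfl
    have := h3 h6
    simp only [cnt_exB, e3, one_ne_zero, zero_ne_one, if_true, if_false, sub_zero] at h0 h1
    obtain rfl : 0 = b := by
      by_contra e
      rw [if_neg e] at h0
      split_ifs at h0 <;> omega
    rw [if_neg (fun e => e2 (by linear_combination e)),
      if_neg (fun e => e2 (by linear_combination e)),
      if_neg (fun e => one_ne_zero (by linear_combination e))] at h1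
    omega
  · have e3 := zmod_three_ne h6
    have e3' : ¬ (-2 : ZMod r) = 1 := fun e => e3 (by linear_combination -e)
    have e3'' : ¬ (1 : ZMod r) = -2 := fun e => e3' e.symm
    simp only [cnt_exB, e2', e2'', e3', e3'', one_ne_zero, zero_ne_one, if_true, if_false,
      sub_zero] at h0 h1 h4
    by_cases hb0 : 0 = b
    · subst hb0
      rw [if_neg (fun e => e2 (by linear_combination e)),
        if_neg (fun e => one_ne_zero (by linear_combination -e)),
        if_neg (fun e => one_ne_zero (by linear_combination e))] at h1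
      omega
    · rw [if_neg hb0] at h0
      obtain rfl : 1 = b := by
        by_contra e
        rw [if_neg e] at h0
        split_ifs at h0 <;> omega
      rw [if_pos rfl, if_neg e3'] at h0
      have e5 := zmod_five_ne (r := r) fun e => by have := h5 e; omega
      rw [if_neg (fun e => e2 (by linear_combination -e)),
        if_neg (fun e => e5 (by linear_combination -e)),
        if_neg (fun e => e3 (by linear_combination -e))] at h4
      omega

theorem zmod_two_eq_ite : ∀ x : ZMod 2, x = if x = 0 then 0 else 1 := by decide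

theorem three_aux : ∀ a : Fin 3 → ZMod 3, ∑ i, a i = 0 → (¬ ∀ i, a i = a 0) →
    Function.Bijective a := by decide

theorem five_aux : ∀ a b c d : ZMod 5, ∃ m i j : Fin 5,
    (m ≠ i ∧ m ≠ j ∧ i ≠ j ∧ ![a, b, c, d, -(a + b + c + d)] i + ![a, b, c, d, -(a + b + c + d)] j =
      2 * ![a, b, c, d, -(a + b + c + d)] m) ∧
    ∃ k l : Fin 5, m ≠ k ∧ m ≠ l ∧ i ≠ k ∧ i ≠ l ∧ j ≠ k ∧ j ≠ l ∧ k ≠ l ∧
      ![a, b, c, d, -(a + b + c + d)] k + ![a, b, c, d, -(a + b + c + d)] l =
        2 * ![a, b, c, d, -(a + b + c + d)] m := by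
  decide +kernel

/-- exponent vectors of sum zero and length `r ∈ {3, 5}` are symmetric -/
theorem exists_pairing {n : ℕ} (hn : r = n) (h : n = 3 ∨ n = 5) (a : Fin n → ZMod r)
    (ha : ∑ i, a i = 0) : ∃ (k : ℕ) (e : (Fin k ⊕ Fin k) ⊕ Unit ≃ Fin n),
      ∀ i, a (e (.inl (.inl i))) + a (e (.inl (.inr i))) = 2 * a (e (.inr ())) := by
  subst hn
  rcases h with rfl | rfl
  · refine ⟨1, Equiv.ofBijective (Sum.elim (Sum.elim (fun _ => 0) fun _ => 1) fun _ => 2)
      (by decide), fun i => ?_⟩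
    rw [Fin.sum_univ_three] at ha
    have h3 : (3 : ZMod 3) = 0 := rfl
    change a 0 + a 1 = 2 * a 2
    linear_combination ha - a 2 * h3
  · obtain ⟨m, i, j, ⟨h1, h2, h3, h4⟩, k, l, h5, h6, h7, h8, h9, h10, h11, h12⟩ :=
      five_aux (a 0) (a 1) (a 2) (a 3)
    have e : ![a 0, a 1, a 2, a 3, -(a 0 + a 1 + a 2 + a 3)] = a := by
      rw [Fin.sum_univ_five] at ha
      ext t
      fin_cases t
      exacts [rfl, rfl, rfl, rfl, by simpa using (eq_neg_of_add_eq_zero_right ha).symm]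
    rw [e] at h4 h12
    refine ⟨2, Equiv.ofBijective (Sum.elim (Sum.elim ![i, k] ![j, l]) fun _ => m)
      ((Fintype.bijective_iff_injective_and_card _).mpr ⟨?_, by simp⟩), fun t => ?_⟩
    · rintro ((s | s) | s) ((t | t) | t) <;> (try fin_cases s) <;> (try fin_cases t) <;>
        simp_all [eq_comm]
    · fin_cases t
      exacts [h4, h12]

end Comb

section Zp

variable {F : Type*} [Field F] {r : ℕ} [hr : Fact r.Prime] {ζ : F}

/-- powers of a root of unity with exponents modulo `r` -/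
def zp (ζ : F) (a : ZMod r) : F := ζ ^ a.val

theorem zp_natCast (hζ : IsPrimitiveRoot ζ r) (k : ℕ) : zp ζ (k : ZMod r) = ζ ^ k := by
  rw [zp, ZMod.val_natCast, ← pow_mod_orderOf ζ k, ← hζ.eq_orderOf]

theorem zp_add (hζ : IsPrimitiveRoot ζ r) (a b : ZMod r) : zp ζ (a + b) = zp ζ a * zp ζ b := by
  conv_lhs => rw [← ZMod.natCast_zmod_val a, ← ZMod.natCast_zmod_val b, ← Nat.cast_add,
    zp_natCast hζ, pow_add]
  rfl

theorem zp_zero : zp ζ (0 : ZMod r) = 1 := by simp [zp]

theorem zp_one (hζ : IsPrimitiveRoot ζ r) : zp ζ (1 : ZMod r) = ζ := by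
  simpa using zp_natCast hζ 1

theorem zp_ne_zero (hζ : IsPrimitiveRoot ζ r) (a : ZMod r) : zp ζ a ≠ 0 :=
  pow_ne_zero _ (hζ.ne_zero hr.out.ne_zero)

theorem zp_inj (hζ : IsPrimitiveRoot ζ r) {a b : ZMod r} : zp ζ a = zp ζ b ↔ a = b :=
  ⟨fun h => ZMod.val_injective r (hζ.pow_inj (ZMod.val_lt a) (ZMod.val_lt b) h), fun h => h ▸ rfl⟩

theorem zp_eq_one (hζ : IsPrimitiveRoot ζ r) {a : ZMod r} : zp ζ a = 1 ↔ a = 0 := by
  rw [← zp_zero (ζ := ζ) (r := r), zp_inj hζ]

theorem zp_pow (hζ : IsPrimitiveRoot ζ r) (a : ZMod r) (k : ℕ) : zp ζ a ^ k = zp ζ ((k : ZMod r) * a) := by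
  induction k with
  | zero => simp [zp_zero]
  | succ k ih => rw [pow_succ, ih, ← zp_add hζ]; congr 1; push_cast; ring

theorem zp_pow_self (hζ : IsPrimitiveRoot ζ r) (a : ZMod r) : zp ζ a ^ r = 1 := by
  rw [zp_pow hζ]; simp [zp_zero]

theorem zp_sum (hζ : IsPrimitiveRoot ζ r) {ι : Type*} (s : Finset ι) (a : ι → ZMod r) :
    ∏ i ∈ s, zp ζ (a i) = zp ζ (∑ i ∈ s, a i) := by
  classical
  induction s using Finset.induction_on with
  | empty => simp [zp_zero]
  | insert i s hi ih => rw [Finset.prod_insert hi, Finset.sum_insert hi, ih, zp_add hζ]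

theorem exists_zp (hζ : IsPrimitiveRoot ζ r) {x : F} (hx : x ^ r = 1) : ∃ a : ZMod r, zp ζ a = x := by
  obtain ⟨k, -, hk⟩ := hζ.eq_pow_of_pow_eq_one hx
  exact ⟨k, by rw [zp_natCast hζ, hk]⟩

variable {V : Type*} [AddCommGroup V] [Module F V] [FiniteDimensional F V]

theorem exists_diag_zp (hζ : IsPrimitiveRoot ζ r) {y : Module.End F V} (hy : y ^ r = 1) {n : ℕ}
    (hn : finrank F V = n) : ∃ a : Fin n → ZMod r, Diag y fun i => zp ζ (a i) := by
  subst hn
  exact exists_diag_of_pow hζ hy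

theorem Diag.finrank_ker' {ι : Type*} [Fintype ι] {f : Module.End F V} {l : ι → F} (hf : Diag f l)
    (c : F) : finrank F (LinearMap.ker (f - c • 1)) = cnt l c := hf.finrank_ker c

theorem Diag.finrank_ker_zp (hζ : IsPrimitiveRoot ζ r) {ι : Type*} [Fintype ι]
    {f : Module.End F V} {a : ι → ZMod r} (hf : Diag f fun i => zp ζ (a i)) (c : ZMod r) :
    finrank F (LinearMap.ker (f - zp ζ c • 1)) = cnt a c := by
  rw [hf.finrank_ker']
  exact cnt_congr fun i => zp_inj hζ

variable [Fintype F]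

theorem exists_pow_mul_eq_one (hζ : IsPrimitiveRoot ζ r) {n : ℕ} (hn : n ≠ 0)
    (h : padicValNat r n < padicValNat r (Fintype.card F - 1)) : ∃ w : F, w ^ n * ζ = 1 := by
  obtain ⟨w, hw⟩ := (exists_pow_eq_primitiveRoot_iff hζ.inv hn).mpr h
  exact ⟨w, by rw [hw, inv_mul_cancel₀ (hζ.ne_zero hr.out.ne_zero)]⟩

theorem eq_one_of_pow_mul {n : ℕ} (hn : n ≠ 0)
    (h : padicValNat r (Fintype.card F - 1) ≤ padicValNat r n) {w x : F} (hx : x ^ r = 1)
    (hw : w ^ n * x = 1) : x = 1 := by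
  by_contra h1
  have h2 := (isPrimitiveRoot_of_pow_eq_one hx h1).inv
  have := (exists_pow_eq_primitiveRoot_iff h2 hn).mp ⟨w, eq_inv_of_mul_eq_one_left hw⟩
  omega

end Zp

section Std

variable {F : Type*} [Field F] [Fintype F] {p : ℕ} [hp : Fact p.Prime] [CharP F p]
  {r : ℕ} [hr : Fact r.Prime] {V : Type*} [AddCommGroup V] [Module F V] [FiniteDimensional F V]

theorem HasJordanType.finrank_ker_pow {f : Module.End F V} {w : F} {μ : Multiset ℕ}
    (hf : HasJordanType f w μ) (k : ℕ) :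
    finrank F (LinearMap.ker ((f - w • 1) ^ k)) = (μ.map (fun a => min a k)).sum := by
  have e : aeval f ((X - C w) ^ k) = (f - w • 1) ^ k := by simp [Algebra.algebraMap_eq_smul_one]
  rw [← hf.finrank_ker, e]

theorem exists_transvection (h : 2 ≤ finrank F V) : ∃ f : Module.End F V, LinearMap.det f = 1 ∧
    f ^ p = 1 ∧ (∀ c : F, f ≠ c • 1) ∧ finrank F (LinearMap.ker (f - 1)) + 1 = finrank F V := by
  obtain ⟨f, h1, h2, h3, h4⟩ := exists_unipotent (F := F) (V := V) (p := p)
    (2 ::ₘ Multiset.replicate (finrank F V - 2) 1) (fun a ha => by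
      have := hp.out.two_le
      rcases Multiset.mem_cons.mp ha with rfl | ha
      · exact this
      · rw [Multiset.eq_of_mem_replicate ha]; omega) (by simp; omega) ⟨2, by simp, by omega⟩
  refine ⟨f, h1, h2, h3, ?_⟩
  have := HasJordanType.finrank_ker_pow h4 1
  rw [pow_one, one_smul] at this
  rw [this]
  simp
  omega

theorem exists_irr_block (hrp : r ≠ p) (hc : orderOf (Fintype.card F : ZMod r) ≠ 1) (s : ℕ)
    (hs0 : 0 < s) (hs : s * orderOf (Fintype.card F : ZMod r) ≤ finrank F V) :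
    ∃ y : Module.End F V, LinearMap.det y = 1 ∧ y ^ r = 1 ∧ (∀ c : F, y ≠ c • 1) ∧
      finrank F (LinearMap.ker (y - 1)) + s * orderOf (Fintype.card F : ZMod r) = finrank F V ∧
      ∃ g : F[X], Irreducible g ∧ g.Monic ∧ g ∣ cyclotomic r F ∧ LinearMap.charpoly y =
        g ^ s * (X - 1) ^ (finrank F V - s * orderOf (Fintype.card F : ZMod r)) := by
  obtain ⟨g, h1, h2, h3⟩ := exists_monic_irreducible_dvd_cyclotomic (F := F) (r := r)
  obtain ⟨y, h4, h5, -, -, h6⟩ := exists_end_order (V := V) hrp h1 h2 h3 s hs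
  have h7 := Nat.mul_pos hs0 (orderOf_card_pos (F := F) hrp)
  have : Nontrivial V := Module.nontrivial_of_finrank_pos (R := F) (by omega)
  refine ⟨y, det_eq_one_of_pow_eq_one hc h4, h4, fun c e => ?_, by omega, g, h1, h2, h3, h6⟩
  rw [eq_one_of_smul_one_pow hc h4 e, sub_self, LinearMap.ker_zero, finrank_top] at h5
  omega

theorem orderOf_le_of_ne_one (hrp : r ≠ p) {y : Module.End F V} (hy : y ^ r = 1) (h1 : y ≠ 1) :
    finrank F (LinearMap.ker (y - 1)) + orderOf (Fintype.card F : ZMod r) ≤ finrank F V := by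
  obtain ⟨k, hk⟩ := exists_finrank_eq_add_of_pow_eq_one' hrp hy
  rcases Nat.eq_zero_or_pos k with rfl | h
  · refine absurd (sub_eq_zero.mp (LinearMap.ker_eq_top.mp (Submodule.eq_top_of_finrank_eq ?_))) h1
    omega
  · nlinarith

theorem charpoly_of_orderOf (hrp : r ≠ p) (hc : orderOf (Fintype.card F : ZMod r) = r - 1)
    (h3 : 3 ≤ r) (hn : finrank F V = r) {y : Module.End F V} (hy : y ^ r = 1) (h1 : y ≠ 1) :
    LinearMap.charpoly y = X ^ r - 1 := by
  classical
  obtain ⟨N, h, hi, hm, hd, ht⟩ := exists_hasType_of_pow_eq_one hrp hy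
  have hΦ : (cyclotomic r F).natDegree = r - 1 := by
    rw [natDegree_cyclotomic, Nat.totient_prime hr.out]
  have h1d : (X - 1 : F[X]).natDegree = 1 := by simpa using natDegree_X_sub_C (1 : F)
  have h1m : (X - 1 : F[X]).Monic := by simpa using monic_X_sub_C (1 : F)
  have hd' : ∀ j, ¬ h j = X - 1 → h j = cyclotomic r F := by
    intro j hj
    obtain ⟨h2, h3⟩ := (hd j).resolve_left hj
    exact eq_of_monic_of_dvd_of_natDegree_le (hm j) (cyclotomic.monic r F) h2 (by omega) |>.symm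
  obtain ⟨u, hu⟩ : ∃ u, u = (Finset.univ.filter fun j => h j = X - 1).card := ⟨_, rfl⟩
  obtain ⟨s, hs⟩ : ∃ s, s = (Finset.univ.filter fun j => ¬ h j = X - 1).card := ⟨_, rfl⟩
  have hprod : ∏ j, h j = (X - 1) ^ u * cyclotomic r F ^ s := by
    rw [← Finset.prod_filter_mul_prod_filter_not Finset.univ (fun j => h j = X - 1),
      Finset.prod_congr rfl (fun j hj => (Finset.mem_filter.mp hj).2),
      Finset.prod_congr rfl (fun j hj => hd' j (Finset.mem_filter.mp hj).2)]
    simp [hu, hs]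
  have hch := ht.charpoly_eq hm
  have hdim : finrank F V = u + s * (r - 1) := by
    rw [← LinearMap.charpoly_natDegree y, hch, hprod,
      natDegree_mul (pow_ne_zero _ h1m.ne_zero) (pow_ne_zero _ (cyclotomic_ne_zero r F)),
      natDegree_pow, natDegree_pow, h1d, hΦ, mul_one]
  have hs0 : s ≠ 0 := fun e => h1 (by
    have h4 := (ht.eq_smul_iff 1).mpr fun j => by
      have : h j = X - 1 := by
        by_contra h5
        have : j ∈ Finset.univ.filter fun j => ¬ h j = X - 1 := by simpa using h5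
        rw [Finset.card_eq_zero.mp (hs.symm.trans e)] at this
        simp at this
      rw [this, map_one]
    rwa [one_smul] at h4)
  obtain rfl : s = 1 := by
    rcases s with _ | _ | s
    · omega
    · rfl
    · have : (s + 1 + 1) * (r - 1) = s * (r - 1) + 2 * (r - 1) := by ring
      omega
  obtain rfl : u = 1 := by omega
  rw [hch, hprod, pow_one, pow_one, mul_comm, cyclotomic_prime_mul_X_sub_one]

theorem sim_of_orderOf (hrp : r ≠ p) (hc : orderOf (Fintype.card F : ZMod r) = r - 1)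
    (h3 : 3 ≤ r) (hn : finrank F V = r) {y y' : Module.End F V} (hy : y ^ r = 1)
    (hy' : y' ^ r = 1) (h1 : y ≠ 1) (h1' : y' ≠ 1) : Sim y y' :=
  sim_of_charpoly_eq (squarefree_X_pow_sub_one hrp) (squarefree_X_pow_sub_one hrp)
    ((aeval_X_pow_sub_one_eq_zero_iff y r).mpr hy) ((aeval_X_pow_sub_one_eq_zero_iff y' r).mpr hy')
    (by rw [charpoly_of_orderOf hrp hc h3 hn hy h1, charpoly_of_orderOf hrp hc h3 hn hy' h1'])

theorem sim_of_sq_one_two {y y' : Module.End F V} (hn : finrank F V = 2) (hy : y ^ 2 = 1)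
    (hy' : y' ^ 2 = 1) (h1 : ∀ c : F, y ≠ c • 1) (h1' : ∀ c : F, y' ≠ c • 1) : Sim y y' := by
  have key : ∀ y : Module.End F V, y ^ 2 = 1 → (∀ c : F, y ≠ c • 1) →
      finrank F (LinearMap.ker (y - 1)) = 1 := fun y hy h1 => by
    have h2 := Submodule.finrank_le (LinearMap.ker (y - 1))
    have h3 : finrank F (LinearMap.ker (y - 1)) ≠ 2 := fun e => h1 1 (by
      rw [one_smul]
      exact sub_eq_zero.mp (LinearMap.ker_eq_top.mp (Submodule.eq_top_of_finrank_eq (by omega))))
    have h4 : finrank F (LinearMap.ker (y - 1)) ≠ 0 := fun e => h1 (-1) (LinearMap.ext fun v => by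
      have h5 : (y - 1) * (y + 1) = 0 := by
        rw [show (y - 1) * (y + 1) = y ^ 2 - 1 by noncomm_ring, hy, sub_self]
      have h6 := LinearMap.ker_eq_bot'.mp (Submodule.finrank_eq_zero.mp e) ((y + 1) v)
        (LinearMap.congr_fun h5 v)
      simpa [add_eq_zero_iff_eq_neg] using h6)
    omega
  exact sim_of_sq_one hy hy' rfl (by rw [key y hy h1, key y' hy' h1'])

theorem even_of_det_eq_one (h2 : (2 : F) ≠ 0) {y : Module.End F V} (hy : y ^ 2 = 1)
    (hd : LinearMap.det y = 1) :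
    ∃ j, finrank F (LinearMap.ker (y - 1)) + 2 * j = finrank F V := by
  classical
  have := Fact.mk Nat.prime_two
  have hζ : IsPrimitiveRoot (-1 : F) 2 :=
    isPrimitiveRoot_of_pow_eq_one (by simp) fun e => h2 (by linear_combination -e)
  obtain ⟨a, ha⟩ := exists_diag_zp hζ hy rfl
  have h1 := ha.finrank_ker_zp hζ 0
  rw [zp_zero, one_smul] at h1
  rw [ha.det, zp_sum hζ, zp_eq_one hζ] at hd
  have h3 := zmod_two_eq_ite
  rw [Finset.sum_congr rfl fun i _ => h3 (a i), Finset.sum_ite] at hd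
  simp only [Finset.sum_const_zero, Finset.sum_const, nsmul_eq_mul, mul_one, zero_add,
    ZMod.natCast_eq_zero_iff] at hd
  obtain ⟨j, hj⟩ := hd
  have h4 := Finset.card_filter_add_card_filter_not (s := Finset.univ) fun i => a i = 0
  rw [Finset.card_univ, Fintype.card_fin, hj] at h4
  refine ⟨j, ?_⟩
  refine Eq.trans ?_ h4
  rw [h1, cnt]
  congr

variable {n : ℕ} {H : Subgroup (GL (Fin n) F)}

theorem not_elus_diag (hH : HasScal H) {ζ : F} (hζ : IsPrimitiveRoot ζ r) (a : Fin n → ZMod r)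
    {w : F} (hw : w ^ n * zp ζ (∑ i, a i) = 1) {i j : Fin n} (hij : a i ≠ a j)
    (h : ∀ y : Module.End F (Fin n → F), y ^ r = 1 → Diag y (fun i => zp ζ (a i)) → ¬ In H y) :
    ¬ Elus H r := by
  obtain ⟨y, hy⟩ := exists_diag (V := Fin n → F) (fun i => zp ζ (a i)) (by simp)
  have hw0 : w ≠ 0 := by
    rintro rfl
    rw [zero_pow (Nat.pos_iff_ne_zero.mp i.pos), zero_mul] at hw
    exact zero_ne_one hw
  have h1 : y ^ r = 1 := by simpa using hy.pow_eq (z := 1) fun i => zp_pow_self hζ _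
  refine not_elus (w • y) (w ^ r) ?_ (by rw [_root_.smul_pow, h1]) ((hy.smul w).ne_smul (i := i) (j := j)
    fun e => hij ((zp_inj hζ).mp (mul_left_cancel₀ hw0 e))) fun h2 => h y h1 hy (h2.of_smul hH hw0)
  rw [LinearMap.det_smul, hy.det, zp_sum hζ]
  simpa using hw

/-- a homology of order `r` -/
theorem not_elus_exA {m : ℕ} {H : Subgroup (GL (Fin (1 + m)) F)} (hH : HasScal H) (hm : 0 < m)
    {ζ : F} (hζ : IsPrimitiveRoot ζ r)
    (hv : padicValNat r (1 + m) < padicValNat r (Fintype.card F - 1))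
    (h : ∀ y : Module.End F (Fin (1 + m) → F), y ^ r = 1 → Diag y (fun i => zp ζ (exA r m i)) →
      ¬ In H y) : ¬ Elus H r := by
  obtain ⟨w, hw⟩ := exists_pow_mul_eq_one hζ (by omega) hv
  exact not_elus_diag hH hζ (exA r m) (w := w) (by rwa [sum_exA, zp_one hζ])
    (i := Fin.castAdd m 0) (j := Fin.natAdd 1 ⟨0, hm⟩)
    (by simp only [exA, Fin.append_left, Fin.append_right]; exact one_ne_zero) h

theorem not_elus_exB {m : ℕ} {H : Subgroup (GL (Fin (2 + 1 + m)) F)} (hH : HasScal H) (hm : 0 < m)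
    {ζ : F} (hζ : IsPrimitiveRoot ζ r)
    (h : ∀ y : Module.End F (Fin (2 + 1 + m) → F), y ^ r = 1 →
      Diag y (fun i => zp ζ (exB r m i)) → ¬ In H y) : ¬ Elus H r :=
  not_elus_diag hH hζ (exB r m) (w := 1) (by rw [sum_exB, zp_zero, one_pow, one_mul])
    (i := Fin.castAdd m (Fin.castAdd 1 0)) (j := Fin.natAdd (2 + 1) ⟨0, hm⟩)
    (by simp only [exB, Fin.append_left, Fin.append_right]; exact one_ne_zero) h

theorem not_elus_exC {m : ℕ} {H : Subgroup (GL (Fin (1 + 1 + m)) F)} (hH : HasScal H) (hm : 0 < m)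
    {ζ : F} (hζ : IsPrimitiveRoot ζ r)
    (h : ∀ y : Module.End F (Fin (1 + 1 + m) → F), y ^ r = 1 →
      Diag y (fun i => zp ζ (exC r m i)) → ¬ In H y) : ¬ Elus H r :=
  not_elus_diag hH hζ (exC r m) (w := 1) (by rw [sum_exC, zp_zero, one_pow, one_mul])
    (i := Fin.castAdd m (Fin.castAdd 1 0)) (j := Fin.natAdd (1 + 1) ⟨0, hm⟩)
    (by simp only [exC, Fin.append_left, Fin.append_right]; exact one_ne_zero) h

/-- a non-symmetric element exists outside the exceptional cases -/
theorem not_elus_symm (hH : HasScal H) (hn : 3 ≤ n) (h2 : r ≠ 2) {ζ : F}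
    (hζ : IsPrimitiveRoot ζ r) (hgap : ¬ (n = 6 ∧ r = 3))
    (hex : ¬ ((r = 3 ∨ r = 5) ∧ n = r ∧ padicValNat r (Fintype.card F - 1) = 1))
    (h : ∀ (y : Module.End F (Fin n → F)) (a : Fin n → ZMod r), y ^ r = 1 →
      Diag y (fun i => zp ζ (a i)) → In H y → Symm a) : ¬ Elus H r := by
  by_cases hv : padicValNat r n < padicValNat r (Fintype.card F - 1)
  · obtain ⟨m, rfl⟩ : ∃ m, n = 1 + m := ⟨n - 1, by omega⟩
    exact not_elus_exA hH (by omega) hζ hv fun y h1 h3 h4 =>
      not_symm_exA h2 (by omega) (h y _ h1 h3 h4)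
  · have h3 : r ∣ Fintype.card F - 1 := hζ.eq_orderOf ▸
      orderOf_dvd_card_sub_one' (hζ.ne_zero hr.out.ne_zero)
    have h4 := (padicValNat_pos_iff card_sub_one_ne_zero).mpr h3
    have h5 : r ∣ n := (padicValNat_pos_iff (by omega)).mp (by omega)
    have h6 : r = n → ¬ (r = 3 ∨ r = 5) := fun e e' => hex ⟨e', e.symm, by
      have : padicValNat r n = 1 := by rw [← e, padicValNat_self]
      omega⟩
    have h7 := Nat.le_of_dvd (by omega) h5
    have h8 : 3 ≤ r := by have := hr.out.two_le; omega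
    have h9 : r ≠ 4 := fun e => by have := hr.out; rw [e] at this; exact absurd this (by decide)
    obtain ⟨m, rfl⟩ : ∃ m, n = 2 + 1 + m := ⟨n - 3, by omega⟩
    have h10 : r = 3 → 4 ≤ m := fun e => by subst e; omega
    have h11 : r = 5 → 3 ≤ m := fun e => by subst e; omega
    have h12 : 2 ≤ m := by omega
    exact not_elus_exB hH (by omega) hζ fun y h1 h3 h4 =>
      not_symm_exB h2 h12 h10 h11 (h y _ h1 h3 h4)

end Std

end Cfsg.Agent.H1.El
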