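import Cfsg.Agent.H1.ElTensor
import Cfsg.Agent.H7.SubInst

/-!
Elements of prime order and subfield subgroups.
-/

set_option autoImplicit false
set_option linter.unusedSectionVars false

namespace Cfsg.Agent.H1.El

open Module Polynomial Matrix Cfsg.Agent.H8
open scoped MatrixGroups

section

variable {F : Type*} [Field F] {n : Type} [Fintype n] [DecidableEq n]

theorem elus_of' {H : Subgroup (GL n F)} {r : ℕ}
    (h : ∀ (f : Module.End F (n → F)) (z : F), LinearMap.det f = 1 → f ^ r = z • 1 →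
      (∀ c : F, f ≠ c • 1) → In H f ∧
        ∀ d : F, d ≠ 0 → ∃ c : Module.End F (n → F), c * f = f * c ∧
          ∃ g ∈ H, LinearMap.det c * (g : Matrix n n F).det = d) :
    Elus H r := by
  intro x hx ⟨z, hz⟩ h3
  obtain ⟨⟨y, hy, hs⟩, hc⟩ := h (toLin' (x : Matrix n n F)) z (by simpa using hx)
    (toLin'_pow_GL.mp hz) fun c e => h3 c ((toLin'_eq_smul_one_iff _ _).mp e)
  obtain ⟨P, hP⟩ := (sim_toLin'_iff _ _).mp hs
  have hd : (P : Matrix n n F).det ≠ 0 := P.det_ne_zero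
  obtain ⟨c, hc1, g, hg, hc2⟩ := hc _ (inv_ne_zero hd)
  obtain ⟨C, hC1, hC2⟩ := exists_GL_of_comm hc1 (left_ne_zero_of_mul (hc2 ▸ inv_ne_zero hd))
  refine ⟨C * P * g, ?_, ?_⟩
  · rw [Units.val_mul, Units.val_mul, det_mul, det_mul, hC2, mul_right_comm, hc2,
      inv_mul_cancel₀ hd]
  have := exists_conj_det_of_comm P hP C hC1
  have e : (C * P)⁻¹ * x * (C * P) = y := Units.ext (by simpa using this)
  rw [show (C * P * g)⁻¹ * x * (C * P * g) = g⁻¹ * ((C * P)⁻¹ * x * (C * P)) * g by group, e]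
  exact mul_mem (mul_mem (inv_mem hg) hy) hg

theorem rank_map_field {K : Type*} [Field K] (φ : K →+* F) (M : Matrix n n K) :
    (M.map φ).rank = M.rank := by
  classical
  obtain ⟨V, U, e, hV, hU, h⟩ := exists_rank_normal_form M
  have h1 := congrArg (φ.mapMatrix : Matrix n n K →+* Matrix n n F) h
  rw [map_mul, map_mul] at h1
  have h2 := congrArg Matrix.rank h1
  rw [rank_mul_eq_left_of_isUnit_det _ _ ((isUnit_iff_isUnit_det _).mp (hU.map _)),
    rank_mul_eq_right_of_isUnit_det _ _ ((isUnit_iff_isUnit_det _).mp (hV.map _))] at h2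
  refine h2.trans ?_
  rw [RingHom.mapMatrix_apply, ← submatrix_map, rank_submatrix, fromBlocks_map, Matrix.map_one _ φ.map_zero φ.map_one,
    Matrix.map_zero _ φ.map_zero, Matrix.map_zero _ φ.map_zero, Matrix.map_zero _ φ.map_zero,
    ← diagonal_one, ← diagonal_zero, fromBlocks_diagonal, rank_diagonal]
  simp [Fintype.card_subtype, Finset.card_filter]

variable (F₀ : Subfield F)

theorem det_map_sub (y : Matrix n n F₀) : (y.map F₀.subtype).det = y.det :=
  ((F₀.subtype).map_det y).symm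

theorem mem_sub_iff (g : GL n F) : g ∈ Geo.subfieldSubgroup F₀ 1 ↔
    ∃ (c : F) (y : Matrix n n F₀), (g : Matrix n n F) = c • y.map F₀.subtype := by
  rw [Asch.mem_subfieldSubgroup_iff]
  have e : Asch.cj (1 : GL n F)⁻¹ (g : Matrix n n F) = g := by simp [Asch.cj_apply]
  rw [e]
  refine ⟨fun ⟨c, y, _, h⟩ => ⟨c, y, h⟩, fun ⟨c, y, h⟩ => ?_⟩
  have hd := g.det_ne_zero
  rw [h, det_smul, det_map_sub] at hd
  have hy : y.det ≠ 0 := fun e => by simp [e] at hd
  by_cases hc : c = 0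
  · have : IsEmpty n := by
      by_contra h1
      rw [not_isEmpty_iff] at h1
      simp [hc] at hd
    exact ⟨1, 1, one_ne_zero, Subsingleton.elim _ _⟩
  exact ⟨c, GeneralLinearGroup.mkOfDetNeZero y hy, hc, h⟩

theorem hasScal_sub : HasScal (Geo.subfieldSubgroup F₀ (1 : GL n F)) := fun x c hx =>
  (mem_sub_iff F₀ x).mpr ⟨c, 1, by rw [hx, Matrix.map_one _ (map_zero _) (map_one _)]⟩

variable {V : Type*} [AddCommGroup V] [Module F V]

theorem in_sub_of_sim {f : Module.End F V} (hf : LinearMap.det f ≠ 0) {y : Matrix n n F₀}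
    (h : Sim f (toLin' (y.map F₀.subtype))) : In (Geo.subfieldSubgroup F₀ (1 : GL n F)) f :=
  ⟨GeneralLinearGroup.mkOfDetNeZero (y.map F₀.subtype) (by rwa [h.det_eq, LinearMap.det_toLin'] at hf),
    (mem_sub_iff F₀ _).mpr ⟨1, y, by simp⟩, h⟩

theorem exists_of_in_sub {f : Module.End F V} (h : In (Geo.subfieldSubgroup F₀ (1 : GL n F)) f) :
    ∃ (c : F) (y : Matrix n n F₀), c ≠ 0 ∧ Sim (c • f) (toLin' (y.map F₀.subtype)) := by
  obtain ⟨x, hx, hs⟩ := h
  obtain ⟨c, y, hc, h⟩ := (Asch.mem_subfieldSubgroup_iff _ _ _).mp hx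
  have e : Asch.cj (1 : GL n F)⁻¹ (x : Matrix n n F) = x := by simp [Asch.cj_apply]
  rw [e] at h
  refine ⟨c⁻¹, y, inv_ne_zero hc, ?_⟩
  have := hs.smul c⁻¹
  rwa [h, map_smul, smul_smul, inv_mul_cancel₀ hc, one_smul] at this

theorem exists_sub_of_basis {ι : Type*} [Fintype ι] [DecidableEq ι] (b : Basis ι F V)
    {f : Module.End F V} (hb : ∀ i j, LinearMap.toMatrix b b f i j ∈ F₀)
    (hn : finrank F V = Fintype.card n) :
    ∃ y : Matrix n n F₀, Sim f (toLin' (y.map F₀.subtype)) := by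
  let e : ι ≃ n := Fintype.equivOfCardEq (by rw [← hn, finrank_eq_card_basis b])
  have := Module.Finite.of_basis b
  refine ⟨of fun i j => ⟨_, hb (e.symm i) (e.symm j)⟩, ?_⟩
  have h := sim_toLin (b.reindex e) (LinearMap.toMatrix (b.reindex e) (b.reindex e) f)
  rw [toLin_toMatrix] at h
  convert h using 2
  ext i j
  simp [LinearMap.toMatrix_apply]

theorem exists_sub_of_hasType {ι : Type*} [Fintype ι] {f : Module.End F V} {h : ι → F[X]}
    (hm : ∀ j, (h j).Monic) (hc : ∀ j k, (h j).coeff k ∈ F₀) (hf : HasType f h)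
    (hn : finrank F V = Fintype.card n) :
    ∃ y : Matrix n n F₀, Sim f (toLin' (y.map F₀.subtype)) := by
  classical
  have := fun j => finiteDimensional_adjoinRoot (hm j).ne_zero
  obtain ⟨y, hy⟩ := exists_sub_of_basis (n := n) F₀
    (Pi.basis fun j => (AdjoinRoot.powerBasis (hm j).ne_zero).basis) (f := mop h) (fun i j => by
      rw [mop, toMatrix_piMap, blockDiagonal'_apply]
      split_ifs with h1
      · have h2 := (AdjoinRoot.powerBasis (hm i.1).ne_zero).leftMulMatrix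
        rw [PowerBasis.minpolyGen_eq, AdjoinRoot.minpoly_powerBasis_gen_of_monic (hm _)] at h2
        change Algebra.leftMulMatrix _ (AdjoinRoot.powerBasis (hm i.1).ne_zero).gen _ _ ∈ _
        rw [h2, of_apply]
        split_ifs
        exacts [neg_mem (hc _ _), one_mem _, zero_mem _]
      · exact zero_mem _) (by rw [← Sim.finrank_eq hf, hn])
  exact ⟨y, Sim.trans hf hy⟩

theorem exists_lift_monic {P : F[X]} (hm : P.Monic) (hc : ∀ k, P.coeff k ∈ F₀) :
    ∃ Q : F₀[X], Q.map F₀.subtype = P ∧ Q.natDegree = P.natDegree ∧ Q.Monic :=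
  lifts_and_natDegree_eq_and_monic
    ((lifts_iff_coeff_lifts P).mpr fun k => ⟨⟨_, hc k⟩, rfl⟩) hm

theorem exists_sub_unip {f : Module.End F V} {μ : Multiset ℕ} (hf : HasJordanType f 1 μ)
    (hn : finrank F V = Fintype.card n) :
    ∃ y : Matrix n n F₀, Sim f (toLin' (y.map F₀.subtype)) := by
  obtain ⟨N, e, -, h⟩ := hf
  refine exists_sub_of_hasType F₀ (fun j => (monic_X_sub_C 1).pow _) (fun j k => ?_) h hn
  have : ((X - C 1 : F[X]) ^ e j) = ((X - C 1 : F₀[X]) ^ e j).map F₀.subtype := by simp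
  rw [this, coeff_map]
  exact Subtype.mem _

variable [FiniteDimensional F V] [Fintype F] {p : ℕ} [Fact p.Prime] [CharP F p] {r : ℕ}
  [Fact r.Prime]

theorem in_sub_of_charpoly (hrp : r ≠ p) {y : Module.End F V} (hy : y ^ r = 1)
    (hc : ∀ k, (LinearMap.charpoly y).coeff k ∈ F₀) (hn : finrank F V = Fintype.card n) :
    In (Geo.subfieldSubgroup F₀ (1 : GL n F)) y := by
  classical
  obtain ⟨Q, hQ, -, hm⟩ := exists_lift_monic F₀ (LinearMap.charpoly_monic y) hc
  obtain ⟨N, g, hg⟩ := exists_fin_map_eq (UniqueFactorizationMonoid.normalizedFactors Q)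
  have h1 : ∀ j, Irreducible (g j) ∧ (g j).Monic ∧ g j ∣ Q := fun j =>
    (Polynomial.mem_normalizedFactors_iff hm.ne_zero).mp (hg ▸ Multiset.mem_map_of_mem _ (by simp))
  have h2 : ∏ j, g j = Q := by
    rw [Finset.prod_eq_multiset_prod, hg,
      UniqueFactorizationMonoid.prod_normalizedFactors_eq hm.ne_zero, hm.normalize_eq_self]
  have hs := squarefree_X_pow_sub_one (F := F) hrp
  have hy' := (aeval_X_pow_sub_one_eq_zero_iff (F := F) y r).mpr hy
  obtain ⟨M, h, -, h3, h4, h5⟩ := exists_hasType_of_squarefree y hs hy'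
  have h6 : Q ∣ (X ^ r - 1) ^ M := by
    rw [← map_dvd_map' F₀.subtype, hQ, h5.charpoly_eq h3]
    simpa using Finset.prod_dvd_prod_of_dvd (s := Finset.univ) h (fun _ => X ^ r - 1)
      fun j _ => h4 j
  have h7 : ∀ j, ((g j).map F₀.subtype).Monic := fun j => (h1 j).2.1.map _
  have h8 : ∏ j, (g j).map F₀.subtype = LinearMap.charpoly y := by
    rw [← Polynomial.map_prod, h2, hQ]
  obtain ⟨f, hf⟩ := exists_hasType_of_finrank (V := V) (h := fun j => (g j).map F₀.subtype)
    (fun j => (h7 j).ne_zero) (by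
      rw [← natDegree_prod_of_monic _ _ fun j _ => h7 j, h8, LinearMap.charpoly_natDegree])
  have h9 : aeval f (X ^ r - 1 : F[X]) = 0 := (hf.aeval_eq_zero_iff _).mpr fun j => by
    simpa using (map_dvd_map' F₀.subtype).mpr
      ((h1 j).1.prime.dvd_of_dvd_pow ((h1 j).2.2.trans h6))
  obtain ⟨x, hx⟩ := exists_sub_of_hasType (n := n) F₀ h7 (fun j k => by
    rw [coeff_map]; exact Subtype.mem _) hf hn
  refine in_sub_of_sim F₀ (fun e => ?_)
    ((sim_of_charpoly_eq hs hs hy' h9 (by rw [hf.charpoly_eq h7, h8])).trans hx)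
  have := congrArg LinearMap.det hy
  rw [map_pow, e, zero_pow (Fact.out : r.Prime).ne_zero, map_one] at this
  exact zero_ne_one this

theorem in_sub_pow [Nonempty n] {f : Module.End F V} {z : F} {k : ℕ} (hf : f ^ k = z • 1)
    (h : In (Geo.subfieldSubgroup F₀ (1 : GL n F)) f) :
    ∃ (c : F) (y : Matrix n n F₀), c ≠ 0 ∧ Sim (c • f) (toLin' (y.map F₀.subtype)) ∧
      c ^ k * z ∈ F₀ := by
  obtain ⟨c, y, hc, hs⟩ := exists_of_in_sub F₀ h
  refine ⟨c, y, hc, hs, ?_⟩
  have h1 := ((hs.pow k).eq_smul_one_iff (c ^ k * z)).mp (by rw [_root_.smul_pow, hf, smul_smul])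
  rw [← toLin'_pow', toLin'_eq_smul_one_iff, ← RingHom.mapMatrix_apply, ← map_pow] at h1
  have h2 := congrFun (congrFun h1 (Classical.arbitrary n)) (Classical.arbitrary n)
  simp only [RingHom.mapMatrix_apply, map_apply, Matrix.smul_apply, one_apply_eq, smul_eq_mul,
    mul_one] at h2
  exact h2 ▸ Subtype.mem _

theorem charpoly_of_sim_sub {f : Module.End F V} {y : Matrix n n F₀}
    (h : Sim f (toLin' (y.map F₀.subtype))) :
    LinearMap.charpoly f = y.charpoly.map F₀.subtype := by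
  rw [h.charpoly_eq, charpoly_toLin', charpoly_map]

theorem map_frob_eq_iff (P : F[X]) : P.map (H7.subFrob F₀) = P ↔ ∀ k, P.coeff k ∈ F₀ := by
  simp only [Polynomial.ext_iff, coeff_map, H7.subFrob_iff]

theorem in_sub_diag {ζ : F} (hζ : IsPrimitiveRoot ζ r) {m : ℕ} {y : Module.End F V}
    {a : Fin m → ZMod r} (hy : Diag y fun i => zp ζ (a i))
    (h : In (Geo.subfieldSubgroup F₀ (1 : GL n F)) y) :
    ∃ b : ZMod r, ∀ x, cnt a x ≤ cnt a ((Nat.card F₀ : ZMod r) * x + b) := by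
  obtain ⟨c, x, hc, hs⟩ := exists_of_in_sub F₀ h
  have h1 := charpoly_of_sim_sub F₀ hs
  have h2 : (LinearMap.charpoly (c • y)).map (H7.subFrob F₀) = LinearMap.charpoly (c • y) :=
    (map_frob_eq_iff F₀ _).mpr fun k => by rw [h1, coeff_map]; exact Subtype.mem _
  rw [(hy.smul c).charpoly, Polynomial.map_prod] at h2
  simp only [Polynomial.map_sub, map_X, map_C] at h2
  obtain ⟨e, he⟩ := exists_equiv_of_map_eq (map_eq_of_prod_eq (fun _ => irreducible_X_sub_C _)
    (fun _ => monic_X_sub_C _) (fun _ => irreducible_X_sub_C _) (fun _ => monic_X_sub_C _) h2)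
  have h3 : ∀ i, zp ζ (a (e i)) = zp ζ ((Nat.card F₀ : ZMod r) * a i) * (c ^ Nat.card F₀ / c) :=
    fun i => by
      have := C_injective (sub_right_injective (he i))
      rw [H7.subFrob_apply, mul_pow, zp_pow hζ] at this
      field_simp
      linear_combination this
  rcases isEmpty_or_nonempty (Fin m) with h4 | ⟨⟨i⟩⟩
  · exact ⟨0, fun x => by rw [cnt_eq_zero (fun i => h4.elim i)]; exact Nat.zero_le _⟩
  obtain ⟨b, hb⟩ := exists_zp hζ (x := c ^ Nat.card F₀ / c) (by
    have := congrArg (· ^ r) (h3 i)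
    simpa only [mul_pow, zp_pow_self hζ, one_mul] using this.symm)
  refine ⟨b, fun x => cnt_le_of_inj e e.injective fun j hj => ?_⟩
  rw [← zp_inj hζ, h3, zp_add hζ, hb, hj]

theorem in_sub_of_perm (hrp : r ≠ p) {ζ : F} (hζ : IsPrimitiveRoot ζ r) {ι : Type*} [Fintype ι]
    {y : Module.End F V} {a : ι → ZMod r} (hy : Diag y fun i => zp ζ (a i))
    (e : ι ≃ ι) (he : ∀ i, a (e i) = (Nat.card F₀ : ZMod r) * a i)
    (hn : finrank F V = Fintype.card n) : In (Geo.subfieldSubgroup F₀ (1 : GL n F)) y := by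
  refine in_sub_of_charpoly F₀ hrp (by simpa using hy.pow_eq (z := 1) fun i => zp_pow_self hζ _)
    ((map_frob_eq_iff F₀ _).mp ?_) hn
  rw [hy.charpoly, Polynomial.map_prod, ← e.prod_comp fun i => X - C (zp ζ (a i))]
  refine Finset.prod_congr rfl fun i _ => ?_
  rw [Polynomial.map_sub, map_X, map_C, H7.subFrob_apply, zp_pow hζ, he]

theorem dvd_of_dvd_index_sub {m k : ℕ} (hm : 0 < m) (hq : Fintype.card F = Nat.card F₀ ^ k)
    (hrp : r ≠ p)
    (h : r ∣ (Geo.subfieldSubgroup F₀ (1 : GL (Fin m) F)).relIndex (Geo.specialLinear (Fin m) F)) :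
    ∃ j, 2 ≤ j ∧ j ≤ m ∧ r ∣ ∑ i ∈ Finset.range k, (Nat.card F₀ ^ j) ^ i := by
  classical
  let _ := Fintype.ofFinite F₀
  have hr : r.Prime := Fact.out
  obtain ⟨k, rfl⟩ : ∃ l, k = l + 1 := ⟨k - 1, by
    have := Fintype.one_lt_card (α := F)
    rcases k with _ | k
    · simp [hq] at this
    · simp⟩
  have h1 : Nat.card (SpecialLinearGroup (Fin m) F₀) ∣
      Nat.card ↥(Geo.subfieldSubgroup F₀ (1 : GL (Fin m) F) ⊓ Geo.specialLinear (Fin m) F) := by
    refine Subgroup.card_dvd_of_injective (MonoidHom.codRestrict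
      (SpecialLinearGroup.toGL.comp (SpecialLinearGroup.map F₀.subtype)) _ fun x => ⟨?_, ?_⟩) ?_
    · exact (mem_sub_iff F₀ _).mpr ⟨1, x, by rw [one_smul]; rfl⟩
    · exact mem_SL.mpr (SpecialLinearGroup.map F₀.subtype x).2
    · intro x y e
      have := congrArg (fun g => ((g.1 : GL (Fin m) F) : Matrix (Fin m) (Fin m) F)) e
      exact Subtype.ext (Matrix.map_injective F₀.subtype.injective this)
  have h2 := h.trans (relIndex_dvd_of_SL h1
    (B := (Nat.card F₀ ^ k) ^ (∑ i ∈ Finset.range m, i) * ∏ j ∈ Finset.range (m - 1),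
      ∑ i ∈ Finset.range (k + 1), (Nat.card F₀ ^ (j + 2)) ^ i) (by
      rw [card_SL_eq m hm, card_SL_eq m hm, hq, ← Nat.card_eq_fintype_card, mul_mul_mul_comm,
        ← mul_pow, ← pow_succ', ← Finset.prod_mul_distrib]
      congr 1
      refine Finset.prod_congr rfl fun j _ => ?_
      rw [mul_comm, geom_sum_mul_of_one_le (Nat.one_le_pow _ _ Nat.card_pos), ← pow_mul, ← pow_mul,
        mul_comm]))
  rcases (hr.dvd_mul).mp h2 with h3 | h3
  · exact absurd ((hr.dvd_of_dvd_pow (hr.dvd_of_dvd_pow h3)).trans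
      (hq ▸ dvd_pow_self _ k.succ_ne_zero)) (not_dvd_card_of_ne hrp)
  · obtain ⟨j, hj, h4⟩ := (hr.prime.dvd_finsetProd_iff _).mp h3
    exact ⟨j + 2, by omega, by have := Finset.mem_range.mp hj; omega, h4⟩

theorem pow_eq_one_of_dvd_geom {k t : ℕ} (hk : k.Prime) (hrk : r ≠ k)
    (h : r ∣ ∑ i ∈ Finset.range k, t ^ i) : (t : ZMod r) ^ k = 1 ∧ (t : ZMod r) ≠ 1 := by
  rw [← ZMod.natCast_eq_zero_iff] at h
  push_cast at h
  refine ⟨by rw [← sub_eq_zero, ← geom_sum_mul, h, zero_mul], fun e => hrk ?_⟩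
  rw [e] at h
  simp only [one_pow, Finset.sum_const, Finset.card_range, nsmul_eq_mul, mul_one,
    ZMod.natCast_eq_zero_iff] at h
  exact (Nat.prime_dvd_prime_iff_eq Fact.out hk).mp h

theorem exists_sub_of_pow_char {y : Module.End F V} (hy : y ^ p = 1)
    (hn : finrank F V = Fintype.card n) :
    ∃ μ : Multiset ℕ, (∀ a ∈ μ, 0 < a ∧ a ≤ p) ∧ HasJordanType y 1 μ ∧
      In (Geo.subfieldSubgroup F₀ (1 : GL n F)) y := by
  obtain ⟨w, μ, h1, h2, h3⟩ := exists_hasJordanType_of_pow_char (p := p) (x := y) (z := 1)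
    (by rw [hy, one_smul])
  obtain rfl : w = 1 := by
    rw [← sub_eq_zero, ← pow_eq_zero_iff (Fact.out : p.Prime).ne_zero, sub_pow_char, h1, one_pow,
      sub_self]
  obtain ⟨x, hx⟩ := exists_sub_unip (n := n) F₀ h3 hn
  exact ⟨μ, h2, h3, in_sub_of_sim F₀ (by rw [h3.det_eq, one_pow]; exact one_ne_zero) hx⟩

theorem pow_card_sub_one_sub {z : F} (hz : z ∈ F₀) (h0 : z ≠ 0) : z ^ (Nat.card F₀ - 1) = 1 := by
  have h := (H7.subFrob_iff F₀ z).mpr hz
  rw [H7.subFrob_apply] at h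
  apply mul_right_cancel₀ h0
  rw [← pow_succ, Nat.sub_add_cancel Nat.card_pos, h, one_mul]

theorem isSquare_of_mem_sub (hq : Fintype.card F = Nat.card F₀ ^ 2) {z : F} (hz : z ∈ F₀) :
    IsSquare z := by
  by_cases h2 : ringChar F = 2
  · exact FiniteField.isSquare_of_char_two h2 z
  rcases eq_or_ne z 0 with rfl | h0
  · exact IsSquare.zero
  have h1 := FiniteField.odd_card_of_char_ne_two h2
  obtain ⟨t, ht⟩ : Odd (Nat.card F₀) :=
    (Nat.odd_pow_iff two_ne_zero).mp (hq ▸ Nat.odd_iff.mpr h1)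
  rw [FiniteField.isSquare_iff h2 h0, show Fintype.card F / 2 = (Nat.card F₀ - 1) * (t + 1) by
    rw [hq, ht, Nat.add_sub_cancel, show (2 * t + 1) ^ 2 = 2 * (2 * t * (t + 1)) + 1 by ring]
    omega, pow_mul, pow_card_sub_one_sub F₀ hz h0, one_pow]

theorem exists_sq_mul_sub {k : ℕ} (hk : Odd k) (hq : Fintype.card F = Nat.card F₀ ^ k) (d : F) :
    ∃ t : F, ∃ u ∈ F₀, u ≠ 0 ∧ t ^ 2 * u = d := by
  classical
  by_cases hd : IsSquare d
  · obtain ⟨t, rfl⟩ := hd
    exact ⟨t, 1, one_mem _, one_ne_zero, by ring⟩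
  have h2 : ringChar F ≠ 2 := fun e => hd (FiniteField.isSquare_of_char_two e d)
  have h0 : d ≠ 0 := fun e => hd (e ▸ IsSquare.zero)
  let _ := Fintype.ofFinite F₀
  have h3 : ringChar F₀ ≠ 2 := by
    rwa [Algebra.ringChar_eq F₀ F]
  obtain ⟨u, hu⟩ := FiniteField.exists_nonsquare h3
  have hu0 : u ≠ 0 := fun e => hu (e ▸ IsSquare.zero)
  have h4 := (FiniteField.pow_dichotomy h3 hu0).resolve_left
    fun e => hu ((FiniteField.isSquare_iff h3 hu0).mpr e)
  have h5 := (FiniteField.pow_dichotomy h2 h0).resolve_left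
    fun e => hd ((FiniteField.isSquare_iff h2 h0).mpr e)
  obtain ⟨t, ht⟩ := Nat.odd_iff.mpr (FiniteField.odd_card_of_char_ne_two h3)
  have h6 := geom_sum_mul_of_one_le (Nat.succ_le_of_lt (Fintype.card_pos (α := F₀))) k
  have h7 : Odd (∑ i ∈ Finset.range k, Fintype.card F₀ ^ i) := by
    rw [Finset.odd_sum_iff_odd_card_odd, Finset.filter_true_of_mem fun i _ => Odd.pow ⟨t, ht⟩,
      Finset.card_range]
    exact hk
  have h8 : Fintype.card F / 2 =
      Fintype.card F₀ / 2 * ∑ i ∈ Finset.range k, Fintype.card F₀ ^ i := by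
    rw [← Nat.card_eq_fintype_card, ← hq, Nat.card_eq_fintype_card] at h6
    have := Fintype.card_pos (α := F)
    generalize ∑ i ∈ Finset.range k, Fintype.card F₀ ^ i = B at h6
    rw [ht, Nat.add_sub_cancel] at h6
    rw [ht, show (2 * t + 1) / 2 = t by omega, show Fintype.card F = 2 * (t * B) + 1 by
      rw [show 2 * (t * B) = B * (2 * t) by ring]; omega]
    omega
  have hu1 : (u : F) ≠ 0 := fun e => hu0 (Subtype.ext e)
  have h9 : (u : F) ^ (Fintype.card F₀ / 2) = -1 := by exact_mod_cast congrArg Subtype.val h4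
  obtain ⟨s, hs⟩ := (FiniteField.isSquare_iff h2 (div_ne_zero h0 hu1)).mpr (by
    rw [div_pow, h5, h8, pow_mul, h9, h7.neg_one_pow, div_self (neg_ne_zero.mpr one_ne_zero)])
  exact ⟨s, u, u.2, hu1, by rw [sq, ← hs, div_mul_cancel₀ _ hu1]⟩

theorem exists_det_sub [Nonempty n] {u : F} (hu : u ∈ F₀) (h0 : u ≠ 0) :
    ∃ g ∈ Geo.subfieldSubgroup F₀ (1 : GL n F), (g : Matrix n n F).det = u := by
  obtain ⟨g, hg⟩ := GeneralLinearGroup.det_surjective (n := n)
    (Units.mk0 (⟨u, hu⟩ : F₀) fun e => h0 (congrArg Subtype.val e))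
  refine ⟨GeneralLinearGroup.map F₀.subtype g, (mem_sub_iff F₀ _).mpr ⟨1, g, by rw [one_smul]; rfl⟩,
    (det_map_sub F₀ _).trans ?_⟩
  exact congrArg (fun x : F₀ˣ => ((x : F₀) : F)) hg

omit [Fintype F] in
theorem isSquare_det_of_comm {N c : Module.End F V} (h : c * N = N * c)
    (hN : LinearMap.range N = LinearMap.ker N) : IsSquare (LinearMap.det c) := by
  have h1 : ∀ v, c (N v) = N (c v) := fun v => LinearMap.congr_fun h v
  have h2 : LinearMap.ker N ≤ (LinearMap.ker N).comap c := fun v hv => by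
    rw [Submodule.mem_comap, LinearMap.mem_ker, ← h1, LinearMap.mem_ker.mp hv, map_zero]
  refine ⟨_, (LinearMap.det_eq_det_mul_det _ c h2).trans (congrArg _ (Sim.det_eq
    ⟨N.quotKerEquivRange.trans (LinearEquiv.ofEq _ _ hN), fun v => ?_⟩))⟩
  obtain ⟨v, rfl⟩ := Submodule.Quotient.mk_surjective _ v
  exact Subtype.ext (h1 v).symm

omit [Fintype F] in
theorem finrank_ker_toLin' (M : Matrix n n F) :
    finrank F (LinearMap.ker (toLin' M - (1 : F) • 1)) + (M - 1).rank = Fintype.card n := by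
  have h := LinearMap.finrank_range_add_finrank_ker (toLin' (M - 1))
  rw [finrank_fintype_fun_eq_card, add_comm] at h
  rw [one_smul, Module.End.one_eq_id, ← toLin'_one, ← map_sub]
  exact h

theorem not_elus_sub_unip (hp : p ≠ 2) {m : ℕ} (hm : 0 < m) (hn : Fintype.card n = 2 * m)
    (hq : Fintype.card F = Nat.card F₀ ^ 2) :
    ¬ Elus (Geo.subfieldSubgroup F₀ (1 : GL n F)) p := fun h => by
  have : Nonempty n := Fintype.card_pos_iff.mp (by omega)
  have hp0 := (Fact.out : p.Prime)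
  let _ := Fintype.ofFinite F₀
  let φ : Matrix n n F₀ →+* Matrix n n F := F₀.subtype.mapMatrix
  have hφ : Function.Injective φ := Matrix.map_injective F₀.subtype.injective
  have hr : ∀ M, (φ M - 1).rank = (M - 1).rank := fun M => by
    rw [← map_one φ, ← map_sub]; exact rank_map_field _ _
  obtain ⟨f, hf⟩ := exists_end_hasJordanType (V := n → F₀) (1 : F₀) (Multiset.replicate m 2)
    (by simp [hn, mul_comm])
  obtain ⟨X₀, rfl⟩ := toLin'.surjective f
  have h1 : (toLin' X₀ - (1 : F₀) • 1) ^ 2 = 0 := by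
    simpa [Algebra.algebraMap_eq_smul_one] using (hf.aeval_pow_eq_zero_iff 2).mpr
      fun a ha => (Multiset.eq_of_mem_replicate ha).le
  have h2 : ∀ {K : Type _} [Field K] (M : Matrix n n K),
      (toLin' M - (1 : K) • 1) ^ 2 = 0 ↔ (M - 1) ^ 2 = 0 := fun M => by
    rw [one_smul, Module.End.one_eq_id, ← toLin'_one, ← map_sub, ← toLin'_pow',
      LinearEquiv.map_eq_zero_iff]
  have h3 : (X₀ - 1).rank = m := by
    have e1 := finrank_ker_toLin' X₀
    have e2 := HasJordanType.finrank_ker_pow hf 1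
    rw [pow_one] at e2
    simp only [Multiset.map_replicate, Multiset.sum_replicate, smul_eq_mul,
      show min 2 1 = 1 from rfl] at e2
    omega
  have h4 : (φ X₀).det = 1 := by
    have := hf.det_eq
    rw [LinearMap.det_toLin', one_pow] at this
    exact (det_map_sub F₀ _).trans (by rw [this]; rfl)
  have h5 : (φ X₀ - 1) ^ 2 = 0 := by rw [← map_one φ, ← map_sub, ← map_pow, (h2 _).mp h1, map_zero]
  have h6 : φ X₀ ^ p = 1 := by
    have := sub_pow_char_of_commute p (Commute.one_right (φ X₀))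
    rw [pow_eq_zero_of_le hp0.two_le h5, one_pow] at this
    exact sub_eq_zero.mp this.symm
  obtain ⟨d, hd⟩ := FiniteField.exists_nonsquare (F := F) (by rwa [ringChar.eq F p])
  obtain ⟨D, hD⟩ := GeneralLinearGroup.det_surjective (n := n)
    (Units.mk0 d fun e => hd (e ▸ IsSquare.zero))
  replace hD : (D : Matrix n n F).det = d := congrArg Units.val hD
  obtain ⟨X, hX⟩ : ∃ X : GL n F, (X : Matrix n n F) = φ X₀ :=
    ⟨GeneralLinearGroup.mkOfDetNeZero _ (h4 ▸ one_ne_zero), rfl⟩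
  have h7 : X ^ p = 1 := Units.ext (by rw [Units.val_pow_eq_pow_val, hX, h6]; rfl)
  obtain ⟨g, hg, h8⟩ := h (D⁻¹ * X * D) (by
      rw [← GeneralLinearGroup.val_det_apply, map_mul, map_mul, mul_right_comm, ← map_mul,
        inv_mul_cancel, map_one, one_mul, GeneralLinearGroup.val_det_apply, hX, h4])
    ⟨1, by rw [← inv_inv D, inv_inv D⁻¹, conj_pow, h7]; simp⟩ fun z hz => by
      have e : (X : Matrix n n F) = z • 1 := by
        rw [show X = D * (D⁻¹ * X * D) * D⁻¹ by group, Units.val_mul, Units.val_mul, hz]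
        simp
      rw [← hX, e, ← one_smul F (1 : Matrix n n F), smul_smul, ← sub_smul, _root_.smul_pow,
        one_pow, smul_eq_zero, or_iff_left one_ne_zero, pow_eq_zero_iff two_ne_zero] at h5
      have := hr X₀
      rw [← hX, e, show z = 1 by linear_combination h5, one_smul, sub_self, rank_zero] at this
      omega
  obtain ⟨c, y, hy⟩ := (mem_sub_iff F₀ _).mp h8
  rw [show g⁻¹ * (D⁻¹ * X * D) * g = (D * g)⁻¹ * X * (D * g) by group] at hy
  obtain ⟨A, hA⟩ : ∃ A, A = D * g := ⟨_, rfl⟩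
  rw [← hA] at hy
  have hc : c ∈ F₀ := by
    have e1 : ((A⁻¹ * X * A) ^ p : GL n F) = 1 := by rw [← inv_inv A, inv_inv A⁻¹, conj_pow, h7]; simp
    have e2 := congrArg Units.val e1
    rw [Units.val_pow_eq_pow_val, hy, _root_.smul_pow, ← RingHom.mapMatrix_apply, ← map_pow] at e2
    have e3 := congrFun (congrFun e2 (Classical.arbitrary n)) (Classical.arbitrary n)
    simp only [RingHom.mapMatrix_apply, map_apply, Matrix.smul_apply, smul_eq_mul, Units.val_one,
      one_apply_eq] at e3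
    have e4 : c ^ p ∈ F₀ := eq_inv_of_mul_eq_one_left e3 ▸ inv_mem (Subtype.mem _)
    rw [← H7.subFrob_iff, map_pow] at e4
    rw [← H7.subFrob_iff, ← sub_eq_zero, ← pow_eq_zero_iff hp0.ne_zero, sub_pow_char, e4, sub_self]
  have h9 : φ ((⟨c, hc⟩ : F₀) • y) = (A⁻¹ : GL n F) * φ X₀ * A := by
    rw [← hX, ← Units.val_mul, ← Units.val_mul, hy]
    ext i j
    rfl
  generalize (⟨c, hc⟩ : F₀) • y = Y at h9
  have h10 : φ Y - 1 = (A⁻¹ : GL n F) * (φ X₀ - 1) * A := by
    rw [h9, mul_sub, sub_mul, mul_one, Units.inv_mul]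
  obtain ⟨Q, hQ⟩ := (sim_toLin'_iff _ _).mp (sim_of_sq_zero h1 ((h2 Y).mpr (hφ (by
      rw [map_pow, map_sub, map_one, h10, ← inv_inv A, inv_inv A⁻¹, Units.conj_pow, h5]; simp))) rfl
    (by
      have e1 := finrank_ker_toLin' X₀
      have e2 := finrank_ker_toLin' Y
      rw [← hr Y, h10, rank_mul_eq_left_of_det_ne_zero _ _ A.det_ne_zero,
        rank_mul_eq_right_of_det_ne_zero _ _ A⁻¹.det_ne_zero, hr] at e2
      omega))
  let Q' : GL n F := GeneralLinearGroup.map F₀.subtype Q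
  have h11 : Q'⁻¹ * X * Q' = A⁻¹ * X * A := Units.ext (by
    rw [Units.val_mul, Units.val_mul, Units.val_mul, Units.val_mul, hX, ← h9, ← hQ, map_mul, map_mul]
    rfl)
  have h12 : A * Q'⁻¹ * X = X * (A * Q'⁻¹) := by
    rw [show A * Q'⁻¹ * X = A * (Q'⁻¹ * X * Q') * Q'⁻¹ by group, h11]; group
  have h13 := isSquare_det_of_comm (c := toLin' ((A * Q'⁻¹ : GL n F) : Matrix n n F))
    (N := toLin' (φ X₀ - 1)) (by
      rw [Module.End.mul_eq_comp, Module.End.mul_eq_comp, ← toLin'_mul, ← toLin'_mul, ← hX, mul_sub,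
        sub_mul, ← Units.val_mul, h12, mul_one, one_mul, Units.val_mul])
    (Submodule.eq_of_le_of_finrank_eq (LinearMap.range_le_ker_iff.mpr (by
      rw [← toLin'_mul, ← sq, h5, map_zero])) (by
      have e1 := LinearMap.finrank_range_add_finrank_ker (toLin' (φ X₀ - 1))
      have e2 : finrank F (LinearMap.range (toLin' (φ X₀ - 1))) = m := (hr X₀).trans h3
      rw [finrank_fintype_fun_eq_card] at e1
      omega))
  have h14 : IsSquare (Q' : Matrix n n F).det :=
    isSquare_of_mem_sub F₀ hq ((det_map_sub F₀ (Q : Matrix n n F₀)).symm ▸ Subtype.mem _ :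
      ((Q : Matrix n n F₀).map F₀.subtype).det ∈ F₀)
  have h15 := h13.mul h14
  rw [LinearMap.det_toLin', ← det_mul, ← Units.val_mul, inv_mul_cancel_right, hA, Units.val_mul,
    det_mul, hg, mul_one, hD] at h15
  exact hd h15

end

end Cfsg.Agent.H1.El
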