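import Cfsg.Agent.H1.ElStd
import Cfsg.Agent.H8.Proper

/-!
Elements of prime order and stabilisers of tensor decompositions.
-/

set_option autoImplicit false
set_option linter.unusedSectionVars false

namespace Cfsg.Agent.H1.El

open Module Polynomial Matrix Cfsg.Agent.H8 Cfsg.Agent.H7
open scoped MatrixGroups TensorProduct Kronecker

section

variable {F : Type*} [Field F] {U W : Type*} [AddCommGroup U] [Module F U] [AddCommGroup W]
  [Module F W] [FiniteDimensional F U] [FiniteDimensional F W]

theorem sim_toLin {ι : Type*} [Fintype ι] [DecidableEq ι] (b : Basis ι F U) (M : Matrix ι ι F) :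
    Sim (toLin b b M) (toLin' M) :=
  ⟨b.equivFun, fun v => by
    ext i
    simp [toLin_apply, Finsupp.single_apply]⟩

theorem finrank_range_sub_eq_zero {f g : Module.End F U} :
    finrank F (LinearMap.range (f - g)) = 0 ↔ f = g := by
  rw [Submodule.finrank_eq_zero, LinearMap.range_eq_bot, sub_eq_zero]

theorem sim_of_pow_irr {r : ℕ} {z : F} (hi : Irreducible (X ^ r - C z : F[X])) (hr : r ≠ 0)
    {f : Module.End F U} {g : Module.End F W} (hf : f ^ r = z • 1) (hg : g ^ r = z • 1)
    (h : finrank F U = finrank F W) : Sim f g :=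
  sim_of_irreducible hi (monic_X_pow_sub_C z hr) ((aeval_X_pow_sub_C_eq_zero_iff _ _ _).mpr hf)
    ((aeval_X_pow_sub_C_eq_zero_iff _ _ _).mpr hg) h

theorem finrank_range_tmap (f : Module.End F U) (g : Module.End F W) :
    finrank F (LinearMap.range (TensorProduct.map f g)) =
      finrank F (LinearMap.range f) * finrank F (LinearMap.range g) := by
  rw [TensorProduct.range_map, ← TensorProduct.range_mapIncl,
    LinearMap.finrank_range_of_inj (Module.Flat.tensorProduct_mapIncl_injective_of_right _ _),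
    finrank_tensorProduct]

theorem le_finrank_range_tmap {A : Module.End F U} (hA : ∀ c : F, A ≠ c • 1) {B : Module.End F W}
    (hB : Function.Injective B) (c : F) :
    finrank F W ≤ finrank F (LinearMap.range (TensorProduct.map A B - c • 1)) := by
  obtain ⟨u, hu⟩ : ∃ u, A u ∉ F ∙ u := by
    by_contra! h
    obtain ⟨c, hc⟩ := A.exists_eq_smul_id_of_forall_notLinearIndependent fun v hv => by
      obtain ⟨a, ha⟩ := Submodule.mem_span_singleton.mp (h v)
      have := (LinearIndependent.pair_iff.mp hv a (-1) (by simp [ha])).2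
      simp at this
    exact hA c hc
  obtain ⟨ψ, h1, h2⟩ := exists_dual_one hu
  have h3 := h2 u (Submodule.mem_span_singleton_self u)
  let L : U ⊗[F] W →ₗ[F] W := (TensorProduct.lid F W).toLinearMap ∘ₗ ψ.rTensor W
  have h4 : LinearMap.range B ≤ (LinearMap.range (TensorProduct.map A B - c • 1)).map L := by
    rintro _ ⟨w, rfl⟩
    exact ⟨_, ⟨u ⊗ₜ w, rfl⟩, by simp [L, h1, h3]⟩
  rw [← LinearMap.finrank_range_of_inj hB]
  exact (Submodule.finrank_mono h4).trans (Submodule.finrank_map_le _ _)

theorem tmap_smul_sub (s c : F) (B : Module.End F W) :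
    TensorProduct.map (s • 1 : Module.End F U) B - c • 1 =
      TensorProduct.map (1 : Module.End F U) (s • B - c • 1) := by
  ext u w
  simp [TensorProduct.tmul_sub, TensorProduct.smul_tmul']

theorem finrank_range_tmap_smul (s c : F) (B : Module.End F W) :
    finrank F (LinearMap.range (TensorProduct.map (s • 1 : Module.End F U) B - c • 1)) =
      finrank F U * finrank F (LinearMap.range (s • B - c • 1)) := by
  rw [tmap_smul_sub, finrank_range_tmap, LinearMap.range_eq_top.mpr Function.surjective_id,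
    finrank_top]

end

variable {F : Type*} [Field F] [Fintype F] {ι : Type} [Fintype ι] [DecidableEq ι] {a b : ℕ}
  (e : ι ≃ Fin a × Fin b) (P : GL ι F)

theorem sim_tr_kron (x : Matrix (Fin a) (Fin a) F) (y : Matrix (Fin b) (Fin b) F) :
    Sim (toLin' (Asch.tr e P (x ⊗ₖ y))) (TensorProduct.map (toLin' x) (toLin' y)) := by
  have h1 : Sim (toLin' (x ⊗ₖ y)) (toLin' (Asch.tr e P (x ⊗ₖ y))) :=
    ⟨trvE e P, fun v => (Asch.tr_mulVec e P _ v).symm⟩
  have h2 := sim_toLin ((Pi.basisFun F (Fin a)).tensorProduct (Pi.basisFun F (Fin b))) (x ⊗ₖ y)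
  rw [toLin_kronecker, toLin_eq_toLin', toLin_eq_toLin'] at h2
  exact (h2.trans h1).symm

theorem in_tensor_iff {V : Type*} [AddCommGroup V] [Module F V] {f : Module.End F V} :
    In (Geo.tensorProductSubgroup a b e P) f ↔
      ∃ (A : Module.End F (Fin a → F)) (B : Module.End F (Fin b → F)),
        LinearMap.det A ≠ 0 ∧ LinearMap.det B ≠ 0 ∧ Sim f (TensorProduct.map A B) := by
  constructor
  · rintro ⟨h, hh, hs⟩
    obtain ⟨x, y, hxy⟩ := (Asch.mem_tensorProductSubgroup e P h).mp hh
    exact ⟨_, _, by simpa using x.det_ne_zero, by simpa using y.det_ne_zero,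
      hs.trans (hxy ▸ sim_tr_kron e P _ _)⟩
  · rintro ⟨A, B, hA, hB, hs⟩
    obtain ⟨A, rfl⟩ := toLin'.surjective A
    obtain ⟨B, rfl⟩ := toLin'.surjective B
    rw [LinearMap.det_toLin'] at hA hB
    let x : GL (Fin a) F := GeneralLinearGroup.mkOfDetNeZero A hA
    let y : GL (Fin b) F := GeneralLinearGroup.mkOfDetNeZero B hB
    have hd : (Asch.tr e P (A ⊗ₖ B)).det ≠ 0 := by
      rw [← isUnit_iff_ne_zero, ← isUnit_iff_isUnit_det]
      refine IsUnit.map _ ((isUnit_iff_isUnit_det _).mpr ?_)
      rw [det_kronecker, isUnit_iff_ne_zero]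
      exact mul_ne_zero (pow_ne_zero _ hA) (pow_ne_zero _ hB)
    exact ⟨GeneralLinearGroup.mkOfDetNeZero _ hd,
      (Asch.mem_tensorProductSubgroup e P _).mpr ⟨x, y, rfl⟩, hs.trans (sim_tr_kron e P A B).symm⟩

theorem hasScal_tensor : HasScal (Geo.tensorProductSubgroup a b e P) := fun x c hx => by
  by_cases hc : c = 0
  · have : (x : Matrix ι ι F) * (x⁻¹ : GL ι F) = 1 := Units.mul_inv x
    rw [hx, hc, zero_smul, zero_mul] at this
    have h1 : x = 1 := Units.ext (by rw [hx, hc, zero_smul, this]; rfl)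
    exact h1 ▸ one_mem _
  · refine (Asch.mem_tensorProductSubgroup e P _).mpr ⟨scal hc, 1, ?_⟩
    change _ = Asch.tr e P ((c • 1) ⊗ₖ 1)
    rw [smul_kronecker, one_kronecker_one, map_smul, map_one, hx]

theorem inj_of_det_ne {V : Type*} [AddCommGroup V] [Module F V] [FiniteDimensional F V]
    {f : Module.End F V} (h : LinearMap.det f ≠ 0) : Function.Injective f := by
  rw [← LinearMap.ker_eq_bot]
  by_contra h1
  exact h (LinearMap.det_eq_zero_iff_ker_ne_bot.mpr h1)

theorem in_tensor_rank {V : Type*} [AddCommGroup V] [Module F V] {f : Module.End F V}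
    (hf : In (Geo.tensorProductSubgroup a b e P) f) :
    (∀ c : F, b ≤ finrank F (LinearMap.range (f - c • 1))) ∨
      ∀ c : F, a ∣ finrank F (LinearMap.range (f - c • 1)) := by
  obtain ⟨A, B, -, hB, hs⟩ := (in_tensor_iff e P).mp hf
  by_cases hA : ∀ c : F, A ≠ c • 1
  · refine Or.inl fun c => ?_
    rw [(hs.sub_smul_one c).finrank_range_eq]
    simpa using le_finrank_range_tmap hA (inj_of_det_ne hB) c
  · push Not at hA
    obtain ⟨s, rfl⟩ := hA
    refine Or.inr fun c => ?_
    rw [(hs.sub_smul_one c).finrank_range_eq, finrank_range_tmap_smul]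
    simp

variable {p : ℕ} [Fact p.Prime] [CharP F p] {r : ℕ} [hr : Fact r.Prime]

theorem not_in_tensor_block (ha : 2 ≤ a) (hab : a < b) (hrp : r ≠ p)
    (hc : orderOf (Fintype.card F : ZMod r) ≠ 1) {V : Type*} [AddCommGroup V] [Module F V]
    {y : Module.End F V} (hy : y ^ r = 1)
    (hk : finrank F (LinearMap.range (y - 1)) = orderOf (Fintype.card F : ZMod r)) :
    ¬ In (Geo.tensorProductSubgroup a b e P) y := fun hf => by
  obtain ⟨A, B, hA0, hB, hs⟩ := (in_tensor_iff e P).mp hf
  have h0 := orderOf_card_pos (F := F) hrp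
  have h1 := (hs.sub_smul_one 1).finrank_range_eq
  rw [one_smul, hk] at h1
  have h2 : TensorProduct.map (A ^ r) (B ^ r) = (1 : F) • 1 := by
    rw [← TensorProduct.map_pow, ← (hs.pow r).eq_smul_one_iff, hy, one_smul]
  have : Nontrivial (Fin a → F) := Module.nontrivial_of_finrank_pos (R := F) (by simp; omega)
  by_cases hA : ∀ c : F, A ≠ c • 1
  · have h3 := le_finrank_range_tmap hA (inj_of_det_ne hB) 1
    obtain ⟨z, hz⟩ : ∃ z : F, A ^ r = z • 1 := by
      by_contra! h4
      have h5 := le_finrank_range_tmap h4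
        (inj_of_det_ne (f := B ^ r) (by rw [map_pow]; exact pow_ne_zero _ hB)) 1
      rw [finrank_range_sub_eq_zero.mpr h2] at h5
      simp at h5
      omega
    obtain ⟨w, hw⟩ := exists_pow_eq_of_not_dvd
      (mt (orderOf_eq_one_iff_dvd (r := r) Fintype.card_pos).mpr hc) z
    have hz0 := ne_zero_of_pow_eq_smul hA0 hz
    have hw0 : w ≠ 0 := by
      rintro rfl
      exact hz0 (by rw [← hw, zero_pow hr.out.ne_zero])
    have h6 := orderOf_le_of_ne_one hrp (inv_smul_pow_eq_one hz hw hz0) fun e => hA w (by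
      rw [← e, smul_smul, mul_inv_cancel₀ hw0, one_smul])
    simp only [finrank_fintype_fun_eq_card, Fintype.card_fin] at h3 h6
    omega
  · push Not at hA
    obtain ⟨s, rfl⟩ := hA
    rw [finrank_range_tmap_smul] at h1
    have h3 : (s • B) ^ r = 1 := by
      have h4 := finrank_range_tmap_smul (U := Fin a → F) (s ^ r) 1 (B ^ r)
      rw [_root_.smul_pow, one_pow] at h2
      rw [finrank_range_sub_eq_zero.mpr h2, eq_comm, Nat.mul_eq_zero] at h4
      have h5 := h4.resolve_left (by simp; omega)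
      rw [finrank_range_sub_eq_zero, one_smul] at h5
      rw [_root_.smul_pow, h5]
    have h4 := orderOf_le_of_ne_one hrp h3 fun e => by
      rw [e, one_smul, sub_self, LinearMap.range_zero, finrank_bot] at h1
      omega
    have h5 := LinearMap.finrank_range_add_finrank_ker (s • B - 1)
    rw [one_smul] at h1
    simp only [finrank_fintype_fun_eq_card, Fintype.card_fin] at h1 h4 h5
    nlinarith

theorem in_tensor_invol (e : ι ≃ Fin 2 × Fin b) (h2 : (2 : F) ≠ 0) {y : Module.End F (ι → F)}
    (hy : y ^ 2 = 1) (hd : LinearMap.det y = 1) : In (Geo.tensorProductSubgroup 2 b e P) y := by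
  classical
  obtain ⟨j, hj⟩ := even_of_det_eq_one h2 hy hd
  have hn : finrank F (ι → F) = 2 * b := by simp [Fintype.card_congr e]
  obtain ⟨f, hf⟩ := exists_diag (V := Fin b → F)
    (fun i : Fin b => if (i : ℕ) < j then (-1 : F) else 1) (by simp)
  have h1 : f ^ 2 = 1 := by simpa using hf.pow_eq (k := 2) (z := 1) fun i => by split_ifs <;> simp
  have h3 := (hf.sub 1).finrank_range
  have h4 : (-1 : F) - 1 ≠ 0 := fun e => h2 (by linear_combination -e)
  have h5 : (Finset.univ.filter fun i : Fin b =>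
      (if (i : ℕ) < j then (-1 : F) else 1) - 1 ≠ 0) =
      Finset.univ.filter fun i : Fin b => (i : ℕ) < j :=
    Finset.filter_congr fun i _ => by split_ifs with h <;> simp [h, h4]
  rw [h5, Fin.card_filter_val_lt, min_eq_right (by omega)] at h3
  have h6 := finrank_range_tmap_smul (U := Fin 2 → F) 1 1 f
  have h7 := LinearMap.finrank_range_add_finrank_ker
    (TensorProduct.map (1 : Module.End F (Fin 2 → F)) f - 1)
  rw [one_smul, one_smul, one_smul, one_smul] at h6
  rw [one_smul] at h3
  simp only [finrank_fintype_fun_eq_card, Fintype.card_fin, finrank_tensorProduct] at h3 h6 h7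
  refine (in_tensor_iff e P).mpr ⟨1, f, by simp, fun h => ?_, sim_of_sq_one hy ?_ ?_ ?_⟩
  · have := congrArg LinearMap.det h1
    simp [h] at this
  · rw [TensorProduct.map_pow, h1, one_pow, TensorProduct.map_one]
  · simp [hn]
  · omega

theorem in_tensor_sq (e : ι ≃ Fin 2 × Fin b) {f : Module.End F (ι → F)} {z : F}
    (hf : f ^ 2 = z • 1) (hz : ∀ w : F, w ^ 2 ≠ z) : In (Geo.tensorProductSubgroup 2 b e P) f := by
  have hi : Irreducible (X ^ 2 - C z : F[X]) := X_pow_sub_C_irreducible_of_prime Nat.prime_two hz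
  obtain ⟨J, hJ⟩ := exists_hasType_of_finrank (V := Fin 2 → F) (h := fun _ : Unit => X ^ 2 - C z)
    (fun _ => hi.ne_zero) (by simp)
  have h1 : J ^ 2 = z • 1 := (hJ.pow_eq_iff 2 z).mpr fun _ => dvd_rfl
  obtain ⟨T, hT⟩ : ∃ T : Module.End F ((Fin 2 → F) ⊗[F] (Fin b → F)),
      T = TensorProduct.map J 1 := ⟨_, rfl⟩
  have h2 : T ^ 2 = z • 1 := by
    rw [hT, TensorProduct.map_pow, h1, one_pow, TensorProduct.map_smul_left, TensorProduct.map_one]
  have h3 : Sim f T := sim_of_pow_irr hi two_ne_zero hf h2 (by simp [Fintype.card_congr e])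
  refine (in_tensor_iff e P).mpr ⟨J, 1, fun h => ?_, by simp, hT ▸ h3⟩
  have := congrArg LinearMap.det h1
  rw [map_pow, h, LinearMap.det_smul] at this
  simp at this
  exact hz 0 (by rw [pow_eq_zero_iff two_ne_zero |>.mp this.symm]; simp)

end Cfsg.Agent.H1.El
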