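import Cfsg.Agent.H8.Unip
import Cfsg.Agent.H7.Lin

/-!
Elements of prime order of the projective special linear group and conjugacy into a subgroup:
common infrastructure.
-/

set_option autoImplicit false

namespace Cfsg.Agent.H1.El

open Module Polynomial Matrix Cfsg.Agent.H8 Cfsg.Agent.H7
open scoped MatrixGroups

section Diag

variable {F : Type*} [Field F] {V : Type*} [AddCommGroup V] [Module F V] {ι : Type*}

/-- `f` has a basis of eigenvectors with eigenvalues `l i`. -/
def Diag (f : Module.End F V) (l : ι → F) : Prop := ∃ b : Basis ι F V, ∀ i, f (b i) = l i • b i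

theorem Diag.of_sim {W : Type*} [AddCommGroup W] [Module F W] {f : Module.End F V}
    {g : Module.End F W} {l : ι → F} (hg : Diag g l) (h : Sim f g) : Diag f l := by
  obtain ⟨φ, hφ⟩ := h
  obtain ⟨b, hb⟩ := hg
  refine ⟨b.map φ.symm, fun i => φ.injective ?_⟩
  simp [hφ, hb]

theorem Diag.sim {W : Type*} [AddCommGroup W] [Module F W] {f : Module.End F V}
    {g : Module.End F W} {l : ι → F} (hf : Diag f l) (hg : Diag g l) : Sim f g := by
  obtain ⟨b, hb⟩ := hf
  obtain ⟨c, hc⟩ := hg
  refine ⟨b.equiv c (Equiv.refl _), fun v => ?_⟩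
  have : (b.equiv c (Equiv.refl _) : V →ₗ[F] W) ∘ₗ f = g ∘ₗ (b.equiv c (Equiv.refl _) : V →ₗ[F] W) :=
    b.ext fun i => by simp [hb, hc]
  exact LinearMap.congr_fun this v

theorem Diag.reindex {ι' : Type*} {f : Module.End F V} {l : ι → F} {l' : ι' → F} (hf : Diag f l)
    (e : ι ≃ ι') (he : ∀ i, l' (e i) = l i) : Diag f l' := by
  obtain ⟨b, hb⟩ := hf
  refine ⟨b.reindex e, fun i => ?_⟩
  rw [Basis.reindex_apply, hb, ← he, Equiv.apply_symm_apply]

theorem Diag.congr {f : Module.End F V} {l l' : ι → F} (hf : Diag f l) (h : ∀ i, l' i = l i) :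
    Diag f l' := hf.reindex (Equiv.refl _) h

theorem Diag.smul {f : Module.End F V} {l : ι → F} (hf : Diag f l) (c : F) :
    Diag (c • f) fun i => c * l i := by
  obtain ⟨b, hb⟩ := hf
  exact ⟨b, fun i => by simp [hb, mul_smul]⟩

theorem Diag.sub {f : Module.End F V} {l : ι → F} (hf : Diag f l) (c : F) :
    Diag (f - c • 1) fun i => l i - c := by
  obtain ⟨b, hb⟩ := hf
  exact ⟨b, fun i => by simp [hb, sub_smul]⟩

theorem Diag.pow {f : Module.End F V} {l : ι → F} (hf : Diag f l) (k : ℕ) :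
    Diag (f ^ k) fun i => l i ^ k := by
  obtain ⟨b, hb⟩ := hf
  refine ⟨b, fun i => ?_⟩
  change (f ^ k) (b i) = l i ^ k • b i
  induction k with
  | zero => simp
  | succ k ih => rw [pow_succ', Module.End.mul_apply, ih, map_smul, hb, smul_smul, pow_succ]

theorem Diag.eq_smul_iff {f : Module.End F V} {l : ι → F} (hf : Diag f l) (c : F) :
    f = c • 1 ↔ ∀ i, l i = c := by
  obtain ⟨b, hb⟩ := hf
  constructor
  · intro h i
    have := hb i
    rw [h] at this
    exact (smul_left_injective F (b.ne_zero i) this).symm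
  · intro h
    exact b.ext fun i => by simp [hb, h]

theorem Diag.pow_eq {f : Module.End F V} {l : ι → F} (hf : Diag f l) {k : ℕ} {z : F}
    (h : ∀ i, l i ^ k = z) : f ^ k = z • 1 := ((hf.pow k).eq_smul_iff z).mpr h

theorem Diag.ne_smul {f : Module.End F V} {l : ι → F} (hf : Diag f l) {i j : ι} (h : l i ≠ l j)
    (c : F) : f ≠ c • 1 := fun e => by
  have := (hf.eq_smul_iff c).mp e
  exact h (by rw [this, this])

variable [Fintype ι]

theorem exists_diag [FiniteDimensional F V] (l : ι → F) (h : finrank F V = Fintype.card ι) :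
    ∃ f : Module.End F V, Diag f l := by
  let b : Basis ι F V := (finBasis F V).reindex (Fintype.equivOfCardEq (by simp [h]))
  exact ⟨b.constr F fun i => l i • b i, b, fun i => b.constr_basis F _ i⟩

theorem diag_diagonal [DecidableEq ι] (l : ι → F) : Diag (toLin' (diagonal l)) l :=
  ⟨Pi.basisFun F ι, fun i => by
    ext j
    by_cases h : j = i <;> simp [mulVec_diagonal, h]⟩

theorem Diag.finrank_eq {f : Module.End F V} {l : ι → F} (hf : Diag f l) :
    finrank F V = Fintype.card ι := finrank_eq_card_basis hf.choose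

theorem Diag.det {f : Module.End F V} {l : ι → F} (hf : Diag f l) :
    LinearMap.det f = ∏ i, l i := by
  classical
  rw [(hf.sim (diag_diagonal l)).det_eq, LinearMap.det_toLin', det_diagonal]

theorem Diag.charpoly [FiniteDimensional F V] {f : Module.End F V} {l : ι → F} (hf : Diag f l) :
    LinearMap.charpoly f = ∏ i, (X - C (l i)) := by
  classical
  rw [(hf.sim (diag_diagonal l)).charpoly_eq, Matrix.charpoly_toLin', charpoly_diagonal]

open Classical in
theorem Diag.finrank_range {f : Module.End F V} {l : ι → F} (hf : Diag f l) :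
    finrank F (LinearMap.range f) = (Finset.univ.filter fun i => l i ≠ 0).card := by
  rw [(hf.sim (diag_diagonal l)).finrank_range_eq, ← Fintype.card_subtype, ← rank_diagonal]
  rfl

open Classical in
theorem Diag.finrank_ker {f : Module.End F V} {l : ι → F} (hf : Diag f l) (c : F) :
    finrank F (LinearMap.ker (f - c • 1)) = (Finset.univ.filter fun i => l i = c).card := by
  have : FiniteDimensional F V := Module.Finite.of_basis hf.choose
  have h1 := (hf.sub c).finrank_range
  have h2 := LinearMap.finrank_range_add_finrank_ker (f - c • 1)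
  have h3 := Finset.card_filter_add_card_filter_not (s := (Finset.univ : Finset ι))
    (fun i => l i = c)
  rw [hf.finrank_eq, h1] at h2
  simp only [sub_ne_zero, ne_eq, Finset.card_univ] at h2 h3
  omega

omit [Fintype ι] in
theorem Diag.aeval_eq_zero {f : Module.End F V} {l : ι → F} (hf : Diag f l) {P : F[X]}
    (h : ∀ i, P.eval (l i) = 0) : aeval f P = 0 := by
  obtain ⟨b, hb⟩ := hf
  exact b.ext fun i => by
    rw [Module.End.aeval_apply_of_mem_apply_eq_smul (hb i), h, zero_smul, LinearMap.zero_apply]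

theorem diag_of_charpoly [FiniteDimensional F V] {f : Module.End F V} {P : F[X]}
    (hP : Squarefree P) (hf : aeval f P = 0) {l : ι → F} (hl : ∀ i, P.eval (l i) = 0)
    (hc : LinearMap.charpoly f = ∏ i, (X - C (l i))) : Diag f l := by
  classical
  exact (diag_diagonal l).of_sim (sim_of_charpoly_eq hP hP hf ((diag_diagonal l).aeval_eq_zero hl)
    (by rw [hc, (diag_diagonal l).charpoly]))

theorem exists_diag_of_splits [FiniteDimensional F V] {f : Module.End F V} {P : F[X]}
    (hP : Squarefree P) (hs : P.Splits) (hf : aeval f P = 0) :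
    ∃ l : Fin (finrank F V) → F, (∀ i, P.eval (l i) = 0) ∧ Diag f l := by
  obtain ⟨N, g, hi, hm, hd, ht⟩ := exists_hasType_of_squarefree f hP hf
  have h1 : ∀ j, ∃ a, g j = X - C a := fun j => by
    have h2 := (hs.of_dvd hP.ne_zero (hd j)).natDegree_le_one_of_irreducible (hi j)
    have h3 := (hi j).natDegree_pos
    exact ⟨-(g j).coeff 0, by
      rw [map_neg, sub_neg_eq_add]
      exact (hm j).eq_X_add_C (by omega)⟩
  choose a ha using h1
  have h4 : ∀ j, P.eval (a j) = 0 := fun j => dvd_iff_isRoot.mp (ha j ▸ hd j)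
  have h5 : Diag f a := diag_of_charpoly hP hf h4 (by rw [ht.charpoly_eq hm]; simp [ha])
  have h6 := h5.finrank_eq
  let e : Fin N ≃ Fin (finrank F V) := finCongr (by simpa using h6.symm)
  exact ⟨fun i => a (e.symm i), fun i => h4 _, h5.reindex e (by simp)⟩

/-- An element of order dividing `r` is diagonalisable when the field has the `r`-th roots
of unity. -/
theorem exists_diag_of_pow [FiniteDimensional F V] {r : ℕ} [NeZero r] {ζ : F}
    (hζ : IsPrimitiveRoot ζ r) {y : Module.End F V} (hy : y ^ r = 1) :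
    ∃ a : Fin (finrank F V) → ZMod r, Diag y fun i => ζ ^ (a i).val := by
  have hr : 0 < r := Nat.pos_of_ne_zero (NeZero.ne r)
  have hsq : Squarefree (X ^ r - 1 : F[X]) := by
    have := (X_pow_sub_one_separable_iff (F := F) (n := r)).mpr (hζ.neZero'.1)
    exact this.squarefree
  obtain ⟨l, hl, hd⟩ := exists_diag_of_splits hsq (by simpa using X_pow_sub_one_splits hζ)
    ((aeval_X_pow_sub_one_eq_zero_iff y r).mpr hy)
  have h1 : ∀ i, ∃ k < r, ζ ^ k = l i := fun i =>
    hζ.eq_pow_of_pow_eq_one (by simpa [sub_eq_zero] using hl i)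
  choose k hk hk' using h1
  exact ⟨fun i => (k i : ZMod r), hd.congr fun i => by rw [ZMod.val_cast_of_lt (hk i), hk']⟩

end Diag

section Sim2

variable {F : Type*} [Field F] {V W : Type*} [AddCommGroup V] [Module F V] [AddCommGroup W]
  [Module F W] [FiniteDimensional F V] [FiniteDimensional F W]

theorem sim_of_irreducible {g : F[X]} (hg : Irreducible g) (hm : g.Monic) {f : Module.End F V}
    {f' : Module.End F W} (hf : aeval f g = 0) (hf' : aeval f' g = 0)
    (h : finrank F V = finrank F W) : Sim f f' := by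
  obtain ⟨N, hN⟩ := hasType_of_irreducible hg hm hf
  obtain ⟨N', hN'⟩ := hasType_of_irreducible hg hm hf'
  have h1 := hN.finrank_eq fun _ => hg.ne_zero
  have h2 := hN'.finrank_eq fun _ => hg.ne_zero
  simp only [Finset.sum_const, Finset.card_univ, Fintype.card_fin, smul_eq_mul] at h1 h2
  obtain rfl : N = N' := Nat.eq_of_mul_eq_mul_right hg.natDegree_pos (by omega)
  exact hN.sim hN'

theorem sim_of_sq_zero {f : Module.End F V} {f' : Module.End F W} {w : F}
    (hf : (f - w • 1) ^ 2 = 0) (hf' : (f' - w • 1) ^ 2 = 0) (h : finrank F V = finrank F W)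
    (hk : finrank F (LinearMap.ker (f - w • 1)) = finrank F (LinearMap.ker (f' - w • 1))) :
    Sim f f' := by
  have e1 : ∀ k, aeval f ((X - C w) ^ k) = (f - w • 1) ^ k := fun k => by
    simp [Algebra.algebraMap_eq_smul_one]
  have e2 : ∀ k, aeval f' ((X - C w) ^ k) = (f' - w • 1) ^ k := fun k => by
    simp [Algebra.algebraMap_eq_smul_one]
  obtain ⟨μ, hμ, h1⟩ := exists_hasJordanType f w 2 (by rw [e1, hf])
  obtain ⟨ν, hν, h2⟩ := exists_hasJordanType f' w 2 (by rw [e2, hf'])
  obtain rfl : μ = ν := multiset_eq_of_sum_min (fun a ha => (hμ a ha).1) (fun a ha => (hν a ha).1)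
    fun k => by
      rw [← h1.finrank_ker, ← h2.finrank_ker, e1, e2]
      rcases k with _ | _ | k
      · rw [pow_zero, pow_zero, Module.End.one_eq_id, Module.End.one_eq_id, LinearMap.ker_id,
          LinearMap.ker_id, finrank_bot, finrank_bot]
      · rwa [zero_add, pow_one, pow_one]
      · rw [show k + 1 + 1 = k + 2 by ring, pow_add, pow_add, hf, hf', mul_zero, mul_zero,
          LinearMap.ker_zero, LinearMap.ker_zero, finrank_top, finrank_top, h]
  exact h1.sim h2

theorem sim_of_sq_one {f : Module.End F V} {f' : Module.End F W} (hf : f ^ 2 = 1)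
    (hf' : f' ^ 2 = 1) (h : finrank F V = finrank F W)
    (hk : finrank F (LinearMap.ker (f - 1)) = finrank F (LinearMap.ker (f' - 1))) : Sim f f' := by
  classical
  by_cases h2 : (2 : F) = 0
  · refine sim_of_sq_zero (w := 1) ?_ ?_ h (by rwa [one_smul, one_smul])
    · have : (f - (1 : F) • 1) ^ 2 = f ^ 2 - 1 + (2 : F) • (1 - f) := by
        rw [one_smul, sq, sq, two_smul]; noncomm_ring
      rw [this, hf, h2]; simp
    · have : (f' - (1 : F) • 1) ^ 2 = f' ^ 2 - 1 + (2 : F) • (1 - f') := by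
        rw [one_smul, sq, sq, two_smul]; noncomm_ring
      rw [this, hf', h2]; simp
  · have hζ : IsPrimitiveRoot (-1 : F) 2 :=
      isPrimitiveRoot_of_pow_eq_one (hr := ⟨Nat.prime_two⟩) (by simp)
        (fun e => h2 (by linear_combination -e))
    obtain ⟨a, ha⟩ := exists_diag_of_pow hζ hf
    obtain ⟨b, hb⟩ := exists_diag_of_pow hζ hf'
    have h1 := ha.finrank_ker 1
    have h3 := hb.finrank_ker 1
    rw [one_smul] at h1 h3
    have key : ∀ x : ZMod 2, ¬ (-1 : F) ^ x.val = 1 → (-1 : F) ^ x.val = -1 := fun x hx => by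
      rcases neg_one_pow_eq_or F x.val with e | e
      exacts [absurd e hx, e]
    let e1 : {i // (-1 : F) ^ (a i).val = 1} ≃ {i // (-1 : F) ^ (b i).val = 1} :=
      Fintype.equivOfCardEq (by rw [Fintype.card_subtype, Fintype.card_subtype]; omega)
    let e2 : {i // ¬ (-1 : F) ^ (a i).val = 1} ≃ {i // ¬ (-1 : F) ^ (b i).val = 1} :=
      Fintype.equivOfCardEq (by
        rw [Fintype.card_subtype_compl, Fintype.card_subtype_compl, Fintype.card_congr e1]
        simp [h])
    let E : Fin (finrank F V) ≃ Fin (finrank F W) :=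
      (Equiv.sumCompl _).symm.trans ((e1.sumCongr e2).trans (Equiv.sumCompl _))
    refine Diag.sim (ha.reindex (l' := fun i => (-1 : F) ^ (b i).val) E fun i => ?_) hb
    by_cases hi : (-1 : F) ^ (a i).val = 1
    · have : E i = e1 ⟨i, hi⟩ := by simp [E, Equiv.sumCompl_symm_apply_of_pos, hi]
      rw [this, (e1 ⟨i, hi⟩).2, hi]
    · have : E i = e2 ⟨i, hi⟩ := by simp [E, Equiv.sumCompl_symm_apply_of_neg, hi]
      rw [this, key _ (e2 ⟨i, hi⟩).2, key _ hi]

end Sim2

section Elus

variable {F : Type*} [Field F] {n : Type} [Fintype n] [DecidableEq n]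

/-- `f` is similar to an element of `H`. -/
def In (H : Subgroup (GL n F)) {V : Type*} [AddCommGroup V] [Module F V] (f : Module.End F V) :
    Prop := ∃ h ∈ H, Sim f (toLin' (h : Matrix n n F))

theorem In.of_sim {H : Subgroup (GL n F)} {V W : Type*} [AddCommGroup V] [Module F V]
    [AddCommGroup W] [Module F W] {f : Module.End F V} {g : Module.End F W} (hg : In H g)
    (h : Sim f g) : In H f := by
  obtain ⟨x, hx, hs⟩ := hg
  exact ⟨x, hx, h.trans hs⟩

/-- the scalar matrices lie in `H` -/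
def HasScal (H : Subgroup (GL n F)) : Prop :=
  ∀ x : GL n F, ∀ c : F, (x : Matrix n n F) = c • 1 → x ∈ H

/-- the scalar matrix as an invertible matrix -/
def scal {c : F} (hc : c ≠ 0) : GL n F :=
  ⟨c • 1, c⁻¹ • 1, by simp [smul_smul, hc], by simp [smul_smul, hc]⟩

theorem In.smul {H : Subgroup (GL n F)} (hH : HasScal H) {V : Type*} [AddCommGroup V] [Module F V]
    {f : Module.End F V} (hf : In H f) {c : F} (hc : c ≠ 0) : In H (c • f) := by
  obtain ⟨x, hx, hs⟩ := hf
  refine ⟨scal hc * x, mul_mem (hH _ c rfl) hx, ?_⟩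
  have : toLin' ((scal hc * x : GL n F) : Matrix n n F) = c • toLin' (x : Matrix n n F) := by
    simp [scal]
  rw [this]
  exact hs.smul c

theorem In.of_smul {H : Subgroup (GL n F)} (hH : HasScal H) {V : Type*} [AddCommGroup V]
    [Module F V] {f : Module.End F V} {c : F} (hc : c ≠ 0) (hf : In H (c • f)) : In H f := by
  have := hf.smul hH (inv_ne_zero hc)
  rwa [smul_smul, inv_mul_cancel₀ hc, one_smul] at this

theorem in_toLE {H : Subgroup (GL n F)} {g : (n → F) ≃ₗ[F] (n → F)} (hg : toLE.symm g ∈ H) :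
    In H (g : Module.End F (n → F)) :=
  ⟨_, hg, by rw [← toLE_coe, MulEquiv.apply_symm_apply]; exact Sim.refl _⟩

/-- every element of order `r` of the projective special linear group is conjugate into `H` -/
def Elus (H : Subgroup (GL n F)) (r : ℕ) : Prop :=
  ∀ x : GL n F, (x : Matrix n n F).det = 1 →
    (∃ z : F, ((x ^ r : GL n F) : Matrix n n F) = z • (1 : Matrix n n F)) →
    (∀ z : F, (x : Matrix n n F) ≠ z • (1 : Matrix n n F)) →
    ∃ g : GL n F, (g : Matrix n n F).det = 1 ∧ g⁻¹ * x * g ∈ H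

theorem mem_SL {x : GL n F} : x ∈ Geo.specialLinear n F ↔ (x : Matrix n n F).det = 1 := by
  rw [Geo.specialLinear, MonoidHom.mem_ker, ← Units.val_inj]
  rfl

theorem elus_iff_two (H : Subgroup (GL n F)) (r : ℕ) :
    (∀ x ∈ Geo.specialLinear n F,
      (∃ z : F, ((x ^ r : GL n F) : Matrix n n F) = z • (1 : Matrix n n F)) →
      (∀ z : F, (x : Matrix n n F) ≠ z • (1 : Matrix n n F)) →
      ∃ g ∈ Geo.specialLinear n F, g⁻¹ * x * g ∈ H) ↔ Elus H r := by
  simp only [mem_SL, Elus]

theorem elus_iff_one (H : Subgroup (GL n F)) (r : ℕ) :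
    (∀ x : SpecialLinearGroup n F,
      (∃ z : F, ((x ^ r : SpecialLinearGroup n F) : Matrix n n F) = z • (1 : Matrix n n F)) →
      (∀ z : F, (x : Matrix n n F) ≠ z • (1 : Matrix n n F)) →
      ∃ P : SpecialLinearGroup n F, P⁻¹ * x * P ∈
        H.comap (SpecialLinearGroup.toGL : SpecialLinearGroup n F →* GL n F)) ↔ Elus H r := by
  have key : ∀ x : GL n F, (x : Matrix n n F).det = 1 →
      ∃ y : SpecialLinearGroup n F, SpecialLinearGroup.toGL y = x := fun x hx =>
    ⟨⟨x, hx⟩, Units.ext rfl⟩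
  constructor
  · intro h x hx ⟨z, hz⟩ h2
    obtain ⟨y, rfl⟩ := key x hx
    obtain ⟨P, hP⟩ := h y ⟨z, by simpa using hz⟩ h2
    refine ⟨SpecialLinearGroup.toGL P, P.2, ?_⟩
    rwa [Subgroup.mem_comap, map_mul, map_mul, map_inv] at hP
  · intro h x ⟨z, hz⟩ h2
    obtain ⟨g, hg, hP⟩ := h (SpecialLinearGroup.toGL x) x.2 ⟨z, by simpa using hz⟩ h2
    obtain ⟨y, rfl⟩ := key g hg
    exact ⟨y, by rwa [Subgroup.mem_comap, map_mul, map_mul, map_inv]⟩

theorem index_comap_eq (H : Subgroup (GL n F)) :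
    (H.comap (SpecialLinearGroup.toGL : SpecialLinearGroup n F →* GL n F)).index =
      H.relIndex (Geo.specialLinear n F) := by
  rw [Subgroup.index_comap, range_toGL_eq_ker_det]
  rfl

theorem toLin'_pow_GL {x : GL n F} {r : ℕ} {z : F} :
    ((x ^ r : GL n F) : Matrix n n F) = z • (1 : Matrix n n F) ↔
      (toLin' (x : Matrix n n F) : Module.End F (n → F)) ^ r = z • 1 := by
  rw [← toLin'_pow', Units.val_pow_eq_pow_val, toLin'_eq_smul_one_iff]

theorem not_elus {H : Subgroup (GL n F)} {r : ℕ} (f : Module.End F (n → F)) (z : F)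
    (h1 : LinearMap.det f = 1) (h2 : f ^ r = z • 1) (h3 : ∀ c : F, f ≠ c • 1) (h4 : ¬ In H f) :
    ¬ Elus H r := fun h => by
  obtain ⟨x, rfl⟩ := exists_SL_of_end f h1
  obtain ⟨g, -, hg⟩ := h (SpecialLinearGroup.toGL x) x.2 ⟨z, toLin'_pow_GL.mpr h2⟩
    fun c e => h3 c ((toLin'_eq_smul_one_iff _ _).mpr e)
  exact h4 ⟨_, hg, (sim_toLin'_iff _ _).mpr ⟨g, by simp⟩⟩

theorem elus_of {H : Subgroup (GL n F)} {r : ℕ}
    (h : ∀ (f : Module.End F (n → F)) (z : F), LinearMap.det f = 1 → f ^ r = z • 1 →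
      (∀ c : F, f ≠ c • 1) → In H f ∧
        ∀ d : F, d ≠ 0 → ∃ c : Module.End F (n → F), c * f = f * c ∧ LinearMap.det c = d) :
    Elus H r := by
  intro x hx ⟨z, hz⟩ h3
  obtain ⟨⟨y, hy, hs⟩, hc⟩ := h (toLin' (x : Matrix n n F)) z (by simpa using hx)
    (toLin'_pow_GL.mp hz) fun c e => h3 c ((toLin'_eq_smul_one_iff _ _).mp e)
  obtain ⟨P, hP⟩ := (sim_toLin'_iff _ _).mp hs
  have hd : (P : Matrix n n F).det ≠ 0 := P.det_ne_zero
  obtain ⟨c, hc1, hc2⟩ := hc _ (inv_ne_zero hd)
  obtain ⟨C, hC1, hC2⟩ := exists_GL_of_comm hc1 (by rw [hc2]; exact inv_ne_zero hd)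
  refine ⟨C * P, by rw [Units.val_mul, det_mul, hC2, hc2, inv_mul_cancel₀ hd], ?_⟩
  have := exists_conj_det_of_comm P hP C hC1
  rwa [show (C * P)⁻¹ * x * (C * P) = y from Units.ext (by simpa using this)]

variable [Fintype F] {p : ℕ} [Fact p.Prime] [CharP F p] {r : ℕ} [Fact r.Prime]

theorem exists_comm_det {V : Type*} [AddCommGroup V] [Module F V] [FiniteDimensional F V]
    [Nontrivial V] (hr : r ≠ p ∨ p = 2) {f : Module.End F V} {z : F}
    (h1 : LinearMap.det f ≠ 0) (h2 : f ^ r = z • 1) (d : F) :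
    ∃ c : Module.End F V, c * f = f * c ∧ LinearMap.det c = d := by
  by_cases hrp : r = p
  · subst hrp
    obtain rfl := hr.resolve_left (fun e => e rfl)
    obtain ⟨w, μ, -, hμ, ht⟩ := exists_hasJordanType_of_pow_char h2
    obtain ⟨a, ha⟩ : ∃ a, a ∈ μ := Multiset.exists_mem_of_ne_zero fun e => by
      have := ht.finrank_eq
      rw [e] at this
      exact finrank_pos.ne' this
    obtain ⟨t, ht'⟩ : ∃ t : F, t ^ a = d := by
      obtain rfl | rfl : a = 1 ∨ a = 2 := by have := hμ a ha; omega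
      exacts [⟨d, pow_one d⟩, exists_pow_char_eq d]
    exact ht' ▸ ht.exists_comm_det ha t
  · exact exists_comm_det_of_squarefree
      (squarefree_X_pow_sub_C hrp (ne_zero_of_pow_eq_smul h1 h2))
      ((aeval_X_pow_sub_C_eq_zero_iff f r z).mpr h2) d

theorem elus_of_in [Nonempty n] {H : Subgroup (GL n F)} (hr : r ≠ p ∨ p = 2)
    (h : ∀ (f : Module.End F (n → F)) (z : F), LinearMap.det f = 1 → f ^ r = z • 1 →
      (∀ c : F, f ≠ c • 1) → In H f) : Elus H r :=
  elus_of fun f z h1 h2 h3 => ⟨h f z h1 h2 h3, fun d _ =>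
    exists_comm_det hr (by rw [h1]; exact one_ne_zero) h2 d⟩

/-- reduction to elements of order `r` of the general linear group and irreducible blocks -/
theorem elus_of_in' [Nonempty n] {H : Subgroup (GL n F)} (hH : HasScal H) (hr : r ≠ p ∨ p = 2)
    (h : ∀ (y : Module.End F (n → F)) (w : F), y ^ r = 1 → w ^ Fintype.card n * LinearMap.det y = 1 →
      (∀ c : F, y ≠ c • 1) → In H y)
    (h' : ∀ (f : Module.End F (n → F)) (z : F), LinearMap.det f = 1 → f ^ r = z • 1 →
      (∀ w : F, w ^ r ≠ z) → In H f) : Elus H r := by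
  refine elus_of_in hr fun f z h1 h2 h3 => ?_
  by_cases hz : ∃ w : F, w ^ r = z
  · obtain ⟨w, hw⟩ := hz
    have hz0 : z ≠ 0 := ne_zero_of_pow_eq_smul (by rw [h1]; exact one_ne_zero) h2
    have hw0 : w ≠ 0 := by
      rintro rfl
      exact hz0 (by rw [← hw, zero_pow (Fact.out : r.Prime).ne_zero])
    refine In.of_smul hH (inv_ne_zero hw0) (h _ w (inv_smul_pow_eq_one h2 hw hz0) ?_ fun c e => ?_)
    · rw [LinearMap.det_smul, h1, finrank_fintype_fun_eq_card, mul_one, ← mul_pow,
        mul_inv_cancel₀ hw0, one_pow]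
    · refine h3 (w * c) ?_
      rw [mul_smul, ← e, smul_smul, mul_inv_cancel₀ hw0, one_smul]
  · exact h' f z h1 h2 fun w e => hz ⟨w, e⟩

/-! ### the index -/

omit [Fintype F] in
theorem card_SL' : Nat.card (Geo.specialLinear n F) = Nat.card (SpecialLinearGroup n F) :=
  card_ker_det_eq_card_SL

theorem orderOf_le_of_dvd_index {m : ℕ} {H : Subgroup (GL (Fin m) F)} (hrp : r ≠ p)
    (h : r ∣ H.relIndex (Geo.specialLinear (Fin m) F)) :
    orderOf (Fintype.card F : ZMod r) ≤ m :=
  orderOf_le_of_dvd_card_GL Fact.out hrp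
    ((h.trans (Subgroup.relIndex_dvd_card _ _)).trans (Subgroup.card_subgroup_dvd_card _))

theorem relIndex_dvd_of_SL {H : Subgroup (GL n F)} {A B : ℕ}
    (hA : A ∣ Nat.card ↥(H ⊓ Geo.specialLinear n F))
    (h : Nat.card (SpecialLinearGroup n F) = A * B) :
    H.relIndex (Geo.specialLinear n F) ∣ B := by
  obtain ⟨t, ht⟩ := hA
  have h1 := (H.subgroupOf (Geo.specialLinear n F)).card_mul_index
  have h2 : Nat.card (H.subgroupOf (Geo.specialLinear n F)) =
      Nat.card ↥(H ⊓ Geo.specialLinear n F) := by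
    rw [← Subgroup.inf_subgroupOf_right]
    exact Nat.card_congr (Subgroup.subgroupOfEquivOfLe inf_le_right).toEquiv
  rw [h2, ht, card_SL', h, mul_assoc] at h1
  have hA0 : 0 < A := Nat.pos_of_ne_zero fun e => by
    rw [e, zero_mul] at ht
    exact Nat.card_pos.ne' ht
  exact ⟨t, by rw [← Nat.eq_of_mul_eq_mul_left hA0 h1, mul_comm]; rfl⟩

theorem relIndex_dvd_of_GL {H : Subgroup (GL n F)} {A B : ℕ} (hA : A ∣ Nat.card H)
    (h : Nat.card (GL n F) = A * B) : H.relIndex (Geo.specialLinear n F) ∣ B := by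
  obtain ⟨t, ht⟩ := hA
  have hA0 : 0 < A := Nat.pos_of_ne_zero fun e => by
    rw [e, zero_mul] at ht
    exact Nat.card_pos.ne' ht
  have h1 := H.card_mul_index
  rw [ht, h, mul_assoc] at h1
  have h2 : H.index ∣ B := ⟨t, by rw [← Nat.eq_of_mul_eq_mul_left hA0 h1, mul_comm]⟩
  refine Dvd.dvd.trans ?_ h2
  have : (Geo.specialLinear n F).Normal := MonoidHom.normal_ker _
  have h3 : H.relIndex (Geo.specialLinear n F) = H.relIndex (H ⊔ Geo.specialLinear n F) := by
    have e1 := Subgroup.relIndex_mul_relIndex (H ⊓ Geo.specialLinear n F) (Geo.specialLinear n F)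
      (H ⊔ Geo.specialLinear n F) inf_le_right le_sup_right
    have e2 := Subgroup.relIndex_mul_relIndex (H ⊓ Geo.specialLinear n F) H
      (H ⊔ Geo.specialLinear n F) inf_le_left le_sup_left
    rw [Subgroup.inf_relIndex_right, Subgroup.relIndex_sup_right] at e1
    rw [Subgroup.inf_relIndex_left, ← e1, mul_comm] at e2
    exact (Nat.eq_of_mul_eq_mul_right (Nat.pos_of_ne_zero
      (Subgroup.index_ne_zero_of_finite)) e2).symm
  rw [h3]
  exact Subgroup.relIndex_dvd_index_of_le le_sup_left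

end Elus

end Cfsg.Agent.H1.El
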