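import Mathlib

/-!
The algebraic part of the Feit–Higman theorem: two operators satisfying quadratic relations and
a braid relation, with the traces of a regular module of the Hecke algebra.
-/

set_option autoImplicit false

namespace Cfsg.Agent.H1.FHAlg

section Ring

variable {A : Type*} [Ring A] [Algebra ℂ A] {X Y : A} {a b : ℂ}

/-- the quadratic relation -/
def Quad (X : A) (a : ℂ) : Prop := X * X = (a - 1) • X + a • (1 : A)

theorem Quad.mul (h : Quad X a) (u : A) : X * (X * u) = (a - 1) • (X * u) + a • u := by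
  rw [← mul_assoc, h, add_mul, smul_mul_assoc, smul_mul_assoc, one_mul]

/-- the conjugate of a quadratic element -/
def bar (X : A) (a : ℂ) : A := (a - 1) • (1 : A) - X

/-- the commutator -/
def cm (X Y : A) : A := X * Y - Y * X

theorem Quad.mul_bar (h : Quad X a) : X * bar X a = (-a) • (1 : A) := by
  simp only [bar, mul_sub, mul_smul_comm, mul_one, show X * X = _ from h]
  module

theorem Quad.bar_mul (h : Quad X a) : bar X a * X = (-a) • (1 : A) := by
  simp only [bar, sub_mul, smul_mul_assoc, one_mul, show X * X = _ from h]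
  module

theorem cm_mul_left (hX : Quad X a) : cm X Y * X = bar X a * cm X Y := by
  simp only [bar, cm, mul_sub, sub_mul, mul_add, mul_assoc, smul_mul_assoc, mul_smul_comm, mul_one,
    one_mul, hX.mul, show X * X = _ from hX]
  module

theorem cm_mul_right (hY : Quad Y b) : cm X Y * Y = bar Y b * cm X Y := by
  simp only [bar, cm, mul_sub, sub_mul, mul_add, mul_assoc, smul_mul_assoc, mul_smul_comm, mul_one,
    one_mul, hY.mul, show Y * Y = _ from hY]
  module

theorem cm_mul_pow (hX : Quad X a) (hY : Quad Y b) (k : ℕ) :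
    cm X Y * (X * Y) ^ k = (bar X a * bar Y b) ^ k * cm X Y := by
  refine (SemiconjBy.pow_right ?_ k).eq
  change _ = _
  rw [← mul_assoc, cm_mul_left hX, mul_assoc, cm_mul_right hY, mul_assoc]

theorem bar_mul_cm_left (hX : Quad X a) : cm X Y * bar X a = X * cm X Y := by
  simp only [bar, cm, mul_sub, sub_mul, mul_add, mul_assoc, mul_smul_comm, mul_one,
    hX.mul, show X * X = _ from hX]
  module

theorem bar_mul_cm_right (hY : Quad Y b) : cm X Y * bar Y b = Y * cm X Y := by
  simp only [bar, cm, mul_sub, sub_mul, mul_add, mul_assoc, mul_smul_comm, mul_one,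
    hY.mul, show Y * Y = _ from hY]
  module

theorem commute_sq_left (hX : Quad X a) : Commute (cm X Y * cm X Y) X := by
  change _ = _
  rw [mul_assoc, cm_mul_left hX, ← mul_assoc, bar_mul_cm_left hX, mul_assoc]

theorem commute_sq_right (hY : Quad Y b) : Commute (cm X Y * cm X Y) Y := by
  change _ = _
  rw [mul_assoc, cm_mul_right hY, ← mul_assoc, bar_mul_cm_right hY, mul_assoc]

theorem mul_barbar (hX : Quad X a) (hY : Quad Y b) :
    X * Y * (bar Y b * bar X a) = (a * b) • (1 : A) := by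
  rw [mul_assoc, ← mul_assoc Y, hY.mul_bar, smul_mul_assoc, one_mul, mul_smul_comm, hX.mul_bar,
    smul_smul]
  congr 1
  ring

theorem barbar_mul (hX : Quad X a) (hY : Quad Y b) :
    bar Y b * bar X a * (X * Y) = (a * b) • (1 : A) := by
  rw [mul_assoc, ← mul_assoc (bar X a), hX.bar_mul, smul_mul_assoc, one_mul, mul_smul_comm,
    hY.bar_mul, smul_smul]
  congr 1
  ring

theorem pow_mul_pow (hX : Quad X a) (hY : Quad Y b) (k : ℕ) :
    (X * Y) ^ k * (bar Y b * bar X a) ^ k = ((a * b) ^ k) • (1 : A) := by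
  have h : Commute (X * Y) (bar Y b * bar X a) := (mul_barbar hX hY).trans (barbar_mul hX hY).symm
  rw [← h.mul_pow, mul_barbar hX hY, smul_pow, one_pow]

theorem cm_sq (hX : Quad X a) (hY : Quad Y b) : cm X Y * cm X Y =
    X * Y * (X * Y) - ((a - 1) * (b - 1)) • (X * Y) + (2 * a * b - (a * b + 1) * (a + b)) • (1 : A)
      - ((a - 1) * (b - 1)) • (bar Y b * bar X a) + bar Y b * bar X a * (bar Y b * bar X a) := by
  simp only [bar, cm, mul_sub, sub_mul, mul_add, mul_assoc, smul_mul_assoc, mul_smul_comm, mul_one,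
    one_mul, hX.mul, hY.mul, show X * X = _ from hX, show Y * Y = _ from hY]
  module

theorem cm_sq' (hX : Quad X a) (hY : Quad Y b) : cm X Y * cm X Y =
    X * Y * (X * Y) + Y * (X * Y * X) - ((a - 1) * (b - 1)) • (X * Y)
      - ((a - 1) * (b - 1)) • (Y * X) - (b - 1) • (X * (Y * X)) - (a - 1) • (Y * (X * Y))
      + ((a - 1) * (b - 1)) • (X * Y) + ((a - 1) * (b - 1)) • (Y * X)
      - (b * (a - 1)) • X - (a * (b - 1)) • Y - (2 * a * b) • (1 : A) := by
  simp only [cm, mul_sub, sub_mul, mul_add, mul_assoc, mul_smul_comm, mul_one,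
    one_mul, hX.mul, hY.mul, show X * X = _ from hX, show Y * Y = _ from hY]
  module

omit [Algebra ℂ A] in
theorem pow_mul_comm (X Y : A) (n : ℕ) : (X * Y) ^ n * X = X * (Y * X) ^ n :=
  ((SemiconjBy.pow_right (show SemiconjBy X (Y * X) (X * Y) from (mul_assoc _ _ _).symm) n).eq).symm

theorem braid_even (hX : Quad X a) (hY : Quad Y b) {n : ℕ} (h : (X * Y) ^ n = (Y * X) ^ n) :
    (X * Y) ^ (2 * n) * cm X Y = ((a * b) ^ n) • cm X Y := by
  have h1 : Commute ((X * Y) ^ n) X := by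
    change _ = _
    rw [pow_mul_comm, h]
  have h2 : Commute ((X * Y) ^ n) Y := by
    change _ = _
    rw [h, pow_mul_comm, h]
  have h3 : Commute ((X * Y) ^ n) (cm X Y) := (h1.mul_right h2).sub_right (h2.mul_right h1)
  rw [two_mul, pow_add, mul_assoc, h3.eq, cm_mul_pow hX hY, ← mul_assoc, h, pow_mul_pow hY hX,
    smul_mul_assoc, one_mul, mul_comm b]

theorem braid_odd (hX : Quad X a) (hY : Quad Y b) {n : ℕ}
    (h : (X * Y) ^ n * X = (Y * X) ^ n * Y) :
    (X * Y) ^ (2 * n + 1) * cm X Y = (a * (a * b) ^ n) • cm X Y ∧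
      (a * (a * b) ^ n * (b - a)) • (Y + 1) = 0 := by
  obtain ⟨D, hD⟩ : ∃ D, D = (X * Y) ^ n * X := ⟨_, rfl⟩
  rw [← hD] at h
  have h1 : D * X = Y * D := by
    conv_lhs => rw [h, mul_assoc]
    conv_rhs => rw [hD, ← mul_assoc, ← pow_mul_comm, mul_assoc]
  have h2 : D * Y = X * D := by
    conv_lhs => rw [hD, mul_assoc]
    conv_rhs => rw [h, ← mul_assoc, ← pow_mul_comm, mul_assoc]
  have h3 : D * cm X Y = -(cm X Y * D) := by
    rw [cm, mul_sub, sub_mul, ← mul_assoc, ← mul_assoc, h1, h2, mul_assoc, mul_assoc, h1, h2,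
      neg_sub, mul_assoc, mul_assoc]
  have h4 : D * ((bar X a * bar Y b) ^ n * bar X a) = (-(a * (a * b) ^ n)) • (1 : A) := by
    rw [hD, pow_mul_comm, mul_assoc, ← mul_assoc ((Y * X) ^ n), pow_mul_pow hY hX, smul_mul_assoc,
      one_mul, mul_smul_comm, hX.mul_bar, smul_smul]
    congr 1
    ring
  have h5 : D * D = (X * Y) ^ (2 * n + 1) := by
    rw [two_mul, pow_succ, pow_add]
    conv_lhs => arg 1; rw [hD]
    conv_lhs => arg 2; rw [h]
    rw [mul_assoc, ← mul_assoc X, ← pow_mul_comm, mul_assoc, mul_assoc]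
  constructor
  · rw [← h5, mul_assoc, h3, mul_neg]
    conv_lhs => arg 1; arg 2; rw [hD, ← mul_assoc (cm X Y), cm_mul_pow hX hY, mul_assoc _ (cm X Y),
      cm_mul_left hX, ← mul_assoc ((bar X a * bar Y b) ^ n)]
    rw [← mul_assoc D, h4]
    rw [smul_mul_assoc, one_mul, neg_smul, neg_neg]
  · have h6 : (b - a) • ((Y + 1) * D) = 0 := by
      have h7 : D * (X * X) = Y * Y * D := by rw [← mul_assoc, h1, mul_assoc, h1, mul_assoc]
      rw [hX, hY] at h7
      simp only [mul_add, add_mul, mul_smul_comm, smul_mul_assoc, mul_one, one_mul, h1] at h7 ⊢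
      linear_combination (norm := module) -h7
    have h7 := congrArg (· * ((bar X a * bar Y b) ^ n * bar X a)) h6
    simp only [smul_mul_assoc, mul_assoc, h4, mul_smul_comm, mul_one, zero_mul] at h7
    linear_combination (norm := module) -h7

end Ring

section Trace

variable {V : Type*} [AddCommGroup V] [Module ℂ V] [FiniteDimensional ℂ V]
  {X Y : Module.End ℂ V} {a b : ℂ}

theorem trace_eq_mul_finrank (T : Module.End ℂ V) (L : Submodule ℂ V) (c : ℂ)
    (h1 : ∀ v, T v ∈ L) (h2 : ∀ v ∈ L, T v = c • v) :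
    LinearMap.trace ℂ V T = c * Module.finrank ℂ L := by
  rw [← LinearMap.trace_restrict_eq_of_forall_mem L T h1]
  have : T.restrict (fun x (_ : x ∈ L) => h1 x) = c • LinearMap.id := by
    ext v
    exact h2 v v.2
  rw [this, map_smul, LinearMap.trace_id, smul_eq_mul]

omit [FiniteDimensional ℂ V] in
theorem trace_symm (hX : Quad X a) (hY : Quad Y b) (hb : b ≠ 0) (k : ℕ) :
    LinearMap.trace ℂ V (cm X Y * cm X Y * (bar Y b * bar X a) ^ k) =
      LinearMap.trace ℂ V (cm X Y * cm X Y * (X * Y) ^ k) := by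
  have h1 : LinearMap.trace ℂ V (cm X Y * cm X Y * (X * Y) ^ k) =
      LinearMap.trace ℂ V (cm X Y * cm X Y * (bar X a * bar Y b) ^ k) := by
    rw [mul_assoc, cm_mul_pow hX hY, ← mul_assoc, LinearMap.trace_mul_comm, mul_assoc]
  have h2 : SemiconjBy Y (bar Y b * bar X a) (bar X a * bar Y b) := by
    change _ = _
    rw [← mul_assoc, hY.mul_bar, mul_assoc, hY.bar_mul, smul_mul_assoc, mul_smul_comm, one_mul,
      mul_one]
  have h3 := (h2.pow_right k).eq
  apply mul_left_cancel₀ (neg_ne_zero.2 hb)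
  rw [h1, ← smul_eq_mul (-b), ← smul_eq_mul (-b), ← map_smul, ← map_smul]
  calc _ = LinearMap.trace ℂ V (bar Y b * (cm X Y * cm X Y * (Y * (bar Y b * bar X a) ^ k))) := by
        rw [← mul_assoc (cm X Y * cm X Y), (commute_sq_right hY).eq, mul_assoc Y, ← mul_assoc,
          hY.bar_mul, smul_mul_assoc, one_mul]
    _ = _ := by
        rw [h3, LinearMap.trace_mul_comm, mul_assoc _ _ (bar Y b), mul_assoc _ _ (bar Y b),
          hY.mul_bar, mul_smul_comm, mul_smul_comm, mul_one]

/-- The multiplicity formula. -/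
theorem mult (hX : Quad X a) (hY : Quad Y b) (ha : a ≠ 0) (hb : b ≠ 0) {m : ℕ} (hm : 5 ≤ m)
    (tX : LinearMap.trace ℂ V X = 0) (tY : LinearMap.trace ℂ V Y = 0)
    (tZ : ∀ k, 0 < k → k < m → LinearMap.trace ℂ V ((X * Y) ^ k) = 0) {l : ℂ} (hl : l ≠ 0)
    (hbr : (X * Y) ^ m * cm X Y = l ^ m • cm X Y) :
    ∃ d : ℕ, (m * d : ℂ) * ((a * b + 1 - (l + a * b / l)) * (a + b + (l + a * b / l))) =
      Module.finrank ℂ V * (4 * a * b - (l + a * b / l) ^ 2) := by
  set N : ℂ := (Module.finrank ℂ V : ℂ) with hN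
  obtain ⟨Z, hZ⟩ : ∃ Z, Z = X * Y := ⟨_, rfl⟩
  obtain ⟨Z', hZ'⟩ : ∃ Z', Z' = bar Y b * bar X a := ⟨_, rfl⟩
  obtain ⟨K, hK⟩ : ∃ K, K = cm X Y * cm X Y := ⟨_, rfl⟩
  rw [← hZ] at tZ hbr
  have e1 : Z * Z' = (a * b) • 1 := by rw [hZ, hZ', mul_barbar hX hY]
  have e2 : Z' * Z = (a * b) • 1 := by rw [hZ, hZ', barbar_mul hX hY]
  have eK : K = Z * Z - ((a - 1) * (b - 1)) • Z + (2 * a * b - (a * b + 1) * (a + b)) • 1
      - ((a - 1) * (b - 1)) • Z' + Z' * Z' := by rw [hZ, hZ', hK, cm_sq hX hY]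
  have t1 : LinearMap.trace ℂ V 1 = N := LinearMap.trace_one _ _
  have tZ1 : LinearMap.trace ℂ V Z = 0 := by simpa using tZ 1 one_pos (by omega)
  have tZ1' : LinearMap.trace ℂ V (Y * X) = 0 := by rw [LinearMap.trace_mul_comm, ← hZ, tZ1]
  have tZ' : LinearMap.trace ℂ V Z' = (a - 1) * (b - 1) * N := by
    simp only [hZ', bar, mul_sub, sub_mul, smul_mul_assoc, mul_smul_comm, mul_one, one_mul, map_sub,
      map_smul, tX, tY, tZ1', t1, smul_eq_mul]
    ring
  have k0 : LinearMap.trace ℂ V K = -2 * a * b * N := by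
    have h1 : LinearMap.trace ℂ V (Z * Z) = 0 := by simpa [sq] using tZ 2 two_pos (by omega)
    have h2 : LinearMap.trace ℂ V (Y * (Z * X)) = 0 := by
      rw [LinearMap.trace_mul_comm, mul_assoc, ← hZ, h1]
    have h3 : LinearMap.trace ℂ V (X * (Y * X)) = 0 := by
      rw [LinearMap.trace_mul_comm, mul_assoc, hX]
      simp [mul_add, tZ1', tY]
    have h4 : LinearMap.trace ℂ V (Y * Z) = 0 := by
      rw [LinearMap.trace_mul_comm, hZ, mul_assoc, hY]
      simp [mul_add, ← hZ, tZ1, tX]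
    rw [hK, cm_sq' hX hY]
    simp only [map_sub, map_add, map_smul, ← hZ, h1, h2, h3, h4, tX, tY, tZ1, tZ1', t1, smul_eq_mul]
    ring
  have k1 : LinearMap.trace ℂ V (K * Z) = 0 := by
    have h1 : LinearMap.trace ℂ V (Z * Z) = 0 := by simpa [sq] using tZ 2 two_pos (by omega)
    have h2 : LinearMap.trace ℂ V (Z * (Z * Z)) = 0 := by
      simpa [pow_succ'] using tZ 3 (by omega) (by omega)
    rw [eK]
    simp only [add_mul, sub_mul, smul_mul_assoc, mul_assoc, e2, mul_smul_comm, mul_one, one_mul,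
      map_add, map_sub, map_smul, h1, h2, tZ1, t1, tZ', smul_eq_mul]
    ring
  have k2 : ∀ k, K * Z ^ (k + 2) = Z ^ (k + 4) - ((a - 1) * (b - 1)) • Z ^ (k + 3) +
      (2 * a * b - (a * b + 1) * (a + b)) • Z ^ (k + 2) - ((a - 1) * (b - 1) * (a * b)) • Z ^ (k + 1)
      + ((a * b) ^ 2) • Z ^ k := by
    intro k
    have e3 : ∀ u, Z' * (Z * u) = (a * b) • u := fun u => by
      rw [← mul_assoc, e2, smul_mul_assoc, one_mul]
    rw [eK]
    simp only [pow_succ' Z, add_mul, sub_mul, smul_mul_assoc, mul_assoc, e3, mul_smul_comm, one_mul]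
    module
  have k3 : LinearMap.trace ℂ V (K * Z ^ 2) = (a * b) ^ 2 * N := by
    rw [k2 0]
    simp only [map_add, map_sub, map_smul, tZ (0 + 4) (by omega) (by omega),
      tZ (0 + 3) (by omega) (by omega), tZ (0 + 2) (by omega) (by omega),
      tZ (0 + 1) (by omega) (by omega), pow_zero, t1, smul_eq_mul]
    ring
  have k4 : ∀ k, k + 5 < m → LinearMap.trace ℂ V (K * Z ^ (k + 3)) = 0 := by
    intro k hk
    rw [k2 (k + 1)]
    simp only [map_add, map_sub, map_smul, tZ (k + 1 + 4) (by omega) (by omega),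
      tZ (k + 1 + 3) (by omega) (by omega), tZ (k + 1 + 2) (by omega) (by omega),
      tZ (k + 1 + 1) (by omega) (by omega), tZ (k + 1) (by omega) (by omega), smul_zero]
    ring
  have cZ : Commute Z' Z := e2.trans e1.symm
  have cK : Commute K Z := by
    rw [hK, hZ]
    exact (commute_sq_left hX).mul_right (commute_sq_right hY)
  let E : Module.End ℂ V := ∑ k ∈ Finset.range m, (l⁻¹ • Z) ^ k
  have tT : LinearMap.trace ℂ V (K * Z' ^ 2 * E) = (a * b) ^ 2 * N * (1 - a * b / l ^ 2) ^ 2 := by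
    obtain ⟨j, rfl⟩ : ∃ j, m = j + 5 := ⟨m - 5, by omega⟩
    have e4 : ∀ k, K * Z' ^ 2 * Z ^ (k + 2) = ((a * b) ^ 2) • (K * Z ^ k) := by
      intro k
      rw [add_comm k, pow_add, mul_assoc, ← mul_assoc (Z' ^ 2), ← cZ.mul_pow, e2, smul_pow, one_pow,
        smul_mul_assoc, one_mul, mul_smul_comm]
    have e5 : K * Z' ^ 2 * Z = (a * b) • (K * Z' ^ 1) := by
      rw [sq, mul_assoc, mul_assoc, e2, mul_smul_comm, mul_smul_comm, mul_one, pow_one]
    simp only [E, Finset.mul_sum, map_sum, smul_pow, mul_smul_comm, map_smul]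
    simp only [Finset.sum_range_succ']
    rw [Finset.sum_eq_zero fun k hk => by
      rw [e4, map_smul, k4 k (by simpa using hk), smul_zero, smul_zero]]
    rw [e4, e4, e4, zero_add 1, pow_one Z, e5, pow_zero Z, mul_one, mul_one]
    simp only [map_smul]
    rw [hK, hZ', trace_symm hX hY hb, trace_symm hX hY hb, ← hK, ← hZ, pow_one Z, k0, k1,
      k3]
    simp only [smul_eq_mul, inv_pow]
    field_simp
    ring
  let L := Module.End.eigenspace Z l
  have hL : ∀ v, v ∈ L ↔ Z v = l • v := fun v => Module.End.mem_eigenspace_iff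
  have hE : ∀ v ∈ L, E v = (m : ℂ) • v := by
    intro v hv
    have h1 : ∀ k, ((l⁻¹ • Z) ^ k) v = v := by
      intro k
      induction k with
      | zero => rfl
      | succ k ih =>
        rw [pow_succ', Module.End.mul_apply, ih, LinearMap.smul_apply, (hL v).1 hv, smul_smul,
          inv_mul_cancel₀ hl, one_smul]
    simp only [E, LinearMap.sum_apply, h1, Finset.sum_const, Finset.card_range,
      Nat.cast_smul_eq_nsmul]
  have hZ'L : ∀ v ∈ L, Z' v = (a * b / l) • v := by
    intro v hv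
    have h1 := LinearMap.congr_fun e2 v
    rw [Module.End.mul_apply, (hL v).1 hv, map_smul, LinearMap.smul_apply,
      Module.End.one_apply] at h1
    rw [div_eq_inv_mul, mul_smul, ← h1, smul_smul, inv_mul_cancel₀ hl, one_smul]
  have hrange : Z * (K * Z' ^ 2 * E) = l • (K * Z' ^ 2 * E) := by
    have cE : Commute E Z := Commute.sum_left _ _ _ fun k _ =>
      ((Commute.refl Z).smul_left _).pow_left k
    have cE' : Commute (K * Z' ^ 2) E := Commute.sum_right _ _ _ fun k _ =>
      ((cK.mul_left (cZ.pow_left 2)).smul_right _).pow_right k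
    have h1 : (l⁻¹ • Z - 1) * E = (l⁻¹ • Z) ^ m - 1 := mul_geom_sum _ _
    have h2 : ((l⁻¹ • Z) ^ m - 1) * K = 0 := by
      rw [sub_mul, smul_pow, smul_mul_assoc, hK, ← mul_assoc, hbr, smul_mul_assoc, smul_smul,
        ← mul_pow, inv_mul_cancel₀ hl, one_pow, one_smul, one_mul, sub_self]
    have h3 : (l⁻¹ • Z - 1) * (K * Z' ^ 2 * E) = 0 := by
      rw [cE'.eq, ← mul_assoc, h1, ← mul_assoc, h2, zero_mul]
    rw [sub_mul, one_mul, smul_mul_assoc, sub_eq_zero] at h3
    rw [← h3, smul_smul, mul_inv_cancel₀ hl, one_smul, h3]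
  have tT' := trace_eq_mul_finrank (K * Z' ^ 2 * E) L
    (m * (a * b / l) ^ 2 * (l ^ 2 - (a - 1) * (b - 1) * l + (2 * a * b - (a * b + 1) * (a + b))
      - (a - 1) * (b - 1) * (a * b / l) + (a * b / l) ^ 2))
    (fun v => (hL _).2 (LinearMap.congr_fun hrange v)) (by
      intro v hv
      rw [eK]
      simp only [sq, Module.End.mul_apply, hE v hv, map_smul, hZ'L v hv, LinearMap.add_apply,
        LinearMap.sub_apply, LinearMap.smul_apply, Module.End.one_apply, (hL v).1 hv]
      module)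
  refine ⟨Module.finrank ℂ L, ?_⟩
  rw [tT] at tT'
  have hab : (a * b / l) ^ 2 ≠ 0 := pow_ne_zero _ (div_ne_zero (mul_ne_zero ha hb) hl)
  apply mul_left_cancel₀ hab
  have h5 : l * l⁻¹ = 1 := mul_inv_cancel₀ hl
  field_simp at tT' ⊢
  linear_combination tT'

end Trace

end Cfsg.Agent.H1.FHAlg
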