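import Mathlib
import Cfsg.Agent.H1.FHAlg

/-!
The arithmetic part of the Feit–Higman theorem.
-/

set_option autoImplicit false

namespace Cfsg.Agent.H1.FHNum

open Polynomial H1.FHAlg

theorem real_ineq {a b N R x ρ : ℝ} (ha : 2 ≤ a) (hb : 2 ≤ b) (hN : 0 < N) (hR : R ^ 2 = a * b)
    (hR0 : 0 < R) (hx : x ^ 2 < 4) (hρ : 0 ≤ ρ)
    (h : ρ * ((a * b + 1 - R * x) * (a + b + R * x)) = N * (4 * a * b - (R * x) ^ 2)) :
    0 < ρ ∧ ρ < N := by
  have h1 : 0 < 4 * a * b - (R * x) ^ 2 := by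
    have : 0 < R ^ 2 * (4 - x ^ 2) := mul_pos (by positivity) (by linarith)
    nlinarith
  have h2 : 0 < ρ := by
    refine lt_of_le_of_ne hρ fun h0 => ?_
    rw [← h0, zero_mul] at h
    exact (mul_pos hN h1).ne' h.symm
  have h3 : -2 < x := by nlinarith
  have h4 : 2 * R ≤ a + b := by
    apply le_of_sq_le_sq _ (by linarith) |>.trans le_rfl
    nlinarith [sq_nonneg (a - b)]
  have h5 : 0 < (a - 1) * (b - 1) * (R * (x + 2)) :=
    mul_pos (mul_pos (by linarith) (by linarith)) (mul_pos hR0 (by linarith))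
  have h6 : 0 ≤ (a * b + 1 + 2 * R) * (a + b - 2 * R) :=
    mul_nonneg (by positivity) (by linarith)
  have h7 : (N - ρ) * (4 * a * b - (R * x) ^ 2) =
      ρ * ((a - 1) * (b - 1) * (R * (x + 2)) + (a * b + 1 + 2 * R) * (a + b - 2 * R)) := by
    linear_combination -h + 4 * ρ * hR
  have h8 : 0 < (N - ρ) * (4 * a * b - (R * x) ^ 2) := by
    rw [h7]
    exact mul_pos h2 (by linarith)
  exact ⟨h2, by linarith [(mul_pos_iff_of_pos_right h1).1 h8]⟩

theorem real_of_root {z : ℂ} {m : ℕ} (hm : m ≠ 0) (hz : z ^ m = 1) (h2 : z ^ 2 ≠ 1) :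
    ∃ x : ℝ, (x : ℂ) = z + z⁻¹ ∧ x ^ 2 < 4 := by
  have h1 : ‖z‖ = 1 := Complex.norm_eq_one_of_pow_eq_one hz hm
  refine ⟨2 * z.re, ?_, ?_⟩
  · rw [Complex.inv_eq_conj h1, Complex.add_conj]
  · have h3 : z.re ^ 2 + z.im ^ 2 = 1 := by
      have := Complex.sq_norm z
      rw [h1, Complex.normSq_apply] at this
      linarith
    have h4 : z.im ≠ 0 := by
      intro h0
      apply h2
      rw [h0] at h3
      apply Complex.ext
      · simp only [sq, Complex.mul_re, h0, Complex.one_re]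
        linarith
      · simp [sq, h0]
    have := sq_pos_of_ne_zero h4
    nlinarith

theorem eq_or_of_add_inv {u v : ℂ} (hu : u ≠ 0) (hv : v ≠ 0) (h : u + u⁻¹ = v + v⁻¹) :
    u = v ∨ u * v = 1 := by
  have h1 : (u - v) * (u * v - 1) = 0 := by
    field_simp at h
    linear_combination h
  exact (mul_eq_zero.1 h1).imp sub_eq_zero.1 sub_eq_zero.1

theorem even_case {a b N m : ℕ} (ha : 2 ≤ a) (hb : 2 ≤ b) (hN : 0 < N) (hm : 5 ≤ m) {R : ℝ}
    (hR : R ^ 2 = a * b) (hR0 : 0 < R) (he : Even m)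
    (h : ∀ z : ℂ, z ^ m = 1 → ∃ d : ℕ, (m * d : ℂ) * ((a * b + 1 - R * (z + z⁻¹)) *
      (a + b + R * (z + z⁻¹))) = N * (4 * a * b - (R * (z + z⁻¹)) ^ 2)) : m = 6 ∨ m = 8 := by
  have ha' : (2 : ℝ) ≤ a := by exact_mod_cast ha
  have hb' : (2 : ℝ) ≤ b := by exact_mod_cast hb
  have hN' : (0 : ℝ) < N := by exact_mod_cast hN
  have key : ∀ z : ℂ, z ^ m = 1 → ∀ x : ℝ, (x : ℂ) = z + z⁻¹ → x ^ 2 < 4 →
      ∃ q : ℚ, R * x = q := by
    intro z hz x hx hx4
    obtain ⟨d, hd⟩ := h z hz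
    obtain ⟨e, he'⟩ := h (-z) (by rw [he.neg_pow, hz])
    rw [← hx] at hd
    rw [inv_neg, ← neg_add, ← hx] at he'
    have hd' : ((m * d : ℕ) : ℝ) * ((a * b + 1 - R * x) * (a + b + R * x)) =
        N * (4 * a * b - (R * x) ^ 2) := by exact_mod_cast hd
    have he'' : ((m * e : ℕ) : ℝ) * ((a * b + 1 - R * (-x)) * (a + b + R * (-x))) =
        N * (4 * a * b - (R * (-x)) ^ 2) := by exact_mod_cast he'
    generalize m * d = ρ at hd'
    generalize m * e = σ at he''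
    obtain ⟨h1, h2⟩ := real_ineq ha' hb' hN' hR hR0 hx4 (Nat.cast_nonneg _) hd'
    obtain ⟨h3, h4⟩ := real_ineq ha' hb' hN' hR hR0 (by rwa [neg_sq]) (Nat.cast_nonneg _) he''
    have h5 : (0 : ℝ) < (a - 1) * (b - 1) * (ρ * (N - σ) + σ * (N - ρ)) :=
      mul_pos (mul_pos (by linarith) (by linarith))
        (add_pos (mul_pos h1 (by linarith)) (mul_pos h3 (by linarith)))
    refine ⟨((N - ρ) * (σ * (a * b + 1) * (a + b) - 4 * a * b * N) -
      (N - σ) * (ρ * (a * b + 1) * (a + b) - 4 * a * b * N)) /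
      ((a - 1) * (b - 1) * (ρ * (N - σ) + σ * (N - ρ))), ?_⟩
    push_cast
    rw [eq_div_iff h5.ne']
    linear_combination (N - σ) * hd' - (N - ρ) * he''
  have hζ := Complex.isPrimitiveRoot_exp m (by omega)
  generalize Complex.exp _ = ζ at hζ
  have hζ0 : ζ ≠ 0 := hζ.ne_zero (by omega)
  have hdvd : ∀ k, ζ ^ k = 1 → m ∣ k := fun k => (hζ.pow_eq_one_iff_dvd k).1
  have hle : ∀ k, 0 < k → ζ ^ k = 1 → m ≤ k := fun k hk h => Nat.le_of_dvd hk (hdvd k h)
  obtain ⟨x, hx, hx4⟩ := real_of_root (by omega) hζ.pow_eq_one fun h' =>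
    absurd (hle 2 two_pos h') (by omega)
  have hz2 : (ζ ^ 2) ^ m = 1 := by rw [← pow_mul, mul_comm, pow_mul, hζ.pow_eq_one, one_pow]
  obtain ⟨y, hy, hy4⟩ := real_of_root (by omega) hz2 fun h' =>
    absurd (hle 4 four_pos (by rw [← h']; ring)) (by omega)
  have hxy : y = x ^ 2 - 2 := by
    apply Complex.ofReal_injective
    push_cast
    rw [hx, hy]
    field_simp
    ring
  obtain ⟨q₁, hq₁⟩ := key ζ hζ.pow_eq_one x hx hx4
  obtain ⟨q₂, hq₂⟩ := key _ hz2 y hy hy4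
  have hx' : ζ ^ 2 + 1 = x * ζ := by
    rw [hx]
    field_simp
  by_cases h2 : x ^ 2 = 2
  · right
    have h3 : (x : ℂ) ^ 2 = 2 := by exact_mod_cast h2
    have h4 : ζ ^ 4 + 1 = 0 := by
      linear_combination (ζ ^ 2 + 1 + x * ζ) * hx' + ζ ^ 2 * h3
    have h5 := hdvd 8 (by linear_combination (ζ ^ 4 - 1) * h4)
    have := Nat.le_of_dvd (by norm_num) h5
    interval_cases m <;> omega
  · left
    have hab : (a * b : ℝ) ≠ 0 := by positivity
    have h3 : x ^ 2 = ((q₁ ^ 2 / (a * b) : ℚ) : ℝ) := by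
      push_cast
      rw [← hq₁, eq_div_iff hab, ← hR]
      ring
    have h4 : R = ((q₂ / (q₁ ^ 2 / (a * b) - 2) : ℚ) : ℝ) := by
      rw [Rat.cast_div, Rat.cast_sub, ← h3, ← hq₂, hxy]
      push_cast
      rw [mul_div_assoc, div_self (sub_ne_zero.2 h2), mul_one]
    have h5 : x = ((q₁ / (q₂ / (q₁ ^ 2 / (a * b) - 2)) : ℚ) : ℝ) := by
      rw [Rat.cast_div, ← h4, ← hq₁, mul_div_cancel_left₀ _ hR0.ne']
    have h6 : IsIntegral ℤ (x : ℂ) := by
      rw [hx]
      exact (hζ.isIntegral (by omega)).add (hζ.inv.isIntegral (by omega))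
    obtain ⟨k, hk⟩ := h6.exists_int_iff_exists_rat.1 ⟨_, by rw [h5]; rfl⟩
    have hk' : x = k := by exact_mod_cast hk
    have hk4 : k ^ 2 < 4 := by
      rw [hk'] at hx4
      exact_mod_cast hx4
    have : k = -1 ∨ k = 0 ∨ k = 1 := by
      have : k < 2 := by nlinarith
      have : -2 < k := by nlinarith
      omega
    rw [hk] at hx'
    rcases this with rfl | rfl | rfl <;> push_cast at hx'
    · have := hle 3 three_pos (by linear_combination (ζ - 1) * hx')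
      omega
    · have := hle 4 four_pos (by linear_combination (ζ ^ 2 - 1) * hx')
      omega
    · have h5 := hdvd 6 (by linear_combination (ζ + 1) * (ζ ^ 3 - 1) * hx')
      have := Nat.le_of_dvd (by norm_num) h5
      interval_cases m <;> omega

theorem odd_case {a N m : ℕ} (ha : 2 ≤ a) (hN : 0 < N) (hm : 5 ≤ m) (ho : Odd m)
    (h : ∀ z : ℂ, z ^ m = 1 → ∃ d : ℕ, (m * d : ℂ) * ((a * a + 1 - a * (z + z⁻¹)) *
      (a + a + a * (z + z⁻¹))) = N * (4 * a * a - (a * (z + z⁻¹)) ^ 2)) : False := by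
  have hζ := Complex.isPrimitiveRoot_exp m (by omega)
  generalize Complex.exp _ = ζ at hζ
  have hζ0 : ζ ≠ 0 := hζ.ne_zero (by omega)
  have hle : ∀ k, 0 < k → ζ ^ k = 1 → m ≤ k := fun k hk h =>
    Nat.le_of_dvd hk ((hζ.pow_eq_one_iff_dvd k).1 h)
  obtain ⟨d, hd⟩ := h ζ hζ.pow_eq_one
  rw [← Nat.cast_mul] at hd
  generalize m * d = ρ at hd
  let p : ℚ[X] := (ρ : ℚ[X]) * ((((a : ℚ[X]) * (a : ℚ[X]) + 1) * (X : ℚ[X]) -
    (a : ℚ[X]) * ((X : ℚ[X]) ^ 2 + 1)) *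
    (((a : ℚ[X]) + (a : ℚ[X])) * (X : ℚ[X]) + (a : ℚ[X]) * ((X : ℚ[X]) ^ 2 + 1))) -
    (N : ℚ[X]) * (4 * (a : ℚ[X]) * (a : ℚ[X]) * (X : ℚ[X]) ^ 2 -
      ((a : ℚ[X]) * ((X : ℚ[X]) ^ 2 + 1)) ^ 2)
  have hp : ∀ z : ℂ, z ≠ 0 → (aeval z p = 0 ↔ (ρ : ℂ) * ((a * a + 1 - a * (z + z⁻¹)) *
      (a + a + a * (z + z⁻¹))) = N * (4 * a * a - (a * (z + z⁻¹)) ^ 2)) := by
    intro z hz
    have : aeval z p = z ^ 2 * ((ρ : ℂ) * ((a * a + 1 - a * (z + z⁻¹)) *
      (a + a + a * (z + z⁻¹))) - N * (4 * a * a - (a * (z + z⁻¹)) ^ 2)) := by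
      simp only [p, map_sub, map_mul, map_add, map_natCast, map_one, aeval_X, map_pow, map_ofNat]
      field_simp
    rw [this, mul_eq_zero, sub_eq_zero, or_iff_right (pow_ne_zero 2 hz)]
  have hdvd : cyclotomic m ℚ ∣ p := by
    rw [cyclotomic_eq_minpoly_rat hζ (by omega)]
    exact minpoly.dvd ℚ ζ ((hp ζ hζ0).2 hd)
  have hconj : ∀ j, j.Coprime m → (ρ : ℂ) * ((a * a + 1 - a * (ζ ^ j + (ζ ^ j)⁻¹)) *
      (a + a + a * (ζ ^ j + (ζ ^ j)⁻¹))) = N * (4 * a * a - (a * (ζ ^ j + (ζ ^ j)⁻¹)) ^ 2) := by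
    intro j hj
    rw [← hp _ (pow_ne_zero j hζ0)]
    refine aeval_eq_zero_of_dvd_aeval_eq_zero hdvd ?_
    rw [cyclotomic_eq_minpoly_rat (hζ.pow_of_coprime j hj) (by omega)]
    exact minpoly.aeval _ _
  have c2 : Nat.Coprime 2 m := Nat.coprime_two_left.2 ho
  have h2 := hconj 2 c2
  have h4 := hconj 4 (by simpa using c2.pow_left 2)
  have ha0 : (a : ℂ) ≠ 0 := by exact_mod_cast (show a ≠ 0 by omega)
  have ha1 : (a : ℂ) - 1 ≠ 0 := sub_ne_zero.2 (by exact_mod_cast (show a ≠ 1 by omega))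
  have hN0 : (N : ℂ) ≠ 0 := by exact_mod_cast hN.ne'
  have hρ : (ρ : ℂ) ≠ 0 := by
    intro h0
    rw [h0, zero_mul, eq_comm, mul_eq_zero, or_iff_right hN0] at hd
    have h5 : (a : ℂ) ^ 2 * (ζ ^ 2 - 1) ^ 2 = 0 := by
      field_simp at hd
      linear_combination -hd
    rw [mul_eq_zero, or_iff_right (pow_ne_zero 2 ha0), pow_eq_zero_iff two_ne_zero,
      sub_eq_zero] at h5
    have := hle 2 two_pos h5
    omega
  have n12 : ζ + ζ⁻¹ - (ζ ^ 2 + (ζ ^ 2)⁻¹) ≠ 0 := by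
    intro h0
    rcases eq_or_of_add_inv hζ0 (pow_ne_zero 2 hζ0) (sub_eq_zero.1 h0) with h5 | h5
    · have := hle 1 one_pos (mul_left_cancel₀ hζ0 (by linear_combination -h5))
      omega
    · have := hle 3 three_pos (by linear_combination h5)
      omega
  generalize hx₁ : ζ + ζ⁻¹ = x₁ at *
  generalize hx₂ : ζ ^ 2 + (ζ ^ 2)⁻¹ = x₂ at *
  have e12 : (N - ρ) * a * (x₁ + x₂) + ρ * (a - 1) ^ 2 = 0 := by
    apply mul_left_cancel₀ (mul_ne_zero ha0 n12)
    linear_combination hd - h2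
  by_cases h5 : m = 5
  · subst h5
    have h6 := hζ.geom_sum_eq_zero (by norm_num)
    simp only [Finset.sum_range_succ, Finset.sum_range_zero] at h6
    have h7 : x₁ + x₂ = -1 := by
      rw [← hx₁, ← hx₂]
      field_simp
      linear_combination h6
    have h8 : x₂ = x₁ ^ 2 - 2 := by
      rw [← hx₁, ← hx₂]
      field_simp
      ring
    have h9 : (a : ℂ) * (a - 1) ^ 2 * ρ = 0 := by
      rw [h7] at e12
      rw [h8] at h7
      linear_combination -hd + (N - ρ) * a ^ 2 * h7 + a * (x₁ + 3) * e12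
    exact mul_ne_zero (mul_ne_zero ha0 (pow_ne_zero 2 ha1)) hρ h9
  · have hm7 : 7 ≤ m := by
      obtain ⟨k, rfl⟩ := ho
      omega
    have n14 : x₁ - (ζ ^ 4 + (ζ ^ 4)⁻¹) ≠ 0 := by
      intro h0
      rw [← hx₁] at h0
      rcases eq_or_of_add_inv hζ0 (pow_ne_zero 4 hζ0) (sub_eq_zero.1 h0) with h5 | h5
      · have := hle 3 three_pos (mul_left_cancel₀ hζ0 (by linear_combination -h5))
        omega
      · have := hle 5 (by norm_num) (by linear_combination h5)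
        omega
    have n24 : x₂ - (ζ ^ 4 + (ζ ^ 4)⁻¹) ≠ 0 := by
      intro h0
      rw [← hx₂] at h0
      rcases eq_or_of_add_inv (pow_ne_zero 2 hζ0) (pow_ne_zero 4 hζ0) (sub_eq_zero.1 h0)
        with h5 | h5
      · have := hle 2 two_pos (mul_left_cancel₀ (pow_ne_zero 2 hζ0) (by linear_combination -h5))
        omega
      · have := hle 6 (by norm_num) (by linear_combination h5)
        omega
    generalize ζ ^ 4 + (ζ ^ 4)⁻¹ = x₄ at *
    have e14 : (N - ρ) * a * (x₁ + x₄) + ρ * (a - 1) ^ 2 = 0 := by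
      apply mul_left_cancel₀ (mul_ne_zero ha0 n14)
      linear_combination hd - h4
    have e0 : ((N : ℂ) - ρ) * a = 0 := by
      apply mul_left_cancel₀ n24
      linear_combination e12 - e14
    rw [e0, zero_mul, zero_add] at e12
    exact mul_ne_zero hρ (pow_ne_zero 2 ha1) e12

variable {V : Type*} [AddCommGroup V] [Module ℂ V] [FiniteDimensional ℂ V]

/-- The Feit–Higman theorem for a regular module of the Hecke algebra. -/
theorem feit_higman {X Y : Module.End ℂ V} {a b m : ℕ} (hX : Quad X a) (hY : Quad Y b)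
    (ha : 2 ≤ a) (hb : 2 ≤ b) (hN : 0 < Module.finrank ℂ V) (hm : 5 ≤ m)
    (tX : LinearMap.trace ℂ V X = 0) (tY : LinearMap.trace ℂ V Y = 0)
    (tZ : ∀ k, 0 < k → k < m → LinearMap.trace ℂ V ((X * Y) ^ k) = 0)
    (he : ∀ n, m = 2 * n → (X * Y) ^ n = (Y * X) ^ n)
    (ho : ∀ n, m = 2 * n + 1 → (X * Y) ^ n * X = (Y * X) ^ n * Y) : m = 6 ∨ m = 8 := by
  have ha0 : (a : ℂ) ≠ 0 := by exact_mod_cast (show a ≠ 0 by omega)
  have hb0 : (b : ℂ) ≠ 0 := by exact_mod_cast (show b ≠ 0 by omega)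
  obtain ⟨n, hn | hn⟩ := Nat.even_or_odd' m
  · have hR : Real.sqrt (a * b) ^ 2 = a * b := Real.sq_sqrt (by positivity)
    have hR0 : 0 < Real.sqrt (a * b) := Real.sqrt_pos.2 (by
      have : 0 < a := by omega
      have : 0 < b := by omega
      positivity)
    generalize Real.sqrt (a * b) = R at hR hR0
    have hR' : (R : ℂ) ^ 2 = a * b := by exact_mod_cast hR
    have hR1 : (R : ℂ) ≠ 0 := by exact_mod_cast hR0.ne'
    refine even_case ha hb hN hm hR hR0 ⟨n, by omega⟩ fun z hz => ?_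
    have hz0 : z ≠ 0 := by
      rintro rfl
      rw [zero_pow (by omega)] at hz
      exact zero_ne_one hz
    have h1 := mult hX hY ha0 hb0 hm tX tY tZ (mul_ne_zero hR1 hz0) (by
      rw [mul_pow (R : ℂ), hz, mul_one, hn, pow_mul (R : ℂ), hR', braid_even hX hY (he n hn)])
    have h2 : R * z + a * b / (R * z) = R * (z + z⁻¹) := by
      rw [← hR']
      field_simp
    rwa [h2] at h1
  · exfalso
    obtain ⟨h1, h2⟩ := braid_odd hX hY (ho n hn)
    have h3 := congrArg (LinearMap.trace ℂ V) h2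
    rw [map_smul, map_add, tY, zero_add, LinearMap.trace_one, map_zero, smul_eq_mul] at h3
    have h4 : (Module.finrank ℂ V : ℂ) ≠ 0 := by exact_mod_cast hN.ne'
    have h5 : b = a := by
      have := (mul_eq_zero.1 ((mul_eq_zero.1 h3).resolve_right h4)).resolve_left
        (mul_ne_zero ha0 (pow_ne_zero _ (mul_ne_zero ha0 hb0)))
      exact_mod_cast sub_eq_zero.1 this
    subst h5
    refine odd_case ha hN hm ⟨n, hn⟩ fun z hz => ?_
    have hz0 : z ≠ 0 := by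
      rintro rfl
      rw [zero_pow (by omega)] at hz
      exact zero_ne_one hz
    have h1 := mult hX hY ha0 hb0 hm tX tY tZ (mul_ne_zero ha0 hz0) (by
      rw [mul_pow (b : ℂ) z, hz, mul_one, hn, h1]
      congr 1
      ring)
    have h2 : b * z + b * b / (b * z) = b * (z + z⁻¹) := by
      field_simp
    rwa [h2] at h1

end Cfsg.Agent.H1.FHNum
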