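import Cfsg.Agent.H1.O5Plane
import Cfsg.Agent.H7.C2Fr4

/-!
Groups containing the monomial reflection group of an orthonormal frame, in dimension at least five.
-/

set_option autoImplicit false
set_option linter.unusedSectionVars false
set_option linter.unusedSimpArgs false

namespace Cfsg.Agent.H1.Fr5

open Module H7 H7.Polar H8 QuadraticMap Matrix Equiv H7.Fr

variable {F : Type*} [Field F] [Fintype F] {κ : Type} [Fintype κ] [DecidableEq κ]

theorem exists_both_ne (h2 : (2 : F) ≠ 0) (hq : 5 < Fintype.card F) {A B : F} (hA : A ≠ 0)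
    (hB : B ≠ 0) : ∃ x y : F, x ≠ 0 ∧ y ≠ 0 ∧ A * x * x + B * y * y = 1 := by
  have key : ∀ {A B x : F}, A * x * x = 1 →
      ∃ x y : F, x ≠ 0 ∧ y ≠ 0 ∧ A * x * x + B * y * y = 1 := fun {A B x} h => by
    obtain ⟨s, s1, s2, s3⟩ := avoid221 hq (a := B) (b := 0) (c := 1)
      (a' := -B) (b' := 0) (c' := 1) (d := 1) (e := 0) (by simp) (by simp) (by simp)
    have hx : x ≠ 0 := by rintro rfl; simp at h
    have s1' : 1 + B * s * s ≠ 0 := fun h => s1 (by linear_combination h)
    have s2' : 1 - B * s * s ≠ 0 := fun h => s2 (by linear_combination h)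
    refine ⟨x * (1 - B * s * s) / (1 + B * s * s), 2 * s / (1 + B * s * s), by simp [hx, s1', s2'],
      by simpa [h2, s1'] using s3, ?_⟩
    have hi := mul_inv_cancel₀ s1'
    simp only [div_eq_mul_inv]
    generalize (1 + B * s * s)⁻¹ = r at hi
    linear_combination (1 - B * s ^ 2) ^ 2 * r ^ 2 * h + ((1 + B * s * s) * r + 1) * hi
  obtain ⟨x, y, h⟩ := exists_quad_add_quad h2 hA hB 1
  by_cases hy : y = 0
  · exact key (x := x) (by simpa [hy] using h)
  by_cases hx : x = 0
  · obtain ⟨y, x, h1, h3, h4⟩ := key (A := B) (B := A) (x := y) (by simpa [hx] using h)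
    exact ⟨x, y, h3, h1, by linear_combination h4⟩
  exact ⟨x, y, hx, hy, h⟩

theorem eq_zero_of_two (hι : ∀ ι : F, ι * ι ≠ -1) {y : κ → F} (hy : (supp y).card ≤ 2)
    (h : y ⬝ᵥ y = 0) : y = 0 := by
  by_contra h0
  obtain ⟨a, ha⟩ : ∃ a, y a ≠ 0 := by
    by_contra! h; exact h0 (funext h)
  by_cases h1 : y ∈ D0 F a
  · rw [eq_of_mem_D0 h1] at h
    simp [ha] at h
  rw [mem_D0] at h1
  push Not at h1
  obtain ⟨b, hb, hb'⟩ := h1
  have h3 : ({a, b} : Finset κ) = supp y := Finset.eq_of_subset_of_card_le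
    (by intro x; simp; rintro (rfl | rfl) <;> assumption) (by rw [Finset.card_pair hb.symm]; exact hy)
  rw [dotProduct, ← Finset.sum_subset (Finset.subset_univ (supp y)) (fun i _ hi => by
    simp at hi; simp [hi]), ← h3, Finset.sum_pair hb.symm] at h
  exact hι (y a / y b) (by field_simp; linear_combination h)

theorem eq_of_rQ_eq (h2 : (2 : F) ≠ 0) {x y : κ → F} (hx : x ⬝ᵥ x = 1) (hy : y ⬝ᵥ y = 1)
    (h : rQ (Q0 F κ) x = rQ (Q0 F κ) y) : ∃ ε : F, ε * ε = 1 ∧ x = ε • y := by
  have h1 := rQ_self (Q := Q0 F κ) (a := x) (by simp [Q0_apply, hx])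
  rw [h, rQ_apply, Q0_apply, hy, polar_Q0] at h1
  have h3 : x = (x ⬝ᵥ y) • y := by
    apply smul_right_injective _ h2
    simp only
    linear_combination (norm := module) h1
  refine ⟨_, ?_, h3⟩
  conv_lhs => enter [1, 1]; rw [h3]
  rw [← hx]
  conv_rhs => enter [2]; rw [h3]
  simp [hy]

theorem supp_sub (a : κ → F) (i : κ) : supp (a - a i • e i) = (supp a).erase i := by
  ext l
  by_cases h : l = i
  · simp [h]
  · simp [h, e_ne h]

variable {h2 : (2 : F) ≠ 0} {Y : Subgroup ((κ → F) ≃ₗ[F] (κ → F))} (hY : RCtx h2 Y)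
include hY

theorem E_le_of_full {u : κ → F} (hu : Q0 F κ u = 0) (h0 : u ≠ 0)
    (h : ∀ w, w ⬝ᵥ u = 0 → w ∈ AS (nd0 h2) Y hu) : (qP (nd0 h2)).E ≤ Y := by
  obtain ⟨i, hi⟩ : ∃ i, u i ≠ 0 := by
    by_contra! h; exact h0 (funext h)
  have hf : (qP (nd0 h2)).FullA Y u := fullA_of_AS hu fun w hw =>
    h w (by simpa [polar_Q0, h2] using hw)
  refine E_le_of_fullA (qP_sing _ hu) (qP_sing _ ((Q_rQ _ _).trans hu)) hf
    (hf.conj (hY.refl i) (rQ_mem_Iso _ _)) ?_
  rw [Q0_apply] at hu
  simp [rQ_apply, polar_Q0, Q0_apply, hu, h2, hi]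

theorem fin_three (hn : 5 ≤ Fintype.card κ) {u : κ → F} {hu : Q0 F κ u = 0} (h0 : u ≠ 0) {i : κ}
    (hi : e i ∈ AS (nd0 h2) Y hu) (h3 : (supp u).card ≤ 3) : (qP (nd0 h2)).E ≤ Y := by
  by_cases h4 : (supp u).card + 3 ≤ Fintype.card κ
  · exact hY.fin h0 hi h4
  replace h3 : (supp u).card = 3 := by omega
  have hui : u i = 0 := by simpa [polar_Q0, h2] using AS.polar hi
  have key : ∀ j k m, j ≠ k → u j ≠ 0 → u k ≠ 0 → u m = 0 → m ≠ i →
      e m ∈ AS (nd0 h2) Y hu ∧ u k • e j - u j • e k ∈ AS (nd0 h2) Y hu := by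
    intro j k m hjk hj hk hm hmi
    obtain ⟨l, hl, hl'⟩ : ∃ l ∈ supp u, l ∉ ({j, k} : Finset κ) :=
      Finset.exists_mem_notMem_of_card_lt_card (Finset.card_le_two.trans_lt (by omega))
    simp only [Finset.mem_insert, Finset.mem_singleton, not_or, mem_supp] at hl hl'
    have hs : ({j, k, l} : Finset κ) = supp u := Finset.eq_of_subset_of_card_le
      (by intro x; simp; rintro (rfl | rfl | rfl) <;> assumption)
      (by rw [Finset.card_eq_three.2 ⟨j, k, l, hjk, Ne.symm hl'.1, Ne.symm hl'.2, rfl⟩, h3])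
    have ij : i ≠ j := by rintro rfl; exact hj hui
    have ik : i ≠ k := by rintro rfl; exact hk hui
    have il : i ≠ l := by rintro rfl; exact hl hui
    have mj : m ≠ j := by rintro rfl; exact hj hm
    have mk : m ≠ k := by rintro rfl; exact hk hm
    have ml : m ≠ l := by rintro rfl; exact hl hm
    have eu : u = u j • e j + u k • e k + u l • e l := by
      conv_lhs => rw [← sum_e u, ← Finset.sum_subset (Finset.subset_univ (supp u)) (fun i _ hi => by
        simp at hi; simp [hi]), ← hs]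
      rw [Finset.sum_insert (by simp [hjk, Ne.symm hl'.1]), Finset.sum_pair (Ne.symm hl'.2),
        add_assoc]
    set s := -u j / (u k * u k) with hs'
    have s0 : s ≠ 0 := by simp [hs', hj, hk]
    have r1 := hY.map (hY.perm i j l m ij ml.symm) (hY.root_add hi s)
    have e1 : pm F (swap i j * swap l m) (e i + s • u) =
        e j + s • (u j • e i + u k • e k + u l • e m) := by
      conv_lhs => rw [eu]
      simp only [map_add, map_smul, pm_e, Perm.mul_apply, swap_apply_left,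
        swap_apply_of_ne_of_ne il hmi.symm, swap_apply_of_ne_of_ne (Ne.symm hl'.1) mj.symm,
        swap_apply_right, swap_apply_of_ne_of_ne (Ne.symm hl'.2) mk.symm,
        swap_apply_of_ne_of_ne ik.symm hjk.symm, swap_apply_of_ne_of_ne hmi mj]
    rw [e1] at r1
    have r2 := hY.map (hY.refl m) r1
    have e2 : rQ (Q0 F κ) (e m) (e j + s • (u j • e i + u k • e k + u l • e m)) =
        e j + s • (u j • e i + u k • e k + (-u l) • e m) := by
      rw [rQ_apply]
      simp [polar_Q0, Q0_apply, e_ne mj, e_ne hmi, e_ne mk]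
      module
    rw [e2] at r2
    have in1 : ∀ t : F, Root Y (e j + s • (u j • e i + u k • e k + t • e m)) →
        e j + s • (u j • e i + u k • e k + t • e m) ∈ AS (nd0 h2) Y hu := fun t r =>
      mem_AS_of_rQ hY.iso hi r.2 (by rw [Q0_apply, r.1]; exact one_ne_zero) (by
        simp [polar_Q0, h2, hui, hm, hs']; field_simp; ring)
        (by rw [polar_Q0]; simp [h2, e_ne ij.symm, e_ne ik.symm, e_ne hmi, s0, hj])
    have h5 : e m ∈ AS (nd0 h2) Y hu := by
      rw [← Submodule.smul_mem_iff _ (mul_ne_zero (mul_ne_zero h2 s0) hl)]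
      convert sub_mem (in1 _ r1) (in1 _ r2) using 1
      module
    refine ⟨h5, ?_⟩
    convert Submodule.smul_mem _ (u k) (sub_mem (sub_mem (in1 _ r1)
      (Submodule.smul_mem _ (s * u j) hi)) (Submodule.smul_mem _ (s * u l) h5)) using 1
    rw [hs']
    match_scalars <;> field_simp <;> ring
  obtain ⟨j, hj, k, hk, hjk⟩ := Finset.one_lt_card.1 (show 1 < (supp u).card by omega)
  obtain ⟨m, hm, hmi⟩ : ∃ m ∈ (supp u)ᶜ, m ∉ ({i} : Finset κ) :=
    Finset.exists_mem_notMem_of_card_lt_card (by rw [Finset.card_compl]; simp; omega)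
  simp only [Finset.mem_compl, mem_supp, not_not, Finset.mem_singleton] at hj hk hm hmi
  refine E_le_of_full hY hu h0 fun w hw => ?_
  have : u j • w = ∑ l, w l • (u j • e l - u l • e j) := by
    simp only [dotProduct] at hw
    simp only [smul_sub, Finset.sum_sub_distrib, smul_comm _ (u j)]
    simp only [smul_smul (w _), ← Finset.smul_sum, sum_e, ← Finset.sum_smul, hw]
    simp
  rw [← Submodule.smul_mem_iff _ hj, this]
  refine Submodule.sum_mem _ fun l _ => Submodule.smul_mem _ _ ?_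
  by_cases e1 : l = j
  · simp [e1]
  by_cases e2 : u l = 0
  · by_cases e3 : l = i
    · simpa [e2, e3, hui] using Submodule.smul_mem _ _ hi
    · simpa [e2] using Submodule.smul_mem _ _ (key j k l hjk hj hk e2 e3).1
  · exact (key l j m e1 e2 hj hm hmi).2

omit hY in
/-- products of reflections in the span of `e i`, `e m`, `z` -/
def Dk (Y : Subgroup ((κ → F) ≃ₗ[F] (κ → F))) (i m : κ) (ν : F) (z : κ → F) : Prop :=
  z i = 0 ∧ z m = 0 ∧ z ⬝ᵥ z = ν ∧ ∀ a₁ a₂ a₃ b₁ b₂ b₃ : F,
    a₁ * a₁ + a₂ * a₂ + a₃ * a₃ * ν = b₁ * b₁ + b₂ * b₂ + b₃ * b₃ * ν →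
    b₁ * b₁ + b₂ * b₂ + b₃ * b₃ * ν ≠ 0 →
    rQ (Q0 F κ) (a₁ • e i + a₂ • e m + a₃ • z) * rQ (Q0 F κ) (b₁ • e i + b₂ • e m + b₃ • z) ∈ Y

theorem Dk.map {i m : κ} {ν : F} {z : κ → F} (h : Dk Y i m ν z) {g : (κ → F) ≃ₗ[F] (κ → F)}
    (hg : g ∈ Y) {i' m' : κ} (h1 : g (e i) = e i') (h3 : g (e m) = e m') : Dk Y i' m' ν (g z) := by
  refine ⟨by rw [← dot_e (g z), ← h1, hY.dot hg, dot_e, h.1],
    by rw [← dot_e (g z), ← h3, hY.dot hg, dot_e, h.2.1], by rw [hY.dot hg, h.2.2.1],
    fun a₁ a₂ a₃ b₁ b₂ b₃ h4 h5 => ?_⟩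
  have := mul_mem (mul_mem hg (h.2.2.2 a₁ a₂ a₃ b₁ b₂ b₃ h4 h5)) (inv_mem hg)
  rw [← conj_mul, rQ_conj (hY.iso hg), rQ_conj (hY.iso hg)] at this
  simpa [h1, h3] using this

omit hY in
theorem Dk.symm {i m : κ} {ν : F} {z : κ → F} (h : Dk Y i m ν z) : Dk Y m i ν z :=
  ⟨h.2.1, h.1, h.2.2.1, fun a₁ a₂ a₃ b₁ b₂ b₃ h4 h5 => by
    have := h.2.2.2 a₂ a₁ a₃ b₂ b₁ b₃ (by linear_combination h4) (fun h => h5 (by
      linear_combination h))
    rwa [add_comm (a₂ • e i), add_comm (b₂ • e i)] at this⟩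

theorem Dk.sign {i m j : κ} {ν : F} {z : κ → F} (h : Dk Y i m ν z) (h1 : j ≠ i) (h3 : j ≠ m) :
    Dk Y i m ν (z - (2 * z j) • e j) := by
  have := h.map hY (hY.refl j) (i' := i) (m' := m) (rQ_fix (by simp [polar_Q0, e_ne h1]))
    (rQ_fix (by simp [polar_Q0, e_ne h3]))
  simpa [rQ_apply, polar_Q0, Q0_apply] using this

theorem Dk.move {i m j k : κ} {ν : F} {z : κ → F} (h : Dk Y i m ν z) (him : i ≠ m) (h1 : j ≠ i)
    (h3 : j ≠ m) (hj : z j = 0) (hk : z k ≠ 0) : Dk Y i m ν (z - z k • e k + z k • e j) := by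
  have ki : k ≠ i := by rintro rfl; exact hk h.1
  have km : k ≠ m := by rintro rfl; exact hk h.2.1
  have kj : k ≠ j := by rintro rfl; exact hk hj
  have := (h.map hY (hY.perm k j i m kj him) (i' := m) (m' := i)
    (by simp [pm_e, swap_apply_of_ne_of_ne km.symm h3.symm])
    (by simp [pm_e, swap_apply_of_ne_of_ne ki.symm h1.symm])).symm
  convert this using 1
  rw [pm_mul, LinearEquiv.mul_apply, pm_swap_fix (x := z) (by rw [h.1, h.2.1])]
  ext l
  by_cases e1 : l = k
  · simp [e1, hj, e_ne kj]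
  by_cases e2 : l = j
  · simp [e2, hj, e_ne kj.symm]
  · simp [swap_apply_of_ne_of_ne e1 e2, e_ne e1, e_ne e2]

theorem fin_dick (hp : (Fintype.card F).Prime) (h3 : (3 : F) ≠ 0) {i m : κ} (him : i ≠ m) {ν : F}
    (hν : ν ≠ 0) {z : κ → F} (h : Dk Y i m ν z) (hs : (supp z).card ≤ 3) :
    (qP (nd0 h2)).E ≤ Y := by
  have hz0 : (supp z).Nonempty := by
    by_contra h0
    have : z = 0 := funext fun l => by
      by_contra h1; exact h0 ⟨l, mem_supp.2 h1⟩
    exact hν (by simpa [this] using h.2.2.1.symm)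
  have dec : ∀ w : κ → F, w = w i • e i + w m • e m +
      ∑ j, (if j = i ∨ j = m then 0 else w j) • e j := fun w => by
    ext l
    simp only [Pi.add_apply, Pi.smul_apply, Finset.sum_apply, e_apply, smul_eq_mul, mul_ite,
      mul_one, mul_zero, Finset.sum_ite_eq, Finset.mem_univ, if_true]
    by_cases e1 : l = i
    · simp [e1, him]
    by_cases e2 : l = m
    · simp [e2, him.symm]
    · simp [e1, e2]
  by_cases hι : ∃ ι : F, ι * ι = -1
  · obtain ⟨ι, hι⟩ := hι
    have hu : Q0 F κ (e i + ι • e m) = 0 := by simp [Q0_apply, e_ne him, e_ne him.symm, hι]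
    have h1 : ∀ z, Dk Y i m ν z → z ∈ AS (nd0 h2) Y hu := fun z h =>
      hY.mem_AS_of_two hp hu (by simp [h.1, h.2.1]) (by rwa [h.2.2.1]) (by
        convert h.2.2.2 1 ι 1 0 0 1 (by linear_combination hι) (by simpa) using 3 <;> module)
    have h4 : ∀ z j, Dk Y i m ν z → j ≠ i → j ≠ m → z j ≠ 0 → e j ∈ AS (nd0 h2) Y hu :=
      fun z j h e1 e2 e3 => by
        simpa [Submodule.smul_mem_iff _ (mul_ne_zero h2 e3)] using
          sub_mem (h1 z h) (h1 _ (h.sign hY e1 e2))
    refine E_le_of_full hY hu (fun h => by simpa [e_ne him] using congrFun h i) fun w hw => ?_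
    rw [dec w]
    refine add_mem ?_ (Submodule.sum_mem _ fun j _ => ?_)
    · convert Submodule.smul_mem _ (w i) (self_mem_AS Y hu) using 1
      simp at hw
      rw [show w m = ι * w i by linear_combination (-ι) * hw + w m * hι]
      module
    · split_ifs with e1
      · simp
      push Not at e1
      refine Submodule.smul_mem _ _ ?_
      by_cases e2 : z j = 0
      · obtain ⟨k, hk⟩ := hz0
        have hk' := mem_supp.1 hk
        exact h4 _ j (h.move hY him e1.1 e1.2 e2 hk') e1.1 e1.2 (by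
          simpa [e2, e_ne (show j ≠ k by rintro rfl; exact hk' e2)] using hk')
      · exact h4 z j h e1.1 e1.2 e2
  push Not at hι
  have h5 : (5 : F) ≠ 0 := fun h => hι 2 (by linear_combination h)
  have hq : 5 < Fintype.card F := by
    by_contra h6
    have := charP_of_card_eq_prime (R := F) (p := Fintype.card F) (hp := ⟨hp⟩) rfl
    have h7 := CharP.cast_eq_zero F (Fintype.card F)
    have := hp.two_le
    interval_cases hc : Fintype.card F
    · exact h2 (by simpa using h7)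
    · exact h3 (by simpa using h7)
    · exact absurd hp (by decide)
    · exact h5 (by simpa using h7)
  obtain ⟨β, γ, hβ⟩ := exists_quad_add_quad h2 (a := 1) (b := 1) one_ne_zero one_ne_zero (-ν)
  simp only [one_mul] at hβ
  obtain ⟨zi, zm, zz, hD⟩ := id h
  have hu : Q0 F κ (β • e i + γ • e m + z) = 0 := by
    simp [Q0_apply, e_ne him, e_ne him.symm, zi, zm, zz, hβ]
  have hw0 : γ • e i - β • e m ∈ AS (nd0 h2) Y hu := hY.mem_AS_of_two hp hu
    (by simp [e_ne him, e_ne him.symm, zi, zm]; ring)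
    (by simp [e_ne him, e_ne him.symm]; exact fun h => hν (by linear_combination hβ - h)) (by
      convert hD (γ + β) (γ - β) 1 γ (-β) 0 (by linear_combination hβ)
        (fun h => hν (by linear_combination hβ - h)) using 3 <;> module)
  let c : (κ → F) →ₗ[F] (κ → F) := LinearMap.id +
    (ν⁻¹ • (dotProductBilin F F).flip z).smulRight (β • e i + γ • e m)
  have hc : ∀ y, c y = y + (ν⁻¹ * (y ⬝ᵥ z)) • (β • e i + γ • e m) := fun y => rfl
  have h1 : ∀ y, Dk Y i m ν y → y ⬝ᵥ z ≠ ν → y ⬝ᵥ z ≠ -ν → c y ∈ AS (nd0 h2) Y hu := by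
    intro y ⟨yi, ym, yy, hD'⟩ e1 e2
    set δ := y ⬝ᵥ z with hδ
    have hη : ν - ν⁻¹ * δ * δ ≠ 0 := fun h => mul_ne_zero (sub_ne_zero.2 e1)
      (show δ + ν ≠ 0 from fun h => e2 (by linear_combination h)) (by
        field_simp at h; linear_combination -h)
    obtain ⟨s, t, s0, t0, hst⟩ := exists_both_ne h2 hq (neg_ne_zero.2 hν) hη
    have hn : (s * γ + t * (ν⁻¹ * δ) * β) * (s * γ + t * (ν⁻¹ * δ) * β) +
        (t * (ν⁻¹ * δ) * γ - s * β) * (t * (ν⁻¹ * δ) * γ - s * β) + t * t * ν = 1 := by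
      have := mul_inv_cancel₀ hν
      linear_combination hst + (s * s + t * t * ν⁻¹ * ν⁻¹ * δ * δ) * hβ -
        t * t * ν⁻¹ * δ * δ * this
    have h4 := hD' (s * γ + t * (ν⁻¹ * δ) * β) (t * (ν⁻¹ * δ) * γ - s * β) t 1 0 0
      (by rw [hn]; ring) (by simp)
    rw [zero_smul, zero_smul, add_zero, add_zero, one_smul, Y.mul_mem_cancel_right (hY.refl i)]
      at h4
    have h6 := mem_AS_of_rQ hY.iso hw0 h4 (by
      simp [Q0_apply, e_ne him, e_ne him.symm, yi, ym, yy]
      exact fun h => one_ne_zero (α := F) (by linear_combination h - hn)) (by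
      rw [polar_Q0]
      simp [h2, e_ne him, e_ne him.symm, yi, ym, zi, zm, dotProduct_comm z y, ← hδ]
      have := mul_inv_cancel₀ hν
      linear_combination t * ν⁻¹ * δ * hβ - t * δ * this) (by
      rw [polar_Q0]
      simp [h2, e_ne him, e_ne him.symm, yi, ym]
      exact fun h => mul_ne_zero s0 hν (by linear_combination s * hβ - h))
    rw [← Submodule.smul_mem_iff _ t0, hc, ← hδ]
    convert sub_mem h6 (Submodule.smul_mem _ s hw0) using 1
    module
  have h4 : c z ∈ AS (nd0 h2) Y hu := by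
    convert self_mem_AS Y hu using 1
    rw [hc, zz, inv_mul_cancel₀ hν]
    module
  have h6 : ∀ j, z j ≠ 0 → c (e j) ∈ AS (nd0 h2) Y hu := fun j hj => by
    have ji : j ≠ i := by rintro rfl; exact hj zi
    have jm : j ≠ m := by rintro rfl; exact hj zm
    by_cases e1 : z - z j • e j = 0
    · rwa [← Submodule.smul_mem_iff _ hj, ← map_smul, ← sub_eq_zero.1 e1]
    have h7 := h1 _ (h.sign hY ji jm) (by simp [zz, h2, hj]) fun h8 => e1 (eq_zero_of_two hι (by
      rw [supp_sub]
      have := Finset.card_erase_add_one (mem_supp.2 hj)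
      omega) (by
      simp [zz] at h8 ⊢
      exact mul_left_cancel₀ h2 (by linear_combination h8)))
    simpa [Submodule.smul_mem_iff _ (mul_ne_zero h2 hj)] using sub_mem h4 h7
  obtain ⟨k, hk, hk'⟩ : ∃ k, z k ≠ 0 ∧ z k * z k ≠ 2 * ν := by
    by_contra! H
    have h7 : ν = (supp z).card * (2 * ν) := by
      conv_lhs => rw [← zz, dotProduct, ← Finset.sum_subset (Finset.subset_univ (supp z))
        (fun i _ hi => by simp at hi; simp [hi]),
        Finset.sum_congr rfl fun l hl => H l (mem_supp.1 hl)]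
      simp
    have := hz0.card_pos
    interval_cases (supp z).card
    · exact hν (by push_cast at h7; linear_combination -h7)
    · exact mul_ne_zero h3 hν (by push_cast at h7; linear_combination -h7)
    · exact mul_ne_zero h5 hν (by push_cast at h7; linear_combination -h7)
  have h7 : ∀ j, j ≠ i → j ≠ m → c (e j) ∈ AS (nd0 h2) Y hu := fun j e1 e2 => by
    by_cases hj : z j = 0
    swap
    · exact h6 j hj
    have h8 := h1 _ (h.move hY him e1 e2 hj hk) (by simp [zz, hj, hk])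
      fun h8 => hk' (by simp [zz, hj] at h8; linear_combination -h8)
    rw [map_add, map_sub, map_smul, map_smul, Submodule.add_mem_iff_right _
      (sub_mem h4 (Submodule.smul_mem _ _ (h6 k hk))), Submodule.smul_mem_iff _ hk] at h8
    exact h8
  refine E_le_of_full hY hu (fun h => hν ?_) fun w hw => ?_
  · have := congrArg (· ⬝ᵥ z) h
    simpa [zi, zm, zz] using this
  have h8 : c (∑ j, (if j = i ∨ j = m then 0 else w j) • e j) ∈ AS (nd0 h2) Y hu := by
    rw [map_sum]
    refine Submodule.sum_mem _ fun j _ => ?_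
    split_ifs with e1
    · simp
    push Not at e1
    rw [map_smul]
    exact Submodule.smul_mem _ _ (h7 j e1.1 e1.2)
  have h9 := dec w
  generalize (∑ j, (if j = i ∨ j = m then 0 else w j) • (e j : κ → F)) = y at h8 h9
  have h10 : y ⬝ᵥ z = w ⬝ᵥ z := by
    conv_rhs => rw [h9]
    simp [zi, zm]
  simp at hw
  rw [h9]
  convert add_mem h8 (Submodule.smul_mem _ (ν⁻¹ * (β * w m - γ * w i)) hw0) using 1
  rw [hc, h10]
  have := mul_inv_cancel₀ hν
  match_scalars
  · linear_combination (-ν⁻¹ * β) * hw + ν⁻¹ * w i * hβ - w i * this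
  · linear_combination (-ν⁻¹ * γ) * hw + ν⁻¹ * w m * hβ - w m * this
  · ring

end Cfsg.Agent.H1.Fr5
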