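import Cfsg.Agent.H1.O5Frame

/-!
The reflection theorem for orthonormal frames in dimension at least five, and the maximality of the
frame stabiliser in dimension five.
-/

set_option autoImplicit false
set_option linter.unusedSectionVars false
set_option linter.unusedSimpArgs false

namespace Cfsg.Agent.H1.Fr5

open Module H7 H7.Polar H8 QuadraticMap Matrix Equiv H7.Fr

variable {F : Type*} [Field F] [Fintype F] {κ : Type} [Fintype κ] [DecidableEq κ]

section

variable {h2 : (2 : F) ≠ 0} {Y : Subgroup ((κ → F) ≃ₗ[F] (κ → F))} (hY : RCtx h2 Y)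
include hY

theorem dih {a : κ → F} (ha : Root Y a) (i : κ) :
    (∃ μ : F, Root Y (μ • (a - a i • e i))) ∨
      ∃ v, Root Y v ∧ ∃ ε : F, ε * ε = 1 ∧ rQ (Q0 F κ) v (e i) = ε • a := by
  have := finite_linearEquiv (F := F) (V := κ → F)
  set t := rQ (Q0 F κ) (e i) with ht
  set b := rQ (Q0 F κ) a with hb
  have t2 : t * t = 1 := rQ_mul_self _
  have b2 : b * b = 1 := rQ_mul_self _
  set S : Submodule F (κ → F) := (F ∙ e i) ⊔ F ∙ a with hS
  have e1 : e i ∈ S := Submodule.mem_sup_left (Submodule.mem_span_singleton_self _)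
  have e2 : a ∈ S := Submodule.mem_sup_right (Submodule.mem_span_singleton_self _)
  have key : ∀ k : ℕ, ∃ v ∈ S, Root Y v ∧ (t * b) ^ k * t = rQ (Q0 F κ) v := fun k => by
    obtain ⟨d, hd, h | h⟩ := dih_conj t2 b2 (X := Y ⊓ stab S)
      ⟨hY.refl i, mem_stab_of_forall fun x hx => rQ_apply_mem e1 hx⟩
      ⟨ha.2, mem_stab_of_forall fun x hx => rQ_apply_mem e2 hx⟩ k
    · exact ⟨_, (mem_stab.1 hd.2 _).1 e1, hY.map hd.1 (hY.root_e i), by
        rw [h, rQ_conj (hY.iso hd.1)]⟩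
    · exact ⟨_, (mem_stab.1 hd.2 _).1 e2, hY.map hd.1 ha, by rw [h, rQ_conj (hY.iso hd.1)]⟩
  obtain ⟨k, hk | hk⟩ := Nat.even_or_odd' (orderOf (t * b))
  · left
    obtain ⟨v, hv, rv, h⟩ := key k
    have hpos := orderOf_pos (t * b)
    have c1 : (t * b) ^ k ≠ 1 := pow_ne_one_of_lt_orderOf (by omega) (by omega)
    have c2 : (t * b) ^ k * (t * b) ^ k = 1 := by
      rw [← pow_add, ← two_mul, ← hk, pow_orderOf_eq_one]
    have c3 : rQ (Q0 F κ) (rQ (Q0 F κ) v (e i)) = rQ (Q0 F κ) (e i) := by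
      rw [← rQ_conj' (Q_rQ v), rQ_inv, ← h, ← ht, mul_assoc _ t t, t2, mul_one, ← mul_assoc, c2,
        one_mul]
    obtain ⟨ε, -, h3⟩ := eq_of_rQ_eq h2 (hY.map rv.2 (hY.root_e i)).1 (by simp) c3
    have h4 : v i = 0 := by
      by_contra h4
      have h5 : v = v i • e i := eq_of_mem_D0 (mem_D0.2 fun l hl => by
        have := congrFun h3 l
        simpa [rQ0_apply, rv.1, e_ne hl, h2, h4] using this)
      rw [h5, rQ_smul h4, ← ht, mul_eq_right] at h
      exact c1 h
    obtain ⟨x, hx, μ, rfl⟩ := mem_sup_span_singleton.1 hv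
    obtain ⟨l, rfl⟩ := Submodule.mem_span_singleton.1 hx
    refine ⟨μ, ?_⟩
    convert rv using 1
    simp at h4
    rw [show l = -(μ * a i) by linear_combination h4]
    module
  · right
    obtain ⟨v, -, rv, h⟩ := key k
    refine ⟨v, rv, eq_of_rQ_eq h2 (hY.map rv.2 (hY.root_e i)).1 ha.1 ?_⟩
    rw [← rQ_conj' (Q_rQ v), rQ_inv, ← h, ← ht, mul_assoc _ t t, t2, mul_one, ← mul_assoc,
      ← pow_add, ← hb]
    have h3 : (t * b) ^ (k + k) * (t * b) = 1 := by
      rw [← pow_succ, ← two_mul, ← hk, pow_orderOf_eq_one]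
    rw [eq_inv_of_mul_eq_one_left h3, _root_.mul_inv_rev, mul_assoc, inv_mul_cancel, mul_one,
      inv_eq_of_mul_eq_one_right b2]

theorem sq_eq_or {a : κ → F} (ha : Root Y a) (h4 : (supp a).card = 4)
    (hno : ∀ c, Root Y c → Good c → 4 ≤ (supp c).card) {i j k l : κ} (hij : i ≠ j) (hik : i ≠ k)
    (hil : i ≠ l) (hjk : j ≠ k) (hjl : j ≠ l) (hkl : k ≠ l) (hi : a i ≠ 0) (hj : a j ≠ 0)
    (hk : a k ≠ 0) (hl : a l ≠ 0) :
    a k * a k = a l * a l ∨ ∃ s : F, s ≠ 0 ∧ ∀ i k, i ≠ k → Root Y (s • (e i + e k)) := by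
  have key : ∀ i, a i ≠ 0 → ∃ v, Root Y v ∧ ∃ ε μ : F, ε ≠ 0 ∧ μ ≠ 0 ∧
      rQ (Q0 F κ) v (e i) = ε • a ∧ v = μ • (e i - ε • a) := fun i hi => by
    have hc := Finset.card_erase_add_one (mem_supp.2 hi)
    rcases dih hY ha i with ⟨μ, h⟩ | ⟨v, rv, ε, hε, h⟩
    · have h0 : μ ≠ 0 := by rintro rfl; simpa using h.1
      have h1 : supp (μ • (a - a i • e i)) = (supp a).erase i := by
        rw [← supp_sub]; ext; simp [h0]
      have := hno _ h (Or.inl (by rw [h1]; omega))
      rw [h1] at this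
      omega
    have hε0 : ε ≠ 0 := by rintro rfl; simp at hε
    have h1 : (2 * v i) • v = e i - ε • a := by
      rw [← h, rQ_apply, Q0_apply, rv.1, polar_Q0]; simp
    have h3 : v i ≠ 0 := fun h3 => by
      obtain ⟨r, hr⟩ := Finset.card_pos.1 (show 0 < ((supp a).erase i).card by omega)
      have := congrFun h1 r
      simp at hr
      simp [h3, e_ne hr.1, hr.2, hε0] at this
    exact ⟨v, rv, ε, (2 * v i)⁻¹, hε0, by simp [h2, h3], h, by
      rw [← h1, smul_smul, inv_mul_cancel₀ (by simp [h2, h3]), one_smul]⟩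
  obtain ⟨v, rv, ε, μ, hε, hμ, h1, h3⟩ := key i hi
  obtain ⟨w, rw', η, ν, hη, hν, h5, h6⟩ := key j hj
  have hg := mul_mem rv.2 rw'.2
  set g := rQ (Q0 F κ) v * rQ (Q0 F κ) w with hg'
  have g1 : g (e j) ∈ D0 F i := by
    rw [hg', LinearEquiv.mul_apply, h5, show η • a = (η / ε) • (ε • a) by
      rw [smul_smul, div_mul_cancel₀ _ hε], ← h1, map_smul, rQ_rQ]
    exact Submodule.smul_mem _ _ (e_mem i)
  have g2 : ∀ m, a m = 0 → g (e m) = e m := fun m hm => by
    have e1 : m ≠ i := by rintro rfl; exact hi hm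
    have e2 : m ≠ j := by rintro rfl; exact hj hm
    rw [hg', LinearEquiv.mul_apply, rQ_fix (a := w) (by simp [polar_Q0, h6, hm, e_ne e2.symm]),
      rQ_fix (by simp [polar_Q0, h3, hm, e_ne e1.symm])]
  by_cases hm : g ∈ decStab (D0 F : κ → _)
  · left
    obtain ⟨k', hk'⟩ := mem_mon.1 hm k
    have r := (hY.map hg (hY.root_e k)).1
    obtain ⟨x, y, h⟩ : ∃ x y : F, g (e k) = e k + x • (e i - ε • a) + y • (e j - η • a) ∧
        (x = 0 → y = 0 → False) := by
      have wk : w k ≠ 0 := by simp [h6, e_ne hjk.symm, hν, hη, hk]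
      refine ⟨-(2 * (rQ (Q0 F κ) w (e k) ⬝ᵥ v) * μ), -(2 * w k * ν), ?_, fun _ h => ?_⟩
      · rw [hg', LinearEquiv.mul_apply, rQ_apply v, Q0_apply, rv.1, polar_Q0]
        generalize rQ (Q0 F κ) w (e k) ⬝ᵥ v = c
        rw [rQ_apply, Q0_apply, rw'.1, polar_Q0, e_dot]
        generalize w k = d
        rw [h3, h6]
        module
      · simp [h2, wk, hν] at h
    have ek := congrFun h.1 k
    have el := congrFun h.1 l
    simp [e_ne hik.symm, e_ne hjk.symm, e_ne hil.symm, e_ne hjl.symm, e_ne hkl.symm] at ek el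
    by_cases hz : x * ε + y * η = 0
    · exfalso
      have e1 : k' = k := by
        by_contra e1
        have := mem_D0.1 hk' k (Ne.symm e1)
        exact one_ne_zero (α := F) (by linear_combination this - ek + a k * hz)
      subst e1
      have ei := congrFun h.1 i
      have ej := congrFun h.1 j
      rw [mem_D0.1 hk' i hik] at ei
      rw [mem_D0.1 hk' j hjk] at ej
      simp [e_ne hik, e_ne hjk, e_ne hij, e_ne hij.symm] at ei ej
      exact h.2 (by linear_combination a i * hz - ei) (by linear_combination a j * hz - ej)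
    · have e1 : k' = l := by
        by_contra e1
        have := mem_D0.1 hk' l (Ne.symm e1)
        exact mul_ne_zero hz hl (by linear_combination el - this)
      subst e1
      rw [mem_D0.1 hk' k hkl] at ek
      rw [eq_of_mem_D0 hk'] at r
      simp at r
      apply mul_left_cancel₀ (mul_ne_zero hz hz)
      linear_combination (g (e k) k' - (x * ε + y * η) * a k') * el +
        ((x * ε + y * η) * a k + 1) * ek - r
  right
  rw [mem_mon] at hm
  push Not at hm
  obtain ⟨r, hr⟩ := hm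
  have rr := hY.map hg (hY.root_e r)
  by_cases hgood : Good (g (e r))
  · exfalso
    have h7 := hno _ rr hgood
    have h8 : supp (g (e r)) ⊆ (supp a).erase i := fun m hm => by
      rw [mem_supp] at hm
      simp only [Finset.mem_erase, mem_supp]
      refine ⟨?_, fun h => hm ?_⟩
      · rintro rfl
        exact hm (hY.coord_eq_zero hg g1 (e_ne (by rintro rfl; exact hr _ g1)))
      · exact hY.coord_eq_zero hg (by rw [g2 m h]; exact e_mem m)
          (e_ne (by rintro rfl; exact hr _ (by rw [g2 m h]; exact e_mem m)))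
    have := Finset.card_le_card h8
    have := Finset.card_erase_add_one (mem_supp.2 hi)
    omega
  rcases of_not_good rr.1 hgood with h | h
  · obtain ⟨m, hm⟩ := exists_mem_D0 h
    exact absurd hm (hr m)
  · exact hY.two_sq rr h.1 h.2

/-- The reflection theorem in dimension at least five. -/
theorem E_le (hp : (Fintype.card F).Prime) (hn : 5 ≤ Fintype.card κ) {a : κ → F} (ha : Root Y a)
    (ha' : Good a) : (qP (nd0 h2)).E ≤ Y := by
  obtain ⟨a, ha, ha', h4, i, m, hi, hi2, hm, hs⟩ : ∃ a, Root Y a ∧ Good a ∧ (supp a).card ≤ 4 ∧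
      ∃ i m, a i ≠ 0 ∧ 2 * (a i * a i) ≠ 1 ∧ a m = 0 ∧ Root Y (pm F (swap i m) a) := by
    by_cases hno : ∀ c, Root Y c → Good c → 4 ≤ (supp c).card
    swap
    · push Not at hno
      obtain ⟨c, h1, h3, h4⟩ := hno
      obtain ⟨i, hi, hi2⟩ := RCtx.exists_index h2 h1.1 h3 (by omega)
      obtain ⟨k, hk, l, hl, hkl⟩ := Finset.one_lt_card.1
        (show 1 < (supp c)ᶜ.card by rw [Finset.card_compl]; omega)
      simp only [Finset.mem_compl, mem_supp, not_not] at hk hl
      exact ⟨c, h1, h3, by omega, i, k, hi, hi2, hk, hY.root_pm _ hkl h1 (by rw [hk, hl])⟩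
    obtain ⟨a, ha, ha', h4⟩ := hY.exists_good_four ha ha'
    replace h4 : (supp a).card = 4 := le_antisymm h4 (hno a ha ha')
    obtain ⟨i, hi, hi2⟩ := RCtx.exists_index h2 ha.1 ha' h4.le
    obtain ⟨m, hm⟩ := Finset.card_pos.1 (show 0 < (supp a)ᶜ.card by rw [Finset.card_compl]; omega)
    simp only [Finset.mem_compl, mem_supp, not_not] at hm
    have hc := Finset.card_erase_add_one (mem_supp.2 hi)
    obtain ⟨j, k, l, hjk, hjl, hkl, h⟩ := Finset.card_eq_three.1
      (show ((supp a).erase i).card = 3 by omega)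
    have h5 : ∀ x ∈ ({j, k, l} : Finset κ), x ≠ i ∧ a x ≠ 0 := fun x hx => by
      simpa [← h] using hx
    obtain ⟨j1, j2⟩ := h5 j (by simp)
    obtain ⟨k1, k2⟩ := h5 k (by simp)
    obtain ⟨l1, l2⟩ := h5 l (by simp)
    have him : i ≠ m := by rintro rfl; exact hi hm
    rcases sq_eq_or hY ha h4 hno j1.symm k1.symm l1.symm hjk hjl hkl hi j2 k2 l2 with h6 | ⟨s, s0, h6⟩
    · rcases mul_self_eq_mul_self_iff.1 h6 with h6 | h6
      · exact ⟨a, ha, ha', h4.le, i, m, hi, hi2, hm, hY.root_pm _ hkl ha h6⟩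
      · have r := hY.map (hY.refl l) ha
        have e1 : supp (rQ (Q0 F κ) (e l) a) = supp a := by
          ext x; simp only [mem_supp, rQ0_e]; split_ifs <;> simp
        refine ⟨_, r, Or.inl (by rw [e1]; omega), by rw [e1]; omega, i, m, ?_, ?_, ?_,
          hY.root_pm _ hkl r ?_⟩
        · simpa [rQ0_e, l1.symm] using hi
        · simpa [rQ0_e, l1.symm] using hi2
        · simp [rQ0_e, hm]
        · simp [rQ0_e, hkl, h6]
    · refine ⟨a, ha, ha', h4.le, i, m, hi, hi2, hm, hY.map ?_ ha⟩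
      have := (hY.map (hY.refl m) (h6 i m him)).2
      rw [map_smul, rQ_smul s0, map_add, rQ_self (by simp [Q0_apply]),
        rQ_fix (a := e m) (x := e i) (by simp [polar_Q0, e_ne him.symm])] at this
      rwa [pm_swap h2 him, sub_eq_add_neg]
  have hc := Finset.card_erase_add_one (mem_supp.2 hi)
  have him : i ≠ m := by rintro rfl; exact hi hm
  by_cases hi1 : a i * a i = 1
  · have hu : Q0 F κ (a - a i • e i) = 0 := by simp [Q0_apply, ha.1, hi1]
    have h1 := hY.mem_AS_of_two hp hu (w := a i • e i) (by simp) (by simp [hi]) (by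
      rw [add_sub_cancel, rQ_smul hi]; exact mul_mem ha.2 (hY.refl i))
    refine fin_three hY hn (fun h => ?_) ((Submodule.smul_mem_iff _ hi).1 h1)
      (by rw [supp_sub]; omega)
    rw [← supp_sub, h, show supp (0 : κ → F) = ∅ by ext; simp] at hc
    rcases ha' with h | h <;> simp at hc <;> omega
  have h3 : (3 : F) ≠ 0 := fun h => hi1 (by
    have := charP_of_card_eq_prime (R := F) (p := Fintype.card F) (hp := ⟨hp⟩) rfl
    have h5 := (CharP.cast_eq_zero_iff F (Fintype.card F) 3).1 (by simpa using h)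
    have h6 := FiniteField.pow_card_sub_one_eq_one _ hi
    rw [(Nat.prime_dvd_prime_iff_eq hp Nat.prime_three).1 h5] at h6
    linear_combination h6)
  set a' := a - a i • e i with ha1
  have hν0 : 1 - a i * a i ≠ 0 := sub_ne_zero.2 (Ne.symm hi1)
  have q3 : a' ⬝ᵥ a' = 1 - a i * a i := by simp [ha1, ha.1]
  have a'i : a' i = 0 := by simp [ha1]
  have a'm : a' m = 0 := by simp [ha1, hm, e_ne him.symm]
  refine fin_dick hY hp h3 him hν0 (z := a') ⟨a'i, a'm, q3, fun a₁ a₂ a₃ b₁ b₂ b₃ h h' => ?_⟩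
    (by rw [ha1, supp_sub]; omega)
  have hQ : ∀ x y z : F, Q0 F κ (x • e i + y • e m + z • a') =
      x * x + y * y + z * z * (1 - a i * a i) := by
    intro x y z
    simp [Q0_apply, e_ne him, e_ne him.symm, a'i, a'm, q3, mul_assoc]
  refine Dick.rQ_mul_mem hp h2 h3 (by simp [Q0_apply]) (by simp [Q0_apply]) q3
    (by simp [polar_Q0, e_ne him.symm]) (by simp [polar_Q0, a'i]) (by simp [polar_Q0, a'm]) hi hν0
    (by simp) hi2 (hY.refl i) (hY.refl m) (by simpa [ha1] using ha.2) ?_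
    (by rw [hQ, hQ, h]) (by rwa [hQ])
  convert hs.2 using 2
  ext r
  by_cases e1 : r = i
  · simp [e1, e_ne him, a'i, hm]
  by_cases e2 : r = m
  · simp [e2, a'm]
  · simp [swap_apply_of_ne_of_ne e1 e2, e_ne e1, e_ne e2, ha1]

theorem exists_good {g : (κ → F) ≃ₗ[F] (κ → F)} (hg : g ∈ Y)
    (hn' : 3 ≤ Fintype.card κ) (hg' : g ∉ decStab (D0 F : κ → _)) : ∃ c, Root Y c ∧ Good c := by
  by_contra! H
  have h1 : ∀ i j, g (e i) ∉ D0 F j := fun i j h => by
    rcases hY.good_of_fix hg h hg' with ⟨k, h, -⟩ | ⟨c, h, h', -⟩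
    · exact H _ (hY.map hg (hY.root_e k)) h
    · exact H c h h'
  have h3 : ∀ i, (supp (g (e i))).card = 2 := fun i =>
    ((of_not_good (hY.map hg (hY.root_e i)).1 (H _ (hY.map hg (hY.root_e i)))).resolve_left
      fun h => by obtain ⟨j, hj⟩ := exists_mem_D0 h; exact h1 i j hj).1
  obtain ⟨i⟩ : Nonempty κ := Fintype.card_pos_iff.1 (by omega)
  obtain ⟨r, hr⟩ := Finset.card_pos.1 (show 0 < (supp (g (e i)))ᶜ.card by
    rw [Finset.card_compl, h3]; omega)
  simp only [Finset.mem_compl, mem_supp, not_not] at hr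
  obtain ⟨k, hk⟩ : ∃ k, g (e k) r ≠ 0 := by
    by_contra! h
    have := congrFun (g.apply_symm_apply (e r)) r
    rw [← sum_e (g.symm (e r))] at this
    simp [h] at this
  have hki : k ≠ i := by rintro rfl; exact hk hr
  obtain ⟨c, h, h', -⟩ := hY.small_good hg hki.symm (h3 i) (H _ (hY.map hg (hY.root_e i)))
    (H _ (hY.map hg (hY.root_e k))) fun l => by
      by_contra! h
      have h4 : ({l, r} : Finset κ) = supp (g (e k)) := Finset.eq_of_subset_of_card_le
        (by intro x; simp; rintro (rfl | rfl); exacts [h.2, hk])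
        (by rw [Finset.card_pair (by rintro rfl; exact h.1 hr), h3])
      have h5 := hY.dot hg (e i) (e k)
      rw [dotProduct, Finset.sum_eq_single l (fun m _ hm => by
        by_cases e1 : m = r
        · simp [e1, hr]
        · have : m ∉ supp (g (e k)) := by simp [← h4, hm, e1]
          simp at this
          simp [this]) (by simp)] at h5
      simp [e_ne hki, h.1, h.2] at h5
  exact H c h h'

end

theorem sgn_two (h2 : (2 : F) ≠ 0) (hn : 5 ≤ Fintype.card κ) {T : Finset κ} (hT : T.card = 2) :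
    sgn (dec0 F κ) T ∈ (qP (nd0 h2)).E := by
  obtain ⟨i, j, hij, rfl⟩ := Finset.card_eq_two.1 hT
  convert O5.rQ_mul_mem_E5 (nd0 h2) (by simpa) (a := e i) (b := e j) (by simp [Q0_apply]) using 1
  ext x l
  simp only [sgn0_apply, LinearEquiv.mul_apply, rQ0_e]
  by_cases e1 : l = i <;> by_cases e2 : l = j <;> simp_all

theorem sgn_four (h2 : (2 : F) ≠ 0) (hn : 5 ≤ Fintype.card κ) {T : Finset κ} (hT : T.card = 4) :
    sgn (dec0 F κ) T ∈ (qP (nd0 h2)).E := by
  obtain ⟨T', h1, h3⟩ := Finset.exists_subset_card_eq (show 2 ≤ T.card by omega)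
  convert mul_mem (sgn_two h2 hn h3) (sgn_two h2 hn (T := T \ T')
    (by rw [Finset.card_sdiff_of_subset h1]; omega)) using 1
  ext x j
  have := @h1 j
  by_cases e1 : j ∈ T' <;> by_cases e2 : j ∈ T <;> simp_all [sgn0_apply]

theorem pm_mem_E (h2 : (2 : F) ≠ 0) (hn : 5 ≤ Fintype.card κ) {a b c d : κ} (h : a ≠ b)
    (h' : c ≠ d) : pm F (swap a b * swap c d) ∈ (qP (nd0 h2)).E := by
  rw [pm_mul, pm_swap h2 h, pm_swap h2 h']
  refine O5.rQ_mul_mem_E5 _ (by simpa) ?_
  simp [Q0_apply, e_ne h, e_ne h.symm, e_ne h', e_ne h'.symm]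

theorem E_le_of_refl_group (h2 : (2 : F) ≠ 0) {X Y : Subgroup ((κ → F) ≃ₗ[F] (κ → F))}
    (hX : X ≤ (qP (nd0 h2)).E) {j : κ} (h3 : ∀ g ∈ Y, g ∈ X ∨ g * rQ (Q0 F κ) (e j) ∈ X)
    (hE : (qP (nd0 h2)).E ≤ Y) : (qP (nd0 h2)).E ≤ X := by
  intro x hx
  refine (h3 x (hE hx)).resolve_right fun h => h2 ?_
  have d1 := mem_SLV.1 (E_le_SLV (hX h))
  have d2 := mem_SLV.1 (E_le_SLV hx)
  rw [LinearEquiv.coe_toLinearMap_mul, map_mul, d2, det_rQ (nd0 h2) (by simp [Q0_apply])] at d1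
  linear_combination -d1

theorem key5 (h2 : (2 : F) ≠ 0) (hp : (Fintype.card F).Prime) (hn : Fintype.card κ = 5)
    {X : Subgroup ((κ → F) ≃ₗ[F] (κ → F))}
    (hH : decStab (D0 F : κ → _) ⊓ (qP (nd0 h2)).E ≤ X) (hX : X ≤ (qP (nd0 h2)).E)
    {g : (κ → F) ≃ₗ[F] (κ → F)} (hg : g ∈ X) (hg' : g ∉ decStab (D0 F : κ → _)) :
    (qP (nd0 h2)).E ≤ X := by
  have hX' := hX.trans E_le_Iso
  obtain ⟨j⟩ : Nonempty κ := Fintype.card_pos_iff.1 (by omega)
  obtain ⟨Y, h1, h3, h4, h5⟩ := exists_refl_group hX' (e j)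
  have hr : ∀ l : κ, rQ (Q0 F κ) (e l) * rQ (Q0 F κ) (e j) ∈ X := fun l =>
    hH ⟨by rw [rQ_e, rQ_e]; exact mul_mem (sgn_mem_decStab _) (sgn_mem_decStab _),
      O5.rQ_mul_mem_E5 _ (by simpa using hn.ge) (by simp [Q0_apply])⟩
  have hY : RCtx h2 Y :=
    ⟨h1, fun a b c d h h' => h5 _ (hH ⟨pm_mem_mon _, pm_mem_E h2 hn.ge h h'⟩) _ (hr j) (by
      rw [pm_e]; exact hr _), fun l => h4 _ (hr l)⟩
  have h6 : sgn (dec0 F κ) {j}ᶜ ∈ X :=
    hH ⟨sgn_mem_decStab _, sgn_four h2 hn.ge (by simp [Finset.card_compl, hn])⟩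
  have h7 : ∀ x, sgn (dec0 F κ) {j}ᶜ x = -rQ (Q0 F κ) (e j) x := fun x => by
    ext l
    simp only [sgn0_apply, rQ0_e, Pi.neg_apply]
    by_cases e1 : l = j <;> simp [e1]
  have hgY : g ∈ Y := h5 g hg _ (hr j) (by
    convert mul_mem (mul_mem (mul_mem hg h6) (inv_mem hg)) h6 using 1
    rw [← rQ_conj (hX' hg)]
    ext1 x
    simp [h7])
  obtain ⟨c, h, h'⟩ := exists_good hY hgY (by omega) hg'
  exact E_le_of_refl_group h2 hX h3 (E_le hY hp hn.ge h h')

end Cfsg.Agent.H1.Fr5
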