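import Cfsg.Agent.H1.Sing

/-!
The stabiliser of a non-degenerate plane in a five-dimensional orthogonal group is maximal.
-/

set_option autoImplicit false
set_option linter.unusedSectionVars false

namespace Cfsg.Agent.H1.O5

open Module H7 H7.Polar H8 QuadraticMap Sing

variable {F : Type*} [Field F] {V : Type*} [AddCommGroup V] [Module F V]
variable [Fintype F] [FiniteDimensional F V] {Q : QuadraticForm F V} (hQ : ND Q)

theorem qP_lam (c : F) (h : (qP hQ).Val 0 c) : c = 0 := by simpa [qP_val] using h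

theorem qP_rc (hn : 5 ≤ finrank F V) : (qP hQ).ReflCongr :=
  Small.reflCongr (qP_wild hQ) hn (by omega)

theorem rQ_mul_mem_E5 (hn : 5 ≤ finrank F V) {a b : V} (h : Q a = Q b) :
    rQ Q a * rQ Q b ∈ (qP hQ).E := by
  by_cases h0 : Q b = 0
  · have : ∀ c, Q c = 0 → rQ Q c = 1 := fun c hc => LinearEquiv.ext fun x => by simp [rQ_apply, hc]
    rw [this a (h.trans h0), this b h0, mul_one]
    exact one_mem _
  have := qP_rc hQ hn _ _ _ ((qP_val hQ).2 h.symm) (qP_val_self hQ b) h0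
  rw [← rQ_eq_reflE, rQ_inv] at this
  convert this using 2
  exact LinearEquiv.ext fun x => by rw [reflE_apply, qP_refl, rQ_apply, h]

theorem rQ_mem_stab {W : Submodule F V} {a : V} (ha : a ∈ W ∨ a ∈ (qP hQ).perp W) :
    rQ Q a ∈ stab W := mem_stab_of_forall fun x hx => by
  rcases ha with ha | ha
  · exact rQ_apply_mem ha hx
  · rwa [rQ_fix (mem_perp'.1 ha x hx)]

theorem exists_val_two {T : Submodule F V} (hT : T ⊓ (qP hQ).perp T = ⊥) (hd : 2 ≤ finrank F T)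
    (c : F) : ∃ a ∈ T, Q a = c := by
  by_cases h : ∀ x ∈ T, (qP hQ).Val x 0 → x ∈ (⊥ : Submodule F V)
  · obtain ⟨y, hy, hc⟩ := exists_val_of_aniso (P := qP hQ) (fun _ => rfl) (by simpa using hd) h c
    exact ⟨y, hy, hc.symm⟩
  push Not at h
  obtain ⟨e, he, hes, he0⟩ := h
  obtain ⟨y, hy, hye⟩ := inf_perp_eq_bot_iff.1 hT e he he0
  obtain ⟨a, ha⟩ := exists_val_add_sing hes ((qP hQ).B_ne_symm hye) c
  exact ⟨_, add_mem hy (T.smul_mem _ he), ha.symm⟩

variable (h2 : (2 : F) ≠ 0) (hq : 3 < Fintype.card F)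
include h2 hq

theorem exists_second {T : Submodule F V} (hT : T ⊓ (qP hQ).perp T = ⊥) (hd : 2 ≤ finrank F T)
    {a : V} (ha : a ∈ T) (h0 : Q a ≠ 0) : ∃ b ∈ T, Q b = Q a ∧ b ∉ F ∙ a := by
  have haa : (qP hQ).B a a ≠ 0 := by simp [h2, h0]
  obtain ⟨h3, h4⟩ := nondeg_inf_pp hT ha haa
  obtain ⟨y, hy, d, hd0, hyd⟩ := exists_val_ne_of_nondeg h3 (fun h => by
    rw [h, finrank_bot] at h4; omega)
  have hya : polar Q y a = 0 := hy.2
  have hay : polar Q a y = 0 := by rw [polar_comm, hya]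
  obtain ⟨s, hs1, hs2⟩ := avoid21 hq (a := Q a) (b := 0) (c := Q y) (d := 1) (e := 0)
    (by simp [h0]) (by simp)
  have hs : s ≠ 0 := by simpa using hs2
  have he : Q (s • a + y) ≠ 0 := by
    rw [Q_add, Q_smul, polar_smul_left, hay]
    exact fun h => hs1 (by simp at h; linear_combination h)
  refine ⟨rQ Q (s • a + y) a, rQ_apply_mem (add_mem (T.smul_mem _ ha) hy.1) ha, Q_rQ _ _,
    fun h => ?_⟩
  obtain ⟨t, ht⟩ := Submodule.mem_span_singleton.1 h
  have := congrArg (fun z => polar Q z y) ht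
  simp [rQ_apply, hay, h2, he, h0, hs] at this
  exact hd0 (hyd.trans this)

variable (hn : finrank F V = 5) {X : Subgroup (V ≃ₗ[F] V)} (hXE : X ≤ (qP hQ).E)
  (hcon : ¬ (qP hQ).E ≤ X)

/-- a translate of the plane -/
structure Tr (X : Subgroup (V ≃ₗ[F] V)) (W : Submodule F V) : Prop where
  nd : W ⊓ (qP hQ).perp W = ⊥
  dim : finrank F W = 2
  le : stab W ⊓ (qP hQ).E ≤ X

include hn hXE hcon

omit hcon h2 hq hn in
theorem Tr.map {W : Submodule F V} (hW : Tr hQ X W) {g : V ≃ₗ[F] V} (hg : g ∈ X) :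
    Tr hQ X (W.map (g : V →ₗ[F] V)) :=
  ⟨inf_perp_map (E_le_Iso (hXE hg)) hW.nd, by rw [LinearEquiv.finrank_map_eq, hW.dim],
    conj_le hW.le hg (E_le_Iso (hXE hg))⟩

omit hcon h2 hq hXE in
theorem Tr.dim' {W : Submodule F V} (hW : Tr hQ X W) : finrank F ((qP hQ).perp W) = 3 := by
  have := (qP hQ).finrank_perp W
  have := hW.dim
  omega

omit h2 in
theorem Tr.sing {W : Submodule F V} (hW : Tr hQ X W) {u : V} (huW : u ∈ (qP hQ).perp W)
    (hus : Q u = 0) (hu0 : u ≠ 0) {g : V ≃ₗ[F] V} (hg : g ∈ X) {u' : V}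
    (hu' : u' ∈ (qP hQ).perp W) (hgu : g u' = u) : g ∈ stab W :=
  mem_stab_of_sing hW.nd hW.le hXE huW (qP_sing hQ hus) hu0 (fun p hp h => by
    by_contra h0
    exact hcon (E_le_of_zSub_orth (qP_lam hQ) (qP_rc hQ hn.ge) hW.nd hW.le (hW.dim' hQ hn).ge
      (Or.inr (Or.inl (by simpa using hq))) huW _ hu0 hp h0 h)) hg hu' hgu

theorem Tr.struct {W : Submodule F V} (hW : Tr hQ X W) {g : V ≃ₗ[F] V} (hg : g ∈ X)
    (hgW : g ∉ stab W) : W.map (g : V →ₗ[F] V) ≤ (qP hQ).perp W ∨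
      ∃ a ∈ W.map (g : V →ₗ[F] V), ∃ b ∈ W.map (g : V →ₗ[F] V),
        a ∈ (qP hQ).perp W ∧ b ∈ W ∧ a ≠ 0 ∧ Q b ≠ 0 := by
  have hW' := hW.map hQ hXE hg
  have hne : ∀ u ∈ (qP hQ).perp W, u ∈ (qP hQ).perp (W.map (g : V →ₗ[F] V)) → Q u = 0 →
      u = 0 := fun u h1 h3 h4 => by
    by_contra h0
    rw [← map_perp (E_le_Iso (hXE hg))] at h3
    obtain ⟨u', hu', h⟩ := h3
    exact hgW (hW.sing hQ hq hn hXE hcon h1 h4 h0 hg hu' h)
  generalize W.map (g : V →ₗ[F] V) = W' at hW' hne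
  have d1 := hW.dim' hQ hn
  have d2 := hW'.dim' hQ hn
  obtain ⟨u', hu', hu0', hus'⟩ := qP_wild hQ _ d2.ge
  replace hus' : Q u' = 0 := hus'.symm
  have hfix : ∀ h ∈ stab W ⊓ (qP hQ).E, h u' = u' → ∀ x ∈ (qP hQ).perp W',
      h x ∈ (qP hQ).perp W' := fun h hh h1 x hx =>
    (mem_stab.1 (Iso.mem_perp_iff (E_le_Iso hh.2)
      (hW'.sing hQ hq hn hXE hcon hu' hus' hu0' (hW.le hh) hu' h1)) x).1 hx
  have hpp : ∀ z, (∀ x ∈ (qP hQ).perp W', polar Q x z = 0) → z ∈ W' := fun z h => by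
    rw [← perp_perp (P := qP hQ) W']; exact mem_perp'.2 h
  obtain ⟨p, hp, m, hm, rfl⟩ := exists_decomp hW.nd u'
  have hWM : ∀ x ∈ W, ∀ y ∈ (qP hQ).perp W, polar Q x y = 0 := fun x hx y hy =>
    mem_perp'.1 hy x hx
  have hMW : ∀ y ∈ (qP hQ).perp W, ∀ x ∈ W, polar Q y x = 0 := fun y hy x hx => hy x hx
  have hm0 : Q m ≠ 0 := by
    intro hms
    obtain ⟨u, hu, hu0, hus, t, rfl⟩ : ∃ u ∈ (qP hQ).perp W, u ≠ 0 ∧ Q u = 0 ∧
        ∃ t : F, m = t • u := by
      by_cases h : m = 0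
      · obtain ⟨u, hu, hu0, hus⟩ := qP_wild hQ _ d1.ge
        exact ⟨u, hu, hu0, hus.symm, 0, by simp [h]⟩
      · exact ⟨m, hm, h, hms, 1, by simp⟩
    obtain ⟨y, hy, hyu, d, hd0, hyd⟩ := exists_nonsing (inf_perp_perp hW.nd) d1.ge hu
    replace hyu : polar Q y u = 0 := hyu
    replace hd0 : Q y ≠ 0 := fun h => hd0 (hyd.trans h)
    have huy : polar Q u y = 0 := by rw [polar_comm, hyu]
    have key : ∀ a : F, ∀ x ∈ (qP hQ).perp W', polar Q x u • a • y -
        (a * polar Q x y + a * a * Q y * polar Q x u) • u ∈ (qP hQ).perp W' := fun a x hx => by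
      have h1 : (qP hQ).B (a • y) u = 0 := by simp [hyu]
      have := sub_mem (hfix (eichE (qP_sing hQ hus) h1 (qP_val_self hQ _))
        ⟨eichE_mem_stab_of_perp _ _ _ hu (Submodule.smul_mem _ _ hy), eichE_mem_E _ _ _⟩
        (eich_fix _ (by simp [hWM p hp u hu, hus])
          (by simp [hWM p hp y hy, huy])) x hx) hx
      convert this using 1
      rw [eichE_apply, qP_eich, Q_smul, polar_smul_right, smul_eq_mul]
      module
    refine hu0 (hne u hu ?_ hus)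
    by_contra hcu
    have h1 : ∀ x ∈ (qP hQ).perp W', polar Q x u = 0 := fun x hx => by
      by_contra h
      have := neg_mem (add_mem (key 1 x hx) (key (-1) x hx))
      apply hcu
      rw [← Submodule.smul_mem_iff _ (mul_ne_zero (mul_ne_zero h2 hd0) h)]
      convert this using 1
      module
    have h3 : ∀ x ∈ (qP hQ).perp W', polar Q x y = 0 := fun x hx => by
      by_contra h
      have := neg_mem (key 1 x hx)
      apply hcu
      rw [← Submodule.smul_mem_iff _ h]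
      convert this using 1
      rw [h1 x hx]
      module
    refine hcu fun z hz => ?_
    obtain ⟨s, t, rfl⟩ := exists_pair hW'.dim.le (hpp u h1) (hpp y h3) hu0 (fun h => by
      obtain ⟨r, rfl⟩ := Submodule.mem_span_singleton.1 h
      exact hd0 (by simp [Q_smul, hus])) hz
    simp [huy, hus]
  have hp0 : Q p ≠ 0 := fun h => hm0 (by simpa [Q_add, h, hWM p hp m hm] using hus')
  obtain ⟨n1, n2⟩ := nondeg_inf_pp hW.nd hp (by simp [h2, hp0])
  obtain ⟨b, hb, c, hc0, hbc⟩ := exists_val_ne_of_nondeg n1 (fun h => by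
    rw [h, finrank_bot, hW.dim] at n2; omega)
  replace hc0 : Q b ≠ 0 := fun h => hc0 (hbc.trans h)
  have hbp : polar Q b p = 0 := hb.2
  obtain ⟨n3, n4⟩ := nondeg_inf_pp (inf_perp_perp hW.nd) hm (by simp [h2, hm0])
  obtain ⟨a₁, ha₁, q1⟩ := exists_val_two hQ n3 (by omega) (Q b)
  obtain ⟨a₂, ha₂, q2, h12⟩ := exists_second hQ h2 hq n3 (by omega) ha₁ (by rwa [q1])
  rw [q1] at q2
  have key : ∀ a ∈ (qP hQ).perp W ⊓ (qP hQ).pp m, Q a = Q b → ∀ x ∈ (qP hQ).perp W',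
      polar Q x a • a + polar Q x b • b ∈ (qP hQ).perp W' := fun a ha hab x hx => by
    have ham : polar Q a m = 0 := ha.2
    have := sub_mem hx (hfix (rQ Q a * rQ Q b) ⟨mul_mem (rQ_mem_stab hQ (Or.inr ha.1))
      (rQ_mem_stab hQ (Or.inl hb.1)), rQ_mul_mem_E5 hQ hn.ge hab⟩ (by
        rw [LinearEquiv.mul_apply, rQ_fix (a := b) (by
          simp [hMW m hm b hb.1, polar_comm Q p b, hbp]), rQ_fix (by
          simp [hWM p hp a ha.1, polar_comm Q m a, ham])]) x hx)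
    rw [← Submodule.smul_mem_iff _ (inv_ne_zero hc0)]
    convert this using 1
    simp only [LinearEquiv.mul_apply, rQ_apply, hab, polar_sub_left, polar_smul_left,
      hWM b hb.1 a ha.1]
    module
  have hl : finrank F ↥((qP hQ).perp W' ⊓ (qP hQ).pp (p + m) ⊓ (qP hQ).pp m) ≤ 1 := by
    have h3 : (qP hQ).perp W' ⊓ (qP hQ).pp (p + m) < (qP hQ).perp W' :=
      lt_of_le_of_ne inf_le_left fun h => hu0' (by
        simpa [hW'.nd] using (show p + m ∈ W' ⊓ (qP hQ).perp W' from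
          ⟨hpp _ fun x hx => (h.ge hx).2, hu'⟩))
    have h4 : (qP hQ).perp W' ⊓ (qP hQ).pp (p + m) ⊓ (qP hQ).pp m <
        (qP hQ).perp W' ⊓ (qP hQ).pp (p + m) := lt_of_le_of_ne inf_le_left fun h => by
      have : polar Q (p + m) m = 0 := (h.ge ⟨hu', sing_B (qP_sing hQ hus')⟩).2
      simp [hWM p hp m hm, h2, hm0] at this
    have := Submodule.finrank_lt_finrank_of_lt h3
    have := Submodule.finrank_lt_finrank_of_lt h4
    omega
  have hl' : ∀ a ∈ (qP hQ).perp W ⊓ (qP hQ).pp m, ∀ s t : F, s • a + t • b ∈ (qP hQ).perp W' →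
      s • a + t • b ∈ (qP hQ).perp W' ⊓ (qP hQ).pp (p + m) ⊓ (qP hQ).pp m := fun a ha s t h => by
    have ham : polar Q a m = 0 := ha.2
    exact ⟨⟨h, by simp [ham, hbp, hMW a ha.1 p hp, hWM b hb.1 m hm]⟩,
      by simp [ham, hWM b hb.1 m hm]⟩
  have ha0 : a₁ ≠ 0 := by rintro rfl; exact hc0 (by simpa using q1.symm)
  have ha0' : a₂ ≠ 0 := by rintro rfl; exact hc0 (by simpa using q2.symm)
  by_cases hβ : ∀ x ∈ (qP hQ).perp W', polar Q x b = 0
  · right
    have h5 : ∀ a ∈ (qP hQ).perp W ⊓ (qP hQ).pp m, Q a = Q b → a ∉ W' →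
        a ∈ (qP hQ).perp W' ⊓ (qP hQ).pp (p + m) ⊓ (qP hQ).pp m := fun a ha hab h => by
      obtain ⟨x, hx, hxa⟩ : ∃ x ∈ (qP hQ).perp W', polar Q x a ≠ 0 := by
        by_contra! h'; exact h (hpp a h')
      have := hl' a ha _ _ (key a ha hab x hx)
      rwa [hβ x hx, zero_smul, add_zero, Submodule.smul_mem_iff _ hxa] at this
    by_cases e1 : a₁ ∈ W'
    · exact ⟨a₁, e1, b, hpp b hβ, ha₁.1, hb.1, ha0, hc0⟩
    by_cases e2 : a₂ ∈ W'
    · exact ⟨a₂, e2, b, hpp b hβ, ha₂.1, hb.1, ha0', hc0⟩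
    exact absurd (mem_span_of_le_one hl (h5 _ ha₁ q1 e1) ha0 (h5 _ ha₂ q2 e2)) h12
  left
  push Not at hβ
  obtain ⟨x, hx, hxb⟩ := hβ
  have hbb : polar Q b b ≠ 0 := by simp [h2, hc0]
  have h5 := mem_span_of_le_one hl (hl' _ ha₁ _ _ (key _ ha₁ q1 x hx)) (fun h => by
    have := congrArg (fun z => polar Q z b) h
    simp [hMW a₁ ha₁.1 b hb.1, hxb, h2, hc0] at this) (hl' _ ha₂ _ _ (key _ ha₂ q2 x hx))
  obtain ⟨l, hl1⟩ := Submodule.mem_span_singleton.1 h5
  have hl2 : l = 1 := by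
    have := congrArg (fun z => polar Q z b) hl1
    simpa [hMW a₁ ha₁.1 b hb.1, hMW a₂ ha₂.1 b hb.1, hxb, h2, hc0] using this
  rw [hl2, one_smul, add_left_inj] at hl1
  have h6 : polar Q x a₂ = 0 := by
    by_contra h
    apply h12
    rw [← Submodule.smul_mem_iff _ h, ← hl1]
    exact Submodule.smul_mem _ _ (Submodule.mem_span_singleton_self _)
  have h7 := hl' _ ha₂ _ _ (key _ ha₂ q2 x hx)
  rw [h6, zero_smul, zero_add, Submodule.smul_mem_iff _ hxb] at h7
  have h8 : ∀ a ∈ (qP hQ).perp W ⊓ (qP hQ).pp m, Q a = Q b → a ∈ W' := fun a ha hab =>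
    hpp a fun z hz => by
      obtain ⟨r, hr⟩ := Submodule.mem_span_singleton.1 (mem_span_of_le_one hl h7
        (by rintro rfl; simp at hc0) (hl' _ ha _ _ (key _ ha hab z hz)))
      have := congrArg (fun z => polar Q z a) hr
      simpa [hWM b hb.1 a ha.1, h2, hab, hc0] using this
  intro z hz
  obtain ⟨s, t, rfl⟩ := exists_pair hW'.dim.le (h8 _ ha₁ q1) (h8 _ ha₂ q2) ha0 h12 hz
  exact add_mem (Submodule.smul_mem _ _ ha₁.1) (Submodule.smul_mem _ _ ha₂.1)

theorem Tr.le_stab {W : Submodule F V} (hW : Tr hQ X W) : X ≤ stab W := by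
  intro g hg
  by_contra hgW
  have hW' := hW.map hQ hXE hg
  have h1 := hW.struct hQ h2 hq hn hXE hcon hg hgW
  generalize W.map (g : V →ₗ[F] V) = W' at hW' h1
  have d1 := hW.dim' hQ hn
  obtain ⟨a, ha, ha0, h3⟩ : ∃ a ∈ (qP hQ).perp W, a ≠ 0 ∧ ∀ h ∈ stab W ⊓ (qP hQ).E,
      (∀ x ∈ W, h x = x) → h a ∈ F ∙ a ∨ polar Q (h a) a = 0 := by
    rcases h1 with h1 | ⟨a, ha, b, hb, ha', hb', ha0, hb0⟩
    · have d2 : finrank F ↥((qP hQ).perp W ⊓ (qP hQ).perp W') = 1 := by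
        have e1 : W ⊓ W' = ⊥ := eq_bot_iff.2 fun x hx => hW.nd.le ⟨hx.1, h1 hx.2⟩
        have := (qP hQ).finrank_perp (W ⊔ W')
        have := Submodule.finrank_sup_add_finrank_inf_eq W W'
        rw [e1, finrank_bot, hW.dim, hW'.dim] at this
        rw [← perp_sup]
        omega
      obtain ⟨a, ha, ha0⟩ := exists_notMem_of_finrank_lt (U := ⊥)
        (W := (qP hQ).perp W ⊓ (qP hQ).perp W') (by simp [d2])
      refine ⟨a, ha.1, ha0, fun h hh _ => ?_⟩
      have hh' := E_le_Iso hh.2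
      have hM := mem_stab.1 (Iso.mem_perp_iff hh' hh.1)
      by_cases e : h ∈ stab W'
      · exact Or.inl (mem_span_of_le_one d2.le ha ha0
          ⟨(hM a).1 ha.1, (mem_stab.1 (Iso.mem_perp_iff hh' e) a).1 ha.2⟩)
      right
      obtain ⟨_, ⟨y, hy, rfl⟩, hy1, hy0⟩ : ∃ z ∈ W'.map (h : V →ₗ[F] V), z ∈ (qP hQ).perp W' ∧
          z ≠ 0 := by
        rcases hW'.struct hQ h2 hq hn hXE hcon (hW.le hh) e with h4 | ⟨z, hz, -, -, h4, -, h5, -⟩
        · obtain ⟨z, hz, hz0⟩ := exists_notMem_of_finrank_lt (U := ⊥)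
            (W := W'.map (h : V →ₗ[F] V)) (by simp [LinearEquiv.finrank_map_eq, hW'.dim])
          exact ⟨z, hz, h4 hz, hz0⟩
        · exact ⟨z, hz, h4, h5⟩
      obtain ⟨r, hr⟩ := Submodule.mem_span_singleton.1
        (mem_span_of_le_one d2.le ⟨(hM y).1 (h1 hy), hy1⟩ hy0 ha)
      conv_lhs => arg 3; rw [← hr]
      have := (Iso.B hh' a y).trans (ha.2 y hy)
      simp only [qP_B] at this
      simp [this]
    · have hab : polar Q a b = 0 := ha' b hb'
      have hbb : polar Q b b ≠ 0 := by simp [h2, hb0]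
      have hba : b ∉ F ∙ a := fun h => by
        obtain ⟨r, rfl⟩ := Submodule.mem_span_singleton.1 h
        exact hbb (by rw [polar_smul_left, hab, smul_zero])
      refine ⟨a, ha', ha0, fun h hh hfix => ?_⟩
      have hh' := E_le_Iso hh.2
      have h4 : polar Q (h a) b = 0 := by
        have := Iso.B hh' a b
        rwa [hfix b hb', qP_B, qP_B, hab] at this
      by_cases e : h ∈ stab W'
      · obtain ⟨s, t, h5⟩ := exists_pair hW'.dim.le ha hb ha0 hba ((mem_stab.1 e a).1 ha)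
        rw [h5] at h4 ⊢
        simp [hab, h2, hb0] at h4
        left
        simp [h4, Submodule.smul_mem, Submodule.mem_span_singleton_self]
      right
      rcases hW'.struct hQ h2 hq hn hXE hcon (hW.le hh) e with h5 |
        ⟨_, ⟨y, hy, rfl⟩, -, -, h5, -, h6, -⟩
      · exact absurd (h5 ⟨b, hb, hfix b hb'⟩ b hb) hbb
      · obtain ⟨s, t, rfl⟩ := exists_pair hW'.dim.le ha hb ha0 hba hy
        have e1 := h5 a ha
        have e2 := h5 b hb
        simp [hfix b hb', h4, h2, hb0] at e1 e2 h6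
        simp [e2, polar_comm Q b a, hab] at e1 h6
        exact e1.resolve_left h6.1
  obtain ⟨u, hu, hus, hua⟩ := Sub4.exists_sing_ne2 (qP_wild hQ) (M := (qP hQ).perp W) (z := a)
    (fun h => ha0 (by simpa [inf_perp_perp hW.nd] using
      (show a ∈ (qP hQ).perp W ⊓ (qP hQ).perp ((qP hQ).perp W) from ⟨ha, h⟩)))
    (by rw [inf_perp_perp hW.nd]; simp [d1])
  replace hua : polar Q a u ≠ 0 := (qP hQ).B_ne_symm hua
  obtain ⟨y, hy, hyu, d, hd0, hyd⟩ := exists_nonsing (inf_perp_perp hW.nd) d1.ge hu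
  replace hyu : polar Q y u = 0 := hyu
  replace hd0 : Q y ≠ 0 := fun h => hd0 (hyd.trans h)
  obtain ⟨t, ht1, ht2⟩ := avoid21 hq (a := -(Q y * (polar Q a u * polar Q a u))) (b := 0)
    (c := 2 * Q a) (d := 1) (e := 0) (by simp [hd0, hua]) (by simp)
  have ht : t ≠ 0 := by simpa using ht2
  have h4 : (qP hQ).B (t • y) u = 0 := by simp [hyu]
  have hus' : Q u = 0 := hus.symm
  rcases h3 (eichE hus h4 (qP_val_self hQ _)) ⟨eichE_mem_stab_of_perp _ _ _ hu
    (Submodule.smul_mem _ _ hy), eichE_mem_E _ _ _⟩ (fun x hx => eich_fix _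
      (mem_perp'.1 hu x hx) (mem_perp'.1 (Submodule.smul_mem _ _ hy) x hx)) with h | h
  · obtain ⟨r, hr⟩ := Submodule.mem_span_singleton.1 h
    rw [eichE_apply, qP_eich] at hr
    have e1 := congrArg (fun z => polar Q z u) hr
    have e2 := congrArg (fun z => polar Q z y) hr
    simp [hyu, hus', hua, polar_comm Q u y] at e1 e2
    simp [e1, hua, ht, h2, hd0] at e2
  · rw [eichE_apply, qP_eich] at h
    simp [Q_smul, polar_comm Q y a, polar_comm Q u a] at h
    exact ht1 (by linear_combination h)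

omit hXE hcon in
theorem plane_maximal {W : Submodule F V} (hW : W ⊓ (qP hQ).perp W = ⊥) (hd : finrank F W = 2) :
    Geo.IsMaximalIn (qP hQ).E (stab W ⊓ (qP hQ).E) := by
  refine isMaximalIn_of inf_le_right ?_ fun X hHX hXE g hg hgH => ?_
  · obtain ⟨g, hg, hg'⟩ := Polar.exists_E_notMem_stab (qP_wild hQ) (by omega) (by omega)
      (W := W) (fun h => by rw [h, finrank_bot] at hd; omega) (fun h => by rw [h, finrank_top] at hd; omega)
    exact ⟨g, hg, fun h => hg' h.1⟩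
  by_contra hcon
  exact hgH ⟨Tr.le_stab hQ h2 hq hn hXE hcon ⟨hW, hd, hHX⟩ hg, hXE hg⟩

end Cfsg.Agent.H1.O5
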