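import Cfsg.Agent.H1.O5Frame2
import Cfsg.Agent.H7.C2Fr4

/-!
The stabiliser of an orthonormal frame in dimension six.
-/

set_option autoImplicit false
set_option linter.unusedSectionVars false

namespace Cfsg.Agent.H1.Fr6

open Module H7 H7.Fr H8 H7.Polar QuadraticMap Matrix Equiv

variable {F : Type*} [Field F] [Fintype F] {κ : Type} [Fintype κ] [DecidableEq κ]

theorem sgn_mul_sgn (S T : Finset κ) :
    sgn (dec0 F κ) S * sgn (dec0 F κ) T = sgn (dec0 F κ) (symmDiff S T) := by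
  ext x j
  by_cases e1 : j ∈ S <;> by_cases e2 : j ∈ T <;> simp [sgn0_apply, Finset.mem_symmDiff, e1, e2]

theorem sgn_compl (S : Finset κ) :
    sgn (dec0 F κ) Sᶜ = sgn (dec0 F κ) S * sgn (dec0 F κ) Finset.univ := by
  ext x j
  by_cases e1 : j ∈ S <;> simp [sgn0_apply, e1]

theorem sgn_univ (x : κ → F) : sgn (dec0 F κ) Finset.univ x = -x := by
  ext j; simp [sgn0_apply]

theorem exists_coord (g : (κ → F) ≃ₗ[F] (κ → F)) (k : κ) : ∃ j, g (e j) k ≠ 0 := by
  by_contra! h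
  have := congrFun (g.apply_symm_apply (e k)) k
  rw [← sum_e (g.symm (e k))] at this
  simp [h] at this

theorem eq_zero_of_neg (h2 : (2 : F) ≠ 0) {a : F} (h : -a = a) : a = 0 := by
  have : 2 * a = 0 := by linear_combination -h
  simpa [h2] using this

theorem fin_alg (h2 : (2 : F) ≠ 0) {α γ μ ν ε η : F} (hε : ε * ε = 1) (hη : η * η = 1)
    (h : α * α + ε * α * (ε * α) + γ * γ + η * γ * (η * γ) + μ * μ + ν * ν = 1)
    (k5 : 2 * (μ * μ + ν * ν) = 1) (k6 : α = 0 ∨ 2 * (α * α + ε * α * (ε * α)) = 1)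
    (k7 : γ = 0 ∨ 2 * (γ * γ + η * γ * (η * γ)) = 1)
    (k8 : γ = α ∨ γ * α + ε * η * (η * γ) * (ε * α) + α * γ + ε * η * (ε * α) * (η * γ) + μ * μ +
      ν * ν = 0) : False := by
  grind

variable (h2 : (2 : F) ≠ 0) {X : Subgroup ((κ → F) ≃ₗ[F] (κ → F))} (hn : Fintype.card κ = 6)
  (hH : decStab (D0 F : κ → _) ⊓ (qP (nd0 h2)).E ≤ X)
include hn hH

theorem sgn_two' {T : Finset κ} (hT : T.card = 2) : sgn (dec0 F κ) T ∈ X :=
  hH ⟨sgn_mem_decStab _, Fr5.sgn_two h2 (by omega) hT⟩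

theorem pm_mem' {a b c d : κ} (h : a ≠ b) (h' : c ≠ d) : pm F (swap a b * swap c d) ∈ X :=
  hH ⟨pm_mem_mon _, Fr5.pm_mem_E h2 (by omega) h h'⟩

theorem quarter {K : Finset κ} (hK : 3 ≤ K.card) {x y : κ → F} (hx : ∀ k ∈ K, x k = 0)
    (hy : y ⬝ᵥ y = 1) (hy' : ∀ j, y ∉ D0 F j)
    (hT : ∀ h ∈ X, h x = x → h y = y ∨ h y = -y ∨ h y ⬝ᵥ y = 0) {k : κ} (hk : k ∈ K)
    (h0 : y k ≠ 0) : ∀ l ∈ K, 4 * (y l * y l) = 1 := by
  have ne : ∀ {a : F}, -a = a → a = 0 := fun {a} h => by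
    have : 2 * a = 0 := by linear_combination -h
    simpa [h2] using this
  have third : ∀ a b, ∃ c ∈ K, c ≠ a ∧ c ≠ b := fun a b => by
    obtain ⟨c, hc, hc'⟩ : ∃ c ∈ K, c ∉ ({a, b} : Finset κ) :=
      Finset.exists_mem_notMem_of_card_lt_card (Finset.card_le_two.trans_lt (by omega))
    exact ⟨c, hc, by simpa using hc'⟩
  have pair : ∀ a ∈ K, ∀ b ∈ K, a ≠ b → y a ≠ 0 → (∀ m, m ≠ a → m ≠ b → y m = 0) ∨
      2 * (y a * y a + y b * y b) = 1 := by
    intro a ha b hb hab h1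
    rcases hT _ (sgn_two' h2 hn hH (Finset.card_pair hab)) (by
      ext j
      rw [sgn0_apply]
      split_ifs with h
      · rw [hx j (by simp at h; rcases h with rfl | rfl <;> assumption), neg_zero]
      · rfl) with h | h | h
    · exact absurd (ne (by simpa [sgn0_apply] using congrFun h a)) h1
    · exact Or.inl fun m e1 e2 => ne (by simpa [sgn0_apply, e1, e2] using (congrFun h m).symm)
    · right
      rw [sgn_dot, Finset.sum_pair hab, hy] at h
      linear_combination -h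
  have cyc : ∀ a ∈ K, ∀ b ∈ K, ∀ c ∈ K, a ≠ b → a ≠ c → b ≠ c → y c = 0 → y a = 0 ∨
      1 - y a * y a - y b * y b + y a * y b = 0 ∨ y b ≠ 0 ∧ False := by
    intro a ha b hb c hc hab hac hbc h1
    have e : pm F (swap a c * swap a b) y = y + (y a - y b) • e b + y b • e c - y a • e a := by
      ext m
      rw [pm_mul, LinearEquiv.mul_apply]
      by_cases e1 : m = a
      · simp [e1, swap_apply_of_ne_of_ne hac.symm hbc.symm, h1, e_ne hab, e_ne hac]
      by_cases e2 : m = b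
      · simp [e2, swap_apply_of_ne_of_ne hab.symm hbc, e_ne hab.symm, e_ne hbc]
      by_cases e3 : m = c
      · simp [e3, h1, e_ne hac.symm, e_ne hbc.symm]
      · simp [swap_apply_of_ne_of_ne e1 e3, swap_apply_of_ne_of_ne e1 e2, e_ne e1, e_ne e2,
          e_ne e3]
    rcases hT _ (pm_mem' h2 hn hH hac hab) (by
      rw [pm_mul, LinearEquiv.mul_apply, pm_swap_fix (x := x) (by rw [hx a ha, hx b hb]),
        pm_swap_fix (by rw [hx a ha, hx c hc])]) with h | h | h <;> rw [e] at h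
    · left
      simpa [e_ne hab, e_ne hac] using (congrFun h a).symm
    · left
      simpa [e_ne hab, e_ne hac] using congrFun h a
    · right; left
      simp [hy, h1] at h
      linear_combination h
  have pair' : ∀ a ∈ K, ∀ b ∈ K, a ≠ b → y a ≠ 0 → 2 * (y a * y a + y b * y b) = 1 := by
    intro a ha b hb hab h1
    refine (pair a ha b hb hab h1).resolve_left fun h3 => ?_
    have h4 : y b ≠ 0 := fun h => hy' a (mem_D0.2 fun m hm => by
      by_cases e : m = b
      · rw [e, h]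
      · exact h3 m hm e)
    obtain ⟨c, hc, ca, cb⟩ := third a b
    have h5 := h3 c ca cb
    have h6 := (pair a ha c hc ca.symm h1).resolve_left fun h => h4 (h b hab.symm cb.symm)
    have h7 := (pair b hb c hc cb.symm h4).resolve_left fun h => h1 (h a hab ca.symm)
    rcases cyc a ha b hb c hc hab ca.symm cb.symm h5 with h | h | h
    · exact h1 h
    · rw [h5] at h6 h7
      exact mul_ne_zero h2 (mul_ne_zero h1 h4) (by linear_combination 2 * h + h6 + h7)
    · exact h.2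
  have nz : ∀ l ∈ K, y l ≠ 0 := by
    intro l hl h1
    have kl : k ≠ l := by rintro rfl; exact h0 h1
    obtain ⟨c, hc, ck, cl⟩ := third k l
    have h3 := pair' k hk l hl kl h0
    have h4 := pair' k hk c hc ck.symm h0
    rw [h1] at h3
    have h5 : y c = 0 := mul_self_eq_zero.1 (mul_left_cancel₀ h2 (by linear_combination h4 - h3))
    rcases cyc k hk l hl c hc kl ck.symm cl.symm h5 with h | h | h
    · exact h0 h
    · rw [h1] at h
      exact one_ne_zero (α := F) (by linear_combination 2 * h + h3)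
    · exact h.2
  intro l hl
  obtain ⟨a, ha, al, -⟩ := third l l
  obtain ⟨b, hb, bl, ba⟩ := third l a
  linear_combination pair' l hl a ha al.symm (nz l hl) + pair' l hl b hb bl.symm (nz l hl) -
    pair' a ha b hb ba.symm (nz a ha)

variable (hX : X ≤ (qP (nd0 h2)).Iso)
include hX

omit hn hH in
theorem tri {g h : (κ → F) ≃ₗ[F] (κ → F)} (hg : g ∈ X) (hh : h ∈ X)
    (h1 : g⁻¹ * h * g ∈ decStab (D0 F : κ → _)) (j : κ) :
    h (g (e j)) = g (e j) ∨ h (g (e j)) = -g (e j) ∨ h (g (e j)) ⬝ᵥ g (e j) = 0 := by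
  have e1 : ∀ y, g (g⁻¹ y) = y := g.apply_symm_apply
  have h4 := mul_mem (mul_mem (inv_mem hg) hh) hg
  obtain ⟨l, hl⟩ := mem_mon.1 h1 j
  have h5 := dot_iso (h2 := h2) (hX h4) (e j) (e j)
  have h6 : h (g (e j)) = (g⁻¹ * h * g) (e j) l • g (e l) := by
    rw [← map_smul, ← eq_of_mem_D0 hl]; simp [e1]
  rw [eq_of_mem_D0 hl] at h5
  by_cases e3 : l = j
  · subst e3
    simp only [smul_dotProduct, dotProduct_smul, e_dot, e_self, smul_eq_mul, mul_one] at h5
    rcases mul_self_eq_one_iff.1 h5 with h7 | h7 <;> rw [h6, h7] <;> simp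
  · rw [h6, smul_dotProduct, dot_iso (h2 := h2) (hX hg)]
    simp [e_ne (Ne.symm e3)]

variable (hs : ∀ g ∈ X, ∀ i j, g (e i) ∈ D0 F j → g ∈ decStab (D0 F : κ → _))
include hs

omit hn hH in
theorem tri' {g h : (κ → F) ≃ₗ[F] (κ → F)} (hg : g ∈ X) (hh : h ∈ X) {i : κ}
    (h1 : h (g (e i)) = g (e i)) (j : κ) :
    h (g (e j)) = g (e j) ∨ h (g (e j)) = -g (e j) ∨ h (g (e j)) ⬝ᵥ g (e j) = 0 :=
  tri h2 hX hg hh (hs _ (mul_mem (mul_mem (inv_mem hg) hh) hg) i i (by
    simp [h1, show g⁻¹ (g (e i)) = e i from g.symm_apply_apply _, e_mem])) j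

theorem mon_of_two {g : (κ → F) ≃ₗ[F] (κ → F)} (hg : g ∈ X) {i k l : κ} (hkl : k ≠ l)
    (h : ∀ m, m ≠ k → m ≠ l → g (e i) m = 0) : g ∈ decStab (D0 F : κ → _) := by
  by_contra hg'
  have hk : g (e i) k ≠ 0 := fun h0 => hg' (hs g hg i l (mem_D0.2 fun m hm => by
    by_cases e : m = k
    exacts [e ▸ h0, h m e hm]))
  have hl : g (e i) l ≠ 0 := fun h0 => hg' (hs g hg i k (mem_D0.2 fun m hm => by
    by_cases e : m = l
    exacts [e ▸ h0, h m hm e]))
  have hK : ({k, l} : Finset κ)ᶜ.card = 4 := by rw [Finset.card_compl, Finset.card_pair hkl, hn]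
  have hK' : ∀ m ∈ ({k, l} : Finset κ)ᶜ, m ≠ k ∧ m ≠ l := fun m hm => by simpa using hm
  obtain ⟨r, hr⟩ := Finset.card_pos.1 (show 0 < ({k, l} : Finset κ)ᶜ.card by omega)
  obtain ⟨j, hj⟩ := exists_coord g r
  have hd := dot_iso (h2 := h2) (hX hg)
  have hy : g (e j) ⬝ᵥ g (e j) = 1 := by rw [hd]; simp
  have h3 := quarter h2 hn hH (K := {k, l}ᶜ) (by omega) (fun m hm => h m (hK' m hm).1 (hK' m hm).2)
    hy (fun l hl => hg' (hs g hg j l hl)) (fun h hh h3 => tri' h2 hX hs hg hh h3 j) hr hj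
  have hij : j ≠ i := by rintro rfl; exact hj (h r (hK' r hr).1 (hK' r hr).2)
  have sp : ∀ x y : κ → F, x ⬝ᵥ y = x k * y k + x l * y l + ∑ m ∈ {k, l}ᶜ, x m * y m := fun x y => by
    rw [← Finset.sum_pair (f := fun m => x m * y m) hkl, Finset.sum_add_sum_compl]; rfl
  have sx : ∀ y : κ → F, g (e i) ⬝ᵥ y = g (e i) k * y k + g (e i) l * y l := fun y => by
    rw [sp, Finset.sum_eq_zero fun m hm => by rw [h m (hK' m hm).1 (hK' m hm).2, zero_mul],
      add_zero]
  have a1 := sx (g (e i))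
  have a2 := sx (g (e j))
  have a3 := sp (g (e j)) (g (e j))
  have a4 : 4 * ∑ m ∈ {k, l}ᶜ, g (e j) m * g (e j) m = 4 := by
    rw [Finset.mul_sum, Finset.sum_congr rfl h3, Finset.sum_const, hK]; simp
  have h4 : (4 : F) ≠ 0 := by rw [show (4 : F) = 2 * 2 by norm_num]; exact mul_ne_zero h2 h2
  simp only [hd, e_dot, e_self, e_ne hij.symm] at a1 a2 a3
  set x := g (e i)
  set y := g (e j)
  have a5 : y k * y k + y l * y l = 0 := mul_left_cancel₀ h4 (by linear_combination -4 * a3 - a4)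
  have yk : y k = 0 := mul_self_eq_zero.1 (by
    linear_combination (y k * y k) * a1 - (x k * y k - x l * y l) * a2 + x l * x l * a5)
  have yl : y l = 0 := mul_self_eq_zero.1 (by linear_combination a5 - y k * yk)
  obtain ⟨c, hc, d, hd', m, hm, hcd, hcm, hdm, ycd⟩ : ∃ c ∈ ({k, l} : Finset κ)ᶜ,
      ∃ d ∈ ({k, l} : Finset κ)ᶜ, ∃ m ∈ ({k, l} : Finset κ)ᶜ, c ≠ d ∧ c ≠ m ∧ d ≠ m ∧ y c = y d := by
    obtain ⟨a, b, c, ha, hb, hc, h5, h6, h7⟩ := Finset.two_lt_card_iff.1
      (show 2 < ({k, l} : Finset κ)ᶜ.card by omega)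
    rcases mul_self_eq_mul_self_iff.1 (mul_left_cancel₀ h4 ((h3 a ha).trans (h3 b hb).symm))
      with e1 | e1
    · exact ⟨a, ha, b, hb, c, hc, h5, h6, h7, e1⟩
    rcases mul_self_eq_mul_self_iff.1 (mul_left_cancel₀ h4 ((h3 a ha).trans (h3 c hc).symm))
      with e2 | e2
    · exact ⟨a, ha, c, hc, b, hb, h6, h5, h7.symm, e2⟩
    · exact ⟨b, hb, c, hc, a, ha, h7, h5.symm, h6.symm, by linear_combination e1 - e2⟩
  have xcd : x c = x d := by rw [h c (hK' c hc).1 (hK' c hc).2, h d (hK' d hd').1 (hK' d hd').2]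
  have b1 : 2 * (x k * x k) = 1 := by
    have := tri' h2 hX hs hg (pm_mem' h2 hn hH hkl hcd) (i := j) (by
      rw [pm_mul, LinearEquiv.mul_apply, pm_swap_fix ycd, pm_swap_fix (by rw [yk, yl])]) i
    rw [pm_mul, LinearEquiv.mul_apply, pm_swap_fix xcd] at this
    rcases this with e | e | e
    · have := congrFun e k
      simp at this
      linear_combination (x k + x l) * (-this) - a1
    · have := congrFun e k
      simp at this
      linear_combination (x k - x l) * this - a1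
    · rw [dotProduct_comm, sx] at e
      simp at e
      exact absurd (by linear_combination e) (mul_ne_zero h2 (mul_ne_zero hk hl))
  have b2 : pm F (swap c d) * sgn (dec0 F κ) {m} ∈ X := hH ⟨mul_mem (pm_mem_mon _)
    (sgn_mem_decStab _), by
      rw [pm_swap h2 hcd, ← rQ_e, ← rQ_smul hk]
      refine O5.rQ_mul_mem_E5 _ (by simp; omega) ?_
      simp [Q0_apply, e_ne hcd, e_ne hcd.symm]
      linear_combination b1⟩
  have b3 : ∀ z : κ → F, z c = z d → (pm F (swap c d) * sgn (dec0 F κ) {m}) z =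
      sgn (dec0 F κ) {m} z := fun z hz => by
    rw [LinearEquiv.mul_apply, pm_swap_fix (by simp [sgn0_apply, hcm, hdm, hz])]
  have nz : ∀ m ∈ ({k, l} : Finset κ)ᶜ, y m ≠ 0 := fun m hm e => by simpa [e] using h3 m hm
  have := tri' h2 hX hs hg b2 (i := i) (by
    rw [b3 _ xcd]
    ext r
    rw [sgn0_apply]
    split_ifs with e
    · rw [Finset.mem_singleton.1 e]
      exact (h m (hK' m hm).1 (hK' m hm).2).symm ▸ neg_zero.trans (h m (hK' m hm).1 (hK' m hm).2).symm
    · rfl) j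
  rw [b3 _ ycd] at this
  rcases this with e | e | e
  · exact nz m hm (eq_zero_of_neg h2 (by simpa [sgn0_apply] using congrFun e m))
  · exact nz c hc (eq_zero_of_neg h2 (by simpa [sgn0_apply, hcm] using (congrFun e c).symm))
  · rw [sgn_dot, hy, Finset.sum_singleton] at e
    exact one_ne_zero (α := F) (by linear_combination 2 * e + h3 m hm)

theorem mon_of_neg {g : (κ → F) ≃ₗ[F] (κ → F)} (hg : g ∈ X) {i k l : κ} (hkl : k ≠ l)
    (h : sgn (dec0 F κ) {k, l} (g (e i)) = -g (e i)) : g ∈ decStab (D0 F : κ → _) :=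
  mon_of_two h2 hn hH hX hs hg hkl fun m h1 h3 => eq_zero_of_neg h2 (by
    simpa [sgn0_apply, h1, h3] using (congrFun h m).symm)

theorem mon_of_conj {g : (κ → F) ≃ₗ[F] (κ → F)} (hg : g ∈ X) {i j : κ} (hij : i ≠ j)
    (h : g * sgn (dec0 F κ) {i, j} * g⁻¹ ∈ decStab (D0 F : κ → _)) :
    g ∈ decStab (D0 F : κ → _) := by
  classical
  by_contra hg'
  have e1 : ∀ y, g⁻¹ (g y) = y := g.symm_apply_apply
  have e2 : ∀ y, g (g⁻¹ y) = y := g.apply_symm_apply
  obtain ⟨M, hM, hM'⟩ := cjs_rank (pDec0 κ h2) (X := X) ⟨g, hg, _, ⟨i, j, hij, rfl⟩, rfl⟩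
  have tX := mul_mem (mul_mem hg (sgn_two' h2 hn hH (Finset.card_pair hij))) (inv_mem hg)
  have tt : ∀ x, (g * sgn (dec0 F κ) {i, j} * g⁻¹) ((g * sgn (dec0 F κ) {i, j} * g⁻¹) x) = x :=
    fun x => by rw [← LinearEquiv.mul_apply, conj_mul, sgn_mul_self]; simp
  have tg : ∀ x, (g * sgn (dec0 F κ) {i, j} * g⁻¹) (g x) = g (sgn (dec0 F κ) {i, j} x) :=
    fun x => by simp [e1]
  change ∀ x, (g * sgn (dec0 F κ) {i, j} * g⁻¹) x - x ∈ M at hM'
  generalize g * sgn (dec0 F κ) {i, j} * g⁻¹ = t at h hM' tX tt tg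
  have cen : ∀ h ∈ X, t * h = h * t → ∀ r, h (g (e r)) = g (e r) ∨ h (g (e r)) = -g (e r) ∨
      h (g (e r)) ⬝ᵥ g (e r) = 0 := fun h hh e => tri h2 hX hg hh (mon_of_neg h2 hn hH hX hs
        (mul_mem (mul_mem (inv_mem hg) hh) hg) (i := i) hij (g.injective (by
      rw [← tg, map_neg, LinearEquiv.mul_apply, LinearEquiv.mul_apply, e2, ← LinearEquiv.mul_apply,
        e, LinearEquiv.mul_apply, tg, sgn_apply (hD := dec0 F κ) _ (e_mem i)]
      simp)))
  obtain ⟨σ, hσ⟩ := Dec.exists_perm h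
  obtain ⟨ε, s1⟩ : ∃ ε : κ → F, ∀ a, t (e a) = ε a • e (σ a) :=
    ⟨_, fun a => eq_of_mem_D0 (hσ a _ (e_mem a))⟩
  have s2 : ∀ a, ε a * ε a = 1 := fun a => by
    have := dot_iso (h2 := h2) (hX tX) (e a) (e a)
    rw [s1] at this
    simpa using this
  have s3 : ∀ a, t (e (σ a)) = ε a • e a := fun a => by
    have := congrArg (ε a • ·) (tt (e a))
    simpa only [s1 a, map_smul, smul_smul, s2, one_smul] using this
  have s4 : ∀ a, σ (σ a) = a := fun a => (dec0 F κ).eq_of_mem (hσ _ _ (e_mem _))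
    (by rw [s3]; exact Submodule.smul_mem _ _ (e_mem a)) (by simpa using e_ne_zero _)
  have s5 : ∀ a, σ a = a → t (e a) = e a := fun a ha => by
    have h1 := s1 a
    have h3 := s2 a
    rw [ha] at h1
    rcases mul_self_eq_one_iff.1 h3 with h4 | h4 <;> rw [h4] at h1
    · simpa using h1
    · refine (hg' ?_).elim
      simpa using inv_mem (mon_of_neg h2 hn hH hX hs (inv_mem hg) (i := a) hij (g.injective (by
        rw [← tg, e2, h1]; simp [e2])))
  have s6 := card_le_rank (dec0 F κ) (by norm_num) hσ hM' (Finset.univ.filter fun m => σ m ≠ m)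
    fun m hm => ⟨e m, e_mem m, fun e => (Finset.mem_filter.1 hm).2 ((dec0 F κ).eq_of_mem
      (hσ _ _ (e_mem m)) (by rw [e]; exact e_mem m) (by simpa using e_ne_zero _))⟩
  have s7 : ∀ x, t x = -x → ∀ m, σ m = m → x m = 0 := fun x hx m hm => eq_zero_of_neg h2 (by
    have := dot_iso (h2 := h2) (hX tX) x (e m)
    simpa [hx, s5 m hm] using this)
  have s8 := s7 (g (e i)) (by rw [tg, sgn_apply (hD := dec0 F κ) _ (e_mem i)]; simp)
  have s9 : ∀ k l, k ≠ l → ∀ r, ∃ m, m ≠ k ∧ m ≠ l ∧ g (e r) m ≠ 0 := fun k l hkl r => by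
    by_contra! h
    exact hg' (mon_of_two h2 hn hH hX hs hg hkl h)
  obtain ⟨a, -, -, ha⟩ := s9 i j hij i
  have ab : σ a ≠ a := fun h => ha (s8 a h)
  obtain ⟨c, ca, cb, hc⟩ := s9 a (σ a) ab.symm i
  have cd : σ c ≠ c := fun h => hc (s8 c h)
  have da : σ c ≠ a := fun h => cb (by rw [← h, s4])
  have db : σ c ≠ σ a := σ.injective.ne ca
  have hS : ({a, σ a, c, σ c} : Finset κ).card = 4 := Finset.card_eq_four.2
    ⟨_, _, _, _, ab.symm, ca.symm, da.symm, cb.symm, db.symm, cd.symm, rfl⟩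
  have hS' : ∀ m, m ∉ ({a, σ a, c, σ c} : Finset κ) → σ m = m := fun m hm => by
    have : ({a, σ a, c, σ c} : Finset κ) = Finset.univ.filter fun m => σ m ≠ m :=
      Finset.eq_of_subset_of_card_le (by
        intro x; simp only [Finset.mem_insert, Finset.mem_singleton, Finset.mem_filter]
        rintro (rfl | rfl | rfl | rfl) <;> simp [ab, cd, s4, ab.symm, cd.symm]) (by omega)
    simpa [this] using hm
  obtain ⟨m, n, mn, hmn⟩ := Finset.card_eq_two.1
    (show ({a, σ a, c, σ c} : Finset κ)ᶜ.card = 2 by rw [Finset.card_compl, hS, hn])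
  have hm : m ∉ ({a, σ a, c, σ c} : Finset κ) := by rw [← Finset.mem_compl, hmn]; simp
  have hn' : n ∉ ({a, σ a, c, σ c} : Finset κ) := by rw [← Finset.mem_compl, hmn]; simp
  have fm := hS' m hm
  have fn := hS' n hn'
  have all : ∀ l, l = a ∨ l = σ a ∨ l = c ∨ l = σ c ∨ l = m ∨ l = n := fun l => by
    by_cases h : l ∈ ({a, σ a, c, σ c} : Finset κ)
    · simp at h; tauto
    · rw [← Finset.mem_compl, hmn] at h
      simp at h; tauto
  simp only [Finset.mem_insert, Finset.mem_singleton, not_or] at hm hn'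
  obtain ⟨ma, mb, mc, md⟩ := hm
  obtain ⟨na, nb, nc, nd⟩ := hn'
  have dt : ∀ x y : κ → F, x ⬝ᵥ y = x a * y a + x (σ a) * y (σ a) + x c * y c + x (σ c) * y (σ c) +
      x m * y m + x n * y n := fun x y => by
    rw [dotProduct, ← Finset.sum_add_sum_compl {a, σ a, c, σ c}, hmn, Finset.sum_pair mn,
      Finset.sum_insert (by simp [ab.symm, ca.symm, da.symm]),
      Finset.sum_insert (by simp [cb.symm, db.symm]), Finset.sum_pair cd.symm]
    ring
  obtain ⟨r, hr⟩ := exists_coord g m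
  have ty : t (g (e r)) = g (e r) := by
    rw [tg, sgn_apply (hD := dec0 F κ) _ (e_mem r)]
    split_ifs with h
    · exact absurd (s7 (g (e r)) (by rw [tg, sgn_apply (hD := dec0 F κ) _ (e_mem r)]; simp [h]) m fm) hr
    · rfl
  have tx : ∀ x l, t x l = ε l * x (σ l) := fun x l => by
    have := dot_iso (h2 := h2) (hX tX) x (e (σ l))
    rw [s3] at this
    simp at this
    linear_combination ε l * this - t x l * s2 l
  have εs : ∀ l, ε (σ l) = ε l := fun l => by
    have := congrFun ((s1 (σ l)).symm.trans (s3 l)) l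
    simpa [s4] using this
  have εf : ∀ l, σ l = l → ε l = 1 := fun l h => by
    simpa [h] using congrFun ((s1 l).symm.trans (s5 l h)) l
  have ya := tx (g (e r)) (σ a)
  have yc := tx (g (e r)) (σ c)
  rw [ty, εs, s4] at ya yc
  have εa := s2 a
  have εc := s2 c
  have y1 : g (e r) ⬝ᵥ g (e r) = 1 := by rw [dot_iso (h2 := h2) (hX hg)]; simp
  have sg : ∀ k l, k ≠ l → ({σ k, σ l} : Finset κ) = {k, l} → (g (e r) k = 0 ∧ g (e r) l = 0) ∨
      (∀ p, p ≠ k → p ≠ l → g (e r) p = 0) ∨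
      2 * (g (e r) k * g (e r) k + g (e r) l * g (e r) l) = 1 := fun k l hkl h => by
    rcases cen _ (sgn_two' h2 hn hH (Finset.card_pair hkl)) (by rw [conj_sgn hσ]; simp [h]) r
      with h | h | h
    · exact Or.inl ⟨eq_zero_of_neg h2 (by simpa [sgn0_apply] using congrFun h k),
        eq_zero_of_neg h2 (by simpa [sgn0_apply] using congrFun h l)⟩
    · exact Or.inr (Or.inl fun p e1 e2 => eq_zero_of_neg h2 (by
        simpa [sgn0_apply, e1, e2] using (congrFun h p).symm))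
    · rw [sgn_dot, Finset.sum_pair hkl, y1] at h
      exact Or.inr (Or.inr (by linear_combination -h))
  have k1 := sg a (σ a) ab.symm (by rw [s4, Finset.pair_comm])
  have k2 := sg c (σ c) cd.symm (by rw [s4, Finset.pair_comm])
  have k3 := sg m n mn (by rw [fm, fn])
  obtain ⟨ρ, hρ, r1⟩ : ∃ ρ ∈ X, ∀ x l, ρ x l = if l = σ a ∨ l = σ c then
      ε a * ε c * x (swap (σ a) (σ c) l) else x (swap a c l) := by
    have h1 := pm_mem' h2 hn hH ca.symm db.symm
    have h3 : ∀ (x : κ → F) l, pm F (swap a c * swap (σ a) (σ c)) x l = if l = σ a ∨ l = σ c then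
        x (swap (σ a) (σ c) l) else x (swap a c l) := fun x l => by
      rcases all l with rfl | rfl | rfl | rfl | rfl | rfl <;>
        simp [pm_mul, swap_apply_of_ne_of_ne, *, ab.symm, ca.symm, da.symm, cb.symm, db.symm,
          cd.symm]
    rcases mul_self_eq_one_iff.1 (show ε a * ε c * (ε a * ε c) = 1 by
      linear_combination ε c * ε c * εa + εc)
      with h4 | h4
    · exact ⟨_, h1, by simpa [h4] using h3⟩
    · refine ⟨_, mul_mem (sgn_two' h2 hn hH (Finset.card_pair db.symm)) h1, fun x l => ?_⟩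
      rw [LinearEquiv.mul_apply, sgn0_apply, h3, h4]
      simp only [Finset.mem_insert, Finset.mem_singleton]
      split_ifs <;> simp
  have k4 := cen ρ hρ (by
    ext x l
    simp only [LinearEquiv.mul_apply, tx, r1]
    rcases all l with rfl | rfl | rfl | rfl | rfl | rfl <;>
      simp [swap_apply_of_ne_of_ne, *, ab.symm, da.symm, cb.symm, db.symm, cd.symm] <;> grind) r
  obtain ⟨p, p1, p2, p3⟩ := s9 m n mn r
  rw [dt] at y1 k4
  simp only [r1, funext_iff, Pi.neg_apply] at k4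
  rw [ya] at k1
  rw [yc] at k2
  have k5 : 2 * (g (e r) m * g (e r) m + g (e r) n * g (e r) n) = 1 :=
    (k3.resolve_left fun h => hr h.1).resolve_left fun h => p3 (h p p1 p2)
  have k6 := (k1.imp_right (·.resolve_left fun h => hr (h m ma mb))).imp_left And.left
  have k7 := (k2.imp_right (·.resolve_left fun h => hr (h m mc md))).imp_left And.left
  rw [ya, yc] at y1
  rcases k4 with h | h | h
  · refine fin_alg h2 εa εc y1 k5 k6 k7 (Or.inl ?_)
    simpa [ab.symm, da.symm] using h a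
  · have := h m
    simp [mb, md, swap_apply_of_ne_of_ne ma mc] at this
    exact hr (eq_zero_of_neg h2 this.symm)
  · refine fin_alg h2 εa εc y1 k5 k6 k7 (Or.inr ?_)
    simpa [swap_apply_of_ne_of_ne, ab.symm, da.symm, cb, cd.symm, ma, mb, mc, md, na, nb, nc, nd, ya,
      yc] using h

theorem oddCtx : OddCtx X (decStab (D0 F : κ → _) ⊓ X) (ZP (pDec0 κ h2)) where
  le := inf_le_right
  mem := by
    rintro _ ⟨i, j, hij, rfl⟩
    exact ⟨sgn_mem_decStab _, sgn_two' h2 hn hH (Finset.card_pair hij)⟩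
  sq := by
    rintro _ ⟨i, j, -, rfl⟩
    exact sgn_mul_self _
  conj := by
    rintro h hh _ ⟨i, j, hij, rfl⟩
    obtain ⟨σ, hσ⟩ := Dec.exists_perm hh.1
    exact ⟨σ i, σ j, σ.injective.ne hij, by rw [conj_sgn hσ, mul_inv_cancel_right]; simp⟩
  hD := by
    rintro g hg _ ⟨i, j, hij, rfl⟩ hh
    exact ⟨mon_of_conj h2 hn hH hX hs hg hij hh.1, hg⟩
  hE := by
    rintro g hg _ ⟨a, b, -, rfl⟩ _ ⟨c, d, -, rfl⟩ _ ⟨i, j, hij, rfl⟩ _ ⟨l, m, hlm, rfl⟩ hne - h
    have h1 : g * sgn (dec0 F κ) (symmDiff {i, j} {l, m}) * g⁻¹ ∈ decStab (D0 F : κ → _) := by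
      rw [← sgn_mul_sgn]
      exact h ▸ mul_mem (sgn_mem_decStab _) (sgn_mem_decStab _)
    have h3 : ({i, j} : Finset κ) ≠ {l, m} := fun e => hne (by
      rw [e, sgn_mul_self, mul_one, mul_inv_cancel] at h
      rw [eq_inv_of_mul_eq_one_left h, inv_eq_of_mul_eq_one_right (sgn_mul_self _)])
    have h4 : (symmDiff ({i, j} : Finset κ) {l, m}).card = 2 ∨
        (symmDiff ({i, j} : Finset κ) {l, m})ᶜ.card = 2 := by
      have a1 := Finset.card_pair hij
      have a2 := Finset.card_pair hlm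
      have a3 := Finset.card_sdiff_add_card_inter ({i, j} : Finset κ) {l, m}
      have a4 := Finset.card_sdiff_add_card_inter ({l, m} : Finset κ) {i, j}
      have a5 : ({i, j} ∩ {l, m} : Finset κ).card ≠ 2 := fun e => h3 (by
        rw [← Finset.eq_of_subset_of_card_le Finset.inter_subset_left (a1.trans e.symm).le,
          Finset.eq_of_subset_of_card_le Finset.inter_subset_right (a2.trans e.symm).le])
      rw [Finset.inter_comm] at a4
      rw [Finset.card_compl, symmDiff_def, Finset.sup_eq_union,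
        Finset.card_union_of_disjoint disjoint_sdiff_sdiff]
      omega
    generalize symmDiff ({i, j} : Finset κ) {l, m} = S at h1 h4
    rcases h4 with h4 | h4 <;> obtain ⟨p, q, hpq, e⟩ := Finset.card_eq_two.1 h4
    · exact ⟨mon_of_conj h2 hn hH hX hs hg hpq (e ▸ h1), hg⟩
    · refine ⟨mon_of_conj h2 hn hH hX hs hg hpq ?_, hg⟩
      convert mul_mem h1 (sgn_mem_decStab (hD := dec0 F κ) Finset.univ) using 1
      rw [← e, sgn_compl]
      ext1 x
      simp [sgn_univ]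

theorem ztrick6 : X ≤ decStab (D0 F : κ → _) := by
  have hC := oddCtx h2 hn hH hX hs
  have := finite_linearEquiv (F := F) (V := κ → F)
  intro g hg
  by_contra hg'
  obtain ⟨e, he⟩ : ∃ e : Fin 4 → κ, Function.Injective e := by
    obtain ⟨e⟩ := Function.Embedding.nonempty_of_card_le (α := Fin 4) (β := κ) (by simp; omega)
    exact ⟨e, e.injective⟩
  have hz : ∀ i j, i ≠ j → sgn (dec0 F κ) {i, j} ∈ ZP (pDec0 κ h2) := fun i j h => ⟨i, j, h, rfl⟩
  obtain ⟨s, h1, h3⟩ := hC.exists_swaps hg (fun h => hg' h.1) (hz _ _ (he.ne (by decide : (0 : Fin 4) ≠ 1)))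
  have main : ∀ t ∈ ZP (pDec0 κ h2), ∀ t' ∈ ZP (pDec0 κ h2), t ≠ t' → ∀ j,
      ¬ ∀ x ∈ D0 F j, (s t * s t') x ∈ D0 F j := by
    intro t ht0 t' ht' hne j hj
    obtain ⟨h4, -, h5⟩ := h3 t ht0 t' ht'
    obtain ⟨σ, hσ⟩ := Dec.exists_perm h4.1
    have hσ' : ∀ a b, (∀ x ∈ D0 F a, (s t * s t') x ∈ D0 F b) → σ a = b := fun a b h => by
      obtain ⟨x, hx, h0⟩ := (dec0 F κ).exists_ne_zero a
      exact (dec0 F κ).eq_of_mem (hσ a x hx) (h x hx) (by simpa using h0)
    have hjj := hσ' j j hj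
    have hp : ∀ a b, a ≠ b → ({σ a, σ b} : Finset κ) ≠ {a, b} := fun a b hab h =>
      h5 hne _ (hz a b hab) (by rw [conj_sgn hσ]; simp [h])
    have f1 : ∀ i, i ≠ j → σ i ≠ i := fun i hi h => hp i j hi (by rw [h, hjj])
    have f2 : ∀ i, i ≠ j → σ (σ i) ≠ i := fun i hi h =>
      hp i (σ i) (f1 i hi).symm (by rw [h, Finset.pair_comm])
    have hpow : ∀ m : ℕ, ∀ a, ∀ x ∈ D0 F a, ((s t * s t') ^ m) x ∈ D0 F ((σ ^ m) a) := fun m => by
      induction m with
      | zero => simp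
      | succ m ih => intro a x hx; rw [pow_succ', pow_succ']; exact hσ _ _ (ih a x hx)
    have hpow' : ∀ m : ℕ, (s t * s t') ^ m = 1 → σ ^ m = 1 := fun m h => by
      ext a
      obtain ⟨x, hx, h0⟩ := (dec0 F κ).exists_ne_zero a
      have := hpow m a x hx
      rw [h] at this
      exact (dec0 F κ).eq_of_mem this hx h0
    obtain ⟨a, x, a1, a2, a3, a4, a5, a6⟩ := perm_aux (by omega) hjj f1 f2 (by
      rcases hC.odd_or (h1 t ht0).1 (h1 t' ht').1 with h | ⟨g, -, _, ⟨a, b, -, rfl⟩, _,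
        ⟨c, e, -, rfl⟩, h⟩
      · exact Or.inl ⟨_, h, hpow' _ (pow_orderOf_eq_one _)⟩
      · right
        rw [← _root_.sq]
        refine hpow' 2 ?_
        rw [_root_.sq, h, conj_mul, mul_assoc (sgn _ _), ← mul_assoc (sgn _ {c, e}), ← sgn_comm,
          mul_assoc (sgn _ {a, b}), sgn_mul_self, mul_one, sgn_mul_self, mul_one, mul_inv_cancel])
    obtain ⟨y, rfl⟩ := σ.surjective x
    have hn : ∀ i, i ≠ j → σ i ≠ j := fun i hi h => hi (σ.injective (h.trans hjj.symm))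
    have hy : y ≠ j := fun h => a2 (by rw [h, hjj])
    obtain ⟨M, hM, hM1⟩ := cjs_rank (pDec0 κ h2) (h1 t ht0).1
    obtain ⟨M', hM', hM1'⟩ := cjs_rank (pDec0 κ h2) (h1 t' ht').1
    have hMM : ∀ x, (s t * s t') x - x ∈ M ⊔ M' := fun x => by
      have := add_mem (Submodule.mem_sup_left (T := M') (hM1 (s t' x)))
        (Submodule.mem_sup_right (S := M) (hM1' x))
      simpa using this
    have r1 := rank_step_move (hD := (dec0 F κ)) hσ hMM (E := ∅) (i := σ a) (by simp)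
      (f1 _ (hn a a1))
    have r2 := rank_step_move (hD := (dec0 F κ)) hσ hMM (E := {σ a, σ (σ a)}) (i := a)
      (by simp [(f1 a a1).symm, (f2 a a1).symm]) (f1 a a1)
    have r3 := rank_step_move (hD := (dec0 F κ)) hσ hMM (E := {a, σ a, σ a, σ (σ a)}) (i := σ y)
      (by simp only [Finset.mem_insert, Finset.mem_singleton, not_or]; tauto) (f1 _ a2)
    have r4 := rank_step_move (hD := (dec0 F κ)) hσ hMM
      (E := {σ y, σ (σ y), a, σ a, σ a, σ (σ a)}) (i := y) (by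
        simp only [Finset.mem_insert, Finset.mem_singleton, not_or]
        exact ⟨(f1 y hy).symm, (f2 y hy).symm, fun h => a4 (by rw [h]), fun h => a5 (by rw [h]),
          fun h => a5 (by rw [h]), fun h => a6 (by rw [h])⟩) (f1 y hy)
    have r5 := Submodule.finrank_add_le_finrank_add_finrank M M'
    rw [show (insert (σ a) (insert (σ (σ a)) ∅) : Finset κ) = {σ a, σ (σ a)} by simp] at r1
    have r6 := Submodule.eq_of_le_of_finrank_le (inf_le_left (b := VS (dec0 F κ)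
      {y, σ y, σ y, σ (σ y), a, σ a, σ a, σ (σ a)}) (a := M ⊔ M')) (by omega)
    have r7 : ∀ x ∈ D0 F j, s t x = x := fun x hx => fix_of_VS (pDec0 κ h2) (hX (hC.cjs_mem (h1 t ht0).1))
      (fun z => (r6.ge (Submodule.mem_sup_left (hM1 z))).2) (by
        simp only [Finset.mem_insert, Finset.mem_singleton, not_or]
        exact ⟨hy.symm, a2.symm, a2.symm, (hn _ a2).symm, a1.symm, (hn _ a1).symm,
          (hn _ a1).symm, (hn _ (hn _ a1)).symm⟩) hx
    exact (h1 t ht0).2 ⟨hs _ (hC.cjs_mem (h1 t ht0).1) j j (by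
      rw [r7 _ (e_mem j)]; exact e_mem j), hC.cjs_mem (h1 t ht0).1⟩
  have key : ∀ a b : Fin 4, a ≠ 0 → b ≠ 0 → a ≠ b →
      (∀ x ∈ D0 F (e 0), (s (sgn (dec0 F κ) {e 0, e a}) * s (sgn (dec0 F κ) {e 0, e b})) x ∈ D0 F (e a)) ∧
      ∀ x ∈ D0 F (e b), (s (sgn (dec0 F κ) {e 0, e a}) * s (sgn (dec0 F κ) {e 0, e b})) x ∈ D0 F (e 0) := by
    intro a b ha0 hb0 hab
    have hza := hz _ _ (he.ne ha0.symm)
    have hzb := hz _ _ (he.ne hb0.symm)
    obtain ⟨h4, h5, -⟩ := h3 _ hza _ hzb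
    obtain ⟨σ, hσ⟩ := Dec.exists_perm h4.1
    rw [conj_sgn hσ, mul_left_inj] at h5
    have h6 := sgn_inj h2 h5
    have h7 : σ (e 0) ≠ e 0 := fun h => main _ hza _ hzb (fun h => by
      have : e b ∈ ({e 0, e a} : Finset κ) := by rw [sgn_inj h2 h]; simp
      simp [he.eq_iff, hb0, hab.symm] at this) (e 0) (by simpa [h] using hσ (e 0))
    have h8 : σ (e 0) = e a := by
      have : σ (e 0) ∈ ({e 0, e a} : Finset κ) := by rw [← h6]; simp
      simpa [h7] using this
    have h9 : σ (e b) = e 0 := by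
      have : σ (e b) ∈ ({e 0, e a} : Finset κ) := by rw [← h6]; simp
      rw [← h8] at this
      simpa [he.eq_iff, hb0] using this
    exact ⟨h8 ▸ hσ (e 0), h9 ▸ hσ (e b)⟩
  have k1 := (key 1 2 (by decide) (by decide) (by decide)).2
  have k2 := (key 2 3 (by decide) (by decide) (by decide)).1
  have k3 := (key 1 3 (by decide) (by decide) (by decide)).1
  obtain ⟨x, hx, h0⟩ := (dec0 F κ).exists_ne_zero (e 0)
  have k4 := k1 _ (k2 x hx)
  rw [← LinearEquiv.mul_apply, mul_assoc, ← mul_assoc (s (sgn _ {e 0, e 2})),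
    hC.cjs_sq (h1 _ (hz _ _ (he.ne (by decide)))).1, one_mul] at k4
  exact absurd (he ((dec0 F κ).eq_of_mem k4 (k3 x hx) (by simpa using h0))) (by decide)

omit hX hs in
theorem key6 (hp : (Fintype.card F).Prime) (hX : X ≤ (qP (nd0 h2)).E)
    {g : (κ → F) ≃ₗ[F] (κ → F)} (hg : g ∈ X) (hg' : g ∉ decStab (D0 F : κ → _)) :
    (qP (nd0 h2)).E ≤ X := by
  have hX' := hX.trans E_le_Iso
  obtain ⟨g, hg, i, j, hij, hg'⟩ : ∃ g ∈ X, ∃ i j, g (e i) ∈ D0 F j ∧
      g ∉ decStab (D0 F : κ → _) := by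
    by_contra! hs
    exact hg' (ztrick6 h2 hn hH hX' hs hg)
  obtain ⟨Y, h1, h3, h4, h5⟩ := exists_refl_group hX' (e j)
  have hr : ∀ l : κ, rQ (Q0 F κ) (e l) * rQ (Q0 F κ) (e j) ∈ X := fun l =>
    hH ⟨by rw [rQ_e, rQ_e]; exact mul_mem (sgn_mem_decStab _) (sgn_mem_decStab _),
      O5.rQ_mul_mem_E5 _ (by simp; omega) (by simp [Q0_apply])⟩
  have hY : RCtx h2 Y :=
    ⟨h1, fun a b c d h h' => h5 _ (pm_mem' h2 hn hH h h') _ (hr j) (by
      rw [pm_e]; exact hr _), fun l => h4 _ (hr l)⟩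
  have hgY : g ∈ Y := h5 g hg _ (hr i) (by
    have h0 : g (e i) j ≠ 0 := fun h => by
      have := eq_of_mem_D0 hij
      rw [h, zero_smul] at this
      exact e_ne_zero i (by simpa using this)
    rw [eq_of_mem_D0 hij, rQ_smul h0]
    exact hr j)
  obtain ⟨c, h, h'⟩ := Fr5.exists_good hY hgY (by omega) hg'
  exact Fr5.E_le_of_refl_group h2 hX h3 (Fr5.E_le hY hp (by omega) h h')

end Cfsg.Agent.H1.Fr6
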