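import Cfsg.Agent.H1.OApi
import Cfsg.Agent.H1.Burnside
import Cfsg.Agent.H3.ExtBasic

/-!
Extension-field subgroups of orthogonal groups: the setting and the case in which the
stabiliser of a singular line over the extension field does not act semilinearly on it.
-/

set_option autoImplicit false
set_option linter.unusedSectionVars false
set_option linter.unusedSimpArgs false

namespace Cfsg.Agent.H1.OExt

open Module Cfsg.Agent.H7 Cfsg.Agent.H3.Ext

variable {F K V : Type*} [Field F] [Field K] [Algebra F K] [AddCommGroup V] [Module F V]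
  [Module K V] [IsScalarTower F K V]

/-- The `K`-linear elements of `X`. -/
def XK (K : Type*) [Field K] [Algebra F K] [Module K V] [IsScalarTower F K V]
    (X : Subgroup (V ≃ₗ[F] V)) : Subgroup (V ≃ₗ[K] V) where
  carrier := {g | g.restrictScalars F ∈ X}
  mul_mem' ha hb := X.mul_mem ha hb
  one_mem' := X.one_mem
  inv_mem' ha := X.inv_mem ha

theorem mem_XK {X : Subgroup (V ≃ₗ[F] V)} {g : V ≃ₗ[K] V} :
    g ∈ XK K X ↔ g.restrictScalars F ∈ X := Iff.rfl

/-- The standing hypotheses. -/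
structure Setup (PF : Polar F V) (PK : Polar K V) (θ : K →ₗ[F] F)
    (X : Subgroup (V ≃ₗ[F] V)) : Prop where
  oF : IsO PF
  oK : IsO PK
  two : (2 : F) ≠ 0
  θne : θ ≠ 0
  B : ∀ x y, PF.B x y = θ (PK.B x y)
  iso : X ≤ PF.Iso
  comm : ∀ g ∈ PK.Iso, ∀ k ∈ PK.Iso, g * k * g⁻¹ * k⁻¹ ∈ XK K X
  prime : (finrank F K).Prime

theorem eq_top_of_mul [FiniteDimensional F K] (hr : (finrank F K).Prime)
    (A : Subalgebra F (End F K)) (hA : ∀ k : K, LinearMap.mulLeft F k ∈ A) {a : End F K}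
    (ha : a ∈ A) (ha' : ¬ ∃ k : K, ∀ x, a x = k * x) : A = ⊤ := by
  refine Burnside.eq_top_of_irred A (fun N hN => ?_) fun z hz => ?_
  · by_cases h0 : N = ⊥
    · exact Or.inl h0
    obtain ⟨x, hx, hx0⟩ := (Submodule.ne_bot_iff _).1 h0
    refine Or.inr (eq_top_iff.2 fun y _ => ?_)
    simpa [hx0] using hN _ (hA (y / x)) x hx
  · have h1 : ∀ x, z x = z 1 * x := fun x => by
      simpa [mul_comm] using DFunLike.congr_fun (hz _ (hA x)) 1
    by_cases h2 : z 1 ∈ (algebraMap F K).range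
    · obtain ⟨c, hc⟩ := h2
      exact ⟨c, fun x => by rw [h1, ← hc, Algebra.smul_def]⟩
    exfalso
    apply ha'
    let C : Subalgebra F K :=
      { carrier := {l | ∀ x, a (l * x) = l * a x}
        mul_mem' := fun h3 h4 x => by rw [mul_assoc, h3, h4, mul_assoc]
        add_mem' := fun h3 h4 x => by rw [add_mul, map_add, h3, h4, add_mul]
        algebraMap_mem' := fun c x => by rw [← Algebra.smul_def, ← Algebra.smul_def, map_smul] }
    have := Subalgebra.isSimpleOrder_of_finrank_prime F K hr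
    have h3 : z 1 ∈ C := fun x => by
      have := DFunLike.congr_fun (hz a ha) x
      simp only [End.mul_apply] at this
      rw [← h1, ← this, h1]
    rcases eq_bot_or_eq_top C with h | h
    · exact absurd (Algebra.mem_bot.mp (h ▸ h3)) h2
    · refine ⟨a 1, fun x => ?_⟩
      have := (h ▸ Algebra.mem_top : x ∈ C) 1
      rw [mul_one] at this
      rw [this, mul_comm]

namespace Setup

variable {PF : Polar F V} {PK : Polar K V} {θ : K →ₗ[F] F} {X : Subgroup (V ≃ₗ[F] V)}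
  (S : Setup PF PK θ X)
include S

theorem twoK : (2 : K) ≠ 0 := by
  have : (2 : K) = algebraMap F K 2 := (map_ofNat _ 2).symm
  rw [this]
  simpa using S.two

theorem finK : FiniteDimensional F K := Module.finite_of_finrank_pos S.prime.pos

theorem exists_notMem : ∃ a : K, a ∉ (algebraMap F K).range := by
  have := S.finK
  obtain ⟨a, -, ha⟩ := exists_notMem_of_finrank_lt (U := F ∙ (1 : K)) (W := ⊤) (by
    have := finrank_span_singleton_le (F := F) (1 : K)
    have := S.prime.two_le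
    rw [finrank_top]; omega)
  refine ⟨a, ?_⟩
  rintro ⟨c, rfl⟩
  exact ha (Submodule.mem_span_singleton.2 ⟨c, by rw [Algebra.smul_def, mul_one]⟩)

theorem exists_sq_ne : ∃ a : K, a ≠ 0 ∧ a ≠ 1 ∧ a * a ≠ 1 := by
  obtain ⟨a, ha⟩ := S.exists_notMem
  refine ⟨a, fun e => ha ⟨0, by simp [e]⟩, fun e => ha ⟨1, by simp [e]⟩, fun e => ?_⟩
  rcases mul_self_eq_one_iff.1 e with e | e
  · exact ha ⟨1, by simp [e]⟩
  · exact ha ⟨-1, by simp [e]⟩

theorem eq_zero_of_θ {a : K} (h : ∀ k, θ (k * a) = 0) : a = 0 := by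
  by_contra h0
  apply S.θne
  ext k
  simpa [h0] using h (k / a)

theorem exists_θ_one : ∃ k, θ k = 1 := by
  obtain ⟨k, hk⟩ := DFunLike.ne_iff.1 S.θne
  exact ⟨(θ k)⁻¹ • k, by rw [map_smul, smul_eq_mul, inv_mul_cancel₀ hk]⟩

theorem B_smul (x y : V) (k : K) : PF.B x (k • y) = θ (k * PK.B x y) := by
  rw [S.B, S.oK.smul_right]

theorem mem_perp_ln {u z : V} : z ∈ PF.perp (ln F K u) ↔ PK.B z u = 0 := by
  constructor
  · intro h
    exact S.eq_zero_of_θ fun k => by rw [← S.B_smul]; exact h _ (smul_mem_ln k u)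
  · intro h a ha
    obtain ⟨k, rfl⟩ := mem_ln.1 ha
    rw [S.B_smul, h, mul_zero, map_zero]

theorem singF {u : V} (hu : PK.Val u 0) (k : K) : PF.Val (k • u) 0 := by
  rw [S.oF.sing_iff S.two, S.B_smul]
  simp [Polar.sing_B hu]

theorem singF' {u a : V} (hu : PK.Val u 0) (ha : a ∈ ln F K u) : PF.Val a 0 := by
  obtain ⟨k, rfl⟩ := mem_ln.1 ha
  exact S.singF hu k

variable [Finite K] [FiniteDimensional K V]

theorem finF : Finite F := Finite.of_injective _ (algebraMap F K).injective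

theorem finV : FiniteDimensional F V := by
  have := S.finK
  exact Module.Finite.trans K V

theorem E_le : PK.E ≤ XK K X := by
  obtain ⟨a, h0, h1, -⟩ := S.exists_sq_ne
  exact S.oK.E_le_of_comm h0 h1 S.comm

theorem eich_mem {u w : V} {c : K} (hu : PK.Val u 0) (hw : PK.B w u = 0) (hc : PK.Val w c) :
    (Polar.eichE hu hw hc).restrictScalars F ∈ X := S.E_le (Polar.eichE_mem_E hu hw hc)

theorem exists_torus {u f : V} (hu : PK.Val u 0) (hf : PK.Val f 0) (huf : PK.B u f = 1) {a : K}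
    (ha : a ≠ 0) : ∃ t ∈ XK K X, t u = (a * a) • u ∧
      ∀ z, PK.B z u = 0 → PK.B z f = 0 → t z = z := by
  obtain ⟨t, ht, s, hs, h1, -, h3, h4⟩ := S.oK.exists_torus hu hf huf ha
  refine ⟨_, S.comm t ht s hs, ?_, fun z h5 h6 => ?_⟩
  · rw [mul_assoc, mul_assoc, ← mul_assoc s, h4, LinearEquiv.mul_apply, h1, map_smul, h1, smul_smul]
  · rw [mul_assoc, mul_assoc, ← mul_assoc s, h4, LinearEquiv.mul_apply, h3 z h5 h6, h3 z h5 h6]

end Setup

/-- `f` describes the action on `u^⊥` of an element of `X` in the unipotent radical of the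
stabiliser of the line `K u`. -/
structure Yk (PK : Polar K V) (X : Subgroup (V ≃ₗ[F] V)) (u : V) (f : V →ₗ[F] K) : Prop where
  ex : ∃ y ∈ X, ∀ z, PK.B z u = 0 → y z = z + f z • u
  zero : ∀ k : K, f (k • u) = 0

namespace Yk

variable {PK : Polar K V} {X : Subgroup (V ≃ₗ[F] V)} {u : V} {f f' : V →ₗ[F] K}

theorem congr (h : Yk PK X u f) (hu : PK.B u u = 0) (e : ∀ z, PK.B z u = 0 → f z = f' z) :
    Yk PK X u f' := by
  obtain ⟨y, hy, hy'⟩ := h.ex
  exact ⟨⟨y, hy, fun z hz => by rw [hy' z hz, e z hz]⟩,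
    fun k => by rw [← e _ (by simp [hu]), h.zero]⟩

theorem add (h : Yk PK X u f) (h' : Yk PK X u f') (hu : PK.B u u = 0) : Yk PK X u (f + f') := by
  obtain ⟨y, hy, hy1⟩ := h.ex
  obtain ⟨y', hy', hy2⟩ := h'.ex
  refine ⟨⟨y * y', X.mul_mem hy hy', fun z hz => ?_⟩, fun k => by simp [h.zero, h'.zero]⟩
  rw [LinearEquiv.mul_apply, hy2 z hz, hy1 _ (by simp [hz, hu]), map_add, h.zero]
  simp only [LinearMap.add_apply]
  module

theorem neg (h : Yk PK X u f) (hu : PK.B u u = 0) : Yk PK X u (-f) := by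
  obtain ⟨y, hy, hy1⟩ := h.ex
  refine ⟨⟨y⁻¹, X.inv_mem hy, fun z hz => ?_⟩, fun k => by simp [h.zero]⟩
  rw [show y⁻¹ z = y.symm z from rfl, LinearEquiv.symm_apply_eq, hy1 _ (by simp [hz, hu]), map_add,
    h.zero]
  simp

theorem zero' (u : V) : Yk PK X u 0 := ⟨⟨1, X.one_mem, fun z _ => by simp⟩, fun _ => rfl⟩

theorem conj (h : Yk PK X u f) {x : V ≃ₗ[F] V} (hx : x ∈ X) {ξ : K →ₗ[F] K}
    (hξ : ∀ k, x (k • u) = ξ k • u) (hξ' : Function.Surjective ξ)
    (hp : ∀ z, PK.B (x z) u = 0 → PK.B z u = 0) :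
    Yk PK X u (ξ ∘ₗ f ∘ₗ (x.symm : V →ₗ[F] V)) := by
  obtain ⟨y, hy, hy1⟩ := h.ex
  refine ⟨⟨x * y * x⁻¹, X.mul_mem (X.mul_mem hx hy) (X.inv_mem hx), fun z hz => ?_⟩, fun k => ?_⟩
  · obtain ⟨z, rfl⟩ := x.surjective z
    rw [LinearEquiv.mul_apply, LinearEquiv.mul_apply, show x⁻¹ (x z) = z from x.symm_apply_apply z,
      hy1 z (hp z hz), map_add, hξ]
    simp
  · obtain ⟨k, rfl⟩ := hξ' k
    simp [← hξ, h.zero]

end Yk

namespace Setup

variable {PF : Polar F V} {PK : Polar K V} {θ : K →ₗ[F] F} {X : Subgroup (V ≃ₗ[F] V)}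
  (S : Setup PF PK θ X) [Finite K] [FiniteDimensional K V]
include S

theorem yk_mul {u : V} (hu : PK.Val u 0) (h0 : u ≠ 0) {f : V →ₗ[F] K} (h : Yk PK X u f) (k : K) :
    Yk PK X u (LinearMap.mulLeft F k ∘ₗ f) := by
  have huu := Polar.sing_B hu
  obtain ⟨e, he, hue⟩ := S.oK.exists_partner hu h0
  have key : ∀ a : K, Yk PK X u (LinearMap.mulLeft F (a * a) ∘ₗ f) := by
    intro a
    by_cases ha : a = 0
    · exact (Yk.zero' u).congr huu fun z _ => by simp [ha]
    obtain ⟨t, ht, htu, htz⟩ := S.exists_torus hu he hue ha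
    have h1 : ∀ z, PK.B z u = 0 → t z = z + ((a * a - 1) * PK.B z e) • u := fun z hz => by
      have h2 := htz (z - PK.B z e • u) (by simp [hz, huu]) (by simp [hue])
      rw [map_sub, map_smul, htu, sub_eq_iff_eq_add] at h2
      rw [h2]; module
    have hI := S.iso ht
    refine (h.conj (x := t.restrictScalars F) ht (ξ := LinearMap.mulLeft F (a * a))
      (fun k => by simp [htu, smul_smul, mul_comm k]; rw [mul_assoc]) (fun k => ⟨k / (a * a), by simp; field_simp⟩)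
      fun z hz => ?_).congr huu fun z hz => ?_
    · refine S.eq_zero_of_θ fun k => ?_
      rw [← S.B_smul, ← Polar.Iso.B hI, LinearEquiv.restrictScalars_apply (R := F) t (k • u),
        map_smul, htu, smul_smul, S.B_smul, hz, mul_zero, map_zero]
    · have h3 : t.symm z = z - ((a * a)⁻¹ * ((a * a - 1) * PK.B z e)) • u := by
        rw [LinearEquiv.symm_apply_eq, map_sub, map_smul, htu, h1 z hz, smul_smul]
        field_simp
        simp
      simp only [LinearMap.comp_apply, LinearEquiv.coe_coe, LinearMap.mulLeft_apply]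
      rw [show (t.restrictScalars F).symm z = t.symm z from rfl, h3, map_sub, h.zero, sub_zero]
  have h2 := S.twoK
  refine ((key ((k + 1) / 2)).add ((key ((k - 1) / 2)).neg huu) huu).congr huu fun z _ => ?_
  simp only [LinearMap.add_apply, LinearMap.neg_apply, LinearMap.comp_apply,
    LinearMap.mulLeft_apply]
  field_simp
  ring

theorem yk_eich {u w : V} (hu : PK.Val u 0) (hw : PK.B w u = 0) :
    Yk PK X u (-(PK.B.flip w).restrictScalars F) := by
  obtain ⟨c, hc⟩ := PK.val_ex w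
  exact ⟨⟨_, S.eich_mem hu hw hc, fun z hz => by simp [S.oK.eich_eq, hz, sub_eq_add_neg]⟩,
    fun k => by simp [PK.B_symm hw]⟩

theorem perp_of_map {u : V} {x : V ≃ₗ[F] V} (hx : x ∈ X)
    (hxu : (ln F K u).map (x : V →ₗ[F] V) = ln F K u) (z : V) :
    PK.B (x z) u = 0 ↔ PK.B z u = 0 := by
  rw [← S.mem_perp_ln, ← S.mem_perp_ln]
  exact (Polar.Iso.mem_perp_iff (S.iso hx) (mem_stab_iff_map.2 hxu) z).symm

omit S in
theorem exists_ξ {u : V} (h0 : u ≠ 0) {x : V ≃ₗ[F] V}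
    (hxu : (ln F K u).map (x : V →ₗ[F] V) = ln F K u) :
    ∃ ξ : K →ₗ[F] K, (∀ k, x (k • u) = ξ k • u) ∧ Function.Surjective ξ := by
  have h1 : ∀ k : K, ∃ l : K, l • u = x (k • u) := fun k =>
    mem_ln.1 (hxu.le ⟨_, smul_mem_ln k u, rfl⟩)
  choose ξ hξ using h1
  have hinj := smul_left_injective K h0
  refine ⟨{ toFun := ξ
            map_add' := fun a b => hinj (by simp only [hξ, add_smul, map_add])
            map_smul' := fun c a => hinj (by simp only [hξ, smul_assoc, map_smul, RingHom.id_apply]) },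
    fun k => (hξ k).symm, fun k => ?_⟩
  obtain ⟨y, hy, hy'⟩ := hxu.ge (smul_mem_ln (F := F) k u)
  obtain ⟨l, rfl⟩ := mem_ln.1 hy
  exact ⟨l, hinj ((hξ l).trans hy')⟩

/-- If the stabiliser of `K u` is not semilinear on it then the whole quotient of the unipotent
radical by its centre is covered. -/
theorem yk_all {u : V} (hu : PK.Val u 0) (h0 : u ≠ 0) {x : V ≃ₗ[F] V} (hx : x ∈ X)
    (hxu : (ln F K u).map (x : V →ₗ[F] V) = ln F K u) {l : K}
    (hl : ¬ ∃ l' : K, ∀ k : K, x ((l * k) • u) = l' • x (k • u)) (a : End F K) {f : V →ₗ[F] K}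
    (h : Yk PK X u f) : Yk PK X u (a ∘ₗ f) := by
  have := S.finK
  have huu := Polar.sing_B hu
  let A : Subalgebra F (End F K) :=
    { carrier := {a | ∀ f, Yk PK X u f → Yk PK X u (a ∘ₗ f)}
      mul_mem' := fun ha hb f hf => ha _ (hb f hf)
      add_mem' := fun ha hb f hf => ((ha f hf).add (hb f hf) huu).congr huu fun _ _ => rfl
      algebraMap_mem' := fun c f hf => (S.yk_mul hu h0 hf (algebraMap F K c)).congr huu
        fun z _ => by simp [Algebra.smul_def] }
  obtain ⟨ξ, hξ, hξ'⟩ := exists_ξ h0 hxu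
  have hxu' : (ln F K u).map ((x⁻¹ : V ≃ₗ[F] V) : V →ₗ[F] V) = ln F K u :=
    mem_stab_iff_map.1 ((stab _).inv_mem (mem_stab_iff_map.2 hxu))
  obtain ⟨η, hη, hη'⟩ := exists_ξ h0 hxu'
  have hηξ : ∀ k, η (ξ k) = k := fun k => smul_left_injective K h0 (by
    simp only [← hη, ← hξ]; exact x.symm_apply_apply _)
  have h1 : ξ ∘ₗ LinearMap.mulLeft F l ∘ₗ η ∈ A := fun f hf =>
    ((S.yk_mul hu h0 (hf.conj (X.inv_mem hx) hη hη' fun z => (S.perp_of_map (X.inv_mem hx) hxu' z).1)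
      l).conj hx hξ hξ' fun z => (S.perp_of_map hx hxu z).1).congr huu fun z _ => by
        simp [show ∀ y, (x⁻¹).symm y = x y from fun _ => rfl]
  have h2 := eq_top_of_mul S.prime A (fun k f hf => S.yk_mul hu h0 hf k) h1 (by
    rintro ⟨l', hl'⟩
    refine hl ⟨l', fun k => ?_⟩
    have := hl' (ξ k)
    simp only [LinearMap.comp_apply, hηξ, LinearMap.mulLeft_apply] at this
    rw [hξ, hξ, this, mul_smul])
  exact (h2 ▸ Algebra.mem_top : a ∈ A) f h

end Setup

/-- All Eichler transformations in the unipotent radical of the stabiliser of `K u` lie in `X`. -/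
def Full (PF : Polar F V) (PK : Polar K V) (X : Subgroup (V ≃ₗ[F] V)) (u : V) : Prop :=
  ∀ (k : K) (w : V) (c : F), PK.B w u = 0 → PF.Val w c → PF.EI X (k • u) w c

namespace Setup

variable {PF : Polar F V} {PK : Polar K V} {θ : K →ₗ[F] F} {X : Subgroup (V ≃ₗ[F] V)}
  (S : Setup PF PK θ X) [Finite K] [FiniteDimensional K V]
include S

theorem exists_perp_notMem (hm : 3 ≤ finrank K V) (u : V) : ∃ w, PK.B w u = 0 ∧ w ∉ K ∙ u := by
  obtain ⟨w, hw, hw'⟩ := exists_notMem_of_finrank_lt (U := K ∙ u) (W := PK.perp (K ∙ u)) (by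
    have := PK.finrank_perp (K ∙ u)
    have := finrank_span_singleton_le (F := K) u
    omega)
  exact ⟨w, by simpa [Polar.perp_span_singleton] using hw, hw'⟩

theorem full_of_yk (hm : 3 ≤ finrank K V) {u : V} (hu : PK.Val u 0)
    (h : ∀ (a : End F K) (f : V →ₗ[F] K), Yk PK X u f → Yk PK X u (a ∘ₗ f)) :
    Full PF PK X u := by
  have := S.finF
  have := S.finV
  have huu := Polar.sing_B hu
  have key : ∀ (k : K) (w : V) (c : F), PK.B w u = 0 →
      ∃ y ∈ X, ∀ z ∈ PF.perp (ln F K u), y z = PF.eich (k • u) w c z := by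
    intro k w c hw
    obtain ⟨y, hy, hy'⟩ := (h (θ.smulRight k) _ (S.yk_eich hu hw)).ex
    refine ⟨y, hy, fun z hz => ?_⟩
    rw [hy' z (S.mem_perp_ln.1 hz), S.oF.eich_eq, hz _ (smul_mem_ln k u), S.B]
    simp [sub_eq_add_neg]
  have hperp : ∀ {w : V}, PK.B w u = 0 → ∀ k : K, PF.B w (k • u) = 0 := fun hw k => by
    rw [S.B_smul, hw, mul_zero, map_zero]
  have hZ : ∀ a ∈ ln F K u, ∀ b ∈ ln F K u, PF.EI X a b 0 := by
    intro a ha b hb
    obtain ⟨k, rfl⟩ := mem_ln.1 ha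
    obtain ⟨k', rfl⟩ := mem_ln.1 hb
    obtain ⟨w, hw, hw'⟩ := S.exists_perp_notMem hm u
    obtain ⟨w', hw1, hw2⟩ := Polar.exists_sep (P := PK) hw' (-k')
    rw [Polar.perp_span_singleton, Polar.mem_pp] at hw1
    obtain ⟨c, hc⟩ := PF.val_ex w
    obtain ⟨c', hc'⟩ := PK.val_ex w'
    obtain ⟨y, hy, hy'⟩ := key k w c hw
    have h1 : (Polar.eichE hu hw1 hc').restrictScalars F w - w = k' • u := by
      simp [S.oK.eich_eq, hw, hw2]
    have := S.oF.EI_comm S.iso ha (S.singF hu k) (hperp hw k) hc hy hy' (S.eich_mem hu hw1 hc')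
      (fun z hz => by
        obtain ⟨l, rfl⟩ := mem_ln.1 hz
        simp [S.oK.eich_eq, huu, PK.B_symm hw1]) (c' := 0) (h1 ▸ S.singF hu k')
    rwa [h1] at this
  intro k w c hw hc
  obtain ⟨y, hy, hy'⟩ := key k w c hw
  have h1 := S.oF.mem_of_fix_perp (fun a ha => S.singF' hu ha) hZ
    (g := y⁻¹ * Polar.eichE (S.singF hu k) (hperp hw k) hc)
    (PF.Iso.mul_mem (PF.Iso.inv_mem (S.iso hy)) (Polar.eichE_mem_Iso _ _ _)) fun z hz => by
      rw [LinearEquiv.mul_apply, Polar.eichE_apply, ← hy' z hz]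
      exact y.symm_apply_apply z
  exact Polar.EI_of_mem _ _ hc (by simpa using X.mul_mem hy h1)

theorem full_all (hm : 3 ≤ finrank K V) {u : V} (hu : PK.Val u 0) (h0 : u ≠ 0)
    (h : Full PF PK X u) {v : V} (hv : PK.Val v 0) (hv0 : v ≠ 0) : Full PF PK X v := by
  obtain ⟨g, hg, a, ha, hgu⟩ := S.oK.exists_move S.twoK hm hu h0 hv hv0
  intro k w c hw hc
  have hgX := S.E_le hg
  obtain ⟨w, rfl⟩ := g.surjective w
  have h1 : PK.B w u = 0 := by
    rw [← Polar.Iso.B (Polar.E_le_Iso hg), hgu, S.oK.smul_right, hw, mul_zero]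
  have := (h (k / a) w c h1 ((Polar.Iso.val_iff (S.iso hgX)).1 hc)).conj hgX (S.iso hgX)
  rwa [LinearEquiv.restrictScalars_apply, map_smul, hgu, smul_smul, div_mul_cancel₀ _ ha] at this

theorem fullA_of_full (hm : 3 ≤ finrank K V)
    (h : ∀ v, PK.Val v 0 → v ≠ 0 → Full PF PK X v) {u : V} (hu : PK.Val u 0) (h0 : u ≠ 0) :
    PF.FullA X u := by
  have := S.finF
  have := S.finV
  have huF : PF.Val u 0 := by simpa using S.singF hu 1
  have h1 : ∀ z, PK.B z u = 0 → z ∈ PF.eSub X huF := fun z hz =>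
    Polar.mem_eSub_of_sub huF (M := PF.perp (ln F K u)) (fun w hw c _ hc => by
      simpa using h u hu h0 1 w c (S.mem_perp_ln.1 hw) hc) (S.mem_perp_ln.2 hz)
      (by rw [S.B, hz, map_zero])
  refine Polar.fullA_of_eSub huF (fun c hc => S.oF.lam c hc ▸ Polar.EI.zero u) fun w hw => ?_
  obtain ⟨f, hf, huf⟩ := S.oK.exists_partner hu h0
  have hf0 : f ≠ 0 := fun e => by simp [e] at huf
  have hfu : PK.B f u = 1 := by rw [S.oK.comm, huf]
  have hw' : θ (PK.B w u) = 0 := by rw [← S.B]; exact hw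
  obtain ⟨k, hk⟩ : ∃ k, k = PK.B w u := ⟨_, rfl⟩
  rw [← hk] at hw'
  suffices h2 : k • f ∈ PF.eSub X huF by
    simpa using Submodule.add_mem _ (h1 (w - k • f) (by simp [hk, hfu])) h2
  obtain ⟨z, -, hz1, hz2, hz3⟩ := S.oK.exists_aniso_perp_pair S.twoK (N := ⊤) (Polar.sing_B hu)
    (Polar.sing_B hf) (by simp [huf]) trivial trivial (by rw [IsO.top_inf_perp, finrank_top]; omega)
  obtain ⟨l, hl⟩ := S.exists_θ_one
  obtain ⟨w', hw1⟩ : ∃ w', w' = (-l / PK.B z z) • z := ⟨_, rfl⟩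
  have h3 : PK.B w' f = 0 := by simp [hw1, hz2]
  have h4 : PK.B w' u = 0 := by simp [hw1, hz1]
  obtain ⟨c, hc⟩ := PF.val_ex w'
  obtain ⟨g, hg, hg'⟩ := h f hf hf0 k w' c h3 hc
  have h5 := Polar.apply_mem_eSub huF hg (S.iso hg) (by
    rw [hg', Polar.eich_fix] <;> simp [S.B, S.oK.smul_right, huf, hw', PK.B_symm h4]) (h1 z hz1)
  rw [hg', S.oF.eich_eq, S.B_smul, hz2, hw1, S.B_smul, div_mul_cancel₀ _ hz3] at h5
  simp only [mul_zero, map_zero, zero_smul, add_zero, map_neg, hl, neg_smul, one_smul,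
    sub_neg_eq_add] at h5
  exact (Submodule.add_mem_iff_right _ (h1 z hz1)).1 h5

theorem E_le_of_not_semi (hm : 3 ≤ finrank K V) {u : V} (hu : PK.Val u 0) (h0 : u ≠ 0)
    {x : V ≃ₗ[F] V} (hx : x ∈ X) (hxu : (ln F K u).map (x : V →ₗ[F] V) = ln F K u) {l : K}
    (hl : ¬ ∃ l' : K, ∀ k : K, x ((l * k) • u) = l' • x (k • u)) : PF.E ≤ X := by
  have := S.finF
  have := S.finV
  have h1 := S.full_of_yk hm hu fun a f hf => S.yk_all hu h0 hx hxu hl a hf
  have h2 := fun v hv hv0 => S.fullA_of_full hm (fun v => S.full_all hm hu h0 h1) (u := v) hv hv0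
  obtain ⟨f, hf, huf⟩ := S.oK.exists_partner hu h0
  have hf0 : f ≠ 0 := fun e => by simp [e] at huf
  obtain ⟨k, hk⟩ := S.exists_θ_one
  have hk0 : k ≠ 0 := fun e => by simp [e] at hk
  refine Polar.E_le_of_fullA (S.singF hf k) (by simpa using S.singF hu 1)
    (h2 _ (Polar.sing_smul hf k) (smul_ne_zero hk0 hf0)) (h2 u hu h0) ?_
  simp [S.B_smul, huf, hk]

end Setup

end Cfsg.Agent.H1.OExt
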