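import Cfsg.Agent.H1.OExtA

/-!
Extension-field subgroups of orthogonal groups: the orbit of the singular lines over the
extension field.
-/

set_option autoImplicit false
set_option linter.unusedSectionVars false
set_option linter.unusedSimpArgs false

namespace Cfsg.Agent.H1.OExt

open Module Cfsg.Agent.H7 Cfsg.Agent.H3.Ext

variable {F K V : Type*} [Field F] [Field K] [Algebra F K] [AddCommGroup V] [Module F V]
  [Module K V] [IsScalarTower F K V]

/-- The images under `X` of the singular lines over `K`. -/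
def Mem (PK : Polar K V) (X : Subgroup (V ≃ₗ[F] V)) (A : Submodule F V) : Prop :=
  ∃ g ∈ X, ∃ u, u ≠ 0 ∧ PK.Val u 0 ∧ A = (ln F K u).map (g : V →ₗ[F] V)

/-- The stabilisers of singular lines act semilinearly on them. -/
def Bad (PK : Polar K V) (X : Subgroup (V ≃ₗ[F] V)) : Prop :=
  ∀ u, u ≠ 0 → PK.Val u 0 → ∀ x ∈ X, (ln F K u).map (x : V →ₗ[F] V) = ln F K u →
    ∀ l : K, ∃ l' : K, ∀ k : K, x ((l * k) • u) = l' • x (k • u)

section

variable {PK : Polar K V} {X : Subgroup (V ≃ₗ[F] V)}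

theorem Mem.map {A : Submodule F V} (h : Mem PK X A) {g : V ≃ₗ[F] V} (hg : g ∈ X) :
    Mem PK X (A.map (g : V →ₗ[F] V)) := by
  obtain ⟨g', hg', u, h0, hu, rfl⟩ := h
  exact ⟨g * g', X.mul_mem hg hg', u, h0, hu, by rw [← Submodule.map_comp]; rfl⟩

theorem mem_of_sing {u : V} (h0 : u ≠ 0) (hu : PK.Val u 0) : Mem PK X (ln F K u) :=
  ⟨1, X.one_mem, u, h0, hu, (Submodule.map_id _).symm⟩

theorem Mem.finrank_eq {A : Submodule F V} (h : Mem PK X A) : finrank F A = finrank F K := by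
  obtain ⟨g', hg', u, h0, hu, rfl⟩ := h
  rw [LinearEquiv.finrank_map_eq, finrank_ln h0]

theorem Bad.exists_aut (hb : Bad PK X) {A : Submodule F V} (h : Mem PK X A) {y : V ≃ₗ[F] V}
    (hy : y ∈ X) (hyA : A.map (y : V →ₗ[F] V) = A) {d : V} (hd : d ∈ A) (hd0 : d ≠ 0)
    (hyd : y d = d) : ∃ (e : K →ₗ[F] V) (σ : K →ₐ[F] K), Function.Injective e ∧ e 1 = d ∧
      (∀ a, a ∈ A ↔ ∃ k, e k = a) ∧ ∀ k, y (e k) = e (σ k) := by
  obtain ⟨g, hg, u, h0, hu, rfl⟩ := h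
  obtain ⟨u', hu', rfl⟩ := hd
  have h0' : u' ≠ 0 := fun e => hd0 (by simp [e])
  have hu1 : PK.Val u' 0 := by
    obtain ⟨k, rfl⟩ := mem_ln.1 hu'
    exact Polar.sing_smul hu k
  rw [← ln_eq hu' h0'] at hyA ⊢
  have h1 := hb u' h0' hu1 (g⁻¹ * y * g) (X.mul_mem (X.mul_mem (X.inv_mem hg) hy) hg) (by
    apply Submodule.map_injective_of_injective (f := (g : V →ₗ[F] V)) g.injective
    rw [← Submodule.map_comp, ← hyA, ← Submodule.map_comp]
    congr 1
    ext x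
    exact g.apply_symm_apply _)
  choose σ hσ using h1
  let e : K →ₗ[F] V := (g : V →ₗ[F] V) ∘ₗ (LinearMap.toSpanSingleton K V u').restrictScalars F
  have he : ∀ k, e k = g (k • u') := fun _ => rfl
  have hinj : Function.Injective e := g.injective.comp (smul_left_injective K h0')
  have h2 : ∀ k, (g⁻¹ * y * g) (k • u') = g.symm (y (e k)) := fun _ => rfl
  have h3 : ∀ k, y (e k) = e (σ k) := fun k => by
    have := hσ k 1
    rw [mul_one, h2, h2, he 1, one_smul, show y (g u') = g u' from hyd, g.symm_apply_apply,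
      LinearEquiv.symm_apply_eq] at this
    exact this
  refine ⟨e,
    { toFun := σ
      map_one' := hinj (by rw [← h3, he, one_smul]; exact hyd)
      map_mul' := fun a b => hinj (by
        have := hσ a b
        rw [h2, h2, h3 b, he (σ b), g.symm_apply_apply, LinearEquiv.symm_apply_eq, smul_smul] at this
        rw [← h3, this, he])
      map_zero' := hinj (by rw [← h3]; simp)
      map_add' := fun a b => hinj (by simp only [map_add, ← h3])
      commutes' := fun c => hinj (by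
        rw [← h3, Algebra.algebraMap_eq_smul_one, map_smul, map_smul, he, one_smul]
        exact congrArg _ hyd) }, hinj, by rw [he, one_smul]; rfl, fun a => ?_, h3⟩
  constructor
  · rintro ⟨_, hv, rfl⟩
    obtain ⟨k, rfl⟩ := mem_ln.1 hv
    exact ⟨k, rfl⟩
  · rintro ⟨k, rfl⟩
    exact ⟨_, smul_mem_ln k u', rfl⟩

theorem Bad.fix_two (hb : Bad PK X) (hr : (finrank F K).Prime) {A : Submodule F V}
    (h : Mem PK X A) {y : V ≃ₗ[F] V} (hy : y ∈ X) (hyA : A.map (y : V →ₗ[F] V) = A) {d s : V}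
    (hd : d ∈ A) (hd0 : d ≠ 0) (hyd : y d = d) (hs : s ∈ A) (hsd : s ∉ F ∙ d) (hys : y s = s)
    {a : V} (ha : a ∈ A) : y a = a := by
  obtain ⟨e, σ, hinj, rfl, hA, he⟩ := hb.exists_aut h hy hyA hd hd0 hyd
  obtain ⟨k, rfl⟩ := (hA s).1 hs
  obtain ⟨l, rfl⟩ := (hA a).1 ha
  have h1 : k ∈ AlgHom.equalizer σ (AlgHom.id F K) := hinj (by rw [← he]; exact hys)
  have := Subalgebra.isSimpleOrder_of_finrank_prime F K hr
  rcases eq_bot_or_eq_top (AlgHom.equalizer σ (AlgHom.id F K)) with h2 | h2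
  · obtain ⟨c, rfl⟩ := Algebra.mem_bot.mp (h2 ▸ h1)
    exact absurd (Submodule.mem_span_singleton.2
      ⟨c, by rw [Algebra.algebraMap_eq_smul_one, map_smul]⟩) hsd
  · rw [he, show σ l = l from (h2 ▸ Algebra.mem_top : l ∈ AlgHom.equalizer σ (AlgHom.id F K))]

theorem Bad.no_shift (hb : Bad PK X) (h2 : (2 : K) ≠ 0) {A : Submodule F V}
    (h : Mem PK X A) {y : V ≃ₗ[F] V} (hy : y ∈ X) (hyA : A.map (y : V →ₗ[F] V) = A) {d s : V}
    (hd : d ∈ A) (hd0 : d ≠ 0) (hyd : y d = d) (hs : s ∈ A) (hys : y s = s + d)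
    (hq : ∀ a ∈ A, y (y a - a) = y a - a) : False := by
  obtain ⟨e, σ, hinj, rfl, hA, he⟩ := hb.exists_aut h hy hyA hd hd0 hyd
  obtain ⟨k, rfl⟩ := (hA s).1 hs
  have h1 : σ k = k + 1 := hinj (by rw [← he, hys, map_add])
  have h3 := hq _ ((hA _).2 ⟨k * k, rfl⟩)
  rw [he, ← map_sub, he] at h3
  have h4 := hinj h3
  simp only [map_sub, map_mul, map_add, h1, map_one] at h4
  exact h2 (by linear_combination h4)

theorem finrank_map_inf (g : V ≃ₗ[F] V) (L A : Submodule F V) :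
    finrank F ↥(L.map (g : V →ₗ[F] V) ⊓ A) =
      finrank F ↥(L ⊓ A.map ((g⁻¹ : V ≃ₗ[F] V) : V →ₗ[F] V)) := by
  rw [← LinearEquiv.finrank_map_eq g (L ⊓ _), Submodule.map_inf _ g.injective,
    ← Submodule.map_comp, show (g : V →ₗ[F] V) ∘ₗ ((g⁻¹ : V ≃ₗ[F] V) : V →ₗ[F] V) = LinearMap.id from
      LinearMap.ext g.apply_symm_apply, Submodule.map_id]

theorem map_eq_of_inv [FiniteDimensional F V] {j : ℕ}
    (hmax : ∀ A₁ A₂, Mem PK X A₁ → Mem PK X A₂ → A₁ ≠ A₂ → finrank F ↥(A₁ ⊓ A₂) ≤ j)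
    {A N : Submodule F V} (h : Mem PK X A) {y : V ≃ₗ[F] V} (hy : y ∈ X) (hN : N ≤ A)
    (hj : j < finrank F N) (hyN : ∀ n ∈ N, y n ∈ N) : A.map (y : V →ₗ[F] V) = A := by
  by_contra hne
  have h1 := hmax _ _ (h.map hy) h hne
  have h2 : N ≤ A.map (y : V →ₗ[F] V) ⊓ A :=
    le_inf (mem_stab_iff_map.1 (mem_stab_of_forall hyN) ▸ Submodule.map_mono hN) hN
  have := Submodule.finrank_mono h2
  omega

end

/-- An additive map fixing every singular point is a scalar. -/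
theorem scalar_of_sing [Finite K] [FiniteDimensional K V] {P : Polar K V} (h : IsO P)
    (h2 : (2 : K) ≠ 0) (hm : 3 ≤ finrank K V) (f : V →+ V)
    (hf : ∀ u, P.Val u 0 → ∃ k : K, f u = k • u) : ∃ k : K, ∀ x, f x = k • x := by
  have key : ∀ e e' z : V, P.Val e 0 → P.Val e' 0 → P.B e e' = 1 → P.B z e = 0 → P.B z e' = 0 →
      ∀ k : K, f e = k • e → ∃ a : K, f z = k • z + a • e' := by
    intro e e' z he he' hee hz hz' k hk
    obtain ⟨c, hc⟩ := P.val_ex z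
    have h1 : ∀ z, P.B z e = 0 → P.B z e' = 0 → P.Val z c → P.Val (e + z - c • e') 0 :=
      fun z hz hz' hc => Polar.val_congr' (Polar.eich_val he' hz' hc he)
        (by simp [h.eich_eq, hee, P.B_symm hz]) rfl
    obtain ⟨k1, hk1⟩ := hf _ (h1 z hz hz' hc)
    obtain ⟨k2, hk2⟩ := hf _ (h1 (-z) (by simp [hz]) (by simp [hz']) (Polar.val_neg hc))
    obtain ⟨k3, hk3⟩ := hf _ (Polar.sing_smul he' c)
    simp only [map_sub, map_add, map_neg, hk, hk3] at hk1 hk2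
    have h3 : (k1 + k2 - 2 * k) • e + (k1 - k2) • z + (2 * k3 * c - (k1 + k2) * c) • e' = 0 := by
      linear_combination (norm := module) -hk1 - hk2
    have h4 := congrArg (fun x => P.B x e') h3
    have h5 := congrArg (fun x => P.B x e) h3
    simp only [map_add, map_smul, LinearMap.add_apply, LinearMap.smul_apply, hee, hz, hz',
      Polar.sing_B he, Polar.sing_B he', smul_eq_mul, mul_one, mul_zero, add_zero, map_zero,
      LinearMap.zero_apply, zero_add, h.comm e' e] at h4 h5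
    rw [h4, h5, zero_smul, zero_smul, zero_add, add_zero] at h3
    have h6 : (k1 - k) • z = 0 := by
      have : (2 : K) • (k1 - k) • z = 0 := by
        rw [← h3, smul_smul]; congr 1; linear_combination h4
      exact (smul_eq_zero.1 this).resolve_left h2
    have h7 := congrArg (fun x => P.B x e') hk1
    simp only [map_add, map_smul, map_sub, LinearMap.add_apply, LinearMap.smul_apply,
      LinearMap.sub_apply, hee, hz', Polar.sing_B he', smul_eq_mul, mul_one, mul_zero, add_zero,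
      sub_zero] at h7
    by_cases hz0 : z = 0
    · exact ⟨0, by simp [hz0]⟩
    have h8 : k1 = k := sub_eq_zero.1 ((smul_eq_zero.1 h6).resolve_right hz0)
    exact ⟨k3 * c - k * c, by rw [h8] at hk1; linear_combination (norm := module) hk1⟩
  have key2 : ∀ e e' z : V, P.Val e 0 → P.Val e' 0 → P.B e e' = 1 → P.B z e = 0 → P.B z e' = 0 →
      ∀ k : K, f e = k • e → f z = k • z := by
    intro e e' z he he' hee hz hz' k hk
    obtain ⟨k', hk'⟩ := hf e' he'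
    obtain ⟨a, ha⟩ := key e e' z he he' hee hz hz' k hk
    obtain ⟨b, hb⟩ := key e' e z he' he (by rw [h.comm, hee]) hz' hz k' hk'
    have h3 := congrArg (fun x => P.B x e) (ha.symm.trans hb)
    simp only [map_add, map_smul, LinearMap.add_apply, LinearMap.smul_apply, hz, smul_eq_mul,
      Polar.sing_B he, mul_zero, zero_add, h.comm e' e, hee, mul_one] at h3
    rw [ha, h3, zero_smul, add_zero]
  obtain ⟨e, -, he0, he⟩ := Polar.wild_three_of_σ h.σ ⊤ (by rwa [finrank_top])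
  obtain ⟨e', he', hee⟩ := h.exists_partner he he0
  obtain ⟨z, -, hz, hz', hzz⟩ := h.exists_aniso_perp_pair h2 (N := ⊤) (Polar.sing_B he)
    (Polar.sing_B he') (by simp [hee]) trivial trivial
    (by rw [IsO.top_inf_perp, finrank_top]; omega)
  have hz0 : z ≠ 0 := fun e => hzz (by simp [e])
  obtain ⟨k, hk⟩ := hf e he
  have h3 := key2 e e' z he he' hee hz hz' k hk
  have h4 : ∀ e e' : V, P.Val e 0 → P.Val e' 0 → P.B e e' = 1 → P.B z e = 0 → P.B z e' = 0 →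
      ∀ c : K, f (c • e) = k • c • e := by
    intro e e' he he' hee hz hz' c
    by_cases hc : c = 0
    · simp [hc]
    obtain ⟨k', hk'⟩ := hf _ (Polar.sing_smul he c)
    have := key2 (c • e) (c⁻¹ • e') z (Polar.sing_smul he c) (Polar.sing_smul he' _)
      (by simp [h.σ, hee, hc]) (by simp [hz]) (by simp [hz']) k' hk'
    rw [hk', smul_left_injective K hz0 (this.symm.trans h3)]
  refine ⟨k, fun x => ?_⟩
  have h5 := key2 e e' (x - P.B x e' • e - P.B x e • e') he he' hee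
    (by simp [Polar.sing_B he, h.comm e' e, hee]) (by simp [Polar.sing_B he', hee]) k hk
  rw [map_sub, map_sub, h4 e e' he he' hee hz hz', h4 e' e he' he (by rw [h.comm, hee]) hz' hz] at h5
  linear_combination (norm := module) h5

namespace Setup

variable {PF : Polar F V} {PK : Polar K V} {θ : K →ₗ[F] F} {X : Subgroup (V ≃ₗ[F] V)}
  (S : Setup PF PK θ X) [Finite K] [FiniteDimensional K V]
include S

theorem mem_B {A : Submodule F V} (h : Mem PK X A) {a b : V} (ha : a ∈ A) (hb : b ∈ A) :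
    PF.B a b = 0 := by
  obtain ⟨g, hg, u, h0, hu, rfl⟩ := h
  obtain ⟨a, ha, rfl⟩ := ha
  obtain ⟨b, hb, rfl⟩ := hb
  obtain ⟨k, rfl⟩ := mem_ln.1 ha
  obtain ⟨l, rfl⟩ := mem_ln.1 hb
  rw [LinearEquiv.coe_coe, Polar.Iso.B (S.iso hg), S.B_smul]
  simp [Polar.sing_B hu]

theorem semi_of_mem (hm : 3 ≤ finrank K V)
    (h : ∀ A, Mem PK X A → ∃ u, A = ln F K u) {g : V ≃ₗ[F] V} (hg : g ∈ X) : Semi K g := by
  intro l
  obtain ⟨k, hk⟩ := scalar_of_sing S.oK S.twoK hm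
    (g.toAddEquiv.toAddMonoidHom.comp ((DistribSMul.toAddMonoidHom V l).comp
      g.symm.toAddEquiv.toAddMonoidHom)) fun u hu => by
      by_cases h0 : u = 0
      · exact ⟨0, by simp [h0]⟩
      obtain ⟨u', hu'⟩ := h _ ((mem_of_sing h0 hu).map (X.inv_mem hg))
      obtain ⟨a, ha, ha'⟩ := hu'.ge (ln_smul_mem (hu'.le ⟨u, self_mem_ln u, rfl⟩) l)
      obtain ⟨k, rfl⟩ := mem_ln.1 ha
      exact ⟨k, (g.symm_apply_eq.1 ha').symm⟩
  exact ⟨k, fun x => by simpa using hk (g x)⟩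

theorem eq_ln_of_disjoint (hm : 4 ≤ finrank K V)
    (hmax : ∀ A₁ A₂, Mem PK X A₁ → Mem PK X A₂ → A₁ ≠ A₂ → finrank F ↥(A₁ ⊓ A₂) ≤ 0)
    {A : Submodule F V} (h : Mem PK X A) : ∃ u, A = ln F K u := by
  have := S.finV
  have := S.finK
  have key : ∀ e ∈ A, e ≠ 0 → PK.Val e 0 → A = ln F K e := fun e he h0 hes => by
    by_contra hne
    have h1 := hmax _ _ h (mem_of_sing h0 hes) hne
    rw [Nat.le_zero, Submodule.finrank_eq_zero] at h1
    exact h0 (h1.le ⟨he, self_mem_ln e⟩)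
  obtain ⟨x, hx, hx0⟩ := exists_notMem_of_finrank_lt (U := ⊥) (W := A) (by
    rw [h.finrank_eq, finrank_bot]; exact S.prime.pos)
  replace hx0 : x ≠ 0 := by simpa using hx0
  by_cases hxx : PK.B x x = 0
  · exact ⟨x, key x hx hx0 ((S.oK.sing_iff S.twoK).2 hxx)⟩
  exfalso
  obtain ⟨a, ha, hax⟩ : ∃ a ∈ A, a ∉ K ∙ x := by
    by_contra! hcon
    have h1 : A = ln F K x := Submodule.eq_of_le_of_finrank_eq hcon
      (by rw [h.finrank_eq, finrank_ln hx0])
    exact hxx (S.eq_zero_of_θ fun k => by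
      rw [← S.B_smul]; exact S.mem_B h hx (h1 ▸ smul_mem_ln k x))
  obtain ⟨N, hN⟩ : ∃ N, N = PK.perp (K ∙ x) := ⟨_, rfl⟩
  have hN1 : PK.perp N = K ∙ x := by rw [hN, Polar.perp_perp]
  have hN2 : ∀ z, z ∈ N ↔ PK.B z x = 0 := fun z => by rw [hN, Polar.perp_span_singleton]; rfl
  have hN3 : N ⊓ PK.perp N = ⊥ := by
    rw [eq_bot_iff, hN1]
    rintro _ ⟨h1, h2⟩
    obtain ⟨k, rfl⟩ := Submodule.mem_span_singleton.1 h2
    have := (hN2 _).1 h1
    simp only [map_smul, LinearMap.smul_apply, smul_eq_mul, mul_eq_zero, hxx, or_false] at this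
    simp [this]
  have hN4 : 3 ≤ finrank K N := by
    have := PK.finrank_perp (K ∙ x)
    have := finrank_span_singleton_le (F := K) x
    rw [hN]; omega
  obtain ⟨e0, he0, he0', he0s⟩ := Polar.wild_three_of_σ S.oK.σ N hN4
  obtain ⟨e, he, hes, hae⟩ := S.oK.exists_sing_ne_of_sub he0 he0s
    (fun h => he0' (hN3.le ⟨he0, h⟩)) (z := a) (hN1 ▸ hax)
  obtain ⟨w, hw, w', hw', hww⟩ := Polar.exists_nonperp_pair (P := PK) he (by
    rw [hN3, finrank_bot]; omega)
  obtain ⟨z, hz, hzz⟩ := S.oK.exists_aniso S.twoK hw hw' hww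
  obtain ⟨c, hc⟩ := PK.val_ex z
  have hze : PK.B z e = 0 := hz.2
  have hρ := S.eich_mem hes hze hc
  have h1 := map_eq_of_inv hmax h hρ (N := F ∙ x) (by simpa using hx)
    (by rw [finrank_span_singleton hx0]; omega) fun n hn => by
      obtain ⟨t, rfl⟩ := Submodule.mem_span_singleton.1 hn
      rw [map_smul, LinearEquiv.restrictScalars_apply, Polar.eichE_apply,
        Polar.eich_fix _ (PK.B_symm ((hN2 e).1 he)) (PK.B_symm ((hN2 z).1 hz.1))]
      exact hn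
  have h2 : ∀ a ∈ A, PK.eich e z c a - a ∈ A := fun a ha => A.sub_mem (h1.le ⟨a, ha, rfl⟩) ha
  have h3 := h2 _ (h2 a ha)
  have h4 : PK.eich e z c (PK.eich e z c a - a) - (PK.eich e z c a - a) =
      (-(PK.B a e * PK.B z z)) • e := by
    simp only [S.oK.eich_eq, map_add, map_sub, map_smul, LinearMap.add_apply, LinearMap.sub_apply,
      LinearMap.smul_apply, hze, PK.B_symm hze, Polar.sing_B hes, smul_eq_mul]
    module
  rw [h4] at h3
  have he0 : e ≠ 0 := fun h => hae (by simp [h])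
  have h5 := key _ h3 (smul_ne_zero (by simp [hae, hzz]) he0) (Polar.sing_smul hes _)
  obtain ⟨k, rfl⟩ := mem_ln.1 (h5 ▸ hx)
  exact hxx (by simp [Polar.sing_B hes])

variable {j : ℕ}
  (hmax : ∀ A₁ A₂, Mem PK X A₁ → Mem PK X A₂ → A₁ ≠ A₂ → finrank F ↥(A₁ ⊓ A₂) ≤ j)
include hmax

theorem map_eq_of_shift {L A : Submodule F V} (h : Mem PK X A) (hj : j ≤ finrank F ↥(L ⊓ A))
    {s : V} (hs : s ∈ A) (hsL : s ∉ L) {y : V ≃ₗ[F] V} (hy : y ∈ X)
    (hyD : ∀ d ∈ L ⊓ A, y d = d) (hys : y s - s ∈ L ⊓ A) : A.map (y : V →ₗ[F] V) = A := by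
  have := S.finV
  refine map_eq_of_inv hmax h hy (N := (L ⊓ A) ⊔ F ∙ s) (sup_le inf_le_right (by simpa using hs))
    (by rw [Submodule.finrank_sup_span_singleton (p := L ⊓ A) (fun h => hsL h.1)]; omega)
    fun n hn => ?_
  obtain ⟨d, hd, c, rfl⟩ := mem_sup_span_singleton.1 hn
  refine mem_sup_span_singleton.2 ⟨d + c • (y s - s), Submodule.add_mem _ hd
    (Submodule.smul_mem _ _ hys), c, ?_⟩
  rw [map_add, map_smul, hyD d hd]; module

theorem caseA (hm : 4 ≤ finrank K V) (hb : Bad PK X) (hj0 : 0 < j) {u : V}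
    (hu : PK.Val u 0) {A : Submodule F V} (h : Mem PK X A) (hj : j ≤ finrank F ↥(ln F K u ⊓ A))
    {s : V} (hs : s ∈ A) (hsL : s ∉ ln F K u) (hsu : PK.B s u = 0) : False := by
  have := S.finV
  obtain ⟨d, hd, hd0⟩ := exists_notMem_of_finrank_lt (U := ⊥) (W := ln F K u ⊓ A) (by
    rw [finrank_bot]; omega)
  replace hd0 : d ≠ 0 := by simpa using hd0
  have hfix : ∀ {w : V} {c : K}, PK.B w u = 0 → ∀ d ∈ ln F K u, PK.eich u w c d = d :=
    fun hw d hd => by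
      obtain ⟨k, rfl⟩ := mem_ln.1 hd
      exact Polar.eich_fix _ (by simp [Polar.sing_B hu]) (by simp [PK.B_symm hw])
  have h1 : ∀ a ∈ A, PK.B a u = 0 := by
    intro a ha
    obtain ⟨w, hw, hw'⟩ := exists_notMem_of_finrank_lt (U := K ∙ u) (W := ⊤ ⊓ PK.pp u ⊓ PK.pp s) (by
      have := Polar.finrank_inf_pp_ge (P := PK) ⊤ u
      have := Polar.finrank_inf_pp_ge (P := PK) (⊤ ⊓ PK.pp u) s
      have := finrank_span_singleton_le (F := K) u
      rw [finrank_top] at *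
      omega)
    have hwu : PK.B w u = 0 := hw.1.2
    obtain ⟨c, hc⟩ := PK.val_ex w
    have hρ := S.eich_mem hu hwu hc
    have h2 : PK.eich u w c s = s := Polar.eich_fix _ hsu (PK.B_symm hw.2)
    have h3 := hb.fix_two S.prime h hρ (S.map_eq_of_shift hmax h hj hs hsL hρ
      (fun d hd => hfix hwu d hd.1) (by simp [h2])) hd.2 hd0 (hfix hwu d hd.1) hs (fun e => by
        obtain ⟨t, rfl⟩ := Submodule.mem_span_singleton.1 e
        exact hsL (Submodule.smul_mem _ _ hd.1)) h2 ha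
    by_contra hne
    apply hw'
    rw [← Submodule.smul_mem_iff _ hne]
    refine Submodule.mem_span_singleton.2 ⟨PK.B a w + c * PK.B a u, ?_⟩
    rw [LinearEquiv.restrictScalars_apply, Polar.eichE_apply, S.oK.eich_eq] at h3
    linear_combination (norm := module) -h3
  obtain ⟨k, rfl⟩ := mem_ln.1 hd.1
  obtain ⟨w, hw, hsw⟩ := Polar.exists_sep (P := PK) (U := K ∙ u) hsL (-k)
  rw [Polar.perp_span_singleton, Polar.mem_pp] at hw
  obtain ⟨c, hc⟩ := PK.val_ex w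
  have hρ := S.eich_mem hu hw hc
  have h2 : PK.eich u w c s = s + k • u := by simp [S.oK.eich_eq, hsu, hsw]
  refine hb.no_shift S.twoK h hρ (S.map_eq_of_shift hmax h hj hs hsL hρ
    (fun d hd => hfix hw d hd.1) (by simpa [h2] using hd)) hd.2 hd0 (hfix hw _ hd.1) hs h2
    fun a ha => hfix hw _ (mem_ln.2 ⟨-PK.B a w, ?_⟩)
  simp [S.oK.eich_eq, h1 a ha]

theorem caseA' (hm : 4 ≤ finrank K V) (hb : Bad PK X) (hj0 : 0 < j) {A₁ A₂ : Submodule F V}
    (h₁ : Mem PK X A₁) (h₂ : Mem PK X A₂) (hj : j ≤ finrank F ↥(A₁ ⊓ A₂))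
    {s : V} (hs : s ∈ A₂) (hsL : s ∉ A₁) (hsu : ∀ a ∈ A₁, PF.B s a = 0) : False := by
  obtain ⟨g, hg, u, h0, hu, rfl⟩ := h₁
  obtain ⟨s, rfl⟩ := g.surjective s
  refine S.caseA hmax hm hb hj0 hu (h₂.map (X.inv_mem hg)) (finrank_map_inf g _ _ ▸ hj) (s := s)
    ⟨_, hs, g.symm_apply_apply s⟩ (fun h => hsL ⟨s, h, rfl⟩) (S.mem_perp_ln.1 fun a ha => ?_)
  rw [← Polar.Iso.B (S.iso hg)]
  exact hsu _ ⟨a, ha, rfl⟩

omit hmax in
/-- a rotation moving a given vector -/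
theorem exists_rot {W : Submodule K V} (hW : W ⊓ PK.perp W = ⊥) (hd : 2 ≤ finrank K W) {x : V}
    (hx : x ∉ PK.perp W) : ∃ h ∈ XK K X, (∀ z ∈ PK.perp W, h z = z) ∧ h x ≠ x := by
  obtain ⟨w, hw, hxw⟩ : ∃ w ∈ W, PK.B x w ≠ 0 := by
    by_contra! hcon; exact hx hcon
  obtain ⟨w', hw', hww⟩ : ∃ w' ∈ W, PK.B w w' ≠ 0 := by
    by_contra! hcon
    exact hxw (by simp [show w = 0 from hW.le ⟨hw, hcon⟩])
  obtain ⟨a, ha, haa, hxa⟩ := S.oK.exists_aniso_ne S.twoK hw hw' hww hw hxw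
  obtain ⟨c, hc, hc0⟩ := exists_notMem_of_finrank_lt (U := ⊥) (W := W ⊓ PK.pp a) (by
    have := Polar.finrank_inf_pp_ge (P := PK) W a
    rw [finrank_bot]; omega)
  have hca : PK.B c a = 0 := hc.2
  obtain ⟨t, ht0, ht⟩ : ∃ t : K, t ≠ 0 ∧ PK.B a a + t * t * PK.B c c ≠ 0 := by
    obtain ⟨t, h0, -, h1⟩ := S.exists_sq_ne
    by_contra! hcon
    have h2 := hcon 1 one_ne_zero
    have h3 := hcon t h0
    have h4 : (t * t - 1) * PK.B a a = 0 := by linear_combination (t * t) * h2 - h3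
    exact haa ((mul_eq_zero.1 h4).resolve_left (sub_ne_zero.2 h1))
  obtain ⟨b, hb⟩ : ∃ b, b = a + t • c := ⟨_, rfl⟩
  have hbW : b ∈ W := hb ▸ W.add_mem ha (W.smul_mem t hc.1)
  have hba : PK.B b a = PK.B a a := by simp [hb, hca]
  have hab : PK.B a b = PK.B a a := by rw [S.oK.comm, hba]
  have hbb : PK.B b b ≠ 0 := by
    simpa [hb, S.oK.σ, hca, PK.B_symm hca, mul_assoc] using ht
  obtain ⟨α, hα⟩ := PK.val_ex a
  obtain ⟨β, hβ⟩ := PK.val_ex b
  have hα0 : α ≠ 0 := fun e => haa (by rw [S.oK.self hα, e, mul_zero])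
  have hβ0 : β ≠ 0 := fun e => hbb (by rw [S.oK.self hβ, e, mul_zero])
  refine ⟨_, S.comm _ (PK.Iso.inv_mem (Polar.reflE_mem_Iso hα hα0)) _
    (PK.Iso.inv_mem (Polar.reflE_mem_Iso hβ hβ0)), fun z hz => ?_, fun e => ?_⟩
  · have h1 : Polar.reflE hα hα0 z = z := Polar.refl_fix _ (hz a ha)
    have h2 : Polar.reflE hβ hβ0 z = z := Polar.refl_fix _ (hz b hbW)
    rw [inv_inv, inv_inv, LinearEquiv.mul_apply, LinearEquiv.mul_apply, LinearEquiv.mul_apply, h2,
      h1, show (Polar.reflE hβ hβ0)⁻¹ z = z from (LinearEquiv.symm_apply_eq _).2 h2.symm]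
    exact (LinearEquiv.symm_apply_eq _).2 h1.symm
  · rw [inv_inv, inv_inv, LinearEquiv.mul_apply, LinearEquiv.mul_apply, LinearEquiv.mul_apply,
      show ∀ (g : V ≃ₗ[K] V) y, g⁻¹ y = g.symm y from fun _ _ => rfl, LinearEquiv.symm_apply_eq,
      show ∀ (g : V ≃ₗ[K] V) y, g⁻¹ y = g.symm y from fun _ _ => rfl,
      LinearEquiv.symm_apply_eq] at e
    simp only [Polar.reflE_apply, Polar.refl, map_sub, map_smul, LinearMap.sub_apply,
      LinearMap.smul_apply, hab, hba, smul_eq_mul] at e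
    have h1 : (α⁻¹ * β⁻¹ * PK.B a a) • (PK.B x b • a - PK.B x a • b) = 0 := by
      linear_combination (norm := module) e
    have h2 := (smul_eq_zero.1 h1).resolve_left (by simp [hα0, hβ0, haa])
    have h3 := congrArg (fun y => PK.B y a) h2
    simp only [map_sub, map_smul, LinearMap.sub_apply, LinearMap.smul_apply, hba, smul_eq_mul,
      map_zero, LinearMap.zero_apply, ← sub_mul, mul_eq_zero, haa, or_false, sub_eq_zero] at h3
    rw [h3, hb, ← smul_sub, smul_eq_zero] at h2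
    simp [hxa, ht0] at h2
    exact hc0 (by simp [h2])

omit hmax in
theorem exists_val {u v : V} (hu : PK.Val u 0) (hvu : PK.B v u ≠ 0) {W : Submodule K V}
    (hW : W ⊓ PK.perp W = ⊥) (hd : 2 ≤ finrank K W) (huW : u ∈ PK.perp W) (hvW : v ∈ PK.perp W)
    {c : K} (hc : c ≠ 0) : ∃ w ∈ W, PK.Val w c := by
  obtain ⟨a, ha⟩ := Polar.exists_val_add_sing hu hvu (-c)
  obtain ⟨y, hy⟩ : ∃ y, y = v + a • u := ⟨_, rfl⟩
  rw [← hy] at ha
  have hyW : y ∈ PK.perp W := hy ▸ Submodule.add_mem _ hvW (Submodule.smul_mem _ _ huW)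
  have hy' : y ∉ W := fun h => by
    rw [show y = 0 from hW.le ⟨h, hyW⟩] at ha
    exact hc (neg_eq_zero.1 (S.oK.lam _ ha))
  obtain ⟨x, hx, hx0, hxs⟩ := Polar.wild_three_of_σ S.oK.σ (W ⊔ K ∙ y) (by
    rw [Submodule.finrank_sup_span_singleton hy']; omega)
  obtain ⟨w, hw, t, rfl⟩ := mem_sup_span_singleton.1 hx
  by_cases ht : t = 0
  · simp only [ht, zero_smul, add_zero] at hx0 hxs
    obtain ⟨w', hw', hww⟩ : ∃ w' ∈ W, PK.B w w' ≠ 0 := by
      by_contra! hcon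
      exact hx0 (hW.le ⟨hw, hcon⟩)
    obtain ⟨b, hb⟩ := Polar.exists_val_add_sing hxs (PK.B_ne_symm hww) c
    exact ⟨_, W.add_mem hw' (W.smul_mem b hw), hb⟩
  obtain ⟨e, he⟩ := PK.val_ex w
  have h1 := S.oK.uniq hxs (Polar.val_add_orth he (S.oK.val_smul t ha)
    (by simp [Polar.mem_perp'.1 hyW w hw]))
  refine ⟨t⁻¹ • w, W.smul_mem _ hw, Polar.val_congr (S.oK.val_smul _ he) ?_⟩
  field_simp
  linear_combination -h1

theorem caseB (hm : 4 ≤ finrank K V) (hb : Bad PK X) (hj0 : 0 < j) {u : V} (h0 : u ≠ 0)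
    (hu : PK.Val u 0) {A : Submodule F V} (h : Mem PK X A) (hne : A ≠ ln F K u)
    (hj : j ≤ finrank F ↥(ln F K u ⊓ A)) : False := by
  have := S.finV
  obtain ⟨v, hv, hvL⟩ : ∃ v ∈ A, v ∉ ln F K u := by
    by_contra! hcon
    exact hne (Submodule.eq_of_le_of_finrank_eq hcon (by rw [h.finrank_eq, finrank_ln h0]))
  by_cases hvu : PK.B v u = 0
  · exact S.caseA hmax hm hb hj0 hu h hj hv hvL hvu
  obtain ⟨d, hd, hd0⟩ := exists_notMem_of_finrank_lt (U := ⊥) (W := ln F K u ⊓ A) (by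
    rw [finrank_bot]; omega)
  replace hd0 : d ≠ 0 := by simpa using hd0
  obtain ⟨W, hW⟩ : ∃ W, W = PK.perp ((K ∙ u) ⊔ K ∙ v) := ⟨_, rfl⟩
  have hW1 : PK.perp W = (K ∙ u) ⊔ K ∙ v := by rw [hW, Polar.perp_perp]
  have huW : u ∈ PK.perp W := hW1 ▸ Submodule.mem_sup_left (Submodule.mem_span_singleton_self u)
  have hvW : v ∈ PK.perp W := hW1 ▸ Submodule.mem_sup_right (Submodule.mem_span_singleton_self v)
  have hW2 : W ⊓ PK.perp W = ⊥ := by
    rw [eq_bot_iff]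
    rintro z ⟨h1, h2⟩
    have h3 := Polar.mem_perp'.1 huW z h1
    have h4 := Polar.mem_perp'.1 hvW z h1
    rw [hW1] at h2
    obtain ⟨a, ha, t, rfl⟩ := mem_sup_span_singleton.1 h2
    obtain ⟨s, rfl⟩ := Submodule.mem_span_singleton.1 ha
    simp [Polar.sing_B hu, hvu] at h3
    simp [h3, PK.B_ne_symm hvu] at h4
    simp [h3, h4]
  have hW3 : 2 ≤ finrank K W := by
    have := PK.finrank_perp ((K ∙ u) ⊔ K ∙ v)
    have := finrank_span_pair_le (F := K) u v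
    rw [hW]; omega
  have hLW : ∀ d ∈ ln F K u, d ∈ PK.perp W := fun d hd => by
    obtain ⟨k, rfl⟩ := mem_ln.1 hd
    exact Submodule.smul_mem _ _ huW
  have h1 : ∀ a ∈ A, a ∈ PK.perp W := by
    intro a ha
    by_contra hne
    obtain ⟨g, hg, hg1, hg2⟩ := S.exists_rot hW2 hW3 hne
    exact hg2 (hb.fix_two S.prime h hg (S.map_eq_of_shift hmax h hj hv hvL hg
      (fun d hd => hg1 d (hLW d hd.1)) (by simp [hg1 v hvW])) hd.2 hd0 (hg1 d (hLW d hd.1)) hv
      (fun e => by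
        obtain ⟨t, rfl⟩ := Submodule.mem_span_singleton.1 e
        exact hvL (Submodule.smul_mem _ _ hd.1)) (hg1 v hvW) ha)
  obtain ⟨k, rfl⟩ := mem_ln.1 hd.1
  have hk : k ≠ 0 := fun e => hd0 (by simp [e])
  obtain ⟨w, hw, hc⟩ := S.exists_val hu hvu hW2 hW3 huW hvW (div_ne_zero hk hvu)
  have hwu := Polar.mem_perp'.1 huW w hw
  have hρ := S.eich_mem hu hwu hc
  have h2 : PK.eich u w (k / PK.B v u) v = v + PK.B v u • w - k • u := by
    rw [S.oK.eich_eq, hvW w hw, zero_add, div_mul_cancel₀ _ hvu]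
  refine S.caseA' hmax hm hb hj0 h (h.map hρ) (hj.trans (Submodule.finrank_mono ?_))
    (s := v + PK.B v u • w - k • u) ⟨v, hv, h2⟩ (fun e => ?_) fun a ha => ?_
  · refine fun d hd => ⟨hd.2, d, hd.2, ?_⟩
    obtain ⟨l, rfl⟩ := mem_ln.1 hd.1
    exact Polar.eich_fix _ (by simp [Polar.sing_B hu]) (by simp [PK.B_symm hwu])
  · have := h1 _ e w hw
    simp [hvW w hw, huW w hw, hvu, S.oK.self hc, S.twoK, hk] at this
  · rw [map_sub, map_add, LinearMap.sub_apply, LinearMap.add_apply, S.mem_B h hv ha,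
      S.mem_B h hd.2 ha, S.B]
    simp [Polar.mem_perp'.1 (h1 a ha) w hw]

end Setup

theorem exists_max_pair [FiniteDimensional F V] (PK : Polar K V) (X : Subgroup (V ≃ₗ[F] V)) :
    (∀ A₁ A₂, Mem PK X A₁ → Mem PK X A₂ → A₁ ≠ A₂ → finrank F ↥(A₁ ⊓ A₂) ≤ 0) ∨
    ∃ j, 0 < j ∧ (∀ A₁ A₂, Mem PK X A₁ → Mem PK X A₂ → A₁ ≠ A₂ → finrank F ↥(A₁ ⊓ A₂) ≤ j) ∧
      ∃ u A, u ≠ 0 ∧ PK.Val u 0 ∧ Mem PK X A ∧ A ≠ ln F K u ∧ j ≤ finrank F ↥(ln F K u ⊓ A) := by
  classical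
  have hex : ∃ j, ∀ A₁ A₂, Mem PK X A₁ → Mem PK X A₂ → A₁ ≠ A₂ → finrank F ↥(A₁ ⊓ A₂) ≤ j :=
    ⟨finrank F V, fun _ _ _ _ _ => Submodule.finrank_le _⟩
  by_cases h0 : Nat.find hex = 0
  · exact Or.inl (h0 ▸ Nat.find_spec hex)
  refine Or.inr ⟨Nat.find hex, by omega, Nat.find_spec hex, ?_⟩
  have := Nat.find_min hex (m := Nat.find hex - 1) (by omega)
  push Not at this
  obtain ⟨_, A₂, ⟨g, hg, u, hu0, hu, rfl⟩, h₂, hne, hlt⟩ := this
  refine ⟨u, _, hu0, hu, h₂.map (X.inv_mem hg), fun e => hne ?_, ?_⟩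
  · rw [← e, ← Submodule.map_comp]
    convert Submodule.map_id _
    ext x
    exact g.apply_symm_apply x
  · rw [finrank_map_inf] at hlt
    exact Nat.le_of_pred_lt hlt

theorem Setup.E_le_or_semi {PF : Polar F V} {PK : Polar K V} {θ : K →ₗ[F] F}
    {X : Subgroup (V ≃ₗ[F] V)} (S : Setup PF PK θ X) [Finite K] [FiniteDimensional K V]
    (hm : 4 ≤ finrank K V) : PF.E ≤ X ∨ ∀ g ∈ X, Semi K g := by
  have := S.finV
  by_cases hb : Bad PK X
  · rcases exists_max_pair PK X with h | ⟨j, hj, hmax, u, A, h0, hu, hA, hne, hj'⟩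
    · exact Or.inr fun g hg => S.semi_of_mem (by omega) (fun A => S.eq_ln_of_disjoint hm h) hg
    · exact (S.caseB hmax hm hb hj h0 hu hA hne hj').elim
  · simp only [Bad, not_forall] at hb
    obtain ⟨u, h0, hu, x, hx, hxu, l, hl⟩ := hb
    exact Or.inl (S.E_le_of_not_semi (by omega) hu h0 hx hxu hl)

end Cfsg.Agent.H1.OExt
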