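import Cfsg.Agent.H1.OExtB
import Cfsg.Agent.H3.ExtMat
import Cfsg.Agent.H8.Proper

/-!
Maximality of the extension-field subgroups of orthogonal type in `Ω`, odd characteristic.
-/

set_option autoImplicit false
set_option linter.unusedSectionVars false

namespace Cfsg.Agent.H1

open Module Cfsg.Agent.H7 Cfsg.Agent.H3.Ext

/-- The polar space of a non-degenerate symmetric bilinear form in odd characteristic. -/
def symPolar {K V : Type*} [Field K] [AddCommGroup V] [Module K V] (β : V →ₗ[K] V →ₗ[K] K)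
    (hs : ∀ x y, β x y = β y x) (hn : ∀ y, (∀ x, β x y = 0) → y = 0) (h2 : (2 : K) ≠ 0) :
    Polar K V where
  σ := RingHom.id K
  ε := 1
  B := β
  Val x c := β x x = 2 * c
  σσ _ := rfl
  εε := Or.inl rfl
  herm x y := by simp [hs y x]
  nondeg := hn
  val_ex x := ⟨β x x / 2, by field_simp⟩
  val_add {x y c d} hx hy := by simp only [map_add, LinearMap.add_apply, hx, hy, hs y x]; ring
  val_smul {x c} a hx := by
    simp only [map_smul, LinearMap.smul_apply, hx, smul_eq_mul, RingHom.id_apply]; ring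
  val_self hx := by simp [hx, two_mul]
  val_min a := by simp

theorem isO_symPolar {K V : Type*} [Field K] [AddCommGroup V] [Module K V] (β : V →ₗ[K] V →ₗ[K] K)
    (hs : ∀ x y, β x y = β y x) (hn : ∀ y, (∀ x, β x y = 0) → y = 0) (h2 : (2 : K) ≠ 0) :
    IsO (symPolar β hs hn h2) :=
  ⟨fun _ => rfl, rfl, fun c (hc : β 0 0 = 2 * c) => by simpa [h2] using hc⟩

theorem isO_oPolar {ι : Type} [Fintype ι] [DecidableEq ι] {F : Type*} [Field F] {Q : (ι → F) → F}
    (hQ : Geo.IsNondegenerateQuadraticForm Q) : IsO (oPolar hQ) :=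
  ⟨fun _ => rfl, rfl, oPolar_lam hQ⟩

namespace OExt

variable {F K V : Type*} [Field F] [Field K] [Algebra F K] [AddCommGroup V] [Module F V]
  [Module K V] [IsScalarTower F K V]

theorem exists_polarK [FiniteDimensional F K] [FiniteDimensional K V] {PF : Polar F V}
    (hF : IsO PF) (h2 : (2 : F) ≠ 0) (hsa : ∀ (k : K) x y, PF.B (k • x) y = PF.B x (k • y)) :
    ∃ (PK : Polar K V) (θ : K →ₗ[F] F), IsO PK ∧ θ ≠ 0 ∧ ∀ x y, PF.B x y = θ (PK.B x y) := by
  obtain ⟨θ, hθ1⟩ := exists_dual_one' (F := F) (one_ne_zero : (1 : K) ≠ 0)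
  have hθ : θ ≠ 0 := fun e => by simp [e] at hθ1
  have hinj : ∀ a b : K, (∀ k, θ (k * a) = θ (k * b)) → a = b := fun a b h => by
    by_contra hne
    have := h (a - b)⁻¹
    rw [← sub_eq_zero, ← map_sub, ← mul_sub, inv_mul_cancel₀ (sub_ne_zero.2 hne), hθ1] at this
    exact one_ne_zero this
  choose ψ hψ using fun y => exists_dualK (K := K) hθ (PF.B.flip y)
  have h1 : ∀ k x y, θ (k * ψ y x) = PF.B (k • x) y := fun k x y => by
    rw [← smul_eq_mul, ← map_smul, hψ]; rfl
  have hs : ∀ x y, ψ y x = ψ x y := fun x y => hinj _ _ fun k => by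
    rw [h1, h1, hsa, hF.comm]
  let β : V →ₗ[K] V →ₗ[K] K := LinearMap.mk₂ K (fun x y => ψ y x) (fun _ _ _ => map_add _ _ _)
    (fun _ _ _ => map_smul _ _ _) (fun x y z => by rw [hs, map_add, hs x y, hs x z])
    (fun c x y => by rw [hs, map_smul, hs x y])
  have h2' : (2 : K) ≠ 0 := by
    rw [show (2 : K) = algebraMap F K 2 from (map_ofNat _ 2).symm]
    simpa using h2
  exact ⟨symPolar β hs (fun y hy => PF.nondeg y fun x => by
    have := hψ y x
    rw [show ψ y x = 0 from hy x, map_zero] at this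
    exact this.symm) h2', θ, isO_symPolar _ _ _ _, hθ, fun x y => (hψ y x).symm⟩

set_option maxHeartbeats 1600000 in
open Matrix in
/-- The reduction of maximality to the abstract setting. -/
theorem maximal_of.{u} {ι : Type} [Fintype ι] [DecidableEq ι] {F : Type u} [Field F] [Finite F]
    (h2 : (2 : F) ≠ 0) {Q : (ι → F) → F} (hQ : Geo.IsNondegenerateQuadraticForm Q)
    (hn : 7 ≤ Fintype.card ι) {r : ℕ} (hr : r.Prime) {K : Subalgebra F (Matrix ι ι F)}
    (hK : Geo.IsFieldSubalgebra r K) (hsa : Geo.IsSelfAdjointFor (QuadraticMap.polar Q) K)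
    (key : ∀ (K : Type u) [Field K] [Algebra F K] [Module K (ι → F)] [IsScalarTower F K (ι → F)]
      [Finite K] [FiniteDimensional K (ι → F)] (PK : Polar K (ι → F)) (θ : K →ₗ[F] F)
      (X : Subgroup ((ι → F) ≃ₗ[F] (ι → F))), finrank F K = r →
        r * finrank K (ι → F) = Fintype.card ι → Setup (oPolar hQ) PK θ X → X ≤ (oPolar hQ).E →
        (∀ g ∈ (oPolar hQ).E, Semi K g → g ∈ X) → (oPolar hQ).E ≤ X ∨ ∀ g ∈ X, Semi K g) :
    Geo.IsMaximalIn (Geo.omegaGL Q) (Geo.subalgebraNormalizer K ⊓ Geo.omegaGL Q) := by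
  have : Nonempty ι := Fintype.card_pos_iff.mp (by omega)
  let _ : Field K := (Asch.isField_of_inv hK.comm hK.inv).toField
  have hr' : (finrank F K).Prime := hK.finrank_eq ▸ hr
  have hm := finrank_mul_finrank F K (ι → F)
  rw [hK.finrank_eq, finrank_fintype_fun_eq_card] at hm
  have : FiniteDimensional K (ι → F) := Module.finite_of_finrank_pos (Nat.pos_of_ne_zero fun e => by
    rw [e] at hm; omega)
  obtain ⟨PK, θ, hPK, hθ, hB⟩ := exists_polarK (K := K) (isO_oPolar hQ) h2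
    fun k x y => hsa k k.2 x y
  refine isMaximalIn_of inf_le_right ?_ fun X hX hX' g hg hgN => ?_
  · by_contra! hcon
    exact (H8.hasE_omegaGL hQ hn).not_le_subalgebraNormalizer hr.two_le hK
      fun g hg => (hcon g hg).1
  have hsemi : ∀ g ∈ (oPolar hQ).E, Semi K g → g ∈ X.map toLE.toMonoidHom := fun g hg hg' => by
    obtain ⟨g, rfl⟩ := toLE.surjective g
    exact ⟨g, hX ⟨(mem_normalizer_iff g).mpr hg', (mem_omegaGL_iff hQ hn g).2 hg⟩, rfl⟩
  have hXE : X.map toLE.toMonoidHom ≤ (oPolar hQ).E := by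
    rintro _ ⟨g, hg, rfl⟩
    exact (mem_omegaGL_iff hQ hn g).1 (hX' hg)
  have hI : ∀ g ∈ PK.Iso, g.restrictScalars F ∈ (oPolar hQ).Iso := fun g hg =>
    (isO_oPolar hQ).mem_Iso h2 fun x y => by
      rw [hB, hB]; exact congrArg θ (Polar.Iso.B hg x y)
  rcases key K PK θ (X.map toLE.toMonoidHom) hK.finrank_eq hm
    ⟨isO_oPolar hQ, hPK, h2, hθ, hB, hXE.trans Polar.E_le_Iso, fun g hg k hk => hsemi _
      (Polar.comm_mem_E (oPolar_wild hQ) (by simpa using hn) (hI g hg) (hI k hk))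
      fun l => ⟨l, fun x => (g * k * g⁻¹ * k⁻¹).map_smul l x⟩, hr'⟩ hXE hsemi with h | h
  · intro k hk
    obtain ⟨k', hk', e⟩ := h ((mem_omegaGL_iff hQ hn k).1 hk)
    exact toLE.injective e ▸ hk'
  · exact absurd ⟨(mem_normalizer_iff g).mpr (h _ ⟨g, hg, rfl⟩), hX' hg⟩ hgN

/-- Extension-field subgroups of orthogonal type of `Ω`, `q` odd, `n / r ≥ 4`. -/
theorem omega_ext_maximal {ι : Type} [Fintype ι] [DecidableEq ι] {F : Type*} [Field F] [Finite F]
    (h2 : (2 : F) ≠ 0) {Q : (ι → F) → F} (hQ : Geo.IsNondegenerateQuadraticForm Q)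
    {r : ℕ} (hr : r.Prime) (hn : 3 * r < Fintype.card ι) {K : Subalgebra F (Matrix ι ι F)}
    (hK : Geo.IsFieldSubalgebra r K) (hsa : Geo.IsSelfAdjointFor (QuadraticMap.polar Q) K) :
    Geo.IsMaximalIn (Geo.omegaGL Q) (Geo.subalgebraNormalizer K ⊓ Geo.omegaGL Q) :=
  maximal_of h2 hQ (by have := hr.two_le; omega) hr hK hsa fun K _ _ _ _ _ _ _ _ _ _ hm S _ _ =>
    S.E_le_or_semi (by
      by_contra h
      have := Nat.mul_le_mul_left r (by omega : finrank K (ι → F) ≤ 3)
      omega)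

end OExt

end Cfsg.Agent.H1
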