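import Cfsg.Agent.H1.Sub4A
import Cfsg.Agent.Asch.Forms

/-!
Subfield subgroups of symplectic and unitary groups in small dimension, second part: an overgroup
containing a non-rational Eichler transformation with rational centre is everything.
-/

set_option autoImplicit false
set_option linter.unusedSectionVars false

namespace Cfsg.Agent.H1.Sub4

open Module H7 H7.Polar

section general

variable {F : Type*} [Field F] {V : Type*} [AddCommGroup V] [Module F V] {P : Polar F V}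
variable [Finite F] [FiniteDimensional F V]

theorem exists_sing_ne2 {d : ℕ} (hw : P.Wild d) {M : Submodule F V} {z : V}
    (hz : z ∉ P.perp M) (hd : finrank F ↥(M ⊓ P.perp M) + d ≤ finrank F M) :
    ∃ e ∈ M, P.Val e 0 ∧ P.B e z ≠ 0 := by
  obtain ⟨u, hu, huR, hus⟩ := hw.exists_notMem M (M ⊓ P.perp M) hd
  exact H8.exists_sing_ne' hu hus (fun h => huR ⟨hu, h⟩) hz

/-- transitivity on singular points in the presence of transvections -/
theorem exists_E_smul {c : F} (hc0 : c ≠ 0) (hc : P.Val 0 c) {v w : V} (hv : P.Val v 0)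
    (hw : P.Val w 0) (hv0 : v ≠ 0) (hw0 : w ≠ 0) : ∃ g ∈ P.E, ∃ μ : F, μ ≠ 0 ∧ g w = μ • v := by
  obtain ⟨u, hu, h1, h2⟩ : ∃ u, P.Val u 0 ∧ P.B w u ≠ 0 ∧ P.B v u ≠ 0 := by
    by_cases h : P.B w v = 0
    · obtain ⟨y, hy, h1, h2⟩ := exists_sing_not_perp hw hw0 hv0 h
      exact ⟨y, hy, P.B_ne_symm h1, P.B_ne_symm h2⟩
    · refine ⟨P.eich v 0 c w, eich_val hv (by simp) hc hw, ?_, ?_⟩
      · simp [eich, sing_B hw, hc0, h]
      · simpa [eich, sing_B hv] using P.B_ne_symm h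
  obtain ⟨g, hg, -, hgv⟩ := (fullA_E hu).exists_move hu hw (sing_smul hv (P.B w u / P.B v u))
    (by simp [h2]) h1
  exact ⟨g, hg, _, div_ne_zero h1 h2, hgv⟩

theorem exists_E_move {v a : V} (has : P.Val a 0) (hva : P.B v a = 0) (hv : v ∉ F ∙ a) (t : F) :
    ∃ s ∈ P.E, s a = a ∧ s v = v + t • a := by
  obtain ⟨y, hy, hvy⟩ := exists_sep (P := P) hv (-(P.ε * t))
  rw [perp_span_singleton, mem_pp] at hy
  obtain ⟨c, hc⟩ := P.val_ex y
  refine ⟨eichE has hy hc, eichE_mem_E _ _ _, eich_fix c (sing_B has) (P.B_symm hy), ?_⟩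
  simp [eich, hva, hvy, ← mul_assoc]

theorem exists_E_torus {v e : V} (hvs : P.Val v 0) (hes : P.Val e 0) (hv0 : v ≠ 0)
    (he : P.B e v = 0) (he' : e ∉ F ∙ v) {l : F} (hl : l ≠ 0) :
    ∃ g ∈ P.E, g v = l • v ∧ g e = l⁻¹ • e + (l - 1) • v := by
  have h6 := notMem_span_swap hv0 he'
  obtain ⟨s₁, hs₁, h1, hs₁'⟩ := exists_E_move hes (P.B_symm he) h6 1
  obtain ⟨s₂, hs₂, hs₂', hs₂''⟩ := exists_E_move hvs he he' (l - 1)
  obtain ⟨s₃, hs₃, hs₃', hs₃''⟩ := exists_E_move hes (P.B_symm he) h6 (-l⁻¹)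
  refine ⟨_, P.E.mul_mem hs₃ (P.E.mul_mem hs₂ hs₁), ?_, ?_⟩
  · simp only [LinearEquiv.mul_apply, hs₁', map_add, map_smul, hs₂', hs₂'', hs₃', hs₃'']
    match_scalars <;> field_simp <;> ring
  · simp only [LinearEquiv.mul_apply, h1, map_add, map_smul, hs₂'', hs₃', hs₃'']
    match_scalars <;> field_simp <;> ring

theorem tv_mem_zSub {X : Subgroup (V ≃ₗ[F] V)} {w z e : V} {c : F} {hw : P.Val w 0}
    (hz : z ∈ P.zSub X hw) (he : P.Val e 0) (hc : P.Val 0 c) (h : P.EI X e 0 c)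
    (hwe : P.B e w = 0) : (P.σ c * P.B z e) • e ∈ P.zSub X hw := by
  have := AddSubgroup.neg_mem _ (eich_sub_mem_zSub hz he (by simp) hc h (P.B_symm hwe) (by simp))
  simpa using this

theorem EI_comm_zSub {X : Subgroup (V ≃ₗ[F] V)} {u q p : V} {hu : P.Val u 0}
    (hq : q ∈ P.zSub X hu) (hp : p ∈ P.zSub X hu) :
    P.EI X u 0 (P.B q p - P.ε * P.σ (P.B q p)) := by
  obtain ⟨h1, c1, hc1, e1⟩ := hq
  obtain ⟨h2, c2, hc2, e2⟩ := hp
  have e3 := (e1.add e2 hu h1 h2).add ((e2.add e1 hu h2 h1).neg hu (by simp [h1, h2])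
    (P.val_add hc2 hc1)) hu (by simp [h1, h2]) (by simp [h1, h2])
  refine e3.congr (by module) ?_
  have h5 := P.val_self (P.val_add hc2 hc1)
  rw [add_comm p q] at h5
  rw [map_neg, add_comm p q, h5, P.herm q p]
  ring

omit [FiniteDimensional F V] in
theorem mem_of_sq (A : AddSubgroup F) (h : ∀ l : F, l * l ∈ A) (a : F) : a ∈ A := by
  have := Fintype.ofFinite F
  by_cases h2 : (2 : F) = 0
  · obtain ⟨l, hl⟩ := Asch.exists_sq_of_two_eq_zero h2 a
    exact hl ▸ h l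
  · have := A.sub_mem (h ((a + 1) / 2)) (h ((a - 1) / 2))
    convert this using 1
    field_simp
    ring

end general

variable {F : Type*} [Field F] {V : Type*} [AddCommGroup V] [Module F V] {P : Polar F V}
variable {F₀ : Subfield F} {R : RatStr F₀ V}
variable [Finite F] [FiniteDimensional F V]

variable (P R) in
/-- multiples by `ξ` of rational vectors occur in Eichler transformations with rational centre -/
def SS (X : Subgroup (V ≃ₗ[F] V)) (ξ : F) : Prop :=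
  ∀ (v : V) (hvs : P.Val v 0), R.τ v = v → ∀ x, R.τ x = x → P.B x v = 0 → ξ • x ∈ P.zSub X hvs

omit [Finite F] [FiniteDimensional F V] in
theorem notMem_span_rat {w e : R.V₀} (h : (e : V) ∉ F ∙ (w : V)) : e ∉ F₀ ∙ w := by
  rw [Submodule.mem_span_singleton] at h ⊢
  rintro ⟨a, ha⟩
  exact h ⟨a, congrArg Subtype.val ha⟩

namespace Ctx

variable {c₀ : F} (h : Ctx P R c₀)
include h

theorem span_sing_pp {w : V} (hw : R.τ w = w) (h0 : w ≠ 0) {N : Submodule F₀ V}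
    (hN : ∀ e, P.B e w = 0 → R.τ e = e → P.Val e 0 → e ∈ N) {y : V} (hy : P.B y w = 0)
    (hy' : R.τ y = y) : y ∈ N := by
  have h1 : h.ok.restrict.perp (N.comap R.V₀.subtype) ≤
      h.ok.restrict.perp (h.ok.restrict.pp ⟨w, hw⟩) := by
    intro z hz
    by_contra hz'
    obtain ⟨e, he, hes, hze⟩ := exists_sing_ne2 h.wild hz' (by
      have := finrank_pp (P := h.ok.restrict) (u := ⟨w, hw⟩)
        (fun h => h0 (congrArg Subtype.val h))
      have := finrank_pp_inf_perp_le (P := h.ok.restrict) ⟨w, hw⟩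
      have := R.le_finrank_V₀
      have := h.dim
      omega)
    exact hze (h.ok.restrict.B_symm (hz e (hN e (h.ok.restrict_B_eq_zero.1 he) e.2 hes)))
  have h2 := perp_anti (P := h.ok.restrict) h1
  rw [perp_perp, perp_perp] at h2
  exact h2 (show (⟨y, hy'⟩ : R.V₀) ∈ h.ok.restrict.pp ⟨w, hw⟩ from h.ok.restrict_B_eq_zero.2 hy)

theorem exists_sing_B_ne {w z : V} (hw : R.τ w = w) (h0 : w ≠ 0) (hz : z ∉ F ∙ w) :
    ∃ e, P.B e w = 0 ∧ R.τ e = e ∧ P.Val e 0 ∧ P.B e z ≠ 0 := by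
  by_contra! hcon
  obtain ⟨y, hy, hy', hy''⟩ := RatOK.exists_B_ne (h.ok.inv_pp hw) (z := z) (by rwa [perp_pp])
  exact hy'' (h.span_sing_pp hw h0 (N := (P.pp z).restrictScalars F₀) hcon hy hy')

theorem exists_sing_two {w u z : V} (hw : R.τ w = w) (hu : R.τ u = u) (hz : R.τ z = z)
    (hus : P.Val u 0) (huw : P.B u w = 0) (hu' : u ∉ F ∙ w) (hz' : z ∉ F ∙ w)
    (huz : P.B u z = 0) :
    ∃ e, P.B e w = 0 ∧ R.τ e = e ∧ P.Val e 0 ∧ P.B e u ≠ 0 ∧ P.B e z ≠ 0 := by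
  obtain ⟨e, h1, h2, h3, h4⟩ := H8.exists_sing_two (P := h.ok.restrict)
    (W := h.ok.restrict.pp ⟨w, hw⟩) (u := ⟨u, hu⟩) (z := ⟨z, hz⟩)
    (h.ok.restrict_B_eq_zero.2 huw) hus (by rw [perp_pp]; exact notMem_span_rat hu')
    (by rw [perp_pp]; exact notMem_span_rat hz') (h.ok.restrict_B_eq_zero.2 huz)
  exact ⟨e, h.ok.restrict_B_eq_zero.1 h1, e.2, h2, fun h5 => h3 (h.ok.restrict_B_eq_zero.2 h5),
    fun h5 => h4 (h.ok.restrict_B_eq_zero.2 h5)⟩

theorem exists_pair {f : V} (hf : R.τ f = f) {a : F} (ha : a ∈ F₀) :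
    ∃ p p', R.τ p = p ∧ R.τ p' = p' ∧ P.B p f = 0 ∧ P.B p' f = 0 ∧ P.B p p' = a := by
  obtain ⟨p, hp, p', hp', hpp⟩ := exists_nonperp_pair (P := h.ok.restrict) (M := ⊤)
    (e := ⟨f, hf⟩) trivial (by
      have := R.le_finrank_V₀
      have := h.dim
      rw [perp_top, inf_bot_eq, finrank_bot, finrank_top]; omega)
  have h1 : P.B p p' ≠ 0 := fun h5 => hpp (h.ok.restrict_B_eq_zero.2 h5)
  refine ⟨(a / P.B p p') • (p : V), p', RatStr.τ_smul_of_mem
    (F₀.div_mem ha (h.ok.B_mem _ _ p.2 p'.2)) p.2, p'.2, ?_, h.ok.restrict_B_eq_zero.1 hp'.2, ?_⟩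
  · simp [h.ok.restrict_B_eq_zero.1 hp.2]
  · simp [h1]

variable {X : Subgroup (V ≃ₗ[F] V)} (hX : HX P R X)
include hX

theorem tv₀ {e : V} (he : R.τ e = e) (hes : P.Val e 0) : P.EI X e 0 c₀ :=
  hX e 0 c₀ he (by simp) h.mem hes (by simp) h.lam

theorem smul_smul_mem {w e : V} {ξ : F} (hws : P.Val w 0) (hw : R.τ w = w) (h0 : w ≠ 0)
    (hes : P.Val e 0) (he : R.τ e = e) (hew : P.B e w = 0) (he' : e ∉ F ∙ w)
    (hξ : ξ • e ∈ P.zSub X hws) {a : F} (ha : a ∈ F₀) : ξ • a • e ∈ P.zSub X hws := by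
  let A : AddSubgroup F₀ :=
    { carrier := {a | ξ • (a : F) • e ∈ P.zSub X hws}
      zero_mem' := by simp
      add_mem' := fun {a b} ha hb => by
        have := (P.zSub X hws).add_mem ha hb
        simpa [add_smul, smul_add] using this
      neg_mem' := fun {a} ha => by
        have := (P.zSub X hws).neg_mem ha
        simpa using this }
  suffices hA : ∀ l : F₀, l * l ∈ A from mem_of_sq A hA ⟨a, ha⟩
  intro l
  by_cases hl : l = 0
  · simp [hl]
  have hl' : (l : F) ≠ 0 := fun h => hl (Subtype.ext h)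
  have hσl : P.σ l ≠ 0 := by simpa using hl'
  obtain ⟨g₀, hg₀, h1, h2⟩ := exists_E_torus (P := h.ok.restrict) (v := ⟨w, hw⟩) (e := ⟨e, he⟩)
    hws hes (fun h => h0 (congrArg Subtype.val h)) (h.ok.restrict_B_eq_zero.2 hew)
    (notMem_span_rat he') (l := ⟨P.σ l, h.ok.σ_mem l.2⟩) (fun h => hσl (congrArg Subtype.val h))
  obtain ⟨g, hg, hgI, hg'⟩ := h.ok.exists_lift hX hg₀
  have h3 : g w = P.σ l • w := by rw [hg' ⟨w, hw⟩, h1]; rfl
  have h4 : g e = (P.σ l)⁻¹ • e + (P.σ l - 1) • w := by rw [hg' ⟨e, he⟩, h2]; rfl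
  have h5 : (ξ * l / P.σ l) • e ∈ P.zSub X hws := by
    have h6 := map_mem_zSub hws hg hgI hσl h3 hξ
    have h7 := AddSubgroup.sub_mem _ h6 (smul_mem_zSub_self hws (l * ξ * (P.σ l - 1)))
    convert h7 using 1
    rw [σσ, map_smul, h4]
    match_scalars <;> field_simp <;> ring
  obtain ⟨f, hfw, hf, hfs, hfe⟩ := h.exists_sing_B_ne hw h0 he'
  have hef := P.B_ne_symm hfe
  have hσc : P.σ c₀ ≠ 0 := by simpa using h.ne
  set s := P.σ (l / P.σ c₀ / P.B e f) with hs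
  have hsF : s ∈ F₀ :=
    h.ok.σ_mem (F₀.div_mem (F₀.div_mem l.2 h.σc₀) (h.ok.B_mem _ _ he hf))
  have hf' := RatStr.τ_smul_of_mem (R := R) hsF hf
  have h6 : P.B e (s • f) = l / P.σ c₀ := by simp [hs, hef]
  have h7 : P.B (s • f) e = P.ε * (P.σ l / c₀) := by rw [P.herm, h6]; simp
  have h8 := tv_mem_zSub (tv_mem_zSub h5 (sing_smul hfs s) h.lam (h.tv₀ hX hf' (sing_smul hfs s))
    (by simp [hfw])) hes h.lam (h.tv₀ hX he hes) hew
  have h9 := AddSubgroup.neg_mem _ h8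
  show ξ • ((l * l : F₀) : F) • e ∈ P.zSub X hws
  convert h9 using 1
  generalize s • f = f' at h6 h7
  simp only [map_smul, LinearMap.smul_apply, smul_eq_mul, h6, h7, lam_σ h.lam,
    MulMemClass.coe_mul]
  have h10 := h.ne
  have h11 := P.ε_ne_zero
  have h12 := P.ε_sq
  match_scalars
  field_simp
  rw [h12, mul_one]

theorem SS_of_mem {w e : V} {ξ : F} (hws : P.Val w 0) (hw : R.τ w = w) (h0 : w ≠ 0)
    (hes : P.Val e 0) (he : R.τ e = e) (hew : P.B e w = 0) (he' : e ∉ F ∙ w)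
    (hξ : ξ • e ∈ P.zSub X hws) : SS P R X ξ := by
  let N : Submodule F₀ V :=
    { carrier := {x | ∀ a ∈ F₀, ξ • a • x ∈ P.zSub X hws}
      zero_mem' := fun a _ => by simp
      add_mem' := fun {x y} hx hy a ha => by
        rw [smul_add, smul_add]
        exact AddSubgroup.add_mem _ (hx a ha) (hy a ha)
      smul_mem' := fun b x hx a ha => by
        rw [Subfield.smul_def, smul_smul a]
        exact hx _ (F₀.mul_mem ha b.2) }
  have hσc : P.σ c₀ ≠ 0 := by simpa using h.ne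
  have step : ∀ x y, x ∈ N → R.τ x = x → R.τ y = y → P.Val y 0 → P.B y w = 0 → P.B x y ≠ 0 →
      y ∈ N := by
    intro x y hx hx' hy hys hyw hxy a ha
    have := tv_mem_zSub (hx (a / (P.σ c₀ * P.B x y))
      (F₀.div_mem ha (F₀.mul_mem h.σc₀ (h.ok.B_mem _ _ hx' hy)))) hys h.lam (h.tv₀ hX hy hys) hyw
    convert this using 1
    simp only [map_smul, LinearMap.smul_apply, smul_eq_mul]
    match_scalars
    field_simp
  have heN : e ∈ N := fun a ha => h.smul_smul_mem hX hws hw h0 hes he hew he' hξ ha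
  have hN : ∀ x, P.B x w = 0 → R.τ x = x → x ∈ N := by
    intro x hx hx'
    refine h.span_sing_pp hw h0 (fun y hyw hy hys => ?_) hx hx'
    by_cases h1 : y ∈ F ∙ w
    · obtain ⟨b, rfl⟩ := Submodule.mem_span_singleton.1 h1
      intro a _
      rw [smul_smul, smul_smul]
      exact smul_mem_zSub_self hws _
    by_cases h2 : P.B e y = 0
    · obtain ⟨z, h3, h4, h5, h6, h7⟩ := h.exists_sing_two hw he hy hes hew he' h1 h2
      exact step z y (step e z heN he h4 h5 h3 (P.B_ne_symm h6)) h4 hy hys hyw h7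
    · exact step e y heN he hy hys hyw h2
  intro v hvs hv x hx hxv
  by_cases hv0 : v = 0
  · subst hv0
    obtain ⟨c, hc⟩ := P.val_ex (ξ • x)
    exact ⟨by simp, c, hc, Has.id.congr fun y => by simp [eich]⟩
  obtain ⟨g₀, hg₀, μ, hμ0, hgw⟩ := exists_E_smul (P := h.ok.restrict) (c := ⟨c₀, h.mem⟩)
    (fun h' => h.ne (congrArg Subtype.val h')) h.lam (v := ⟨v, hv⟩) (w := ⟨w, hw⟩) hvs hws
    (fun h => hv0 (congrArg Subtype.val h)) (fun h => h0 (congrArg Subtype.val h))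
  obtain ⟨g, h1, h2, h3⟩ := h.ok.exists_lift hX hg₀
  have hμ : (μ : F) ≠ 0 := fun h => hμ0 (Subtype.ext h)
  have hσμ : P.σ μ ≠ 0 := by simpa using hμ
  have h4 : g w = (μ : F) • v := by rw [h3 ⟨w, hw⟩, hgw]; rfl
  have h5 : g (g₀.symm ⟨x, hx⟩ : R.V₀) = x := by rw [h3, g₀.apply_symm_apply]
  have := map_mem_zSub hvs h1 h2 hμ h4 (hN _ (by rw [← Iso.B h2, h4, h5]; simp [hxv])
    (g₀.symm ⟨x, hx⟩).2 _ (F₀.inv_mem (h.ok.σ_mem μ.2)))
  rwa [map_smul, map_smul, h5, smul_comm, smul_smul (P.σ μ), mul_inv_cancel₀ hσμ,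
    one_smul] at this

omit h hX in
theorem _root_.Cfsg.Agent.H1.Sub4.SS.add {a b : F} (ha : SS P R X a) (hb : SS P R X b) :
    SS P R X (a + b) := fun v hvs h1 x h2 h3 => by
  rw [add_smul]
  exact AddSubgroup.add_mem _ (ha v hvs h1 x h2 h3) (hb v hvs h1 x h2 h3)

omit h hX in
theorem _root_.Cfsg.Agent.H1.Sub4.SS.mul {a b : F} (ha : a ∈ F₀) (hb : SS P R X b) :
    SS P R X (a * b) := fun v hvs h1 x h2 h3 => by
  rw [mul_comm, mul_smul]
  exact hb v hvs h1 _ (RatStr.τ_smul_of_mem ha h2) (by simp [h3])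

theorem SS_one : SS P R X 1 := fun v hvs h1 x h2 h3 => by
  rw [one_smul]; exact h.ok.mem_zSub_of_rat hX hvs h1 h2 h3

theorem SS_of_tv {f : V} (hf : R.τ f = f) (hfs : P.Val f 0) (h0 : f ≠ 0) {c : F}
    (hc : P.Val 0 c) (hE : P.EI X f 0 c) (hcF : c ∉ F₀) (s : F) : SS P R X s := by
  let M : Subring F :=
    { carrier := {m | ∀ s, SS P R X s → SS P R X (m * s)}
      zero_mem' := fun s hs => hs.mul F₀.zero_mem
      one_mem' := fun s hs => hs.mul F₀.one_mem
      add_mem' := fun {a b} ha hb s hs => by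
        rw [add_mul]; exact (ha s hs).add (hb s hs)
      neg_mem' := fun {a} ha s hs => by
        simpa using (ha s hs).mul (F₀.neg_mem F₀.one_mem)
      mul_mem' := fun {a b} ha hb s hs => by
        rw [mul_assoc]; exact ha _ (hb s hs) }
  have hM := h.simple M (fun a ha s hs => hs.mul ha) ⟨P.σ c, fun s hs => ?_,
    fun h' => hcF (by simpa using h.ok.σ_mem h')⟩
  · simpa using (show s ∈ M by simp [hM]) 1 (h.SS_one hX)
  obtain ⟨w, hw, hws, hwf, hw'⟩ := h.exists_sing_perp hf h0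
  have hw0 : w ≠ 0 := by rintro rfl; simp at hw'
  have hf' := notMem_span_swap h0 hw'
  obtain ⟨x, hx, hx1, hx2⟩ := RatOK.exists_B_ne (h.ok.inv_pp hw) (z := f) (by rwa [perp_pp])
  have := tv_mem_zSub (hs w hws hw x hx1 hx) hfs hc hE (P.B_symm hwf)
  refine h.SS_of_mem hX hws hw hw0 (sing_smul hfs (P.B x f))
    (RatStr.τ_smul_of_mem (h.ok.B_mem _ _ hx1 hf) hf) (by simp [P.B_symm hwf])
    (by rwa [Submodule.smul_mem_iff _ hx2]) ?_
  convert this using 1
  simp only [map_smul, LinearMap.smul_apply, smul_eq_mul]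
  module

theorem SS_of_quadratic {ξ s t : F} (hξ : SS P R X ξ) (hξF : ξ ∉ F₀) (hs : s ∈ F₀) (ht : t ∈ F₀)
    (hq : ξ * ξ = s * ξ + t) (x : F) : SS P R X x := by
  obtain ⟨a, ha, b, hb, rfl⟩ := forall_of_quadratic h.simple hξF hs ht hq x
  simpa using ((h.SS_one hX).mul ha).add (hξ.mul hb)

theorem EI_char_two (h2 : (2 : F) = 0) (hσ : ∀ a, P.σ a = a) (hval : ∀ x c, P.Val x c) {η : F}
    (hη : SS P R X η) {w f : V} (hw : R.τ w = w) (hf : R.τ f = f) (hfw : P.B f w = 0)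
    (hf' : f ∉ F ∙ w) : P.EI X w (η • f) (η * η) := by
  have hε : P.ε = 1 := by
    rcases P.εε with h | h
    · exact h
    · rw [h]; linear_combination -h2
  obtain ⟨e, he, he1, he2⟩ := RatOK.exists_B_ne (h.ok.inv_pp hw) (z := f) (by rwa [perp_pp])
  obtain ⟨e', he', he1', he2'⟩ : ∃ e', P.B e' w = 0 ∧ R.τ e' = e' ∧ P.B e' f = 1 :=
    ⟨(P.B e f)⁻¹ • e, by simp [show P.B e w = 0 from he],
      RatStr.τ_smul_of_mem (F₀.inv_mem (h.ok.B_mem _ _ he1 hf)) he1, by simp [he2]⟩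
  obtain ⟨h1, γ, -, h3⟩ := hη w (hval w 0) hw e' he1' he'
  have h4 := h3.conj ((hX f 0 1 hf (by simp) F₀.one_mem (hval _ _) (by simp) (hval _ _)).mem
    (g := eichE (hval f 0) (by simp) (hval 0 1)) fun _ => rfl) (eichE_mem_Iso _ _ _)
  rw [eichE_apply, eichE_apply, eich_fix _ (P.B_symm hfw) (by simp)] at h4
  have h5 : P.eich f 0 1 (η • e') = η • e' - η • f := by simp [eich, he2']
  rw [h5] at h4
  have h6 := h4.add h3 (hval _ _) (by simp [he', hfw]) h1
  refine h6.congr ?_ ?_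
  · linear_combination (norm := module) h2 • (η • e') - h2 • (η • f)
  · have h7 : P.B f e' = 1 := by rw [P.herm, he2', hε]; simp
    simp only [map_sub, map_smul, LinearMap.sub_apply, LinearMap.smul_apply, smul_eq_mul,
      B_smul_right, hσ, h7, sing_B (hval e' 0)]
    linear_combination (γ - η * η) * h2

theorem SS_all {ξ : F} (hξ : SS P R X ξ) (hξF : ξ ∉ F₀) (x : F) : SS P R X x := by
  obtain ⟨f, hf, hfs, h0⟩ := h.exists_sing
  by_contra hcon
  have h1 : ∀ a ∈ F₀, ξ * a - P.ε * P.σ (ξ * a) ∈ F₀ := by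
    intro a ha
    by_contra h1
    obtain ⟨p, p', hp, hp', h2, h3, h4⟩ := h.exists_pair hf ha
    have := EI_comm_zSub (hξ f hfs hf p hp h2) (h.ok.mem_zSub_of_rat hX hfs hf hp' h3)
    simp only [map_smul, LinearMap.smul_apply, smul_eq_mul, h4] at this
    exact hcon (h.SS_of_tv hX hf hfs h0 (P.val_min _) this h1 x)
  have h2 := h1 1 F₀.one_mem
  rw [mul_one] at h2
  have h3 : ∀ a ∈ F₀, P.σ a = a := by
    intro a ha
    by_contra h3
    have h4 := F₀.div_mem (F₀.sub_mem (h1 a ha) (F₀.mul_mem h2 (h.ok.σ_mem ha)))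
      (F₀.sub_mem ha (h.ok.σ_mem ha))
    have h5 : a - P.σ a ≠ 0 := sub_ne_zero.2 (Ne.symm h3)
    refine hξF ?_
    convert h4 using 1
    rw [map_mul]
    field_simp
    ring
  have hε : P.ε = -1 := by
    have := lam_σ h.lam
    rw [h3 _ h.mem] at this
    apply mul_right_cancel₀ h.ne
    linear_combination this
  rw [hε, neg_mul, one_mul, sub_neg_eq_add] at h2
  by_cases hσ : ∀ a, P.σ a = a
  swap
  · have h4 : ξ * P.σ ξ ∈ F₀ := by
      by_contra h4
      have := h.simple (P.σ.eqLocus (RingHom.id F)) h3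
        ⟨ξ * P.σ ξ, by simp [RingHom.mem_eqLocus, mul_comm], h4⟩
      exact hσ fun a => (show a ∈ P.σ.eqLocus (RingHom.id F) by simp [this])
    exact hcon (h.SS_of_quadratic hX hξ hξF h2 (F₀.neg_mem h4) (by ring) x)
  have h4 : (2 : F) = 0 := by
    by_contra h4
    refine hξF ?_
    have := F₀.div_mem h2 (show (2 : F) ∈ F₀ by simp)
    rwa [hσ, ← mul_two, mul_div_cancel_right₀ _ h4] at this
  have := Fintype.ofFinite F
  have hval : ∀ x c, P.Val x c := by
    intro x c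
    obtain ⟨e, he⟩ := P.val_ex x
    obtain ⟨l, hl⟩ := Asch.exists_sq_of_two_eq_zero h4 ((c - e) / c₀)
    exact val_congr (val_add_lam he (lam_smul l h.lam)) (by
      have := h.ne
      rw [hσ, hl]; field_simp; ring)
  obtain ⟨w, hw, hws, hwf, hw'⟩ := h.exists_sing_perp hf h0
  have hw0 : w ≠ 0 := by rintro rfl; simp at hw'
  have hf' := notMem_span_swap h0 hw'
  have h5 := h.EI_char_two hX h4 hσ hval hξ hw hf (P.B_symm hwf) hf'
  have h6 := h.EI_char_two hX h4 hσ hval hξ (w := f + w) (by simp [hw, hf]) hf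
    (by simp [P.B_symm hwf, sing_B hfs]) (notMem_span_swap h0 (by
      rwa [Submodule.add_mem_iff_right _ (Submodule.mem_span_singleton_self f)]))
  have h7 : P.EI X f ((ξ * ξ) • w) (ξ * ξ) := by
    refine (h5.has.comp h6.has).congr fun v => ?_
    simp only [eich, map_add, map_sub, map_smul, LinearMap.add_apply, LinearMap.sub_apply,
      LinearMap.smul_apply, smul_eq_mul, sing_B hfs, sing_B hws, hwf, P.B_symm hwf,
      B_smul_right, hσ, hε]
    match_scalars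
    · ring
    · linear_combination (ξ * P.B v f + ξ * P.B v w - ξ * ξ * P.B v w) * h4
    · linear_combination (ξ * P.B v f - ξ * ξ * P.B v w - ξ * ξ * P.B v f) * h4
  have h8 : SS P R X (ξ * ξ) :=
    h.SS_of_mem hX hfs hf h0 hws hw hwf hw' ⟨by simp [hwf], _, hval _ _, h7⟩
  have h9 := (h7.add (h.EI_char_two hX h4 hσ hval h8 hf hw hwf hw') hfs (by simp [hwf])
    (by simp [hwf])).congr (w' := 0) (c' := (ξ + ξ * ξ) * (ξ + ξ * ξ))
    (by linear_combination (norm := module) h4 • ((ξ * ξ) • w))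
    (by simp only [map_smul, LinearMap.smul_apply, B_smul_right, sing_B hws, smul_eq_mul]
        linear_combination (-(ξ * ξ * ξ)) * h4)
  by_cases h10 : (ξ + ξ * ξ) * (ξ + ξ * ξ) ∈ F₀
  · have := Fintype.ofFinite F₀
    obtain ⟨l, hl⟩ := Asch.exists_sq_of_two_eq_zero (F := F₀) (Subtype.ext h4) ⟨_, h10⟩
    have h11 : (l : F) * l = (ξ + ξ * ξ) * (ξ + ξ * ξ) := congrArg Subtype.val hl
    have h12 : (ξ + ξ * ξ - l) * (ξ + ξ * ξ - l) = 0 := by
      linear_combination -h11 + (l * l - l * (ξ + ξ * ξ)) * h4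
    have h13 := sub_eq_zero.1 (mul_self_eq_zero.1 h12)
    exact hcon (h.SS_of_quadratic hX hξ hξF (F₀.neg_mem F₀.one_mem) l.2
      (by linear_combination h13) x)
  · exact hcon (h.SS_of_tv hX hf hfs h0 (hval _ _) h9 h10 x)

theorem E_le_of_not_rat
    (hΛ : ∀ c, P.Val 0 c → ∃ a l, ∃ c₀ ∈ F₀, P.Val 0 c₀ ∧ c = a - P.ε * P.σ a + l * P.σ l * c₀)
    {w z : V} (hws : P.Val w 0) (hw' : R.τ w = w) (h0 : w ≠ 0) (hz : z ∈ P.zSub X hws)
    (hz' : R.τ z - z ∉ F ∙ w) : P.E ≤ X := by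
  obtain ⟨e, he, he1, he2, he3⟩ : ∃ e, P.B e w = 0 ∧ R.τ e = e ∧ P.Val e 0 ∧ P.B z e ∉ F₀ := by
    by_contra! hcon
    let N : Submodule F₀ V :=
      { carrier := {e | P.B z e ∈ F₀}
        zero_mem' := by simp
        add_mem' := fun ha hb => by simpa using F₀.add_mem ha hb
        smul_mem' := fun a e he => by
          simpa [Subfield.smul_def] using F₀.mul_mem (h.ok.σ_mem a.2) he }
    exact hz' (h.ok.τ_sub_mem hw' fun y hy hyw => h.span_sing_pp hw' h0 (N := N) hcon hyw hy)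
  have hσc : P.σ c₀ ≠ 0 := by simpa using h.ne
  have hS := h.SS_all hX (h.SS_of_mem hX hws hw' h0 he2 he1 he (fun h' => by
      obtain ⟨a, rfl⟩ := Submodule.mem_span_singleton.1 h'
      simp [hz.1] at he3) (tv_mem_zSub hz he2 h.lam (h.tv₀ hX he1 he2) he))
    (fun h' => he3 (by simpa [hσc] using F₀.mul_mem (F₀.inv_mem h.σc₀) h'))
  have hall : ∀ (v : V) (hvs : P.Val v 0), R.τ v = v → ∀ x, P.B x v = 0 → x ∈ P.zSub X hvs := by
    intro v hvs hv x hx
    have : P.pp v ≤ P.eSub X hvs := (h.ok.inv_pp hv).le fun y hy hy' =>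
      ⟨hy, fun a => (hS a v hvs hv y hy' hy).2⟩
    obtain ⟨c, hc, hc'⟩ := (this hx).2 1
    rw [one_smul] at hc hc'
    exact ⟨hx, c, hc, hc'⟩
  have hmove : ∀ v a, P.Val a 0 → R.τ a = a → P.B v a = 0 → v ∉ F ∙ a → ∀ t : F,
      ∃ s ∈ X ⊓ P.Iso, s a = a ∧ s v = v + t • a := by
    intro v a has ha hva hv t
    obtain ⟨y, hy, hvy⟩ := exists_sep (P := P) hv (-(P.ε * t))
    rw [perp_span_singleton, mem_pp] at hy
    obtain ⟨-, c, hc, hc'⟩ := hall a has ha y hy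
    refine ⟨eichE has hy hc, ⟨hc'.mem fun _ => rfl, eichE_mem_Iso _ _ _⟩,
      eich_fix c (sing_B has) (P.B_symm hy), ?_⟩
    simp [eich, hva, hvy, ← mul_assoc]
  have hfull : ∀ v, P.Val v 0 → R.τ v = v → v ≠ 0 → P.FullA X v := by
    intro v hvs hv hv0 x c hx hc
    obtain ⟨-, c', hc', h1⟩ := hall v hvs hv x hx
    obtain ⟨a, l, c₀, h2, h3, h4⟩ := hΛ _ (val_sub_val hc hc')
    have h5 : P.EI X v 0 (l * P.σ l * c₀) := by
      by_cases hl : l = 0
      · simpa [hl] using EI.zero v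
      obtain ⟨e, he1, he2, he, he3⟩ := h.exists_sing_perp hv hv0
      have h6 := notMem_span_swap hv0 he3
      obtain ⟨s₁, hs₁, -, hs₁'⟩ := hmove v e he2 he1 (P.B_symm he) h6 1
      obtain ⟨s₂, hs₂, hs₂', hs₂''⟩ := hmove e v hvs hv he he3 (l - 1)
      obtain ⟨s₃, hs₃, hs₃', hs₃''⟩ := hmove v e he2 he1 (P.B_symm he) h6 (-l⁻¹)
      have h7 := (X ⊓ P.Iso).mul_mem hs₃ ((X ⊓ P.Iso).mul_mem hs₂ hs₁)
      have h8 := (hX v 0 c₀ hv (by simp) h2 hvs (by simp) h3).conj h7.1 h7.2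
      have h9 : (s₃ * (s₂ * s₁)) v = l • v := by
        simp only [LinearEquiv.mul_apply, hs₁', map_add, map_smul, hs₂', hs₂'', hs₃', hs₃'']
        match_scalars <;> field_simp <;> ring
      rwa [h9, map_zero, EI.smul_iff, smul_zero] at h8
    have h6 := EI_lam_min hvs (by have := h.dim; omega) (hall v hvs hv) a
    exact ((h1.add h6 hvs hx (by simp)).add h5 hvs (by simpa using hx) (by simp)).congr (by simp)
      (by simp only [map_zero]; linear_combination -h4)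
  obtain ⟨e, -, he1, he2, he3⟩ := h.ok.exists_sing_B_ne h.wild RatStr.inv_top (z := w)
    (by have := h.dim; rw [perp_top, inf_bot_eq, finrank_bot, finrank_top]; omega)
    (by simpa [perp_top] using h0)
  exact E_le_of_fullA hws he2 (hfull w hws hw' h0) (hfull e he2 he1 (by rintro rfl; simp at he3))
    he3

omit hX in
/-- Subfield subgroups with rational transvections are maximal in dimension at least four. -/
theorem N_maximal (hne : ∃ ξ, ξ ∉ F₀)
    (hΛ : ∀ c, P.Val 0 c → ∃ a l, ∃ c₀ ∈ F₀, P.Val 0 c₀ ∧ c = a - P.ε * P.σ a + l * P.σ l * c₀) :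
    Geo.IsMaximalIn P.E (R.N ⊓ P.E) := by
  refine isMaximalIn_of inf_le_right ?_ fun X hHX hXE g hg hgH => ?_
  · obtain ⟨ξ, hξ⟩ := hne
    obtain ⟨w, hw1, hws, h0⟩ := h.exists_sing
    obtain ⟨y, hy1, -, hy, hy2⟩ := h.exists_sing_perp hw1 h0
    obtain ⟨x, hx, hx1, hx2⟩ := RatOK.exists_B_ne (h.ok.inv_pp hw1) (z := y) (by rwa [perp_pp])
    obtain ⟨c, hc⟩ := P.val_ex (ξ • y)
    have h1 : P.B (ξ • y) w = 0 := by simp [hy]
    refine ⟨_, eichE_mem_E hws h1 hc, fun ⟨⟨t, ht⟩, _⟩ => hξ ?_⟩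
    have h2 := ht w
    rw [hw1, eichE_apply, eich_fix c (sing_B hws) (P.B_symm h1), hw1] at h2
    have h3 : (t : F) = 1 := smul_left_injective F h0 (by simpa using h2.symm)
    have h4 := ht x
    simp only [hx1, h3, one_smul, eichE_apply, eich, show P.B x w = 0 from hx, zero_smul, add_zero,
      mul_zero, map_sub, RatStr.τ_smul, hw1, sub_right_inj] at h4
    have h5 := (R.θ_iff _).1 (smul_left_injective F h0 h4)
    have hε : P.ε ∈ F₀ := by rcases P.εε with h | h <;> simp [h]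
    rw [← P.σσ ξ]
    refine h.ok.σ_mem ?_
    have := F₀.div_mem (F₀.mul_mem hε h5) (h.ok.B_mem x y hx1 hy1)
    rwa [← mul_assoc, ε_mul_ε, one_mul, B_smul_right, mul_div_cancel_right₀ _ hx2] at this
  have hX : HX P R X := fun e y c h1 h2 h3 h4 h5 h6 =>
    EI_of_mem h4 h5 h6 (hHX ⟨⟨1, fun x => by simp [h.ok.τ_eich h1 h2 h3]⟩, eichE_mem_E _ _ _⟩)
  by_contra hcon
  refine hgH ⟨h.le_N hX (hXE.trans E_le_Iso) (fun w hws h1 h2 z hz => ?_) hg, hXE hg⟩
  by_contra h3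
  exact hcon (h.E_le_of_not_rat hX hΛ hws h1 h2 hz h3)

end Ctx

end Cfsg.Agent.H1.Sub4
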