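import Cfsg.Agent.H7.GenSL
import Cfsg.Agent.H1.Sub4B

/-!
Symplectic and unitary similarity groups in the special linear group, dimension at least four.
-/

set_option autoImplicit false
set_option linter.unusedSectionVars false

namespace Cfsg.Agent.H1.SL4

open Module Cfsg.Agent.H7 Cfsg.Agent.H7.Polar

variable {F : Type*} [Field F] {V : Type*} [AddCommGroup V] [Module F V] {P : Polar F V}
variable [Finite F] [FiniteDimensional F V]

section

variable {X : Subgroup (V ≃ₗ[F] V)} (hE : P.E ≤ X)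
include hE

theorem tv_conj {g : V ≃ₗ[F] V} (hg : g ∈ P.E) {z v : V} (h : TV X (P.B.flip z) v) :
    TV X (P.B.flip (g z)) (g v) :=
  h.conj (hE hg) fun y => by rw [LinearMap.flip_apply, Iso.B (E_le_Iso hg), LinearMap.flip_apply]

theorem rad_step {v u : V} {κ : F} (hv : P.Val v 0) (hus : P.Val u 0) (huv : P.B u v = 0)
    (hvu : v ∉ F ∙ u) (h : TV X (P.B.flip v) (κ • v)) :
    TV X (P.B.flip u) ((κ + P.ε * P.σ κ) • v + κ • u) := by
  obtain ⟨g, hg, -, hmove⟩ := Sub4.exists_E_move hus (P.B_symm huv) hvu 1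
  have h1 := tv_conj hE hg h
  rw [map_smul, hmove, one_smul] at h1
  have h2 := h.neg_right (by simp [sing_B hv])
  have h3 := (EI_E hv (w := -(κ • u)) (by simp [huv]) (val_neg (sing_smul hus κ))).mono hE
  refine ((h1.has.comp h2.has).comp h3.has).congr fun x => ?_
  simp only [eich, LinearMap.flip_apply, map_add, map_sub, map_smul, map_neg, B_smul_right,
    LinearMap.add_apply, LinearMap.sub_apply, LinearMap.smul_apply, LinearMap.neg_apply,
    smul_eq_mul, sing_B hv, sing_B hus, huv, P.B_symm huv, map_zero]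
  module

theorem tv_self_left {u z : V} (hu : P.Val u 0) (hz : P.B z u = 0) (hzu : z ∉ F ∙ u)
    (h : TV X (P.B.flip z) u) (a : F) : TV X (P.B.flip (a • u)) u := by
  obtain ⟨g, hg, h1, h2⟩ := Sub4.exists_E_move hu hz hzu a
  have h3 := tv_conj hE hg h
  rw [h1, h2] at h3
  have := h3.sub_left h (by simp [P.B_symm hz, sing_B hu]) (P.B_symm hz)
  rwa [← map_sub, add_sub_cancel_left] at this

theorem tv_self_right {e v : V} (he : P.Val e 0) (hv : P.B v e = 0) (hve : v ∉ F ∙ e)
    {β : F} (h : TV X (P.B.flip (β • e)) v) (a : F) : TV X (P.B.flip (β • e)) (a • e) := by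
  obtain ⟨g, hg, h1, h2⟩ := Sub4.exists_E_move he hv hve a
  have h3 := tv_conj hE hg h
  rw [map_smul, h1, h2] at h3
  have := h3.sub_right h (by simp [hv])
  rwa [add_sub_cancel_left] at this

theorem tv_step {u z e : V} (hz : P.B z u = 0) (h : TV X (P.B.flip z) u) (he : P.Val e 0)
    (heu : P.B e u = 0) {c : F} (hc : P.Val 0 c) :
    TV X (P.B.flip ((-(P.σ c * P.B z e)) • e)) u := by
  have h1 := tv_conj hE (eichE_mem_E he (w := 0) (by simp) hc) h
  simp only [eichE_apply, eich, P.B_symm heu, smul_zero, map_zero, mul_zero, add_zero, zero_add,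
    zero_smul, sub_zero] at h1
  have := h1.sub_left h (by simp [P.B_symm hz, P.B_symm heu]) (P.B_symm hz)
  rw [← map_sub] at this
  convert this using 2
  module

end

theorem flip_smul (a : F) (z : V) : P.B.flip (a • z) = P.σ a • P.B.flip z := by
  ext x; simp

theorem tv_smul_iff {X : Subgroup (V ≃ₗ[F] V)} (a : F) (z v : V) :
    TV X (P.B.flip (a • z)) v ↔ TV X (P.B.flip z) (P.σ a • v) := by
  rw [flip_smul, TV.smul_swap]

section TV

variable {d : ℕ} (hw : P.Wild d) (hn : d + 2 ≤ finrank F V) (hn' : 3 ≤ finrank F V)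
  (hmax : ∀ c, c + P.ε * P.σ c = 0 → P.Val 0 c) {c₀ : F} (hc₀ : P.Val 0 c₀) (h0 : c₀ ≠ 0)
  {X : Subgroup (V ≃ₗ[F] V)} (hE : P.E ≤ X)
include hw hn

theorem exists_sing_pp {u z : V} (hu0 : u ≠ 0) (hzu : z ∉ F ∙ u) :
    ∃ e, P.B e u = 0 ∧ P.Val e 0 ∧ P.B z e ≠ 0 := by
  obtain ⟨e, he, hes, hez⟩ := Sub4.exists_sing_ne2 hw (M := P.pp u) (z := z) (by rwa [perp_pp]) (by
    have := finrank_pp (P := P) hu0
    have := finrank_pp_inf_perp_le (P := P) u
    omega)
  exact ⟨e, he, hes, P.B_ne_symm hez⟩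

include hn' hmax hc₀ h0 hE

theorem tv_sing {u z : V} (hu : P.Val u 0) (hu0 : u ≠ 0) (hz : P.B z u = 0)
    (hzu : z ∉ F ∙ u) (h : TV X (P.B.flip z) u) : SLV F V ≤ X := by
  have hU := tv_self_left hE hu hz hzu h
  obtain ⟨e, heu, hes, hze⟩ := exists_sing_pp hw hn hu0 hzu
  have hue : u ∉ F ∙ e := by
    intro hh
    obtain ⟨a, rfl⟩ := Submodule.mem_span_singleton.1 hh
    have ha : a ≠ 0 := by rintro rfl; simp at hu0
    simp [ha, hze] at hz
  have he : ∀ a : F, TV X (P.B.flip (a • e)) u := by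
    intro a
    by_cases ha : a = 0
    · simpa [ha] using TV.zero_left u
    by_cases hκ : ∃ κ, κ + P.ε * P.σ κ ≠ 0
    · obtain ⟨κ, hκ⟩ := hκ
      have hβ : -(P.σ c₀ * P.B z e) ≠ 0 := by simp [h0, hze]
      have hR : ∀ s t : F, TV X (P.B.flip (s • e)) (t • e) := by
        intro s t
        have := tv_self_right hE hes (P.B_symm heu) hue (tv_step hE hz h hes heu hc₀)
          (P.σ s * t / P.σ (-(P.σ c₀ * P.B z e)))
        rw [tv_smul_iff, smul_smul] at this ⊢
        rwa [mul_div_cancel₀ _ (by simpa using hβ)] at this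
      set t := a / P.σ (κ + P.ε * P.σ κ) with ht
      have hσκ : P.σ (κ + P.ε * P.σ κ) ≠ 0 := by rwa [Ne, σ_eq_zero]
      have ht0 : t ≠ 0 := div_ne_zero ha hσκ
      have h1 := rad_step hE (κ := κ) hu (sing_smul hes t) (by simp [heu])
        (by rwa [Submodule.span_singleton_smul_eq ht0.isUnit]) (by
          have := hU (P.σ κ)
          rwa [tv_smul_iff, σσ] at this)
      have h2 := h1.sub_right (hR t (κ * t)) (by simp [sing_B hes])
      rw [← smul_smul, add_sub_cancel_right, ← P.σσ (κ + P.ε * P.σ κ), ← tv_smul_iff,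
        smul_smul, ht, mul_div_cancel₀ _ hσκ] at h2
      exact h2
    · push Not at hκ
      have := tv_step hE hz h hes heu (hmax _ (hκ (P.σ (-a / P.B z e))))
      rwa [σσ, div_mul_cancel₀ _ hze, neg_neg] at this
  have key : ∀ e e', P.B e u = 0 → P.B e' u = 0 → P.Val e' 0 → P.B e e' ≠ 0 →
      (∀ a : F, TV X (P.B.flip (a • e)) u) → ∀ a : F, TV X (P.B.flip (a • e')) u := by
    intro e e' h1 h2 h3 h4 h5 a
    have := tv_step hE (by simp [h1]) (h5 (-a / (P.σ c₀ * P.B e e'))) h3 h2 hc₀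
    convert this using 3
    have : P.σ c₀ ≠ 0 := by simpa using h0
    simp only [map_smul, LinearMap.smul_apply, smul_eq_mul]
    field_simp
  let N : Submodule F V :=
    { carrier := {z | P.B z u = 0 ∧ ∀ a : F, TV X (P.B.flip (a • z)) u}
      zero_mem' := ⟨by simp, fun a => by simpa using TV.zero_left u⟩
      add_mem' := by
        rintro z z' ⟨h1, h2⟩ ⟨h1', h2'⟩
        refine ⟨by simp [h1, h1'], fun a => ?_⟩
        rw [smul_add, map_add]
        exact (h2 a).add_left (h2' a) (by simp [P.B_symm h1])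
      smul_mem' := by
        rintro b z ⟨h1, h2⟩
        exact ⟨by simp [h1], fun a => by rw [smul_smul]; exact h2 _⟩ }
  obtain ⟨e', heu', hes', hee⟩ := exists_sing_pp hw hn hu0 (z := e) (by
    intro hh
    obtain ⟨a, rfl⟩ := Submodule.mem_span_singleton.1 hh
    simp [hz] at hze)
  have he' := key e e' heu heu' hes' hee he
  have hN : ∀ y, P.B y u = 0 → P.Val y 0 → y ∈ N := by
    intro y hy hys
    by_cases h1 : P.B e y = 0
    · by_cases h2 : P.B e' y = 0
      · have h3 : y + e ∈ N := ⟨by simp [hy, heu], key e' _ heu' (by simp [hy, heu])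
          (by simpa using val_add_orth hys hes (P.B_symm h1))
          (by simpa [h2] using P.B_ne_symm hee) he'⟩
        exact (N.add_mem_iff_left ⟨heu, he⟩).1 h3
      · exact ⟨hy, key e' y heu' hy hys h2 he'⟩
    · exact ⟨hy, key e y heu hy hys h1 he⟩
  have h3 : P.pp u ≤ N := by
    rw [← perp_perp (P := P) N, ← perp_span_singleton]
    refine perp_anti fun y hy => ?_
    by_contra hyu
    obtain ⟨s, h1, h2, h3⟩ := exists_sing_pp hw hn hu0 hyu
    exact h3 (hy s (hN s h1 h2))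
  refine SLV_le_of_full hw (by omega) hn' hE hu0 fun φ hφ => ?_
  obtain ⟨y, hy⟩ := P.exists_B_eq φ
  have := (h3 (show y ∈ P.pp u from P.B_symm (by rw [hy, hφ]))).2 1
  rw [one_smul] at this
  rwa [show φ = P.B.flip y from LinearMap.ext fun x => (hy x).symm]

theorem tv_nonsing {v z : V} (hv : P.B v v ≠ 0) (hz0 : z ≠ 0) (hz : P.B z v = 0)
    (h : TV X (P.B.flip z) v) : SLV F V ≤ X := by
  have hvz : v ∉ F ∙ z := fun h => by
    obtain ⟨a, ha⟩ := Submodule.mem_span_singleton.1 h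
    exact hv (by nth_rewrite 1 [← ha]; simp [hz])
  obtain ⟨e, hez, hes, hve⟩ := exists_sing_pp hw hn hz0 hvz
  have h1 := tv_conj hE (eichE_mem_E hes (w := 0) (by simp) hc₀) h
  simp only [eichE_apply, eich, P.B_symm hez, smul_zero, map_zero, mul_zero, add_zero, zero_add,
    zero_smul, sub_zero] at h1
  have h2 := h1.sub_right h (P.B_symm hz)
  rw [sub_sub_cancel_left, ← neg_smul] at h2
  have hβ : -(P.σ c₀ * P.B v e) ≠ 0 := by simp [h0, hve]
  refine tv_sing hw hn hn' hmax hc₀ h0 hE (sing_smul hes _)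
    (smul_ne_zero hβ (by rintro rfl; simp at hve)) (by simp [P.B_symm hez]) (fun hh => ?_) h2
  rw [Submodule.span_singleton_smul_eq hβ.isUnit] at hh
  obtain ⟨a, rfl⟩ := Submodule.mem_span_singleton.1 hh
  have ha : a ≠ 0 := by rintro rfl; simp at hz0
  simp [ha, P.B_ne_symm hve] at hz

theorem tv_rad {v : V} {κ : F} (hv : P.Val v 0) (hv0 : v ≠ 0)
    (hκ : κ + P.ε * P.σ κ ≠ 0) (h : TV X (P.B.flip v) (κ • v)) : SLV F V ≤ X := by
  obtain ⟨u, hu, hu', hus⟩ := hw.exists_notMem (P.pp v) (F ∙ v) (by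
    have := finrank_pp (P := P) hv0
    have := finrank_span_singleton_le (F := F) v
    omega)
  have huv : P.B u v = 0 := hu
  have hvu : v ∉ F ∙ u := H7.notMem_span_swap hv0 hu'
  have h4 := rad_step hE hv hus huv hvu h
  refine tv_sing hw hn hn' hmax hc₀ h0 hE
    (val_congr (val_add_orth (sing_smul hv _) (sing_smul hus _) (by simp [P.B_symm huv]))
      (by simp)) (fun h0 => hvu ?_) (by simp [huv, sing_B hus]) (fun h0 => ?_) h4
  · rw [← Submodule.smul_mem_iff _ hκ, eq_neg_of_add_eq_zero_left h0]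
    exact Submodule.neg_mem _ (Submodule.smul_mem _ _ (Submodule.mem_span_singleton_self u))
  · obtain ⟨a, ha⟩ := Submodule.mem_span_singleton.1 h0
    have ha0 : a ≠ 0 := fun h => hu' (by rw [h, zero_smul] at ha; rw [← ha]; simp)
    apply hvu
    rw [← Submodule.smul_mem_iff _ (mul_ne_zero ha0 hκ)]
    exact Submodule.mem_span_singleton.2 ⟨1 - a * κ, by linear_combination (norm := module) -ha⟩

theorem tv_any {v z : V} (hv0 : v ≠ 0)
    (hz0 : z ≠ 0) (hz : P.B z v = 0) (h : TV X (P.B.flip z) v)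
    (hΛ : ∀ κ, v = κ • z → κ + P.ε * P.σ κ ≠ 0) : SLV F V ≤ X := by
  have hs : ∀ x, P.B x x = 0 → P.Val x 0 := fun x hx => by
    obtain ⟨c, hc⟩ := P.val_ex x
    exact val_congr (val_sub_lam hc (hmax c (by rw [← P.val_self hc, hx]))) (sub_self c)
  by_cases hv : P.B v v = 0
  · by_cases hzv : z ∈ F ∙ v
    · obtain ⟨a, rfl⟩ := Submodule.mem_span_singleton.1 hzv
      have ha : a ≠ 0 := fun h => hz0 (by simp [h])
      have e : v = a⁻¹ • a • v := by simp [ha]
      refine tv_rad hw hn hn' hmax hc₀ h0 hE (sing_smul (hs v hv) a) hz0 (hΛ _ e) (by rwa [← e])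
    · exact tv_sing hw hn hn' hmax hc₀ h0 hE (hs v hv) hv0 hz hzv h
  · exact tv_nonsing hw hn hn' hmax hc₀ h0 hE hv hz0 hz h

theorem B_map_eq_zero (hX : ¬ SLV F V ≤ X) {g : V ≃ₗ[F] V} (hg : g ∈ X)
    {u0 x0 : V} (hu0 : P.Val u0 0) (hx0 : P.B x0 u0 = 0) : P.B (g x0) (g u0) = 0 := by
  by_cases hu : u0 = 0
  · simp [hu]
  obtain ⟨a', ha'⟩ := P.exists_B_eq (P.B.flip u0 ∘ₗ (g.symm : V →ₗ[F] V))
  have ha'' : ∀ x, P.B (g x) a' = P.B x u0 := fun x => by simp [ha']
  have h1 : TV X (P.B.flip (-(c₀ • u0))) u0 :=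
    ((EI_E hu0 (w := 0) (by simp) hc₀).mono hE).has.congr fun x => by simp [eich, sub_eq_add_neg]
  have h2 := h1.conj (ψ := P.B.flip (-(c₀ • a'))) hg fun x => by simp [ha'']
  by_contra hne
  refine hX (tv_any hw hn hn' hmax hc₀ h0 hE (by simpa using hu) (fun h => hu ?_)
    (P.B_symm (by simp [ha'', sing_B hu0])) h2 fun κ hκ => absurd ?_ hne)
  · have : a' = 0 := by simpa [h0] using h
    exact P.nondeg _ fun x => by rw [← ha'', this, map_zero]
  · rw [hκ]; simp [ha'', hx0]

theorem le_or_le : SLV F V ≤ X ∨ X ≤ P.Sim := by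
  by_cases hX : SLV F V ≤ X
  · exact Or.inl hX
  refine Or.inr fun g hg => ?_
  obtain ⟨c, hc⟩ := sim_of_forall_sing' hw hn (g := (g : V →ₗ[F] V))
    fun u x hu hx => B_map_eq_zero hw hn hn' hmax hc₀ h0 hE hX hg hu hx
  exact mem_Sim_of hc

end TV

section

open Geo

variable {F : Type*} [Field F] [Fintype F] {n : ℕ}

theorem sp (hn : 3 ≤ n) (f : (Fin n → F) → (Fin n → F) → F) (hf : IsSymplecticForm f) :
    IsMaximalIn (specialLinear (Fin n) F) (similarityGroup f ⊓ specialLinear (Fin n) F) := by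
  refine isMaximalIn_of_equiv toLE mem_specialLinear_iff (fun g => ?_)
    (Polar.Sim_maximal_of (P := spPolar hf) (by simp; omega) fun X hX =>
      le_or_le (spPolar_wild hf) (by simp; omega) (by simp; omega)
        (fun _ _ => trivial) (spPolar_val hf 0 1) one_ne_zero hX)
  simp only [Subgroup.mem_inf, mem_specialLinear_iff]
  exact Iff.rfl

theorem unitary (hn : 4 ≤ n) (σ : F ≃+* F) (f : (Fin n → F) → (Fin n → F) → F)
    (hf : IsUnitaryForm σ f) :
    IsMaximalIn (specialLinear (Fin n) F) (similarityGroup f ⊓ specialLinear (Fin n) F) := by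
  have hσ := unitPolar_ne hf
  obtain ⟨c₀, h0, hc₀⟩ := Polar.exists_lam_ne_of_unitary hσ rfl
  refine isMaximalIn_of_equiv toLE mem_specialLinear_iff (fun g => ?_)
    (Polar.Sim_maximal_of (P := unitPolar hf) (by simp; omega) fun X hX =>
      le_or_le (Polar.wild_two_of_unitary hσ rfl) (by simp; omega)
        (by simp; omega) (fun c hc => ?_) hc₀ h0 hX)
  · simp only [Subgroup.mem_inf, mem_specialLinear_iff]
    exact Iff.rfl
  · rw [Polar.val_iff_of_unitary hσ rfl, map_zero]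
    rw [unitPolar_ε, one_mul] at hc
    exact hc.symm

end

end Cfsg.Agent.H1.SL4
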