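import Cfsg.Agent.H8.SLFrame

/-!
The monomial group is maximal in `SL_4(q)` for `q ≥ 7`.
-/

set_option autoImplicit false
set_option linter.unusedSectionVars false

namespace Cfsg.Agent.H1.SL4

open Module Cfsg.Agent.H7 Cfsg.Agent.H8

variable {F : Type*} [Field F] {V : Type*} [AddCommGroup V] [Module F V] [FiniteDimensional F V]

theorem exists_diagAll {κ : Type} [Fintype κ] [DecidableEq κ] {D : κ → Submodule F V}
    (hD : Dec 1 D) (d : κ → F) (hd : ∀ i, d i ≠ 0) (h1 : ∏ i, d i = 1) :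
    ∃ t ∈ decStab D ⊓ SLV F V, ∀ i x, hD.pr i (t x) = d i • hD.pr i x := by
  obtain ⟨b, hb, -⟩ := hD.exists_basis 0
  let u : κ → Fˣ := fun i => Units.mk0 (d i) (hd i)
  let t := b.equiv (b.unitsSMul u) (Equiv.refl κ)
  have ht : ∀ i, t (b i) = d i • b i := fun i => by
    simp [t, Basis.unitsSMul_apply, u, Units.smul_def]
  have ht' : ∀ i, ∀ x ∈ D i, t x = d i • x := fun i x hx => by
    obtain ⟨c, rfl⟩ := hD.exists_smul (hb i) (b.ne_zero i) hx
    rw [map_smul, ht, smul_comm]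
  have hm : ∀ i, ∀ x ∈ D i, t x ∈ D i := fun i x hx => by
    rw [ht' i x hx]; exact (D i).smul_mem _ hx
  refine ⟨t, ⟨hD.mem_decStab' hm, mem_SLV.2 ?_⟩, fun i x => ?_⟩
  · have := b.det_comp (t : V →ₗ[F] V) b
    rw [show (t : V →ₗ[F] V) ∘ b = fun i => d i • b i from funext ht, AlternatingMap.map_smul_univ,
      Basis.det_self, mul_one, h1, one_smul] at this
    exact this.symm
  · rw [← ht' i _ (hD.pr_mem i x)]
    exact hD.pr_apply' (g := (t : V →ₗ[F] V)) hm i x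

variable [Fintype F] {X : Subgroup (V ≃ₗ[F] V)} {D D' : Fin 4 → Submodule F V}

theorem one_zero (hq : 7 ≤ Fintype.card F) (h : Fr X D) (h' : Fr X D')
    (hd : ∀ i j v, v ∈ D i → v ∈ D' j → v = 0) {w : V} {i : Fin 4} (hw : w ∈ D' i) (w0 : w ≠ 0)
    {k l : Fin 4} (hkl : k ≠ l) (hk : h.dec.pr k w = 0) (hl : h.dec.pr l w = 0) : False := by
  obtain ⟨a, a0, ha⟩ := exists_gen (F := F)
  have a1 : a - 1 ≠ 0 := fun h => ha 1 (by omega) (by omega) (by linear_combination h)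
  have a2 : a + 1 ≠ 0 := fun h => ha 2 (by omega) (by omega) (by linear_combination (a - 1) * h)
  have a3 : a + a⁻¹ + 1 ≠ 0 := fun h => ha 3 (by omega) (by omega) (by
    field_simp at h; linear_combination (a - 1) * h)
  have a4 : a + a⁻¹ ≠ 0 := fun h => ha 4 (by omega) (by omega) (by
    field_simp at h; linear_combination (a ^ 2 - 1) * h)
  have a5 : a - a⁻¹ ≠ 0 := fun h => ha 2 (by omega) (by omega) (by
    field_simp at h; linear_combination h)
  obtain ⟨t, h1, h2⟩ := h.dec.exists_diag hkl a0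
  have ht := h'.fix t (h.le h1) i i w hw w0 (by simpa [h2, hk, hl] using hw)
  obtain ⟨r, x, hx, h3, -, h4⟩ := h.exists_two h' hd hkl a0 a1 a2 a3 ht h2
  have x0 : x ≠ 0 := by rintro rfl; simp at h3
  have h5 : x = h.dec.pr k x + h.dec.pr l x := h.dec.ext fun m => by
    by_cases e1 : m = k
    · subst e1; simp [h.dec.pr_pr_ne hkl.symm]
    by_cases e2 : m = l
    · subst e2; simp [h.dec.pr_pr_ne hkl]
    simp [h4 m e1 e2, h.dec.pr_pr_ne (Ne.symm e1), h.dec.pr_pr_ne (Ne.symm e2)]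
  obtain ⟨s, hs⟩ := Dec.exists_mem ht hx
  obtain ⟨s', hs'⟩ := Dec.exists_mem ht hs
  refine h'.dec.false_of_three hx hs (u := s') (α := -1) (β := a + a⁻¹) ?_ (by simp) a4 x0
    fun h6 => ?_
  · convert hs' using 1
    simp only [h2, map_add, map_smul, Dec.pr_pr, h.dec.pr_pr_ne hkl, h.dec.pr_pr_ne hkl.symm,
      smul_zero, add_zero]
    generalize h.dec.pr k x = y at h5
    generalize h.dec.pr l x = z at h5
    rw [h5]
    match_scalars <;> field_simp <;> ring
  · refine smul_ne_zero a5 h3 (hd k r _ ((D k).smul_mem _ (h.dec.pr_mem _ _)) ?_)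
    convert sub_mem h6 ((D' r).smul_mem a⁻¹ hx) using 1
    rw [h2]
    generalize h.dec.pr k x = y at h5
    generalize h.dec.pr l x = z at h5
    rw [h5]
    module

theorem pr_ne_zero (hq : 7 ≤ Fintype.card F) (h : Fr X D) (h' : Fr X D')
    (hd : ∀ i j v, v ∈ D i → v ∈ D' j → v = 0) {w : V} {i : Fin 4} (hw : w ∈ D' i) (w0 : w ≠ 0)
    (z : Fin 4) : h.dec.pr z w ≠ 0 := by
  intro hz
  obtain ⟨a, a0, ha⟩ := exists_gen (F := F)
  have a4 : (a ^ 3)⁻¹ - a ≠ 0 := fun h => ha 4 (by omega) (by omega) (by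
    field_simp at h; linear_combination -h)
  obtain ⟨t, h1, h2⟩ := exists_diagAll h.dec (fun m => if m = z then (a ^ 3)⁻¹ else a)
    (fun m => by split_ifs <;> simp [a0]) (by
      fin_cases z <;> simp [Fin.prod_univ_four] <;> field_simp)
  have h3 : ∀ x, t x = a • x + ((a ^ 3)⁻¹ - a) • h.dec.pr z x := fun x => h.dec.ext fun m => by
    rw [h2]
    by_cases e : m = z
    · subst e; simp; module
    · simp [e, h.dec.pr_pr_ne (Ne.symm e)]
  have ht := h'.fix t (h.le h1) i i w hw w0 (by simpa [h3, hz] using (D' i).smul_mem a hw)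
  obtain ⟨r, x, hx, h4⟩ : ∃ r, ∃ x ∈ D' r, h.dec.pr z x ≠ 0 := by
    by_contra! hh
    obtain ⟨u, hu, u0⟩ := h.dec.exists_ne_zero z
    have := congrArg (· u) (h'.dec.hom_ext (f := h.dec.pr z) (g := 0) hh)
    exact u0 (by simpa [h.dec.pr_self hu] using this)
  obtain ⟨s, hs⟩ := Dec.exists_mem ht hx
  obtain ⟨k, hk⟩ := exists_notMem_of_card_lt (s := {r, s}) (Finset.card_le_two.trans_lt (by simp))
  obtain ⟨l, hl⟩ := exists_notMem_of_card_lt (s := {r, s, k})
    (Finset.card_le_three.trans_lt (by simp))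
  simp only [Finset.mem_insert, Finset.mem_singleton, not_or] at hk hl
  have h5 : ∀ m, m ≠ r → m ≠ s → h'.dec.pr m (((a ^ 3)⁻¹ - a) • h.dec.pr z x) = 0 := by
    intro m e1 e2
    rw [show ((a ^ 3)⁻¹ - a) • h.dec.pr z x = t x - a • x by rw [h3]; module, map_sub, map_smul,
      h'.dec.pr_ne e2.symm hs, h'.dec.pr_ne e1.symm hx]
    simp
  exact one_zero hq h' h (fun i j v k3 k4 => hd j i v k4 k3)
    ((D z).smul_mem _ (h.dec.pr_mem z x)) (smul_ne_zero a4 h4) (Ne.symm hl.2.2)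
    (h5 k hk.1 hk.2) (h5 l hl.1 hl.2.1)

theorem fr_false (hq : 7 ≤ Fintype.card F) (h : Fr X D) (h' : Fr X D')
    (hd : ∀ i j v, v ∈ D i → v ∈ D' j → v = 0) : False := by
  obtain ⟨w, hw, w0⟩ := h'.dec.exists_ne_zero 0
  obtain ⟨b, hb, h1⟩ := h.dec.exists_basis w
  have h2 : ∀ m, b.repr w m = 1 := fun m => h1 m (pr_ne_zero hq h h' hd hw w0 m)
  let σ : Equiv.Perm (Fin 4) := Equiv.swap 0 1 * Equiv.swap 2 3
  have h3 : permLE b σ w = w := b.ext_elem fun m => by
    obtain ⟨m, rfl⟩ := σ.surjective m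
    rw [repr_permLE, h2, h2]
  have hv : permLE b σ ∈ decStab D' :=
    h'.fix _ (h.le ⟨h.dec.equiv_mem hb σ, mem_SLV.2 ((det_permLE b σ).trans (by
      simp [σ]))⟩) 0 0 w hw w0 (h3.symm ▸ hw)
  obtain ⟨τ, hτ⟩ := Dec.exists_perm hv
  have hτ0 : τ 0 = 0 := h'.dec.eq_of_mem (h3 ▸ hτ 0 w hw) hw w0
  have h4 : ∀ y, h'.dec.pr 0 (permLE b σ y - y) = 0 := fun y => by
    have := h'.dec.pr_apply (g := (permLE b σ : V →ₗ[F] V)) τ.injective hτ 0 y
    rw [hτ0, LinearEquiv.coe_coe] at this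
    obtain ⟨c, hc⟩ := h'.dec.exists_smul hw w0 (h'.dec.pr_mem 0 y)
    rw [map_sub, this, hc, map_smul, h3, sub_self]
  have key : ∀ a : F, a ≠ 0 → ∃ s, a • (b 0 - b 1) + a⁻¹ • (b 2 - b 3) ∈ D' s := by
    intro a a0
    obtain ⟨t, k1, k2⟩ := exists_diagAll h.dec ![a, -a, a⁻¹, -a⁻¹]
      (fun m => by fin_cases m <;> simp [a0]) (by simp [Fin.prod_univ_four]; field_simp)
    have k3 : t w = a • (b 0 - b 1) + a⁻¹ • (b 2 - b 3) := h.dec.ext fun m => by
      rw [k2, h.dec.pr_eq hb, h.dec.pr_eq hb, h2]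
      fin_cases m <;> simp
    by_contra k4
    refine pr_ne_zero hq h' (h'.map (h.le k1))
      (h'.dis (h.le k1) fun k5 => k4 (k3 ▸ Dec.exists_mem k5 hw))
      (Submodule.mem_map_of_mem hw) (by simpa using w0) 0 ?_
    rw [LinearEquiv.coe_coe, k3, ← h4 (a • b 1 + a⁻¹ • b 3)]
    congr 1
    have e1 : σ 1 = 0 := by decide
    have e3 : σ 3 = 2 := by decide
    simp only [map_add, map_smul, permLE_apply, e1, e3]
    module
  obtain ⟨a, a0, ha⟩ := exists_gen (F := F)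
  have a4 : a + a⁻¹ ≠ 0 := fun h => ha 4 (by omega) (by omega) (by
    field_simp at h; linear_combination (a ^ 2 - 1) * h)
  have a5 : a - a⁻¹ ≠ 0 := fun h => ha 2 (by omega) (by omega) (by
    field_simp at h; linear_combination h)
  obtain ⟨r, hr⟩ := key 1 one_ne_zero
  obtain ⟨s, hs⟩ := key a a0
  obtain ⟨u, hu⟩ := key (a ^ 2) (pow_ne_zero _ a0)
  refine h'.dec.false_of_three hr hs (u := u) (α := -1) (β := a + a⁻¹) ?_ (by simp) a4
    (fun e => ?_) fun h6 => ?_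
  · convert hu using 1
    match_scalars <;> field_simp <;> ring
  · simpa using congrArg (b.repr · 0) e
  · refine one_zero hq h h' hd (sub_mem h6 ((D' r).smul_mem a⁻¹ hr)) (fun e => a5 ?_)
      (show (2 : Fin 4) ≠ 3 by decide) ?_ ?_
    · simpa using congrArg (b.repr · 0) e
    · rw [h.dec.pr_eq hb]; simp
    · rw [h.dec.pr_eq hb]; simp

/-- The monomial group is maximal in `SL_4(q)` for `q ≥ 7`. -/
theorem maximal_frame (hD : Dec 1 D) (hq : 7 ≤ Fintype.card F) :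
    Geo.IsMaximalIn (SLV F V) (decStab D ⊓ SLV F V) := by
  refine isMaximalIn_of inf_le_right ?_ fun X hX hX' g hg hgH => ?_
  · obtain ⟨g, h1, h2⟩ := hD.exists_notMem_decStab (by simp)
    exact ⟨g, h1, fun h => h2 h.1⟩
  by_contra hne
  have h : Fr X D := ⟨hD, hX, fun g hg i j v hv v0 h1 => by
    by_contra h2
    by_cases hij : j = i
    · exact hne (hD.SLV_le_of_fix hX (by omega) (by simp) hg (hD.apply_mem hv v0 (hij ▸ h1)) h2)
    obtain ⟨s, h3, h4, -⟩ := hD.exists_swap_sl hij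
    exact hne (hD.SLV_le_of_fix hX (by omega) (by simp) (mul_mem (hX h3) hg)
      (hD.apply_mem hv v0 (h4 _ h1)) fun h5 => h2 ((Subgroup.mul_mem_cancel_left _ h3.1).1 h5))⟩
  exact fr_false hq h (h.map hg) (h.dis hg fun h1 => hgH ⟨h1, hX' hg⟩)

theorem frame {D : Fin 4 → Submodule F (Fin 4 → F)} (hD : Geo.IsMDecomposition 1 D)
    (hq : 7 ≤ Fintype.card F) : Geo.IsMaximalIn (Geo.specialLinear (Fin 4) F)
      (Geo.decompositionStabilizer D ⊓ Geo.specialLinear (Fin 4) F) :=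
  isMaximalIn_of_equiv toLE mem_specialLinear_iff (H' := decStab D ⊓ SLV F _) (fun g => by
    simp only [Subgroup.mem_inf, mem_specialLinear_iff, mem_decompositionStabilizer_iff])
    (maximal_frame (IsMDecomposition.dec hD) hq)

end Cfsg.Agent.H1.SL4
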