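import Cfsg.Agent.H1.SL4Form
import Cfsg.Agent.H1.OExtMat

/-!
Orthogonal similarity groups in the special linear group, dimension at least four.
-/

set_option autoImplicit false
set_option linter.unusedSectionVars false

namespace Cfsg.Agent.H1.SL4

open Module Cfsg.Agent.H7 Cfsg.Agent.H7.Polar

variable {F : Type*} [Field F] {V : Type*} [AddCommGroup V] [Module F V] {P : Polar F V}
variable [Finite F] [FiniteDimensional F V]

theorem mkQ_self (u : V) : (F ∙ u).mkQ u = 0 :=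
  (Submodule.Quotient.mk_eq_zero _).2 (Submodule.mem_span_singleton_self u)

section

variable (hO : IsO P) (h2 : (2 : F) ≠ 0) (hn : 4 ≤ finrank F V)
include hO h2 hn

omit h2 hn in
theorem o_wild : P.Wild 3 := Polar.wild_three_of_σ hO.σ

omit hO h2 in
theorem pp_nonsing {v : V} (hv : P.B v v ≠ 0) :
    finrank F ↥(P.pp v ⊓ P.perp (P.pp v)) + 3 ≤ finrank F (P.pp v) := by
  have h0 : v ≠ 0 := by rintro rfl; simp at hv
  have h1 := finrank_pp (P := P) h0
  have h3 : P.pp v ⊓ P.perp (P.pp v) = ⊥ := by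
    rw [perp_pp, eq_bot_iff]
    rintro x ⟨h3, h4⟩
    obtain ⟨a, rfl⟩ := Submodule.mem_span_singleton.1 h4
    have : a = 0 := by simpa [hv] using h3
    simp [this]
  rw [h3, finrank_bot]; omega

omit h2 in
theorem le_of_EInvA {v z : V} (hv : P.B v v ≠ 0) {N : AddSubgroup V} (hN : P.EInvA (P.pp v) N)
    (hz : z ∈ N) (hzv : z ∉ F ∙ v) {x : V} (hx : P.B x v = 0) : x ∈ N := by
  obtain ⟨e, he, hes, hez⟩ := Sub4.exists_sing_ne2 (o_wild hO) (M := P.pp v) (z := z)
    (by rwa [perp_pp]) (pp_nonsing hn hv)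
  exact hN.le_of_sing hz he hes (P.B_ne_symm hez) (pp_nonsing hn hv) hx

omit hO h2 hn in
theorem notMem_of_nonsing {v z : V} (hv : P.B v v ≠ 0) (hz0 : z ≠ 0) (hz : P.B z v = 0) :
    z ∉ F ∙ v := fun h => by
  obtain ⟨a, rfl⟩ := Submodule.mem_span_singleton.1 h
  have : a = 0 := by simpa [hv] using hz
  simp [this] at hz0

variable {X : Subgroup (V ≃ₗ[F] V)} (hE : P.E ≤ X)
include hE

omit h2 in
theorem o_tv_centre {v z : V} (hv : P.B v v ≠ 0) (hz0 : z ≠ 0) (hz : P.B z v = 0)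
    (h : TV X (P.B.flip z) v) : SLV F V ≤ X := by
  let N : AddSubgroup V :=
    { carrier := {z | P.B z v = 0 ∧ TV X (P.B.flip z) v}
      zero_mem' := ⟨by simp, by simpa using TV.zero_left v⟩
      add_mem' := by
        rintro z z' ⟨h1, h2⟩ ⟨h1', h2'⟩
        refine ⟨by simp [h1, h1'], ?_⟩
        rw [map_add]
        exact h2.add_left h2' (by simp [P.B_symm h1])
      neg_mem' := by
        rintro z ⟨h1, h2⟩
        refine ⟨by simp [h1], ?_⟩
        rw [map_neg]
        exact h2.neg_left (by simp [P.B_symm h1]) }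
  have hN : P.EInvA (P.pp v) N := by
    rintro e he w hw c hes hwe hc x ⟨hx1, hx2⟩
    have hfix : eichE hes hwe hc v = v := eich_fix c (P.B_symm he) (P.B_symm hw)
    have hI := eichE_mem_Iso hes hwe hc
    refine ⟨by rw [← hfix, ← eichE_apply hes hwe hc, Iso.B hI, hx1], ?_⟩
    have := tv_conj hE (eichE_mem_E hes hwe hc) hx2
    rwa [hfix] at this
  refine SLV_le_of_full (o_wild hO) hn (by omega) hE (u := v) (by rintro rfl; simp at hv)
    fun φ hφ => ?_
  obtain ⟨y, hy⟩ := P.exists_B_eq φ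
  have := (le_of_EInvA hO hn hv hN (z := z) ⟨hz, h⟩ (notMem_of_nonsing hv hz0 hz) (x := y)
    (P.B_symm (by rw [hy, hφ]))).2
  rwa [show φ = P.B.flip y from LinearMap.ext fun x => (hy x).symm]

theorem o_tv_axis {v z : V} (hz : P.B z z ≠ 0) (hv0 : v ≠ 0) (hv : P.B v z = 0)
    (h : TV X (P.B.flip z) v) : SLV F V ≤ X := by
  let N : AddSubgroup V :=
    { carrier := {y | P.B y z = 0 ∧ TV X (P.B.flip z) y}
      zero_mem' := ⟨by simp, TV.zero_right _⟩
      add_mem' := by
        rintro y y' ⟨h1, h2⟩ ⟨h1', h2'⟩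
        exact ⟨by simp [h1, h1'], h2.add_right h2' h1'⟩
      neg_mem' := by
        rintro y ⟨h1, h2⟩
        exact ⟨by simp [h1], h2.neg_right h1⟩ }
  have hN : P.EInvA (P.pp z) N := by
    rintro e he w hw c hes hwe hc x ⟨hx1, hx2⟩
    have hfix : eichE hes hwe hc z = z := eich_fix c (P.B_symm he) (P.B_symm hw)
    have hI := eichE_mem_Iso hes hwe hc
    refine ⟨by rw [← hfix, ← eichE_apply hes hwe hc, Iso.B hI, hx1], ?_⟩
    have := tv_conj hE (eichE_mem_E hes hwe hc) hx2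
    rwa [hfix] at this
  obtain ⟨w, hw, w', hw', hww⟩ := exists_nonperp_pair (P := P) (zero_mem (P.pp z)) (pp_nonsing hn hz)
  obtain ⟨a, ha, haa⟩ := hO.exists_aniso h2 hw.1 hw'.1 hww
  exact o_tv_centre hO hn hE haa (by rintro rfl; simp at hz) (P.B_symm ha)
    (le_of_EInvA hO hn hz hN (z := v) ⟨hv, h⟩ (notMem_of_nonsing hz hv0 hv) ha).2

theorem o_tv {v z : V} (hv0 : v ≠ 0) (hz0 : z ≠ 0) (hz : P.B z v = 0)
    (h : TV X (P.B.flip z) v) : SLV F V ≤ X := by
  by_cases hv : P.B v v = 0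
  swap
  · exact o_tv_centre hO hn hE hv hz0 hz h
  by_cases hzz : P.B z z = 0
  swap
  · exact o_tv_axis hO h2 hn hE hzz hv0 (P.B_symm hz) h
  have hvs := (hO.sing_iff h2).2 hv
  obtain ⟨κ, hκ, h1⟩ : ∃ κ : F, κ ≠ 0 ∧ TV X (P.B.flip (κ • v)) v := by
    by_cases hzv : z ∈ F ∙ v
    · obtain ⟨a, rfl⟩ := Submodule.mem_span_singleton.1 hzv
      exact ⟨a, fun e => hz0 (by simp [e]), h⟩
    · exact ⟨1, one_ne_zero, tv_self_left hE hvs hz hzv h 1⟩
  obtain ⟨y, hys, hy⟩ := hO.exists_partner hvs hv0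
  obtain ⟨g, hg, a, ha, hgv⟩ := hO.exists_move h2 (by omega) hvs hv0 hys
    (by rintro rfl; simp at hy)
  have h3 := tv_conj hE hg h1
  rw [map_smul, hgv] at h3
  have hyy := sing_B hys
  have hyv : P.B y v = 1 := by rw [hO.comm, hy]
  have h4 := h1.conj_tv h3 (by simp [hyy])
  refine o_tv_centre hO hn hE (v := v + (κ * a * a) • y) (z := κ • v - (κ * a * κ * a) • y) ?_
    (fun e => hκ ?_) ?_ ?_
  · simp only [map_add, map_smul, LinearMap.add_apply, LinearMap.smul_apply, B_smul_right, hO.σ,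
      hv, hy, hyy, hyv, smul_eq_mul]
    have := mul_ne_zero h2 (mul_ne_zero (mul_ne_zero hκ ha) ha)
    exact fun e => this (by linear_combination e)
  · simpa [hy, hyy] using congrArg (P.B · y) e
  · simp [hO.σ, hv, hy, hyy, hyv]; ring
  · convert h4 using 1
    · ext x; simp [hO.σ, hyv]; ring
    · simp [hO.σ, hy, smul_smul]

variable (hX : ¬ SLV F V ≤ X)
include hX

theorem o_eq {u : V} (hu : P.Val u 0) (h0 : u ≠ 0) {a b : V ≃ₗ[F] V} (ha : a ∈ X) (hb : b ∈ X)
    (ha' : a u = u) (hb' : b u = u) (h : ∀ x, (F ∙ u).mkQ (a x) = (F ∙ u).mkQ (b x))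
    (x : V) : a x = b x := by
  obtain ⟨f, -, hf⟩ := hO.exists_partner hu h0
  obtain ⟨z, hz⟩ := P.exists_B_eq (P.B.flip f ∘ₗ ((a : V →ₗ[F] V) - b))
  have h1 : ∀ x, a x = b (x + P.B x z • u) := fun x => by
    obtain ⟨t, ht⟩ := Submodule.mem_span_singleton.1 ((Submodule.Quotient.eq _).1 (h x))
    have : P.B x z = t := by simp [hz, ← ht, hf]
    rw [map_add, map_smul, hb', this, ht, add_sub_cancel]
  by_cases hz0 : z = 0
  · simpa [hz0] using h1 x
  refine (hX (o_tv hO h2 hn hE h0 hz0 (P.B_symm (by simp [hz, ha', hb'])) ⟨b⁻¹ * a,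
    mul_mem (inv_mem hb) ha, fun x => ?_⟩)).elim
  rw [LinearEquiv.mul_apply, h1]
  exact b.symm_apply_apply _

theorem o_perp {u : V} (hu : P.Val u 0) (h0 : u ≠ 0) {g : V ≃ₗ[F] V} (hg : g ∈ X) {l : F}
    (hgu : g u = l • u) {x : V} (hx : P.B x u = 0) : P.B (g x) u = 0 := by
  have hl : l ≠ 0 := by rintro rfl; simp [h0] at hgu
  have huu := sing_B hu
  obtain ⟨a', ha'⟩ := P.exists_B_eq (P.B.flip u ∘ₗ (g.symm : V →ₗ[F] V))
  have ha : ∀ x, P.B (g x) a' = P.B x u := fun x => by simp [ha']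
  by_cases hau : a' ∈ F ∙ u
  · obtain ⟨t, rfl⟩ := Submodule.mem_span_singleton.1 hau
    have ht : t ≠ 0 := by
      rintro rfl
      exact h0 (P.nondeg _ fun x => by simpa using (ha x).symm)
    simpa [ht, hx] using ha x
  exfalso
  obtain ⟨w, hw, hwu⟩ := exists_notMem_of_finrank_lt (U := F ∙ u) (W := P.pp u ⊓ P.pp a') (by
    have := finrank_pp (P := P) h0
    have := finrank_inf_pp_ge (P := P) (P.pp u) a'
    have := finrank_span_singleton_le (F := F) u
    omega)
  obtain ⟨w, rfl⟩ := g.surjective w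
  have h1 : P.B (g w) u = 0 := hw.1
  have h3 : P.B (g w) a' = 0 := hw.2
  have h4 : P.B w u = 0 := by rwa [← ha]
  obtain ⟨y, hy, hy'⟩ := exists_sep' (P := P) hwu 1
  obtain ⟨y', hy1, hy1'⟩ := exists_sep' (P := P) hau 1
  rw [perp_span_singleton] at hy hy1
  obtain ⟨w1, hw1, b1, b2⟩ := exists_both_ne (P.pp u) (P.B.flip (g w)).toAddMonoidHom
    (P.B.flip a').toAddMonoidHom hy hy1 (by simp [hy']) (by simp [hy1'])
  replace hw1 : P.B w1 u = 0 := hw1
  replace b1 : P.B w1 (g w) ≠ 0 := b1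
  replace b2 : P.B w1 a' ≠ 0 := b2
  obtain ⟨c0, hc0⟩ := P.val_ex w
  obtain ⟨c1, hc1⟩ := P.val_ex w1
  obtain ⟨c, hc⟩ := P.val_ex (g w)
  obtain ⟨b', hb'⟩ := P.exists_B_eq (P.B.flip w ∘ₗ (g.symm : V →ₗ[F] V))
  have hb : ∀ x, P.B (g x) b' = P.B x w := fun x => by simp [hb']
  have h5 : P.B u a' = 0 := by simpa [hgu, hl, huu] using ha u
  have h6 : P.B u b' = 0 := by simpa [hgu, hl, P.B_symm h4] using hb u
  obtain ⟨e2, m2, f2⟩ : ∃ e ∈ X, ∀ x, e x = x + P.B x a' • g w -
      (l * (P.B x b' + c0 * P.B x a')) • u := by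
    refine ⟨_, mul_mem (mul_mem hg (hE (eichE_mem_E hu h4 hc0))) (inv_mem hg), fun x => ?_⟩
    obtain ⟨x, rfl⟩ := g.surjective x
    simp only [LinearEquiv.mul_apply, show g⁻¹ (g x) = x from g.symm_apply_apply x,
      eichE_apply, hO.eich_eq, map_add, map_sub, map_smul, ha, hb, hgu]
    module
  have m1 := hE (eichE_mem_E hu hw1 hc1)
  have m3 := hE (eichE_mem_E hu (w := P.B w1 a' • g w) (by simp [h1]) (hO.val_smul _ hc))
  have key := o_eq hO h2 hn hE hX hu h0 (mul_mem m2 m1) (mul_mem m3 (mul_mem m1 m2))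
    (by simp [f2, hO.eich_eq, huu, h5, h6, P.B_symm hw1])
    (by simp [f2, hO.eich_eq, huu, h5, h6, P.B_symm hw1, P.B_symm h1]) fun x => by
      simp only [LinearEquiv.mul_apply, f2, eichE_apply, hO.eich_eq, map_add, map_sub, map_smul,
        LinearMap.add_apply, LinearMap.sub_apply, LinearMap.smul_apply, smul_eq_mul, huu, h5, h6,
        h1, hw1, mkQ_self]
      module
  obtain ⟨f, -, hf⟩ := hO.exists_partner hu h0
  have k1 := congrArg (P.B · f) (key (g w))
  have k2 := congrArg (P.B · f) (key w1)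
  simp only [LinearEquiv.mul_apply, f2, eichE_apply, hO.eich_eq, map_add, map_sub, map_smul,
    LinearMap.add_apply, LinearMap.sub_apply, LinearMap.smul_apply, smul_eq_mul, huu, h5, h6,
    h1, hw1, h3, hf, P.B_symm h1, P.B_symm hw1, B_smul_right, hO.σ, hO.self hc,
    hO.comm (g w) w1] at k1 k2
  have : c = 0 := mul_left_cancel₀ (mul_ne_zero h2 b2) (by linear_combination k1)
  exact mul_ne_zero h2 (mul_ne_zero b1 b2) (by rw [this] at k2; linear_combination k2)

theorem o_sim (hS : P.Sim ⊓ SLV F V ≤ X) (hX' : X ≤ SLV F V) {u : V} (hu : P.Val u 0) (h0 : u ≠ 0)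
    {g : V ≃ₗ[F] V} (hg : g ∈ X) {l : F} (hgu : g u = l • u) : g ∈ P.Sim := by
  have hl : l ≠ 0 := by rintro rfl; simp [h0] at hgu
  have huu := sing_B hu
  obtain ⟨f, hfs, hf⟩ := hO.exists_partner hu h0
  have hf' : P.B f u = 1 := by rw [hO.comm, hf]
  have hp := fun x => o_perp hO h2 hn hE hX hu h0 hg hgu (x := x)
  obtain ⟨m, hm⟩ : ∃ m, ∀ x, P.B (g x) u = m * P.B x u := ⟨P.B (g f) u, fun x => by
    have := hp (x - P.B x u • f) (by simp [hf'])
    simp only [map_sub, map_smul, LinearMap.sub_apply, LinearMap.smul_apply, smul_eq_mul] at this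
    linear_combination this⟩
  have hm0 : m ≠ 0 := by
    rintro rfl
    exact h0 (P.nondeg _ fun x => by simpa using hm (g.symm x))
  have h1 : ∀ x w, P.B w u = 0 → P.B (g x) (g w) = l * m * P.B x w := fun x w hw => by
    obtain ⟨c, hc⟩ := P.val_ex w
    obtain ⟨c', hc'⟩ := P.val_ex (g w)
    have e := fun x => congrArg (P.B · f) (o_eq hO h2 hn hE hX hu h0
      (mul_mem (mul_mem hg (hE (eichE_mem_E hu hw hc))) (inv_mem hg))
      (hE (eichE_mem_E hu (w := m⁻¹ • g w) (by simp [hp w hw]) (hO.val_smul _ hc')))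
      (by
        rw [LinearEquiv.mul_apply, show g⁻¹ u = l⁻¹ • u from g.symm_apply_eq.2 (by simp [hgu, hl])]
        simp [hO.eich_eq, huu, P.B_symm hw, hgu, hl])
      (by simp [hO.eich_eq, huu, P.B_symm (hp w hw)]) (fun x => by
        obtain ⟨x, rfl⟩ := g.surjective x
        simp only [LinearEquiv.mul_apply, show g⁻¹ (g x) = x from g.symm_apply_apply x, eichE_apply,
          hO.eich_eq, map_add, map_sub, map_smul, mkQ_self, hgu, hm]
        match_scalars <;> field_simp) (g x))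
    have e1 := e x
    have e2 := e w
    simp only [LinearEquiv.mul_apply, show ∀ x, g⁻¹ (g x) = x from g.symm_apply_apply, eichE_apply,
      hO.eich_eq, map_add, map_sub, map_smul, hgu, hm, LinearMap.add_apply, LinearMap.sub_apply,
      LinearMap.smul_apply, smul_eq_mul, hf, B_smul_right, hO.σ, hw, hO.self hc, hO.self hc']
      at e1 e2
    field_simp at e1 e2
    have e3 : c' = l * m * c := mul_left_cancel₀ h2 (by linear_combination e2)
    rw [e3] at e1
    linear_combination e1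
  have hν := mul_ne_zero hl hm0
  set t := P.B (g f) (g f) / (2 * (l * m)) with ht
  have hφ : (t • P.B.flip u) u = 0 := by simp [huu]
  have h3 : g * (LinearEquiv.transvection hφ)⁻¹ ∈ P.Sim := mem_Sim_of (c := l * m) fun x y => by
    obtain ⟨x, rfl⟩ := (LinearEquiv.transvection hφ).surjective x
    obtain ⟨y, rfl⟩ := (LinearEquiv.transvection hφ).surjective y
    rw [LinearEquiv.mul_apply, LinearEquiv.mul_apply, show ∀ x, (LinearEquiv.transvection hφ)⁻¹
      (LinearEquiv.transvection hφ x) = x from LinearEquiv.symm_apply_apply _, show ∀ x,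
      (LinearEquiv.transvection hφ)⁻¹ (LinearEquiv.transvection hφ x) = x from
      LinearEquiv.symm_apply_apply _]
    have e1 := h1 x (y - P.B y u • f) (by simp [hf'])
    have e2 := h1 f (x - P.B x u • f) (by simp [hf'])
    simp only [map_sub, map_smul, B_smul_right, hO.σ, sing_B hfs, hO.comm (g f) (g x),
      hO.comm f x] at e1 e2
    simp [LinearMap.transvection.apply, hO.σ, huu, hO.comm u y, ht]
    field_simp
    linear_combination 2 * e1 + 2 * P.B y u * e2
  have h4 := hS ⟨h3, (SLV F V).mul_mem (hX' hg) (inv_mem (transvection_mem_SLV hφ))⟩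
  have h6 : LinearEquiv.transvection hφ = 1 := LinearEquiv.ext (o_eq hO h2 hn hE hX hu h0
    (by simpa using mul_mem (inv_mem h4) hg) (one_mem X) (by simp [LinearMap.transvection.apply, huu])
    rfl fun x => by simp [LinearMap.transvection.apply])
  simpa [h6] using h3

theorem o_le (hS : P.Sim ⊓ SLV F V ≤ X) (hX' : X ≤ SLV F V) : X ≤ P.Sim := by
  intro g hg
  obtain ⟨u, -, h0, hu⟩ := o_wild hO ⊤ (by rw [finrank_top]; omega)
  by_cases hv : P.B (g u) (g u) = 0
  · obtain ⟨k, hk, a, -, h⟩ := hO.exists_move h2 (by omega) ((hO.sing_iff h2).2 hv)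
      (by simpa using h0) hu h0
    simpa using mul_mem (inv_mem (Iso_le_Sim (E_le_Iso hk)))
      (o_sim hO h2 hn hE hX hS hX' hu h0 (mul_mem (hE hk) hg) h)
  exfalso
  have hN : P.EInvA (P.pp (g u)) ((P.pp u).map (g : V →ₗ[F] V)).toAddSubgroup := by
    rintro e he w hw c hes hwe hc _ ⟨x, hx, rfl⟩
    have hfix : eichE hes hwe hc (g u) = g u := eich_fix c (P.B_symm he) (P.B_symm hw)
    refine ⟨_, o_perp hO h2 hn hE hX hu h0 (mul_mem (mul_mem (inv_mem hg)
      (hE (eichE_mem_E hes hwe hc))) hg) (l := 1) (by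
        rw [LinearEquiv.mul_apply, LinearEquiv.mul_apply, hfix, one_smul]
        exact g.symm_apply_apply u) hx, g.apply_symm_apply _⟩
  obtain ⟨z, hz, hzu⟩ := exists_notMem_of_finrank_lt (U := F ∙ u) (W := P.pp u) (by
    have := finrank_pp (P := P) h0
    have := finrank_span_singleton_le (F := F) u
    omega)
  have h1 := fun x => le_of_EInvA hO hn hv hN (z := g z) ⟨z, hz, rfl⟩ (fun h => hzu (by
    obtain ⟨a, ha⟩ := Submodule.mem_span_singleton.1 h
    exact Submodule.mem_span_singleton.2 ⟨a, g.injective (by simpa using ha)⟩)) (x := x)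
  refine h0 (P.nondeg _ fun x => ?_)
  obtain ⟨y, hy, e⟩ := h1 (g x - (P.B (g x) (g u) / P.B (g u) (g u)) • g u) (by simp [hv])
  rw [← map_smul, ← map_sub] at e
  obtain rfl := g.injective e
  simpa [sing_B hu] using hy

end

open Geo in
theorem orth {F : Type*} [Field F] [Fintype F] {n : ℕ} (hn : 4 ≤ n) (hodd : Odd (Fintype.card F))
    (Q : (Fin n → F) → F) (hQ : IsNondegenerateQuadraticForm Q) :
    IsMaximalIn (specialLinear (Fin n) F) (quadSimilarityGroup Q ⊓ specialLinear (Fin n) F) := by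
  have h2 := two_ne_zero_of_odd_card hodd
  refine isMaximalIn_of_equiv toLE mem_specialLinear_iff (K' := SLV F _)
    (H' := (oPolar hQ).Sim ⊓ SLV F _) (fun g => ?_)
    (isMaximalIn_of inf_le_right ?_ fun X hHX hXE g hg hgH => ?_)
  · simp only [Subgroup.mem_inf, mem_specialLinear_iff]
    refine and_congr_left fun _ => ⟨fun ⟨c, hc⟩ => ⟨c, fun x y => ?_⟩, fun ⟨c, hc⟩ => ⟨c, fun x => ?_⟩⟩
    · simp only [oPolar_B, QuadraticMap.polar, toLE_apply, ← Matrix.mulVec_add, hc]
      ring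
    · have h := hc x x
      simp only [oPolar_B, QuadraticMap.polar, ← two_smul F, hQ.smul, toLE_apply] at h
      apply mul_left_cancel₀ h2
      linear_combination h
  · obtain ⟨g, hg, hg'⟩ := exists_SLV_notMem_Sim (P := oPolar hQ) (by simp; omega)
    exact ⟨g, hg, fun h => hg' h.1⟩
  · by_contra hX
    exact hgH ⟨o_le (isO_oPolar hQ) h2 (by simpa)
      ((le_inf (E_le_Iso.trans Iso_le_Sim) E_le_SLV).trans hHX) hX hHX hXE hg, hXE hg⟩

end Cfsg.Agent.H1.SL4
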