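import Cfsg.Agent.H1.Small
import Cfsg.Agent.H7.C2Refl

/-!
Overgroups of the stabiliser of a non-degenerate subspace: translates sharing a singular vector.
-/

set_option autoImplicit false
set_option linter.unusedSectionVars false

namespace Cfsg.Agent.H1.Sing

open Module H7 H7.Polar

variable {F : Type*} [Field F] {V : Type*} [AddCommGroup V] [Module F V] {P : Polar F V}
variable [Finite F] [FiniteDimensional F V]

theorem exists_pair {N : Submodule F V} (hN : finrank F N ≤ 2) {a b : V} (ha : a ∈ N) (hb : b ∈ N)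
    (h0 : a ≠ 0) (hab : b ∉ F ∙ a) {z : V} (hz : z ∈ N) : ∃ s t : F, z = s • a + t • b := by
  have h1 : (F ∙ a) < (F ∙ a) ⊔ F ∙ b := lt_of_le_of_ne le_sup_left fun h =>
    hab (h ▸ Submodule.mem_sup_right (Submodule.mem_span_singleton_self b))
  have h2 := Submodule.finrank_lt_finrank_of_lt h1
  rw [finrank_span_singleton h0] at h2
  have h3 : (F ∙ a) ⊔ (F ∙ b) = N := Submodule.eq_of_le_of_finrank_le
    (sup_le (by simpa using ha) (by simpa using hb)) (by omega)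
  obtain ⟨x, hx, t, rfl⟩ := mem_sup_span_singleton.1 (h3.ge hz)
  obtain ⟨s, rfl⟩ := Submodule.mem_span_singleton.1 hx
  exact ⟨s, t, rfl⟩

theorem mem_span_of_le_one {N : Submodule F V} (hN : finrank F N ≤ 1) {a : V} (ha : a ∈ N)
    (h0 : a ≠ 0) {z : V} (hz : z ∈ N) : z ∈ F ∙ a :=
  (Submodule.eq_of_le_of_finrank_le (by simpa using ha)
    (by rw [finrank_span_singleton h0]; exact hN)).ge hz

theorem eSub_le {X : Subgroup (V ≃ₗ[F] V)} {u : V} {hu : P.Val u 0} {w : V}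
    (h : w ∈ P.eSub X hu) : w ∈ P.zSub X hu := ⟨h.1, by simpa using h.2 1⟩

theorem mem_eSub_of_forall {X : Subgroup (V ≃ₗ[F] V)} {u : V} {hu : P.Val u 0} {w : V}
    (h : ∀ a : F, a • w ∈ P.zSub X hu) : w ∈ P.eSub X hu :=
  ⟨by simpa using (h 1).1, fun a => (h a).2⟩

theorem apply_mem_eSub_smul {X : Subgroup (V ≃ₗ[F] V)} {u : V} {hu : P.Val u 0}
    {g : V ≃ₗ[F] V} (hg : g ∈ X) (hg' : g ∈ P.Iso) {μ : F} (hμ : μ ≠ 0) (hgu : g u = μ • u) {w : V}
    (hw : w ∈ P.eSub X hu) : g w ∈ P.eSub X hu := by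
  refine mem_eSub_of_forall fun a => ?_
  have := map_mem_zSub hu hg hg' hμ hgu (eSub_le (Submodule.smul_mem _ (a / P.σ μ) hw))
  rwa [map_smul, smul_smul, mul_div_cancel₀ _ (by simpa using hμ)] at this

theorem conj_le {W : Submodule F V} {X : Subgroup (V ≃ₗ[F] V)} (hH : stab W ⊓ P.E ≤ X)
    {g : V ≃ₗ[F] V} (hg : g ∈ X) (hg' : g ∈ P.Iso) :
    stab (W.map (g : V →ₗ[F] V)) ⊓ P.E ≤ X := by
  intro k hk
  have h1 : g⁻¹ * k * g⁻¹⁻¹ ∈ X := hH ⟨mem_stab_of_forall fun x hx => by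
    obtain ⟨y, hy, h⟩ := (mem_stab.1 hk.1 (g x)).1 ⟨x, hx, rfl⟩
    simp only [LinearEquiv.coe_coe] at h
    rw [inv_inv, LinearEquiv.mul_apply, LinearEquiv.mul_apply, ← h]
    simpa using hy, E_normal (P.Iso.inv_mem hg') hk.2⟩
  have := X.mul_mem (X.mul_mem hg h1) (X.inv_mem hg)
  simpa [mul_assoc] using this

/-- an element moving a singular vector of `W^⊥` into `W^⊥` stabilises `W` -/
theorem mem_stab_of_sing {W : Submodule F V} (hW : W ⊓ P.perp W = ⊥) {X : Subgroup (V ≃ₗ[F] V)}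
    (hH : stab W ⊓ P.E ≤ X) (hXE : X ≤ P.E) {u : V} (huW : u ∈ P.perp W) (hus : P.Val u 0)
    (hu0 : u ≠ 0) (hcore : ∀ p ∈ W, p ∈ P.zSub X hus → p = 0) {g : V ≃ₗ[F] V} (hg : g ∈ X)
    {u' : V} (hu' : u' ∈ P.perp W) (hgu : g u' = u) : g ∈ stab W := by
  have hg' := E_le_Iso (hXE hg)
  have hus' : P.Val u' 0 := (Iso.val_iff hg').1 (hgu ▸ hus)
  have hu0' : u' ≠ 0 := by rintro rfl; exact hu0 (by simpa using hgu.symm)
  have hz : ∀ {v : V} (hv : P.Val v 0), v ∈ P.perp W → ∀ x ∈ P.perp W, P.B x v = 0 →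
      x ∈ P.zSub X hv := fun hv h1 x hx h2 => by
    obtain ⟨c, hc⟩ := P.val_ex x
    exact ⟨h2, c, hc, EI_of_mem hv h2 hc
      (hH ⟨eichE_mem_stab_of_perp hv h2 hc h1 hx, eichE_mem_E _ _ _⟩)⟩
  have h1 : ∀ x ∈ P.perp W, P.B x u' = 0 → g x ∈ P.perp W := by
    intro x hx hxu
    have h2 := map_mem_zSub hus hg hg' one_ne_zero (by rw [one_smul, hgu]) (hz hus' hu' x hx hxu)
    rw [map_one, one_smul] at h2
    obtain ⟨p, hp, m, hm, h⟩ := exists_decomp hW (g x)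
    have h3 : P.B m u = 0 := by
      have := h2.1
      rwa [← h, map_add, LinearMap.add_apply, mem_perp'.1 huW p hp, zero_add] at this
    rw [← h, AddSubgroup.add_mem_cancel_right _ (hz hus huW m hm h3)] at h2
    rwa [← h, hcore p hp h2, zero_add]
  obtain ⟨f, hf, -, huf⟩ := exists_hyperbolic (U := W) hus'
    (fun h => hu0' (by simpa [hW] using (show u' ∈ W ⊓ P.perp W from ⟨h, hu'⟩))) hu' 1 one_ne_zero
  have hfu : P.B f u' ≠ 0 := P.B_ne_symm (by rw [huf]; exact one_ne_zero)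
  have key : ∀ k ∈ P.Iso, (∀ x ∈ P.perp W, P.B x u' = 0 → k x ∈ P.perp W) → k f ∈ P.perp W →
      k ∈ stab W := fun k hk h2 h3 => (mem_stab_perp_iff hk).1 (mem_stab_of_forall fun x hx => by
    have h4 := h2 (x - (P.B x u' / P.B f u') • f) (sub_mem hx (Submodule.smul_mem _ _ hf))
      (by simp [hfu])
    rwa [map_sub, map_smul, Submodule.sub_mem_iff_left _ (Submodule.smul_mem _ _ h3)] at h4)
  obtain ⟨p, hp, m, hm, h⟩ := exists_decomp hW (g f)
  have hβ : P.B (g f) u = P.B f u' := by rw [← hgu, Iso.B hg']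
  have hw : (-(P.B f u')⁻¹) • p ∈ W := W.smul_mem _ hp
  have hwu : P.B ((-(P.B f u')⁻¹) • p) u = 0 := mem_perp'.1 huW _ hw
  obtain ⟨c, hc⟩ := P.val_ex ((-(P.B f u')⁻¹) • p)
  have h5 : eichE hus hwu hc * g ∈ stab W := by
    refine key _ (P.Iso.mul_mem (eichE_mem_Iso _ _ _) hg') (fun x hx hxu => ?_) ?_
    · rw [LinearEquiv.mul_apply, eichE_apply, eich_fix c (by rw [← hgu, Iso.B hg', hxu])
        (h1 x hx hxu _ hw)]
      exact h1 x hx hxu
    · rw [LinearEquiv.mul_apply, eichE_apply, eich, hβ, smul_smul, mul_neg, mul_inv_cancel₀ hfu]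
      refine sub_mem ?_ (Submodule.smul_mem _ _ huW)
      rw [← h]
      simpa [add_comm p m] using hm
  have h6 : eichE hus hwu hc ∈ X :=
    (X.mul_mem_cancel_right hg).1 (hH ⟨h5, P.E.mul_mem (eichE_mem_E _ _ _) (hXE hg)⟩)
  have h7 := hcore _ hw ⟨hwu, c, hc, EI_of_mem _ _ _ h6⟩
  rw [smul_eq_zero, neg_eq_zero, inv_eq_zero] at h7
  exact key g hg' h1 (by rw [← h, h7.resolve_left hfu, zero_add]; exact hm)

theorem E_le_of_le_eSub {W : Submodule F V} (hW : W ⊓ P.perp W = ⊥) {X : Subgroup (V ≃ₗ[F] V)}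
    (hH : stab W ⊓ P.E ≤ X) (hd : 3 ≤ finrank F (P.perp W)) {u : V} (huW : u ∈ P.perp W)
    (hus : P.Val u 0) (hu0 : u ≠ 0) (h3 : W ≤ P.eSub X hus) : P.E ≤ X := by
  have hM : ∀ e ∈ P.perp W, ∀ w ∈ P.perp W, ∀ c, P.Val e 0 → P.B w e = 0 → P.Val w c →
      P.EI X e w c := fun e he w hw c h1 h2 h3 =>
    EI_of_mem h1 h2 h3 (hH ⟨eichE_mem_stab_of_perp h1 h2 h3 he hw, eichE_mem_E _ _ _⟩)
  have hsub : ∀ w ∈ P.perp W, P.B w u = 0 → w ∈ P.eSub X hus := fun w hw hwu =>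
    mem_eSub_of_sub hus (fun w hw c h1 h2 => hM u huW w hw c hus h1 h2) hw hwu
  refine E_le_of_fullA_of_sub hM huW hus ?_ (fullA_of_eSub hus
    (fun c hc => hM u huW 0 (Submodule.zero_mem _) c hus (by simp) hc) fun x hx => ?_) ?_
  · rw [perp_perp]
    exact fun h => hu0 (by simpa [hW] using (show u ∈ W ⊓ P.perp W from ⟨h, huW⟩))
  · obtain ⟨p, hp, p', hp', rfl⟩ := exists_decomp hW x
    refine Submodule.add_mem _ (h3 hp) (hsub p' hp' ?_)
    simpa [mem_perp'.1 huW p hp] using hx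
  · rw [inf_perp_perp hW]; simp; omega

theorem exists_nonsing {M : Submodule F V} (hM : M ⊓ P.perp M = ⊥) (hd : 3 ≤ finrank F M)
    {u : V} (hu : u ∈ M) : ∃ y ∈ M, P.B y u = 0 ∧ ∃ d, d ≠ 0 ∧ P.Val y d := by
  obtain ⟨w, hw, w', hw', hww⟩ := exists_nonperp_pair (P := P) hu (by rw [hM]; simpa using hd)
  obtain ⟨c, hc⟩ := P.val_ex w
  obtain ⟨c', hc'⟩ := P.val_ex w'
  by_cases h1 : c = 0
  · by_cases h2 : c' = 0
    · exact ⟨_, add_mem hw.1 hw'.1, (add_mem hw hw').2, _, by simpa [h1, h2] using hww,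
        P.val_add hc hc'⟩
    · exact ⟨w', hw'.1, hw'.2, c', h2, hc'⟩
  · exact ⟨w, hw.1, hw.2, c, h1, hc⟩

/-- the orthogonal case with `dim W^⊥ ≥ 3` -/
theorem E_le_of_zSub_orth (hΛ : ∀ c, P.Val 0 c → c = 0) (hrc : P.ReflCongr) {W : Submodule F V}
    (hW : W ⊓ P.perp W = ⊥) {X : Subgroup (V ≃ₗ[F] V)} (hH : stab W ⊓ P.E ≤ X)
    (hd : 3 ≤ finrank F (P.perp W))
    (hex : finrank F W ≠ 2 ∨ 3 < Nat.card F ∨ ∀ x ∈ W, P.Val x 0 → x = 0) {u : V}
    (huW : u ∈ P.perp W) (hus : P.Val u 0) (hu0 : u ≠ 0) {p : V} (hp : p ∈ W) (hp0 : p ≠ 0)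
    (h2 : p ∈ P.zSub X hus) : P.E ≤ X := by
  have hσ := fun a => (σ_eq_of_lam hΛ a).1
  have hε := (σ_eq_of_lam hΛ 0).2
  replace h2 := mem_eSub_of_zSub hΛ hW hH hrc huW hus hu0 hp h2
  refine E_le_of_le_eSub hW hH hd huW hus hu0 ((le_of_refl_inv hW (N := W ⊓ P.eSub X hus)
    inf_le_left ((Submodule.ne_bot_iff _).2 ⟨p, ⟨hp, h2⟩, hp0⟩) ?_ ?_ (Or.inr hex)).trans
    inf_le_right)
  · intro e he w hw c h1 h2 h3 x hx
    have hs := eichE_mem_stab_of_mem h1 h2 h3 he hw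
    exact ⟨(mem_stab.1 hs x).1 hx.1, apply_mem_eSub hus (hH ⟨hs, eichE_mem_E _ _ _⟩)
      (eichE_mem_Iso _ _ _) (eich_fix c (huW e he) (huW w hw)) hx.2⟩
  · intro e he c hc hc0 z hz
    obtain ⟨y, hy, hyu, d, hd0, hyd⟩ := exists_nonsing (inf_perp_perp hW) hd huW
    obtain ⟨f, hf, hfs, huf⟩ := exists_hyperbolic (U := W) hus
      (fun h => hu0 (by simpa [hW] using (show u ∈ W ⊓ P.perp W from ⟨h, huW⟩))) huW 1 one_ne_zero
    have v1 : P.Val (u + c • f) c := by simpa [hσ] using val_hyp hus hfs huf c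
    have v2 : P.Val (u + d • f) d := by simpa [hσ] using val_hyp hus hfs huf d
    have m1 : u + c • f ∈ P.perp W := add_mem huW (Submodule.smul_mem _ _ hf)
    have m2 : u + d • f ∈ P.perp W := add_mem huW (Submodule.smul_mem _ _ hf)
    have hE := P.E.mul_mem (hrc _ _ _ hc v1 hc0) (hrc _ _ _ v2 hyd hd0)
    set k := reflE hc hc0 * (reflE v1 hc0)⁻¹ * (reflE v2 hd0 * (reflE hyd hd0)⁻¹) with hk
    have hWs : ∀ x ∈ W, k x = P.refl e c x := fun x hx => by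
      simp only [hk, LinearEquiv.mul_apply]
      rw [reflE_inv_fix hyd hd0 (mem_perp'.1 hy x hx), reflE_apply v2,
        refl_fix d (mem_perp'.1 m2 x hx), reflE_inv_fix v1 hc0 (mem_perp'.1 m1 x hx), reflE_apply]
    have hs : k ∈ stab W := mem_stab_of_forall fun x hx => by
      rw [hWs x hx]; exact W.sub_mem hx (W.smul_mem _ he)
    rw [← hWs z hz.1]
    refine ⟨(mem_stab.1 hs z).1 hz.1, apply_mem_eSub_smul (hH ⟨hs, hE⟩) (E_le_Iso hE)
      (μ := d / c) (div_ne_zero hd0 hc0) ?_ hz.2⟩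
    simp only [hk, LinearEquiv.mul_apply]
    rw [reflE_inv_fix hyd hd0 (P.B_symm hyu)]
    have e1 : reflE v2 hd0 u = reflE v1 hc0 ((d / c) • u) := by
      simp only [reflE_apply, Polar.refl, map_smul, map_add, LinearMap.smul_apply, B_smul_right, hσ,
        huf, sing_B hus, smul_eq_mul]
      match_scalars <;> field_simp <;> ring
    rw [e1, show ∀ y, (reflE v1 hc0)⁻¹ (reflE v1 hc0 y) = y from (reflE v1 hc0).symm_apply_apply,
      map_smul, reflE_apply, refl_fix c (huW e he)]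

end Cfsg.Agent.H1.Sing
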