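import Cfsg.Agent.H1.Sub4B
import Cfsg.Agent.H7.Nondeg2
import Cfsg.Agent.H7.Inst

/-!
Transitivity of the elementary group in small dimension; the elementary group of a unitary space
of dimension at least four is the special unitary group.
-/

set_option autoImplicit false
set_option linter.unusedSectionVars false

namespace Cfsg.Agent.H1.Small

open Module H7 H7.Polar

variable {F : Type*} [Field F] {V : Type*} [AddCommGroup V] [Module F V] {P : Polar F V}
variable [Finite F] [FiniteDimensional F V]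

theorem E_trans_of_notMem {d : ℕ} (hw : P.Wild d) (hn : d + 2 ≤ finrank F V) {v v' : V} {c : F}
    (hv : P.Val v c) (hv' : P.Val v' c) (h0 : v ≠ 0) (h1 : v' ∉ F ∙ v) :
    ∃ g ∈ P.E, g v = v' := by
  have h2 : v ∉ F ∙ (v' - v) := by
    rw [Submodule.mem_span_singleton]
    rintro ⟨a, ha⟩
    have ha0 : a ≠ 0 := by rintro rfl; simp at ha; exact h0 ha.symm
    apply h1
    rw [Submodule.mem_span_singleton]
    refine ⟨a⁻¹ + 1, ?_⟩
    have : v' - v = a⁻¹ • v := by
      conv_rhs => rw [← ha, smul_smul, inv_mul_cancel₀ ha0, one_smul]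
    rw [add_smul, ← this, one_smul, sub_add_cancel]
  have h3 : v' - v ≠ 0 := fun h => h1 (by
    rw [sub_eq_zero.1 h]; exact Submodule.mem_span_singleton_self v)
  obtain ⟨u, hu, hus, huv⟩ := Sub4.exists_sing_ne2 hw (M := P.pp (v' - v)) (z := v)
    (by rwa [perp_pp]) (by
      have := finrank_pp (P := P) h3
      have := finrank_pp_inf_perp_le (P := P) (v' - v)
      omega)
  have h4 := P.B_symm (mem_pp.1 hu)
  rw [map_sub, LinearMap.sub_apply, sub_eq_zero] at h4
  obtain ⟨g, hg, -, hgv⟩ := (fullA_E hus).exists_move hus hv hv' h4.symm (P.B_ne_symm huv)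
  exact ⟨g, hg, hgv⟩

/-- The elementary group is transitive on the non-zero vectors of a given value. -/
theorem E_trans {d : ℕ} (hw : P.Wild d) (hn : d + 2 ≤ finrank F V) (hn' : 4 ≤ finrank F V)
    {v v' : V} {c : F} (hv : P.Val v c) (hv' : P.Val v' c) (h0 : v ≠ 0) (h0' : v' ≠ 0) :
    ∃ g ∈ P.E, g v = v' := by
  by_cases h1 : v' ∈ F ∙ v
  swap
  · exact E_trans_of_notMem hw hn hv hv' h0 h1
  obtain ⟨u, hu, hvu⟩ := exists_sing_ne hw hn h0
  obtain ⟨w, hw1, hw2⟩ := exists_notMem_of_finrank_lt (U := (F ∙ u) ⊔ F ∙ v) (W := P.perp (F ∙ u))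
    (by
      have := P.finrank_perp (F ∙ u)
      have := finrank_span_singleton_le (F := F) u
      have := finrank_span_pair_le (F := F) u v
      omega)
  rw [perp_span_singleton, mem_pp] at hw1
  obtain ⟨e, he⟩ := P.val_ex w
  have hz : P.eich u w e v ∉ F ∙ v := by
    intro h
    apply hw2
    have h3 : P.B v u • w = P.eich u w e v - v + (P.ε * P.B v w + P.σ e * P.B v u) • u := by
      simp only [eich]; module
    rw [← Submodule.smul_mem_iff _ hvu, h3]
    refine Submodule.add_mem _ (Submodule.mem_sup_right (Submodule.sub_mem _ h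
      (Submodule.mem_span_singleton_self _))) (Submodule.mem_sup_left ?_)
    exact Submodule.smul_mem _ _ (Submodule.mem_span_singleton_self _)
  have hz' : P.eich u w e v ∉ F ∙ v' := fun h =>
    hz ((Submodule.span_singleton_le_iff_mem _ _).2 h1 h)
  obtain ⟨g, hg, hgv⟩ := E_trans_of_notMem hw hn hv' (eich_val hu hw1 he hv) h0' hz'
  refine ⟨g⁻¹ * eichE hu hw1 he, P.E.mul_mem (P.E.inv_mem hg) (eichE_mem_E _ _ _), ?_⟩
  rw [LinearEquiv.mul_apply, eichE_apply, ← hgv]
  exact g.symm_apply_apply _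

theorem reflCongr {d : ℕ} (hw : P.Wild d) (hn : d + 2 ≤ finrank F V) (hn' : 4 ≤ finrank F V) :
    P.ReflCongr := by
  intro a a' c ha ha' h0
  by_cases hc : P.Val 0 c
  · exact P.E.mul_mem (refl_mem_E_of_sing _ _ (by simpa using val_sub_lam ha hc))
      (P.E.inv_mem (refl_mem_E_of_sing _ _ (by simpa using val_sub_lam ha' hc)))
  obtain ⟨g, hg, rfl⟩ := E_trans hw hn hn' ha' ha (by rintro rfl; exact hc ha')
    (by rintro rfl; exact hc ha)
  have h1 : reflE ha h0 = g * reflE ha' h0 * g⁻¹ := by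
    rw [eq_mul_inv_iff_mul_eq]
    ext x
    simp [refl_conj (E_le_Iso hg)]
  rw [h1]
  have := P.E.mul_mem hg (E_normal (reflE_mem_Iso ha' h0) (P.E.inv_mem hg))
  simpa [mul_assoc] using this

/-- The elementary group of a unitary space is the special unitary group. -/
theorem E_eq_SU (hσ : ∃ a, P.σ a ≠ a) (hε : P.ε = 1) (hn : 4 ≤ finrank F V) :
    P.E = P.Iso ⊓ SLV F V := by
  refine le_antisymm (le_inf E_le_Iso E_le_SLV) ?_
  have hw := wild_two_of_unitary hσ hε
  obtain ⟨d, -, hd⟩ : ∃ d ∈ (⊤ : Submodule F V), P.B d d = 1 := by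
    by_contra hcon
    have h1 : ∀ x ∈ (⊤ : Submodule F V), P.B x x = 0 := fun x hx => by
      by_contra h; exact hcon (exists_unit_vector hσ hε hx h)
    obtain ⟨x, -, hx⟩ := exists_notMem_of_finrank_lt (U := ⊥) (W := (⊤ : Submodule F V))
      (by simp; omega)
    exact hx (P.nondeg' fun y => B_eq_zero_of_forall_isotropic hσ h1 trivial trivial)
  let X : Subgroup (V ≃ₗ[F] V) :=
    { carrier := {g | g ∈ P.Iso ∧ ∃ h ∈ P.Iso, (∀ x, P.B x d = 0 → h x = x) ∧ g * h⁻¹ ∈ P.E}
      mul_mem' := by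
        rintro a b ⟨ha, h, hh, hx, he⟩ ⟨hb, h', hh', hx', he'⟩
        refine ⟨P.Iso.mul_mem ha hb, h * h', P.Iso.mul_mem hh hh', fun x h0 => by
          simp [hx x h0, hx' x h0], ?_⟩
        have := P.E.mul_mem he (E_normal hh he')
        simpa [mul_assoc] using this
      one_mem' := ⟨P.Iso.one_mem, 1, P.Iso.one_mem, fun _ _ => rfl, by simp⟩
      inv_mem' := by
        rintro a ⟨ha, h, hh, hx, he⟩
        refine ⟨P.Iso.inv_mem ha, h⁻¹, P.Iso.inv_mem hh, fun x h0 => ?_, ?_⟩
        · conv_lhs => rw [← hx x h0]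
          exact h.symm_apply_apply x
        · have := E_normal (P.Iso.inv_mem hh) (P.E.inv_mem he)
          simpa [mul_assoc] using this }
  have hX : P.Iso ≤ X := by
    refine Iso_le_of (fun e he => ⟨E_le_Iso he, 1, P.Iso.one_mem, fun _ _ => rfl, by simpa⟩)
      fun a c ha h0 => ⟨reflE_mem_Iso _ _, ?_⟩
    by_cases hs : P.Val a 0
    · exact ⟨1, P.Iso.one_mem, fun _ _ => rfl, by simpa using refl_mem_E_of_sing ha h0 hs⟩
    rw [sing_iff_of_unitary hσ hε] at hs
    obtain ⟨b, hb⟩ := exists_norm_eq P.σ P.σσ hσ (σ_B_self hε a)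
    have hv : P.Val (b • d) c := by
      rw [val_iff_of_unitary hσ hε] at ha ⊢
      simp [← ha, hd, ← hb, mul_comm]
    exact ⟨reflE hv h0, reflE_mem_Iso _ _, fun x hx => refl_fix _ (by simp [hx]),
      reflCongr hw (by omega) hn _ _ _ ha hv h0⟩
  rintro g ⟨hg, hg1⟩
  obtain ⟨-, h, hh, hx, he⟩ := hX hg
  have hdet : h ∈ SLV F V := by
    have := Subgroup.mul_mem _ (Subgroup.inv_mem _ (E_le_SLV he)) hg1
    simpa using this
  have hh1 : (h : V →ₗ[F] V) = LinearMap.transvection (P.B.flip d) (h d - d) := by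
    ext x
    have := hx (x - P.B x d • d) (by simp [hd])
    simp only [map_sub, map_smul] at this
    simp only [LinearEquiv.coe_coe, LinearMap.transvection.apply, LinearMap.flip_apply, smul_sub]
    linear_combination (norm := module) this
  rw [mem_SLV, hh1, LinearMap.transvection.det, add_eq_left, LinearMap.flip_apply] at hdet
  have h3 : h d = d := by
    rw [← sub_eq_zero]
    refine P.nondeg _ fun y => ?_
    have h4 : P.B (y - P.B y d • d) d = 0 := by simp [hd]
    have h5 : P.B (y - P.B y d • d) (h d) = 0 := by rw [← hx _ h4, Iso.B hh, h4]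
    have h6 := P.B_symm hdet
    simp only [map_sub, map_smul, LinearMap.sub_apply, LinearMap.smul_apply, smul_eq_mul,
      hd] at h5 h6 ⊢
    linear_combination h5 + P.B y d * h6
  have : h = 1 := by
    ext x
    have := LinearMap.congr_fun hh1 x
    simpa [LinearMap.transvection.apply, h3] using this
  simpa [this] using he

theorem mem_SU_iff {F : Type*} [Field F] [Fintype F] {q : ℕ} (hF : Fintype.card F = q ^ 2) {n : ℕ}
    (hn : 4 ≤ n) (g : GL (Fin n) F) :
    g ∈ GU n F q ⊓ Geo.specialLinear (Fin n) F ↔ toLE g ∈ (uStd hF n).E := by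
  rw [E_eq_SU (unitPowPolar_ne _ _) rfl (by simpa using hn), Subgroup.mem_inf,
    Subgroup.mem_inf, mem_GU_iff hF, mem_specialLinear_iff]

end Cfsg.Agent.H1.Small
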