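import Cfsg.Agent.H1.Spin5
import Cfsg.Agent.H6.Pg

/-!
Finite subgroups of the four-dimensional symplectic group in odd characteristic: the setting,
the action on the five-dimensional orthogonal module, and a bridge to Dickson's theorem.
-/

set_option autoImplicit false
set_option linter.unusedSectionVars false

namespace Cfsg.Agent.H1.Sp4

open Module QuadraticMap Matrix Spin5 H6
open scoped MatrixGroups

variable {k : Type*} [Field k]

/-- The hypotheses on the finite group. -/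
structure Hyp (p : ℕ) (P : Subgroup (GL I4 k)) : Prop where
  two : p ≠ 2
  fin : Finite P
  sp : P ≤ spGL 2 k
  neg : -1 ∈ P
  simp : ∀ N ≤ P, (∀ g ∈ P, ∀ n ∈ N, g * n * g⁻¹ ∈ N) → -1 ∈ N →
    (∀ n ∈ N, n = 1 ∨ n = -1) ∨ P ≤ N
  irrV : ∀ U : Submodule k (I4 → k), (∀ g ∈ P, ∀ x ∈ U, g.1 *ᵥ x ∈ U) → U = ⊥ ∨ U = ⊤
  irrW : ∀ Z : Submodule k (Fin 5 → k),
    (∀ g ∈ P, ∀ x ∈ Z, ∀ y, ψ y * g.1 = g.1 * ψ x → y ∈ Z) → Z = ⊥ ∨ Z = ⊤
  nolong : ∀ g ∈ P, ∀ v, (∀ x, ∃ c : k, g.1 *ᵥ x = x + c • v) → g = 1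

local notation "f" => sympForm 2 k
local notation "Q" => Q5 k
local notation "B" => polar (Q5 k)

theorem two_ne (p : ℕ) [Fact p.Prime] [CharP k p] (hp : p ≠ 2) : (2 : k) ≠ 0 := fun h =>
  hp ((Nat.prime_dvd_prime_iff_eq Fact.out Nat.prime_two).1
    ((CharP.cast_eq_zero_iff k p 2).1 (by exact_mod_cast h)))

/-! ### The bilinear form -/

theorem B_self (x : Fin 5 → k) : B x x = 2 * Q x := by rw [polar_self, two_nsmul, two_mul]
theorem B_comm (x y : Fin 5 → k) : B x y = B y x := polar_comm _ _ _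
theorem B_add (x y z : Fin 5 → k) : B (x + y) z = B x z + B y z := polar_add_left _ _ _ _
theorem B_add' (x y z : Fin 5 → k) : B z (x + y) = B z x + B z y := polar_add_right _ _ _ _
theorem B_sub (x y z : Fin 5 → k) : B (x - y) z = B x z - B y z := polar_sub_left _ _ _ _
theorem B_sub' (x y z : Fin 5 → k) : B z (x - y) = B z x - B z y := polar_sub_right _ _ _ _
theorem B_neg (x z : Fin 5 → k) : B (-x) z = -B x z := polar_neg_left _ _ _
theorem B_neg' (x z : Fin 5 → k) : B z (-x) = -B z x := polar_neg_right _ _ _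
theorem B_smul (c : k) (x z : Fin 5 → k) : B (c • x) z = c * B x z := polar_smul_left _ _ _ _
theorem B_smul' (c : k) (x z : Fin 5 → k) : B z (c • x) = c * B z x := polar_smul_right _ _ _ _
theorem B_zero (z : Fin 5 → k) : B 0 z = 0 := polar_zero_left _ _
theorem B_zero' (z : Fin 5 → k) : B z 0 = 0 := polar_zero_right _ _
theorem Q_add (x y : Fin 5 → k) : Q (x + y) = Q x + Q y + B x y := by rw [polar]; ring
theorem Q_sub (x y : Fin 5 → k) : Q (x - y) = Q x + Q y - B x y := by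
  rw [sub_eq_add_neg, Q_add, B_neg', QuadraticMap.map_neg]; ring
theorem Q_smul (c : k) (x : Fin 5 → k) : Q (c • x) = c * c * Q x := QuadraticMap.map_smul _ _ _
theorem Q_neg (x : Fin 5 → k) : Q (-x) = Q x := QuadraticMap.map_neg _ _

theorem exists_B (h2 : (2 : k) ≠ 0) {s : Fin 5 → k} (hs : s ≠ 0) : ∃ t, B s t = 1 := by
  obtain ⟨t, ht⟩ : ∃ t, B t s ≠ 0 := by
    by_contra! h
    exact hs (nd5 h2 s h)
  exact ⟨(B t s)⁻¹ • t, by rw [B_smul', B_comm s, inv_mul_cancel₀ ht]⟩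

theorem ψ_injective : Function.Injective (ψ (F := k)) := fun x y h =>
  sub_eq_zero.1 (ψ_inj (by rw [map_sub, h, sub_self]))

theorem ψ_swap (x y : Fin 5 → k) : ψ x * ψ y = B x y • (1 : Matrix I4 I4 k) - ψ y * ψ x :=
  eq_sub_of_add_eq (ψ_anti x y)

theorem ψ_swap' (x y : Fin 5 → k) (T : Matrix I4 I4 k) :
    ψ x * (ψ y * T) = B x y • T - ψ y * (ψ x * T) := by
  rw [← mul_assoc, ψ_swap, sub_mul, smul_mul_assoc, one_mul, mul_assoc]

theorem ψ_sq' (x : Fin 5 → k) (T : Matrix I4 I4 k) : ψ x * (ψ x * T) = Q x • T := by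
  rw [← mul_assoc, ψ_sq, smul_mul_assoc, one_mul]

theorem ψ_neg_swap {x y : Fin 5 → k} (h : B x y = 0) : ψ x * ψ y = -(ψ y * ψ x) := by
  rw [ψ_swap, h, zero_smul, zero_sub]

theorem ψ_neg_swap' {x y : Fin 5 → k} (h : B x y = 0) (T : Matrix I4 I4 k) :
    ψ x * (ψ y * T) = -(ψ y * (ψ x * T)) := by
  rw [ψ_swap', h, zero_smul, zero_sub]

theorem ψ_comm (a b x : Fin 5 → k) :
    ψ a * ψ b * ψ x - ψ x * (ψ a * ψ b) = ψ (B b x • a - B a x • b) := by
  rw [mul_assoc, ψ_swap b x, mul_sub, ψ_swap' a x, map_sub, map_smul, map_smul, mul_smul_comm,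
    mul_one]
  abel

theorem ψ_conj (a x : Fin 5 → k) : ψ a * ψ x * ψ a = ψ (B a x • a - Q a • x) := by
  rw [mul_assoc, ψ_swap x a, mul_sub, ψ_sq', map_sub, map_smul, map_smul, mul_smul_comm,
    mul_one, B_comm]

/-- A product of two vectors which is scalar. -/
theorem prop_of_sc (h2 : (2 : k) ≠ 0) {a b : Fin 5 → k} (ha : a ≠ 0) {c : k}
    (h : ψ a * ψ b = c • 1) : ∃ t : k, b = t • a := by
  obtain ⟨x, hx⟩ := exists_B h2 ha
  have := ψ_comm a b x
  rw [h, smul_mul_assoc, mul_smul_comm, one_mul, mul_one, sub_self, hx, one_smul] at this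
  exact ⟨_, (sub_eq_zero.1 (ψ_inj this.symm)).symm⟩

theorem prop_of_zero (h2 : (2 : k) ≠ 0) {a b : Fin 5 → k} (ha : a ≠ 0)
    (h : ψ a * ψ b = 0) : ∃ t : k, b = t • a :=
  prop_of_sc h2 ha (c := 0) (by rw [h, zero_smul])

theorem f_nd {v : I4 → k} (h : ∀ x, f x v = 0) : v = 0 := by
  have e := fun i => h (Pi.single i 1)
  have := e (.inl 0)
  have := e (.inl 1)
  have := e (.inr 0)
  have := e (.inr 1)
  ext (i | i) <;> fin_cases i <;> simp_all [f_apply]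

theorem f_neg (u w : I4 → k) : f (-u) w = -f u w := by simp [sympForm]
theorem f_neg' (u w : I4 → k) : f w (-u) = -f w u := by simp [sympForm, mulVec_neg]
theorem f_zero (w : I4 → k) : f 0 w = 0 := by simp [sympForm]
theorem f_zero' (w : I4 → k) : f w 0 = 0 := by simp [sympForm]

/-! ### The action on the orthogonal module -/

/-- a left inverse of `ψ` -/
def ψi : Matrix I4 I4 k →ₗ[k] (Fin 5 → k) where
  toFun T := ![T (.inl 0) (.inl 0), T (.inl 0) (.inl 1), T (.inl 1) (.inl 0), T (.inl 0) (.inr 1),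
    T (.inr 0) (.inl 1)]
  map_add' x y := by ext i; fin_cases i <;> simp
  map_smul' c x := by ext i; fin_cases i <;> simp

theorem ψi_ψ (x : Fin 5 → k) : ψi (ψ x) = x := by
  ext i; fin_cases i <;> simp [ψi, ψ_def]

/-- the action on the orthogonal module -/
def σ (g : GL I4 k) : (Fin 5 → k) →ₗ[k] (Fin 5 → k) where
  toFun x := ψi (g.1 * ψ x * (g⁻¹).1)
  map_add' x y := by rw [map_add, mul_add, add_mul, map_add]
  map_smul' c x := by rw [map_smul, mul_smul_comm, smul_mul_assoc, map_smul]; rfl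

theorem sp_adj {g : GL I4 k} (hg : g ∈ spGL 2 k) (u v : I4 → k) :
    f (g.1 *ᵥ u) v = f u ((g⁻¹).1 *ᵥ v) := by
  rw [← mem_sp.1 hg u, mulVec_mulVec, Units.mul_inv, one_mulVec]

section
variable (h2 : (2 : k) ≠ 0) {g : GL I4 k} (hg : g ∈ spGL 2 k)
include h2 hg

theorem ψσ (x : Fin 5 → k) : ψ (σ g x) = g.1 * ψ x * (g⁻¹).1 := by
  obtain ⟨y, hy⟩ := exists_ψ h2 (T := g.1 * ψ x * (g⁻¹).1) (fun u v => by
    simp only [← mulVec_mulVec]
    rw [sp_adj hg, ψ_sa, sp_adj (inv_mem hg), inv_inv])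
    (by rw [trace_mul_comm, Units.inv_mul_cancel_left, ψ_trace])
  change ψ (ψi _) = _
  rw [← hy, ψi_ψ]

theorem ψσ' (x : Fin 5 → k) : ψ (σ g x) * g.1 = g.1 * ψ x := by
  rw [ψσ h2 hg, Units.inv_mul_cancel_right]

theorem σ_eq_iff {x y : Fin 5 → k} : σ g x = y ↔ ψ y * g.1 = g.1 * ψ x := by
  rw [← ψσ' h2 hg, Units.mul_left_inj, ψ_injective.eq_iff, eq_comm]

theorem σ_mul {g' : GL I4 k} (hg' : g' ∈ spGL 2 k) (x : Fin 5 → k) :
    σ (g * g') x = σ g (σ g' x) := by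
  rw [σ_eq_iff h2 (mul_mem hg hg'), Units.val_mul, ← mul_assoc, ψσ' h2 hg, mul_assoc,
    ψσ' h2 hg', mul_assoc]

theorem Q_σ (x : Fin 5 → k) : Q (σ g x) = Q x := by
  have : ψ (σ g x) * ψ (σ g x) = Q x • 1 := by
    rw [ψσ h2 hg]
    simp only [mul_assoc, Units.inv_mul_cancel_left, ψ_sq', mul_smul_comm, Units.mul_inv]
  rw [ψ_sq, ← sub_eq_zero, ← sub_smul] at this
  exact sub_eq_zero.1 (smul_one_eq_zero this)

theorem B_σ (x y : Fin 5 → k) : B (σ g x) (σ g y) = B x y := by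
  rw [polar, polar, ← map_add, Q_σ h2 hg, Q_σ h2 hg, Q_σ h2 hg]

theorem ψψ_conj (x y : Fin 5 → k) :
    g.1 * (ψ x * ψ y) * (g⁻¹).1 = ψ (σ g x) * ψ (σ g y) := by
  simp only [ψσ h2 hg, mul_assoc, Units.inv_mul_cancel_left]

end

theorem σ_one (x : Fin 5 → k) : σ 1 x = x := by
  change ψi _ = _
  simp [ψi_ψ]

theorem σ_neg (g : GL I4 k) (x : Fin 5 → k) : σ (-g) x = σ g x := by
  change ψi _ = ψi _
  simp

section
variable (h2 : (2 : k) ≠ 0) {g : GL I4 k} (hg : g ∈ spGL 2 k)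
include h2 hg

theorem σ_inv_σ (x : Fin 5 → k) : σ g⁻¹ (σ g x) = x := by
  rw [← σ_mul h2 (inv_mem hg) hg, inv_mul_cancel, σ_one]

theorem σ_σ_inv (x : Fin 5 → k) : σ g (σ g⁻¹ x) = x := by
  rw [← σ_mul h2 hg (inv_mem hg), mul_inv_cancel, σ_one]

theorem σ_ne {x : Fin 5 → k} (hx : x ≠ 0) : σ g x ≠ 0 := fun h =>
  hx (by rw [← σ_inv_σ h2 hg x, h, map_zero])

theorem σ_root {a : Fin 5 → k} (ha : g.1 = ψ a) (hQ : Q a = 1) (x : Fin 5 → k) :
    σ g x = B a x • a - x := by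
  rw [σ_eq_iff h2 hg, ha, map_sub, map_smul, sub_mul, smul_mul_assoc, ψ_sq, hQ, one_smul,
    ψ_swap a x]

theorem σ_eich {s m : Fin 5 → k} (hs : Q s = 0) (hm : B s m = 0) (h : g.1 = 1 + ψ s * ψ m)
    (x : Fin 5 → k) : σ g x = x + B m x • s - B s x • m - (Q m * B s x) • s := by
  rw [σ_eq_iff h2 hg, h]
  have e1 := ψ_comm s m x
  have e2 : ψ m * (ψ s * ψ m) = -(Q m • ψ s) := by
    rw [ψ_neg_swap' (by rw [B_comm, hm]), ψ_sq, mul_smul_comm, mul_one]
  have e3 : ψ s * (ψ s * ψ m) = 0 := by rw [ψ_sq', hs, zero_smul]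
  simp only [map_add, map_sub, map_smul, add_mul, sub_mul, mul_add, smul_mul_assoc, mul_one,
    one_mul, e2, e3] at e1 ⊢
  rw [eq_add_of_sub_eq e1]
  module

end

theorem Hyp.irr {p : ℕ} [Fact p.Prime] [CharP k p] {P : Subgroup (GL I4 k)} (h : Hyp p P)
    (Z : Submodule k (Fin 5 → k)) (hZ : ∀ g ∈ P, ∀ x ∈ Z, σ g x ∈ Z) : Z = ⊥ ∨ Z = ⊤ :=
  h.irrW Z fun g hg x hx _ e => (σ_eq_iff (two_ne p h.two) (h.sp hg)).2 e ▸ hZ g hg x hx

/-- A normal set of non-central elements generates. -/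
theorem Hyp.gen {p : ℕ} {P : Subgroup (GL I4 k)} (h : Hyp p P) (S : Subgroup (GL I4 k))
    (hS : -1 ∈ S) {t : GL I4 k} (ht : t ∈ P) (h1 : t ≠ 1) (h1' : t ≠ -1)
    (hc : ∀ g ∈ P, g * t * g⁻¹ ∈ S) : P ≤ S := by
  let N : Subgroup (GL I4 k) :=
    { carrier := {n | n ∈ P ∧ ∀ g ∈ P, g * n * g⁻¹ ∈ S}
      mul_mem' := fun {a b} ha hb => ⟨mul_mem ha.1 hb.1, fun g hg => by
        rw [← conj_mul]; exact mul_mem (ha.2 g hg) (hb.2 g hg)⟩
      one_mem' := ⟨one_mem _, fun g _ => by simp⟩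
      inv_mem' := fun {a} ha => ⟨inv_mem ha.1, fun g hg => by
        rw [← conj_inv]; exact inv_mem (ha.2 g hg)⟩ }
  rcases h.simp N (fun _ hn => hn.1) (fun g hg n hn =>
    ⟨mul_mem (mul_mem hg hn.1) (inv_mem hg), fun g' hg' => by
      have := hn.2 _ (mul_mem hg' hg)
      rwa [_root_.mul_inv_rev, ← mul_assoc, mul_assoc g', mul_assoc g'] at this⟩)
    ⟨h.neg, fun g _ => by simpa using hS⟩ with e | e
  · exact ((e t ⟨ht, hc⟩).elim h1 h1').elim
  · exact fun g hg => by simpa using (e hg).2 1 (one_mem _)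

/-! ### The bridge to the projective line -/

/-- A two-dimensional representation as an action on the projective line. -/
structure Br {G M : Type*} [Group G] [AddCommGroup M] [Module k M] (r : G → M →ₗ[k] M)
    (C : Subgroup G) (Y : Submodule k M) where
  /-- the projective representation -/
  π : G → PGL(2, k)
  /-- the point of a vector -/
  pt : M → OnePoint k
  mul : ∀ g ∈ C, ∀ h ∈ C, π (g * h) = π g * π h
  surj : ∀ z, ∃ y ∈ Y, y ≠ 0 ∧ pt y = z
  eq : ∀ y ∈ Y, ∀ y' ∈ Y, y ≠ 0 → y' ≠ 0 → (pt y = pt y' ↔ ∃ c : k, y' = c • y)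
  act : ∀ g ∈ C, ∀ y ∈ Y, y ≠ 0 → π g • pt y = pt (r g y)
  mem : ∀ g ∈ C, ∀ y ∈ Y, r g y ∈ Y
  ne : ∀ g ∈ C, ∀ y ∈ Y, y ≠ 0 → r g y ≠ 0
  dim : finrank k Y = 2

open Classical in
/-- the point with homogeneous coordinates -/
noncomputable def pt0 (v : Fin 2 → k) : OnePoint k := if v 1 = 0 then OnePoint.infty else (v 0 / v 1 : k)

theorem pt0_eq {v w : Fin 2 → k} (hv : v ≠ 0) (hw : w ≠ 0) : pt0 v = pt0 w ↔ ∃ c : k, w = c • v := by
  have hv' : v 1 = 0 → v 0 ≠ 0 := fun a b => hv (by ext i; fin_cases i <;> simp [a, b])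
  have hw' : w 1 = 0 → w 0 ≠ 0 := fun a b => hw (by ext i; fin_cases i <;> simp [a, b])
  constructor
  · intro h
    by_cases a : v 1 = 0 <;> by_cases b : w 1 = 0 <;> simp [pt0, a, b] at h
    · refine ⟨w 0 / v 0, ?_⟩
      ext i; fin_cases i <;> simp [a, b, hv' a]
    · refine ⟨w 1 / v 1, ?_⟩
      ext i; fin_cases i <;> simp [a]
      field_simp at h ⊢
      exact h.symm
  · rintro ⟨c, rfl⟩
    have hc : c ≠ 0 := by rintro rfl; simp at hw
    by_cases a : v 1 = 0 <;> simp [pt0, a, hc, mul_div_mul_left]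

theorem pg_pt0 {A : Matrix (Fin 2) (Fin 2) k} (hA : A.det ≠ 0) {v : Fin 2 → k} (hv : v ≠ 0) :
    Pg.pg A • pt0 v = pt0 (A *ᵥ v) := by
  have hv' : v 1 = 0 → v 0 ≠ 0 := fun a b => hv (by ext i; fin_cases i <;> simp [a, b])
  have e0 : ∀ i, (A *ᵥ v) i = A i 0 * v 0 + A i 1 * v 1 := fun i => by
    simp [mulVec, dotProduct]
  by_cases a : v 1 = 0
  · have := hv' a
    by_cases a' : A 1 0 = 0 <;> simp [pt0, a, Pg.pg_infty hA, e0, this, mul_div_mul_right, a']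
  · have e : A 1 0 * (v 0 / v 1) + A 1 1 = (A 1 0 * v 0 + A 1 1 * v 1) / v 1 := by field_simp
    have e' : A 0 0 * (v 0 / v 1) + A 0 1 = (A 0 0 * v 0 + A 0 1 * v 1) / v 1 := by field_simp
    rw [pt0, if_neg a, Pg.pg_some hA, pt0, e0, e0, e, e']
    by_cases a' : A 1 0 * v 0 + A 1 1 * v 1 = 0 <;> simp [a, a', div_div_div_cancel_right₀ a]

theorem exists_br2 {G M : Type*} [Group G] [AddCommGroup M] [Module k M] (r : G → M →ₗ[k] M)
    (C : Subgroup G) (Y : Submodule k M) (hY : finrank k Y = 2)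
    (h1 : ∀ y ∈ Y, r 1 y = y) (hm : ∀ g ∈ C, ∀ h ∈ C, ∀ y ∈ Y, r (g * h) y = r g (r h y))
    (hmem : ∀ g ∈ C, ∀ y ∈ Y, r g y ∈ Y) : Nonempty (Br r C Y) := by
  classical
  have : FiniteDimensional k Y := Module.finite_of_finrank_eq_succ hY
  let b := Module.finBasisOfFinrankEq k Y hY
  let co : M → Fin 2 → k := fun y => if h : y ∈ Y then b.equivFun ⟨y, h⟩ else 0
  have hco : ∀ y (h : y ∈ Y), co y = b.equivFun ⟨y, h⟩ := fun y h => dif_pos h
  have hco0 : ∀ y ∈ Y, y ≠ 0 → co y ≠ 0 := fun y h h0 e => by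
    rw [hco y h, LinearEquiv.map_eq_zero_iff] at e
    exact h0 (congrArg Subtype.val e)
  let A : G → Matrix (Fin 2) (Fin 2) k := fun g =>
    if h : g ∈ C then LinearMap.toMatrix b b ((r g).restrict (hmem g h)) else 1
  have hA : ∀ g ∈ C, ∀ y ∈ Y, A g *ᵥ co y = co (r g y) := fun g hg y hy => by
    rw [hco y hy, hco _ (hmem g hg y hy)]
    simp only [A, dif_pos hg]
    exact LinearMap.toMatrix_mulVec_repr b b _ _
  have hs : ∀ v, ∃ y ∈ Y, co y = v := fun v =>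
    ⟨b.equivFun.symm v, (b.equivFun.symm v).2, by
      rw [hco _ (b.equivFun.symm v).2]; exact b.equivFun.apply_symm_apply v⟩
  have hAm : ∀ g ∈ C, ∀ h ∈ C, A (g * h) = A g * A h := fun g hg h hh =>
    toLin'.injective (LinearMap.ext fun v => by
      obtain ⟨y, hy, rfl⟩ := hs v
      simp only [toLin'_apply]
      rw [← mulVec_mulVec, hA _ (mul_mem hg hh) y hy, hA h hh y hy, hA g hg _ (hmem h hh y hy),
        hm g hg h hh y hy])
  have hA1 : A 1 = 1 := toLin'.injective (LinearMap.ext fun v => by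
    obtain ⟨y, hy, rfl⟩ := hs v
    simp only [toLin'_apply]
    rw [hA _ (one_mem _) y hy, h1 y hy, one_mulVec])
  have hd : ∀ g ∈ C, (A g).det ≠ 0 := fun g hg e => by
    have := congrArg det (hAm g hg g⁻¹ (inv_mem hg))
    rw [mul_inv_cancel, hA1, det_mul, e, zero_mul, det_one] at this
    exact one_ne_zero this
  refine ⟨⟨fun g => Pg.pg (A g), fun y => pt0 (co y), fun g hg h hh => ?_, fun z => ?_,
    fun y hy y' hy' h0 h0' => ?_, fun g hg y hy h0 => ?_, hmem, fun g hg y hy h0 e => h0 ?_, hY⟩⟩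
  · rw [hAm g hg h hh, Pg.pg_mul (hd g hg) (hd h hh)]
  · obtain ⟨v, hv, e⟩ : ∃ v : Fin 2 → k, v ≠ 0 ∧ pt0 v = z := by
      cases z with
      | infty => exact ⟨![1, 0], fun e => by simpa using congrFun e 0, by simp [pt0]⟩
      | coe a => exact ⟨![a, 1], fun e => by simpa using congrFun e 1, by simp [pt0]⟩
    obtain ⟨y, hy, rfl⟩ := hs v
    refine ⟨y, hy, ?_, e⟩
    rintro rfl
    exact hv (by rw [hco _ hy]; exact map_zero _)
  · rw [pt0_eq (hco0 y hy h0) (hco0 y' hy' h0'), hco y hy, hco y' hy']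
    refine exists_congr fun c => ?_
    rw [← map_smul, b.equivFun.injective.eq_iff, Subtype.ext_iff]
    rfl
  · rw [pg_pt0 (hd g hg) (hco0 y hy h0), hA g hg y hy]
  · rw [← h1 y hy, ← inv_mul_cancel g, hm _ (inv_mem hg) g hg y hy, e, map_zero]

namespace Br

variable {G M : Type*} [Group G] [AddCommGroup M] [Module k M] {r : G → M →ₗ[k] M}
  {C : Subgroup G} {Y : Submodule k M} (b : Br r C Y)

theorem one : b.π 1 = 1 := by
  have := b.mul 1 (one_mem _) 1 (one_mem _)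
  rw [mul_one] at this
  exact left_eq_mul.1 this

theorem inv {g : G} (hg : g ∈ C) : b.π g⁻¹ = (b.π g)⁻¹ :=
  eq_inv_of_mul_eq_one_left (by rw [← b.mul _ (inv_mem hg) _ hg, inv_mul_cancel, b.one])

theorem pow {g : G} (hg : g ∈ C) (n : ℕ) : b.π (g ^ n) = b.π g ^ n := by
  induction n with
  | zero => simp [b.one]
  | succ n ih => rw [pow_succ, b.mul _ (pow_mem hg n) _ hg, ih, pow_succ]

/-- the projective representation as a homomorphism -/
def hom : C →* PGL(2, k) := MonoidHom.mk' (fun g => b.π g) fun g h => b.mul _ g.2 _ h.2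

/-- the image of a subgroup -/
def img (X : Subgroup G) : Subgroup PGL(2, k) := (X.subgroupOf C).map b.hom

theorem mem_img {X : Subgroup G} {γ : PGL(2, k)} :
    γ ∈ b.img X ↔ ∃ g ∈ X, g ∈ C ∧ b.π g = γ :=
  ⟨fun ⟨g, hg, e⟩ => ⟨g, hg, g.2, e⟩, fun ⟨g, hg, hg', e⟩ => ⟨⟨g, hg'⟩, hg, e⟩⟩

theorem π_mem {X : Subgroup G} (hX : X ≤ C) {g : G} (hg : g ∈ X) : b.π g ∈ b.img X :=
  b.mem_img.2 ⟨g, hg, hX hg, rfl⟩

theorem img_mono {X X' : Subgroup G} (h : X ≤ X') : b.img X ≤ b.img X' := fun _ hγ =>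
  let ⟨g, hg, e⟩ := b.mem_img.1 hγ
  b.mem_img.2 ⟨g, h hg, e⟩

theorem finite_sub (X : Subgroup G) [Finite X] : Finite (X.subgroupOf C) :=
  Finite.of_injective (fun g : X.subgroupOf C => (⟨g.1.1, g.2⟩ : X)) fun _ _ e =>
    Subtype.ext (Subtype.ext (congrArg (fun x : X => x.1) e))

theorem finite_img (X : Subgroup G) [Finite X] : Finite (b.img X) := by
  have := finite_sub (C := C) X
  exact Finite.of_surjective _ (b.hom.subgroupMap_surjective _)

theorem card_img_dvd (X : Subgroup G) : Nat.card (b.img X) ∣ Nat.card X := by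
  refine (Subgroup.card_map_dvd _ _).trans ?_
  rw [← Subgroup.card_map_of_injective C.subtype_injective, Subgroup.subgroupOf_map_subtype]
  exact Subgroup.card_dvd_of_le inf_le_left

theorem fix_iff {g : G} (hg : g ∈ C) {y : M} (hy : y ∈ Y) (h0 : y ≠ 0) :
    b.π g • b.pt y = b.pt y ↔ ∃ c : k, r g y = c • y := by
  rw [b.act g hg y hy h0, eq_comm, b.eq y hy _ (b.mem g hg y hy) h0 (b.ne g hg y hy h0)]

theorem eq_one_iff {g : G} (hg : g ∈ C) : b.π g = 1 ↔ ∃ c : k, ∀ y ∈ Y, r g y = c • y := by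
  constructor
  · intro h
    have e : ∀ y ∈ Y, y ≠ 0 → ∃ c : k, r g y = c • y := fun y hy h0 =>
      (b.fix_iff hg hy h0).1 (by rw [h, one_smul])
    obtain ⟨y0, hy0, h0, -⟩ := b.surj OnePoint.infty
    obtain ⟨c, hc⟩ := e y0 hy0 h0
    refine ⟨c, fun y hy => ?_⟩
    by_cases hp : ∃ t : k, y = t • y0
    · obtain ⟨t, rfl⟩ := hp
      rw [map_smul, hc, smul_comm]
    have hy' : y ≠ 0 := fun e => hp ⟨0, by rw [e, zero_smul]⟩
    have hy'' : y + y0 ≠ 0 := fun e => hp ⟨-1, by rw [eq_neg_of_add_eq_zero_left e]; simp⟩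
    obtain ⟨c1, h1⟩ := e y hy hy'
    obtain ⟨c2, h3⟩ := e _ (add_mem hy hy0) hy''
    rw [map_add, hc, h1] at h3
    by_cases h12 : c1 = c2
    · rw [← h12, smul_add, add_right_inj] at h3
      rw [h1, smul_left_injective k h0 h3]
    · refine (hp ⟨(c2 - c) / (c1 - c2), ?_⟩).elim
      have h4 := sub_ne_zero.2 h12
      refine smul_right_injective M h4 ?_
      simp only [smul_smul, mul_div_cancel₀ _ h4]
      linear_combination (norm := module) h3
  · rintro ⟨c, hc⟩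
    have e : ∀ z, b.π g • z = z := fun z => by
      obtain ⟨y, hy, h0, rfl⟩ := b.surj z
      exact (b.fix_iff hg hy h0).2 ⟨c, hc y hy⟩
    exact Pg.three _ OnePoint.infty (0 : k) (1 : k) (by simp) (by simp) (by simp) (e _) (e _) (e _)

end Br

end Cfsg.Agent.H1.Sp4
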