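import Cfsg.Agent.H1.Sp4A

/-!
Finite subgroups of the four-dimensional symplectic group: shear groups.
-/

set_option autoImplicit false
set_option linter.unusedSectionVars false

namespace Cfsg.Agent.H1.Sp4

open Module QuadraticMap Matrix Spin5 H6

variable {k : Type*} [Field k]

local notation "f" => sympForm 2 k
local notation "Q" => Q5 k
local notation "B" => polar (Q5 k)

/-! ### Linear algebra -/

theorem span_two {M : Type*} [AddCommGroup M] [Module k M] {Y : Submodule k M}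
    [FiniteDimensional k Y] (hY : finrank k Y ≤ 2) {a v : M} (ha : a ∈ Y) (hv : v ∈ Y) (h0 : v ≠ 0)
    (hi : ∀ c : k, a ≠ c • v) {y : M} (hy : y ∈ Y) : ∃ α β : k, y = α • a + β • v := by
  have h1 : LinearIndependent k ![v, a] := (LinearIndependent.pair_iff' h0).2 fun c e => hi c e.symm
  have h3 : Submodule.span k (Set.range ![v, a]) ≤ Y := Submodule.span_le.2 (by
    rintro _ ⟨i, rfl⟩; fin_cases i; exacts [hv, ha])
  have h4 := Submodule.eq_of_le_of_finrank_le h3 (by rw [finrank_span_eq_card h1]; simpa using hY)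
  rw [← h4, Matrix.range_cons_cons_empty, Submodule.mem_span_pair] at hy
  obtain ⟨c, d, rfl⟩ := hy
  exact ⟨d, c, add_comm _ _⟩

theorem sq_zero_of_nil {Y : Submodule k (I4 → k)} (hY : finrank k Y = 2) {D : Matrix I4 I4 k}
    (hD : ∀ y ∈ Y, D *ᵥ y ∈ Y) {n : ℕ} (hn : D ^ n = 0) {y : I4 → k} (hy : y ∈ Y) :
    D *ᵥ (D *ᵥ y) = 0 := by
  have hD' : ∀ y ∈ Y, toLin' D y ∈ Y := hD
  have h1 := Module.End.ker_pow_le_ker_pow_finrank ((toLin' D).restrict hD') n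
    (x := ⟨y, hy⟩) (by
      rw [LinearMap.mem_ker, Module.End.pow_restrict, Subtype.ext_iff]
      change (toLin' D ^ n) y = 0
      rw [← toLin'_pow, hn]
      simp)
  rw [hY, LinearMap.mem_ker, pow_two, Subtype.ext_iff] at h1
  exact h1

theorem finrank_ker {T R R' : Matrix I4 I4 k} (hR : R' * R = 1)
    (h : ∀ x, T *ᵥ x = 0 ↔ ∃ y, (R * T) *ᵥ y = x) : finrank k (LinearMap.ker (toLin' T)) = 2 := by
  have h1 := LinearMap.finrank_range_add_finrank_ker (toLin' T)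
  have h3 : LinearMap.ker (toLin' T) = (LinearMap.range (toLin' T)).map (toLin' R) := by
    rw [← LinearMap.range_comp, ← toLin'_mul]
    ext x
    exact h x
  have h4 := (Submodule.equivMapOfInjective (toLin' R) (fun x y e => by
    have := congrArg (R' *ᵥ ·) e
    simpa [hR] using this) (LinearMap.range (toLin' T))).finrank_eq
  rw [← h3] at h4
  rw [show finrank k (I4 → k) = 4 by simp] at h1
  omega

theorem exists_perp (a b c d : Fin 5 → k) :
    ∃ w ≠ 0, B a w = 0 ∧ B b w = 0 ∧ B c w = 0 ∧ B d w = 0 := by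
  obtain ⟨w, hw, h0⟩ := (Submodule.ne_bot_iff _).1 (LinearMap.ker_ne_bot_of_finrank_lt
    («f» := LinearMap.pi fun i => (Q5 k).polarBilin (![a, b, c, d] i)) (by simp))
  exact ⟨w, h0, congrFun hw 0, congrFun hw 1, congrFun hw 2, congrFun hw 3⟩

theorem exists_unit [IsAlgClosed k] (h2 : (2 : k) ≠ 0) {a b c d : Fin 5 → k} (ha : Q a ≠ 0)
    (hb : Q b ≠ 0) (hc : Q c ≠ 0 ∨ c = 0) (hd : Q d ≠ 0 ∨ d = 0) (hab : B a b = 0) (hac : B a c = 0)
    (had : B a d = 0) (hbc : B b c = 0) (hbd : B b d = 0) (hcd : B c d = 0) :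
    ∃ w, Q w = 1 ∧ B a w = 0 ∧ B b w = 0 ∧ B c w = 0 ∧ B d w = 0 := by
  obtain ⟨w, hw⟩ : ∃ w, Q w ≠ 0 ∧ B a w = 0 ∧ B b w = 0 ∧ B c w = 0 ∧ B d w = 0 := by
    by_contra! hh
    have hh' : ∀ w, B a w = 0 → B b w = 0 → B c w = 0 → B d w = 0 → Q w = 0 := fun w h1 h3 h4 h5 => by
      by_contra e
      exact hh w e h1 h3 h4 h5
    obtain ⟨w, h0, w1, w2, w3, w4⟩ := exists_perp a b c d
    refine h0 (nd5 h2 w fun x => ?_)
    have e : ∀ y : Fin 5 → k, (Q y ≠ 0 ∨ y = 0) → B y x - B y x / (2 * Q y) * (2 * Q y) = 0 := by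
      rintro y (e | rfl)
      · field_simp; ring
      · simp
    set x' := x - (B a x / (2 * Q a)) • a - (B b x / (2 * Q b)) • b - (B c x / (2 * Q c)) • c -
      (B d x / (2 * Q d)) • d with hx'
    have a1 : B a x' = 0 := by
      simp only [hx', B_sub', B_smul', B_self, hab, hac, had, mul_zero, sub_zero, e a (.inl ha)]
    have a2 : B b x' = 0 := by
      simp only [hx', B_sub', B_smul', B_self, B_comm b a, hab, hbc, hbd, mul_zero, sub_zero,
        e b (.inl hb)]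
    have a3 : B c x' = 0 := by
      simp only [hx', B_sub', B_smul', B_self, B_comm c a, B_comm c b, hac, hbc, hcd, mul_zero,
        sub_zero, e c hc]
    have a4 : B d x' = 0 := by
      simp only [hx', B_sub', B_smul', B_self, B_comm d a, B_comm d b, B_comm d c, had, hbd, hcd,
        mul_zero, sub_zero, e d hd]
    have a5 := hh' (x' + w) (by rw [B_add', a1, w1, add_zero]) (by rw [B_add', a2, w2, add_zero])
      (by rw [B_add', a3, w3, add_zero]) (by rw [B_add', a4, w4, add_zero])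
    rw [Q_add, hh' _ a1 a2 a3 a4, hh' _ w1 w2 w3 w4] at a5
    simpa only [hx', B_sub, B_smul, w1, w2, w3, w4, mul_zero, sub_zero, zero_add] using a5
  obtain ⟨t, ht⟩ := IsAlgClosed.exists_eq_mul_self (Q w)⁻¹
  exact ⟨t • w, by rw [Q_smul, ← ht, inv_mul_cancel₀ hw.1], by simp only [B_smul', hw.2, mul_zero,
    and_self]⟩

theorem finrank_ker_sing (h2 : (2 : k) ≠ 0) {s : Fin 5 → k} (hs : s ≠ 0) (hQ : Q s = 0) :
    finrank k (LinearMap.ker (toLin' (ψ s))) = 2 := by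
  obtain ⟨t, ht⟩ := exists_B h2 hs
  refine finrank_ker (R := 1) (R' := 1) (one_mul _) fun x => ⟨fun h => ⟨ψ t *ᵥ x, ?_⟩, ?_⟩
  · rw [one_mul, mulVec_mulVec, ψ_swap, ht, sub_mulVec, ← mulVec_mulVec, h]; simp
  · rintro ⟨y, rfl⟩
    rw [one_mul, mulVec_mulVec, ψ_sq, hQ]; simp

theorem ψψ_sq {s m : Fin 5 → k} (hs : Q s = 0) (hm : B s m = 0) :
    ψ s * ψ m * (ψ s * ψ m) = 0 := by
  rw [mul_assoc, ψ_neg_swap' (x := m) (by rw [B_comm, hm]), mul_neg, ψ_sq', hs, zero_smul, neg_zero]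

/-! ### Group theory -/

theorem exists_comm {G : Type*} [Group G] {p : ℕ} [Fact p.Prime] (U : Subgroup G) [Finite U]
    (hU : p ∣ Nat.card U) {g : G} {n : ℕ} (hg : g ^ p ^ n = 1) (hn : ∀ u ∈ U, g * u * g⁻¹ ∈ U) :
    ∃ u ∈ U, u ≠ 1 ∧ g * u = u * g := by
  classical
  have := Fintype.ofFinite U
  let φ : U → U := fun u => ⟨g * u * g⁻¹, hn u u.2⟩
  have hφ : Function.Injective φ := fun u v e => Subtype.ext (by
    simpa [φ] using congrArg (fun x : U => x.1) e)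
  let e := Equiv.ofBijective φ (Finite.injective_iff_bijective.1 hφ)
  have he : ∀ m : ℕ, ∀ u : U, ((e ^ m) u).1 = g ^ m * u * (g ^ m)⁻¹ := fun m => by
    induction m with
    | zero => simp
    | succ m ih =>
      intro u
      rw [pow_succ', Equiv.Perm.mul_apply]
      change g * _ * g⁻¹ = _
      rw [ih, pow_succ']; group
  obtain ⟨u, h1, h3⟩ := Equiv.Perm.exists_fixed_point_of_prime' (p := p) (n := n) (σ := e)
    (by rwa [← Nat.card_eq_fintype_card]) (Equiv.ext fun u => Subtype.ext (by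
      rw [he, hg]; simp)) (a := 1) (Subtype.ext (by change g * 1 * g⁻¹ = 1; simp))
  exact ⟨u, u.2, fun e => h3 (Subtype.ext e),
    mul_inv_eq_iff_eq_mul.1 (congrArg (fun x : U => x.1) h1)⟩

theorem p_part {G : Type*} [Group G] (p : ℕ) [hp : Fact p.Prime] {X : Subgroup G} [Finite X] {g : G}
    (hg : g ∈ X) : ∃ t n : ℕ, (g ^ (1 + p * t)) ^ p ^ n = 1 := by
  obtain ⟨n, r, hr, e⟩ := Nat.exists_eq_pow_mul_and_not_dvd (Nat.card_pos (α := X)).ne' p
    hp.out.ne_one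
  have h1 := Nat.ModEq.pow_totient ((Nat.coprime_comm.1 (hp.out.coprime_iff_not_dvd.2 hr)))
  have h3 : 0 < r := Nat.pos_of_ne_zero (by rintro rfl; simp at hr)
  obtain ⟨t, ht⟩ := (Nat.modEq_iff_dvd' (Nat.one_le_pow _ _ h3)).1 h1.symm
  have h4 : 1 + p * t = r ^ p.totient := by
    have := Nat.one_le_pow p.totient _ h3
    omega
  obtain ⟨j, hj⟩ := Nat.exists_eq_add_of_lt (Nat.totient_pos.2 hp.out.pos)
  refine ⟨t, n, ?_⟩
  have h5 : g ^ Nat.card X = 1 := congrArg Subtype.val (pow_card_eq_one' (x := (⟨g, hg⟩ : X)))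
  rw [h4, hj, ← pow_mul, show r ^ (0 + j + 1) * p ^ n = p ^ n * r * r ^ j by ring, pow_mul, ← e,
    h5, one_pow]

/-! ### The hypotheses -/

/-- The hypotheses on the finite group that are used. -/
structure Hy (p : ℕ) (P : Subgroup (GL I4 k)) : Prop where
  two : p ≠ 2
  fin : Finite P
  sp : P ≤ spGL 2 k
  neg : -1 ∈ P
  gen : ∀ S : Subgroup (GL I4 k), -1 ∈ S → ∀ t ∈ P, t ≠ 1 → t ≠ -1 →
    (∀ g ∈ P, g * t * g⁻¹ ∈ S) → P ≤ S
  irr : ∀ Z : Submodule k (Fin 5 → k), (∀ g ∈ P, ∀ x ∈ Z, σ g x ∈ Z) → Z = ⊥ ∨ Z = ⊤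
  nolong : ∀ g ∈ P, ∀ v, (∀ x, ∃ c : k, g.1 *ᵥ x = x + c • v) → g = 1

variable {p : ℕ} [Fact p.Prime] [CharP k p] {P : Subgroup (GL I4 k)}

theorem Hyp.hy (h : Hyp p P) : Hy p P :=
  ⟨h.two, h.fin, h.sp, h.neg, fun S hS _ ht => h.gen S hS ht, h.irr, h.nolong⟩

theorem Hy.h2 (h : Hy p P) : (2 : k) ≠ 0 := two_ne p h.two

/-- The shear group of a singular vector. -/
def U (P : Subgroup (GL I4 k)) (s : Fin 5 → k) : Subgroup (GL I4 k) where
  carrier := {g | g ∈ P ∧ ψ s * g.1 = ψ s ∧ g.1 * ψ s = ψ s}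
  mul_mem' {a b} ha hb := ⟨mul_mem ha.1 hb.1, by rw [Units.val_mul, ← mul_assoc, ha.2.1, hb.2.1],
    by rw [Units.val_mul, mul_assoc, hb.2.2, ha.2.2]⟩
  one_mem' := ⟨one_mem _, by simp, by simp⟩
  inv_mem' {a} ha := ⟨inv_mem ha.1, by rw [Units.mul_inv_eq_iff_eq_mul, ha.2.1],
    by rw [Units.inv_mul_eq_iff_eq_mul, ha.2.2]⟩

theorem U_le (s : Fin 5 → k) : U P s ≤ P := fun _ h => h.1

theorem mem_U {s m : Fin 5 → k} (hs : Q s = 0) (hm : B s m = 0) {g : GL I4 k} (hg : g ∈ P)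
    (e : g.1 = 1 + ψ s * ψ m) : g ∈ U P s :=
  ⟨hg, by rw [e, mul_add, ψ_sq', hs]; simp, by
    rw [e, add_mul, mul_assoc, ψ_neg_swap (by rw [B_comm, hm]), mul_neg, ψ_sq', hs]; simp⟩

theorem U_smul {s : Fin 5 → k} {c : k} (hc : c ≠ 0) : U P (c • s) = U P s := by
  ext g
  refine and_congr_right fun _ => ?_
  rw [map_smul, smul_mul_assoc, mul_smul_comm, (smul_right_injective _ hc).eq_iff,
    (smul_right_injective _ hc).eq_iff]

theorem skew {g : GL I4 k} (hg : g ∈ spGL 2 k) {N : Matrix I4 I4 k} (e : g.1 = 1 + N)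
    (hN : N * N = 0) (x y : I4 → k) : f (N *ᵥ x) y = -f x (N *ᵥ y) := by
  have h1 : (g⁻¹).1 = 1 - N := Units.inv_eq_of_mul_eq_one_right (by
    rw [e, add_mul, mul_sub, mul_sub, hN]; simp)
  have := sp_adj hg x y
  rw [h1, e, add_mulVec, sub_mulVec, one_mulVec, one_mulVec, f_add, f_sub'] at this
  linear_combination this

namespace Hy

variable (h : Hy p P)
include h

theorem finU (s : Fin 5 → k) : Finite (U P s) :=
  have := h.fin
  Finite.of_injective _ (Subgroup.inclusion_injective (U_le s))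

theorem conj_U {s : Fin 5 → k} {g u : GL I4 k} (hg : g ∈ P) (hu : u ∈ U P s) :
    g * u * g⁻¹ ∈ U P (σ g s) := by
  refine ⟨mul_mem (mul_mem hg hu.1) (inv_mem hg), ?_, ?_⟩ <;>
    simp only [ψσ h.h2 (h.sp hg), Units.val_mul, mul_assoc, Units.inv_mul_cancel_left]
  · rw [← mul_assoc (ψ s), hu.2.1]
  · rw [← mul_assoc u.1, hu.2.2]

theorem U_form {s s' : Fin 5 → k} (hss : B s s' = 1) {g : GL I4 k} (hg : g ∈ U P s) :
    ∃ m, B s m = 0 ∧ B s' m = 0 ∧ g.1 = 1 + ψ s * ψ m := by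
  obtain ⟨N, e⟩ : ∃ N, g.1 = 1 + N := ⟨g.1 - 1, by simp⟩
  have h1 : ψ s * N = 0 := by simpa [e, mul_add] using hg.2.1
  have h3 : N * ψ s = 0 := by simpa [e, add_mul] using hg.2.2
  have h4 := ψ_anti s s'
  rw [hss, one_smul] at h4
  have h5 : N * N = 0 := by
    linear_combination (norm := noncomm_ring) h3 * ψ s' * N + N * ψ s' * h1 - N * h4 * N
  obtain ⟨m, hm⟩ := exists_ψ h.h2 (T := ψ s' * N - N * ψ s') (fun u v => by
    simp only [sub_mulVec, ← mulVec_mulVec, f_sub, f_sub', ψ_sa, skew (h.sp hg.1) e h5]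
    ring) (by rw [trace_sub, trace_mul_comm, sub_self])
  have h6 : ψ s * ψ m = N := by
    rw [hm, mul_sub, ← mul_assoc, ← mul_assoc, h1, eq_sub_of_add_eq h4, sub_mul, mul_assoc, h1]
    simp
  refine ⟨m, smul_one_eq_zero ?_, smul_one_eq_zero ?_, by rw [e, h6]⟩
  · rw [← ψ_anti, h6, hm, sub_mul, mul_assoc, h3, mul_assoc, eq_sub_of_add_eq' h4, mul_sub,
      ← mul_assoc, h3]
    simp
  · rw [← ψ_anti, hm, mul_sub, sub_mul, ψ_sq', mul_assoc N, ψ_sq, mul_assoc]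
    simp

theorem aniso {s m : Fin 5 → k} (hs : Q s = 0) (hm : B s m = 0) (hQ : Q m = 0) {g : GL I4 k}
    (hg : g ∈ P) (e : g.1 = 1 + ψ s * ψ m) : g = 1 := by
  by_cases h0 : ψ s * ψ m = 0
  · exact Units.ext (by rw [e, h0]; simp)
  obtain ⟨x0, hx⟩ : ∃ x, (ψ s * ψ m) *ᵥ x ≠ 0 := by
    by_contra! hh
    exact h0 (mat_ext fun x => by rw [hh, zero_mulVec])
  have hs0 : s ≠ 0 := by rintro rfl; simp at h0
  have h1 : ∀ x, ψ s *ᵥ x ∈ LinearMap.ker (toLin' (ψ s)) := fun x => by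
    rw [LinearMap.mem_ker, toLin'_apply, mulVec_mulVec, ψ_sq, hs]; simp
  have h3 : ∀ x, (ψ s * ψ m) *ᵥ x = -(ψ m *ᵥ (ψ s *ᵥ x)) := fun x => by
    rw [ψ_neg_swap hm, neg_mulVec, mulVec_mulVec]
  have h4 : ψ m *ᵥ ((ψ s * ψ m) *ᵥ x0) = 0 := by
    rw [h3, mulVec_neg, mulVec_mulVec, ψ_sq, hQ]; simp
  refine h.nolong g hg ((ψ s * ψ m) *ᵥ x0) fun x => ?_
  obtain ⟨α, β, e'⟩ := span_two (finrank_ker_sing h.h2 hs0 hs).le (h1 x0)
    (v := (ψ s * ψ m) *ᵥ x0) (by rw [← mulVec_mulVec]; exact h1 _) hx (fun c e => hx (by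
      rw [h3, e, mulVec_smul, h4]; simp)) (h1 x)
  refine ⟨α, ?_⟩
  rw [e, add_mulVec, one_mulVec, h3, e', mulVec_add, mulVec_smul, mulVec_smul, h4, h3]
  simp

theorem exists_s {g : GL I4 k} (hg : g ∈ P) (h1 : g ≠ 1) (hN : (g.1 - 1) * (g.1 - 1) = 0) :
    ∃ s ≠ 0, Q s = 0 ∧ g ∈ U P s := by
  obtain ⟨N, e⟩ : ∃ N, g.1 = 1 + N := ⟨g.1 - 1, by simp⟩
  rw [e, add_sub_cancel_left] at hN
  have sk := skew (h.sp hg) e hN
  obtain ⟨x, hx⟩ : ∃ x, N *ᵥ x ≠ 0 := by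
    by_contra! hh
    exact h1 (Units.ext (mat_ext fun x => by rw [e, add_mulVec, hh]; simp))
  obtain ⟨y, hy⟩ : ∃ y, ∀ c : k, N *ᵥ y ≠ c • N *ᵥ x := by
    by_contra! hh
    exact h1 (h.nolong g hg (N *ᵥ x) fun y => (hh y).imp fun c hc => by
      rw [e, add_mulVec, hc, one_mulVec])
  have h3 : ∀ u v, f (N *ᵥ u) (N *ᵥ v) = 0 := fun u v => by
    rw [sk, mulVec_mulVec, hN, zero_mulVec, f_zero', neg_zero]
  obtain ⟨s, hs⟩ := exists_br h.h2 (h3 x y)
  have h4 : N * ψ s = 0 := mat_ext fun z => by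
    rw [← mulVec_mulVec, hs, br_mulVec, mulVec_sub, mulVec_smul, mulVec_smul, mulVec_mulVec,
      mulVec_mulVec, hN]
    simp
  have h5 : ψ s * N = 0 := mat_ext fun z => by
    rw [← mulVec_mulVec, hs, br_mulVec, h3, h3]; simp
  refine ⟨s, ?_, smul_one_eq_zero ?_, hg, by rw [e, mul_add, h5]; simp, by rw [e, add_mul, h4]; simp⟩
  · rintro rfl
    obtain ⟨z, hz⟩ : ∃ z, f z (N *ᵥ x) ≠ 0 := by
      by_contra! hh
      exact hx (f_nd hh)
    have := br_mulVec (N *ᵥ x) (N *ᵥ y) z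
    rw [← hs, map_zero, zero_mulVec, eq_comm, sub_eq_zero] at this
    refine hy (f z (N *ᵥ y) / f z (N *ᵥ x)) (smul_right_injective _ hz ?_)
    simp only [this, smul_smul, mul_div_cancel₀ _ hz]
  · rw [← ψ_sq]
    refine mat_ext fun z => ?_
    rw [← mulVec_mulVec]
    nth_rw 2 [hs]
    rw [br_mulVec, mulVec_sub, mulVec_smul, mulVec_smul, mulVec_mulVec, mulVec_mulVec, h5]
    simp

theorem U_form' {s : Fin 5 → k} (h0 : s ≠ 0) (hs : Q s = 0) {g : GL I4 k} (hg : g ∈ U P s)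
    (h1 : g ≠ 1) : ∃ m, B s m = 0 ∧ Q m ≠ 0 ∧ g.1 = 1 + ψ s * ψ m := by
  obtain ⟨s', hs'⟩ := exists_B h.h2 h0
  obtain ⟨m, a, -, c⟩ := h.U_form hs' hg
  exact ⟨m, a, fun e => h1 (h.aniso hs a e hg.1 c), c⟩

theorem U_uniq {s s' : Fin 5 → k} (h0 : s ≠ 0) (hs : Q s = 0) {g : GL I4 k} (hg : g ∈ U P s)
    (hg' : g ∈ U P s') (h1 : g ≠ 1) : ∃ c : k, s' = c • s := by
  obtain ⟨m, a, b, c⟩ := h.U_form' h0 hs hg h1
  have := hg'.2.2
  rw [c, add_mul, one_mul, add_eq_left, ψ_neg_swap a, neg_mul, neg_eq_zero, mul_assoc] at this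
  have := congrArg (ψ m * ·) this
  simp only [ψ_sq', mul_zero, smul_eq_zero, b, false_or] at this
  exact prop_of_zero h.h2 h0 this

theorem U_pow {s : Fin 5 → k} (h0 : s ≠ 0) (hs : Q s = 0) {g : GL I4 k} (hg : g ∈ U P s) :
    g ^ p = 1 := by
  obtain ⟨s', hs'⟩ := exists_B h.h2 h0
  obtain ⟨m, a, -, c⟩ := h.U_form hs' hg
  refine Units.ext ?_
  obtain ⟨j, hj⟩ := Nat.exists_eq_add_of_le (Fact.out : p.Prime).two_le
  rw [Units.val_pow_eq_pow_val, c, add_pow_char_of_commute _ (Commute.one_left _), one_pow]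
  nth_rw 1 [hj]
  rw [pow_add, pow_two, ψψ_sq hs a]
  simp

theorem U_dvd {s : Fin 5 → k} (h0 : s ≠ 0) (hs : Q s = 0) {g : GL I4 k} (hg : g ∈ U P s)
    (h1 : g ≠ 1) : p ∣ Nat.card (U P s) := by
  rw [← orderOf_eq_prime (h.U_pow h0 hs hg) h1, ← Subgroup.orderOf_mk g hg]
  exact orderOf_dvd_natCard _

theorem nil {g : GL I4 k} {n : ℕ} (hg : g ^ p ^ n = 1) : (g.1 - 1) ^ p ^ n = 0 := by
  rw [sub_pow_char_pow_of_commute _ _ (Commute.one_right _), ← Units.val_pow_eq_pow_val, hg]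
  simp

theorem mem_U_of_comm {s : Fin 5 → k} (h0 : s ≠ 0) (hs : Q s = 0) {g u : GL I4 k} (hg : g ∈ P)
    {n : ℕ} (hn : g ^ p ^ n = 1) (hu : u ∈ U P s) (h1 : u ≠ 1) (hc : g * u = u * g) :
    g ∈ U P s := by
  obtain ⟨m, a, b, c⟩ := h.U_form' h0 hs hu h1
  have hD := h.nil hn
  obtain ⟨D, e⟩ : ∃ D, g.1 = 1 + D := ⟨g.1 - 1, by simp⟩
  rw [e, add_sub_cancel_left] at hD
  set N := ψ s * ψ m with hN
  have a1 : D * N = N * D := by
    have := congrArg Units.val hc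
    simp only [Units.val_mul, e, c, mul_add, add_mul, one_mul, mul_one] at this
    linear_combination (norm := abel) this
  have a2 : N * ψ m = Q m • ψ s := by rw [hN, mul_assoc, ψ_sq]; simp
  have a3 : ψ m * N = -(Q m • ψ s) := by
    rw [hN, ψ_neg_swap' (by rw [B_comm, a]), ψ_sq]; simp
  have a4 : ψ s * N = 0 := by rw [hN, ψ_sq', hs, zero_smul]
  have a5 : N * N = 0 := by rw [hN, mul_assoc, a3, mul_neg, mul_smul_comm, ψ_sq, hs]; simp
  have sk := skew (h.sp hu.1) c a5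
  have a6 : ∀ y, y ∈ LinearMap.ker (toLin' (ψ s)) ↔ N *ᵥ y = 0 := fun y => by
    rw [LinearMap.mem_ker, toLin'_apply]
    refine ⟨fun e => by rw [hN, ψ_neg_swap a, neg_mulVec, ← mulVec_mulVec, e]; simp, fun e => ?_⟩
    have := congrArg (ψ m *ᵥ ·) e
    simpa [a3, neg_mulVec, smul_mulVec, b] using this
  have a7 : ∀ x, N *ᵥ x ∈ LinearMap.ker (toLin' (ψ s)) := fun x => by
    rw [a6, mulVec_mulVec, a5, zero_mulVec]
  have key : D * N = 0 := by
    refine mat_ext fun x => ?_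
    by_contra hx
    rw [zero_mulVec, ← mulVec_mulVec] at hx
    have b1 := sq_zero_of_nil (finrank_ker_sing h.h2 h0 hs) (fun y hy => by
      rw [a6] at hy ⊢
      rw [mulVec_mulVec, ← a1, ← mulVec_mulVec, hy, mulVec_zero]) hD (a7 x)
    have b2 : N *ᵥ (D *ᵥ x) = D *ᵥ (N *ᵥ x) := by rw [mulVec_mulVec, mulVec_mulVec, a1]
    have b3 := mem_sp.1 (h.sp hg) (D *ᵥ (N *ᵥ x)) x
    have b4 := mem_sp.1 (h.sp hg) (N *ᵥ x) x
    have b5 := sk (D *ᵥ x) x
    simp only [e, add_mulVec, one_mulVec, b1, f_add, f_add', f_zero] at b3 b4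
    rw [b2, f_skew (D *ᵥ x), neg_neg] at b5
    have b6 : f (D *ᵥ N *ᵥ x) (D *ᵥ x) = 0 := by linear_combination b3
    have b7 : f (N *ᵥ x) (D *ᵥ x) = 0 := mul_left_cancel₀ h.h2 (by linear_combination b4 - b5 - b6)
    refine hx (f_nd fun z => ?_)
    obtain ⟨α, β, e'⟩ := span_two (finrank_ker_sing h.h2 h0 hs).le (a7 x) (b2 ▸ a7 _) hx
      (fun c e => hx (by rw [e, mulVec_smul, b1, smul_zero])) (a7 z)
    rw [← b2, ← neg_eq_zero, ← sk, e', f_add, f_smul, f_smul, b6, b7]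
    simp
  refine ⟨hg, ?_, ?_⟩
  · have : ψ m * N * D = 0 := by rw [mul_assoc, ← a1, key, mul_zero]
    rw [a3, neg_mul, neg_eq_zero, smul_mul_assoc, smul_eq_zero] at this
    rw [e, mul_add, this.resolve_left b]; simp
  · have : D * (N * ψ m) = 0 := by rw [← mul_assoc, key, zero_mul]
    rw [a2, mul_smul_comm, smul_eq_zero] at this
    rw [e, add_mul, this.resolve_left b]; simp

theorem mem_U_of_fix {s : Fin 5 → k} (h0 : s ≠ 0) (hs : Q s = 0) {g u : GL I4 k} (hg : g ∈ P)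
    {n : ℕ} (hn : g ^ p ^ n = 1) (hu : u ∈ U P s) (h1 : u ≠ 1) {c : k} (hc : σ g s = c • s) :
    g ∈ U P s := by
  have := h.finU s
  have hc0 : c ≠ 0 := by
    rintro rfl
    exact σ_ne h.h2 (h.sp hg) h0 (by rw [hc, zero_smul])
  obtain ⟨u', a, b, e⟩ := exists_comm (U P s) (h.U_dvd h0 hs hu h1) hn fun u hu => by
    have := h.conj_U hg hu
    rwa [hc, U_smul hc0] at this
  exact h.mem_U_of_comm h0 hs hg hn a b e

end Hy

end Cfsg.Agent.H1.Sp4
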