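import Cfsg.Agent.H1.Sp4B
import Cfsg.Agent.H6.Exc

/-!
Finite subgroups of the four-dimensional symplectic group: two large shear groups.
-/

set_option autoImplicit false
set_option linter.unusedSectionVars false

namespace Cfsg.Agent.H1.Sp4

open Module QuadraticMap Matrix Spin5 H6 MulAction

variable {k : Type*} [Field k]

local notation "f" => sympForm 2 k
local notation "Q" => Q5 k
local notation "B" => polar (Q5 k)

/-- a subgroup of a finite group given by a multiplicative property -/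
def sub {G : Type*} [Group G] (P : Subgroup G) [Finite P] (S : G → Prop) (h1 : S 1)
    (hm : ∀ a ∈ P, ∀ b ∈ P, S a → S b → S (a * b)) : Subgroup G where
  carrier := {g | g ∈ P ∧ S g}
  one_mem' := ⟨one_mem _, h1⟩
  mul_mem' ha hb := ⟨mul_mem ha.1 hb.1, hm _ ha.1 _ hb.1 ha.2 hb.2⟩
  inv_mem' {a} ha := ⟨inv_mem ha.1, by
    have e : ∀ n : ℕ, S (a ^ n) := fun n => by
      induction n with
      | zero => rwa [pow_zero]
      | succ n ih => rw [pow_succ]; exact hm _ (pow_mem ha.1 n) _ ha.1 ih ha.2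
    obtain ⟨n, hn⟩ := Nat.exists_eq_add_of_lt (Nat.card_pos (α := P))
    have h5 : a ^ Nat.card P = 1 := congrArg Subtype.val (pow_card_eq_one' (x := (⟨a, ha.1⟩ : P)))
    rw [hn, zero_add, pow_succ] at h5
    rw [← eq_inv_of_mul_eq_one_left h5]
    exact e n⟩

theorem fin_of_le {G : Type*} [Group G] {X P : Subgroup G} [Finite P] (h : X ≤ P) : Finite X :=
  Finite.of_injective _ (Subgroup.inclusion_injective h)

theorem exists_two {G : Type*} [Group G] {U : Subgroup G} (h : 3 < Nat.card U) :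
    ∃ u ∈ U, ∃ v ∈ U, u ≠ 1 ∧ v ≠ 1 ∧ v ≠ u ∧ v ≠ u⁻¹ := by
  classical
  have : Finite U := Nat.finite_of_card_ne_zero (by omega)
  have := Fintype.ofFinite U
  obtain ⟨u, hu⟩ := (Subgroup.ne_bot_iff_exists_ne_one).1
    ((Subgroup.one_lt_card_iff_ne_bot U).1 (by omega))
  obtain ⟨v, -, hv⟩ := Finset.exists_mem_notMem_of_card_lt_card (s := {1, u, u⁻¹})
    (t := Finset.univ) (by
      rw [Finset.card_univ, ← Nat.card_eq_fintype_card]
      exact lt_of_le_of_lt Finset.card_le_three h)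
  simp only [Finset.mem_insert, Finset.mem_singleton, not_or] at hv
  exact ⟨u, u.2, v, v.2, fun e => hu (Subtype.ext e), fun e => hv.1 (Subtype.ext e),
    fun e => hv.2.1 (Subtype.ext e), fun e => hv.2.2 (Subtype.ext e)⟩

section mob

variable {p : ℕ} {G X : Type*} [Group G] [MulAction G X] [Finite G] (h : Mob p G X)

theorem card_P (x : X) : ∃ n, Nat.card (h.P x) = p ^ n :=
  have := Fact.mk h.prime
  IsPGroup.exists_card_eq fun g => ⟨1, Subtype.ext (by rw [pow_one]; exact g.2.2)⟩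

theorem nine_dvd (hp : p = 3) {x : X} (hx : 3 < Nat.card (h.P x)) : 9 ∣ Nat.card (h.P x) := by
  obtain ⟨n, hn⟩ := card_P h x
  rw [hn, hp] at hx ⊢
  exact pow_dvd_pow 3 (show 2 ≤ n by
    by_contra! e
    interval_cases n <;> omega)

theorem big_of {x : X} (hx : 3 < Nat.card (h.P x)) (hm : stabilizer G x ≠ ⊤) : h.Big x := by
  rcases h.irregular ((Subgroup.one_lt_card_iff_ne_bot _).1 (by omega)) hm with
    ⟨a, -⟩ | a | ⟨a, -, ⟨e⟩⟩
  · omega
  · exact a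
  · have := (nine_dvd h a hx).trans (Subgroup.card_subgroup_dvd_card _)
    rw [Nat.card_congr e.toEquiv, Pg.card_a5] at this
    omega

theorem mem_O_of_P {x y : X} (b : h.Big x) (hy : h.P y ≠ ⊥) : y ∈ Mob.O G x := by
  obtain ⟨t, -, ht, -, hall⟩ := h.second_orbit b.P_ne b.ne_top
  rcases hall y (fun e => hy (le_bot_iff.1 (e ▸ h.P_le y))) with e | ⟨g, rfl⟩
  · exact Mob.mem_O.2 e
  · rw [Ne, ← Subgroup.card_eq_one, h.card_P_smul, Subgroup.card_eq_one] at hy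
    exact (hy ht).elim

theorem exists_torus {x : X} (b : h.Big x) (hx : 3 < Nat.card (h.P x)) :
    ∃ g : G, g • x = x ∧ g ^ p ≠ 1 := by
  by_contra! hh
  have := Subgroup.card_le_of_le (show stabilizer G x ≤ h.P x from fun g hg => ⟨hg, hh g hg⟩)
  obtain ⟨r, hr⟩ := Nat.exists_eq_add_of_lt hx
  rcases b.card with e | e <;> rw [hr] at e this <;>
    simp only [add_tsub_cancel_right] at e <;> nlinarith

end mob

theorem ψψ_mul {s m : Fin 5 → k} (hs : Q s = 0) (hm : B s m = 0) (m' : Fin 5 → k) :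
    ψ s * ψ m * (ψ s * ψ m') = 0 := by
  rw [mul_assoc, ψ_neg_swap' (x := m) (by rw [B_comm, hm]), mul_neg, ψ_sq', hs, zero_smul, neg_zero]

theorem U_sub {s m m' : Fin 5 → k} (hs : Q s = 0) (hm : B s m = 0) (hm' : B s m' = 0)
    {g g' : GL I4 k} (e : g.1 = 1 + ψ s * ψ m) (e' : g'.1 = 1 + ψ s * ψ m') :
    (g * g'⁻¹).1 = 1 + ψ s * ψ (m - m') := by
  rw [Units.val_mul, Units.mul_inv_eq_iff_eq_mul, e, e', map_sub]
  linear_combination (norm := noncomm_ring) ψψ_mul hs hm' m' - ψψ_mul hs hm m'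

theorem finrank_pair {M : Type*} [AddCommGroup M] [Module k M] {v a : M} (h0 : v ≠ 0)
    (hi : ∀ c : k, a ≠ c • v) : finrank k (Submodule.span k {v, a}) = 2 := by
  have h1 : LinearIndependent k ![v, a] := (LinearIndependent.pair_iff' h0).2 fun c e => hi c e.symm
  rw [← Matrix.range_cons_cons_empty v a ![], finrank_span_eq_card h1]
  simp

variable {p : ℕ} [Fact p.Prime] [CharP k p] {P : Subgroup (GL I4 k)}

/-- singular vectors with a large shear group -/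
def Lg (P : Subgroup (GL I4 k)) (s : Fin 5 → k) : Prop := s ≠ 0 ∧ Q s = 0 ∧ 3 < Nat.card (U P s)

theorem Lg.smul {s : Fin 5 → k} (hs : Lg P s) {c : k} (hc : c ≠ 0) : Lg P (c • s) :=
  ⟨smul_ne_zero hc hs.1, by rw [Q_smul, hs.2.1, mul_zero], by rw [U_smul hc]; exact hs.2.2⟩

namespace Hy

variable (h : Hy p P)
include h

theorem Lg_σ {s : Fin 5 → k} (hs : Lg P s) {g : GL I4 k} (hg : g ∈ P) : Lg P (σ g s) :=
  have := h.finU (σ g s)
  ⟨σ_ne h.h2 (h.sp hg) hs.1, by rw [Q_σ h.h2 (h.sp hg), hs.2.1], hs.2.2.trans_le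
    (Nat.card_le_card_of_injective (fun u : U P s => (⟨_, h.conj_U hg u.2⟩ : U P (σ g s)))
      fun u v e => Subtype.ext (by simpa using congrArg Subtype.val e))⟩

theorem σ_U {s : Fin 5 → k} {u : GL I4 k} (hu : u ∈ U P s) : σ u s = s :=
  (σ_eq_iff h.h2 (h.sp hu.1)).2 (hu.2.1.trans hu.2.2.symm)

theorem eq_one_of_fix {s s' : Fin 5 → k} (hs : Lg P s) (hs' : Lg P s') (hn : ∀ c : k, s' ≠ c • s)
    {u : GL I4 k} (hu : u ∈ U P s) {c : k} (hc : σ u s' = c • s') : u = 1 := by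
  by_contra h1
  obtain ⟨v, hv, -, -, hv1, -⟩ := exists_two hs'.2.2
  obtain ⟨t, ht⟩ := h.U_uniq hs.1 hs.2.1 hu (h.mem_U_of_fix hs'.1 hs'.2.1 hu.1 (n := 1)
    (by rw [pow_one, h.U_pow hs.1 hs.2.1 hu]) hv hv1 hc) h1
  exact hn t ht

theorem orth_end {s s' : Fin 5 → k} (hs : Lg P s) (hs' : Lg P s') (hB : B s s' = 0)
    (hn : ∀ c : k, s' ≠ c • s) {τ : GL I4 k} (hτ : τ ∈ P) (t1 : σ τ s = -s) (t2 : σ τ s' = -s')
    (t3 : τ.1 * (ψ s * ψ s') = ψ s * ψ s') (t4 : ψ s * ψ s' * τ.1 = ψ s * ψ s')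
    {g : GL I4 k} (hg : g ∈ P) {t t' c : k} (g1 : σ g s = t • s) (g2 : σ g s' = t' • s' + c • s)
    (ht : t * t' = 1) {u : GL I4 k} (hu : u ∈ U P s) : g * u = u * g := by
  have h2 := h.h2
  have hQ := hs.2.1
  have hE : ψ s * ψ s' ≠ 0 := fun e => let ⟨c, hc⟩ := prop_of_zero h2 hs.1 e; hn c hc
  obtain ⟨s0, hs0⟩ := exists_B h2 hs.1
  have a1 : ∀ u ∈ U P s, ∀ m, B s m = 0 → u.1 = 1 + ψ s * ψ m → σ u s' = s' + B m s' • s :=
    fun u hu m hm e => by rw [σ_eich h2 (h.sp hu.1) hQ hm e, hB]; simp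
  have a2 : ∀ u ∈ U P s, ∀ m, B s m = 0 → u.1 = 1 + ψ s * ψ m →
      τ.1 * (ψ s * ψ m) = ψ s * ψ m * τ.1 := fun u hu m hm e => by
    have b1 : τ * u * τ⁻¹ ∈ U P s := by
      have := h.conj_U hτ hu
      rwa [t1, ← neg_one_smul k, U_smul (by simp)] at this
    have b2 := h.eq_one_of_fix hs hs' hn (mul_mem (inv_mem hu) b1) (c := 1) (by
      have b3 : σ τ⁻¹ s' = -s' := by
        rw [← neg_neg s', ← t2, map_neg, σ_inv_σ h2 (h.sp hτ), t2, neg_neg]
      rw [σ_mul h2 (h.sp (inv_mem hu).1) (h.sp b1.1), σ_mul h2 (h.sp (mul_mem hτ hu.1))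
        (h.sp (inv_mem hτ)), σ_mul h2 (h.sp hτ) (h.sp hu.1), b3, map_neg, a1 u hu m hm e, map_neg,
        map_add, map_smul, t1, t2, smul_neg, ← neg_add, neg_neg, ← a1 u hu m hm e,
        σ_inv_σ h2 (h.sp hu.1), one_smul])
    rw [inv_mul_eq_one, eq_mul_inv_iff_mul_eq] at b2
    have := congrArg Units.val b2
    rw [Units.val_mul, Units.val_mul, e] at this
    linear_combination (norm := noncomm_ring) -this
  by_contra h1
  obtain ⟨m, hm, -, e⟩ := h.U_form hs0 hu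
  have ht0 : t ≠ 0 := left_ne_zero_of_mul_eq_one ht
  have b1 : g * u * g⁻¹ ∈ U P s := by
    have := h.conj_U hg hu
    rwa [g1, U_smul ht0] at this
  have b2 : (g * u * g⁻¹).1 = 1 + ψ s * ψ (t • σ g m) := by
    rw [Units.val_mul, Units.val_mul, e, mul_add, add_mul, ψψ_conj h2 (h.sp hg), g1]
    simp
  have b3 : B s (σ g m) = 0 := mul_left_cancel₀ ht0 (by
    rw [← B_smul, ← g1, B_σ h2 (h.sp hg), hm, mul_zero])
  have b4 : B s (t • σ g m) = 0 := by rw [B_smul', b3, mul_zero]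
  have b5 : B (σ g m) s' = t * B m s' := by
    rw [← B_σ h2 (h.sp hg) m, g2, B_add', B_smul', B_smul', B_comm _ s, b3]
    linear_combination (-B (σ g m) s') * ht
  have b6 : B m s' ≠ 0 := fun e' => h1 (by
    rw [h.eq_one_of_fix hs hs' hn hu (c := 1) (by rw [a1 u hu m hm e, e']; simp)]; simp)
  set z := (t * t * B m s') • m - B m s' • t • σ g m with hz
  have c1 : B s z = 0 := by rw [hz, B_sub', B_smul', B_smul', b4, hm]; simp
  have c2 : B z s' = 0 := by rw [hz, B_sub, B_smul, B_smul, B_smul, b5]; ring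
  have c3 : τ.1 * (ψ s * ψ z) = ψ s * ψ z * τ.1 := by
    rw [hz, map_sub, map_smul, map_smul _ (B m s')]
    simp only [mul_sub, sub_mul, mul_smul_comm, smul_mul_assoc, a2 u hu m hm e, a2 _ b1 _ b4 b2]
  have c4 := ψσ' h2 (h.sp hτ) s'
  rw [t2, map_neg] at c4
  have c5 := ψ_neg_swap c1
  have c6 := ψ_neg_swap c2
  have c7 : (2 : k) • (ψ s * ψ s' * ψ z) = 0 := by
    rw [two_smul]
    linear_combination (norm := noncomm_ring) -t3 * ψ z - c3 * ψ s' + τ.1 * ψ s * c6 +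
      ψ s * ψ z * c4 + c5 * ψ s' * τ.1 - ψ z * t4 - c5 * ψ s' + ψ s * c6
  have c8 : Q z = 0 := by
    have := congrArg (· * ψ z) ((smul_eq_zero.1 c7).resolve_left h2)
    simpa [mul_assoc, ψ_sq, hE] using this
  rw [hz, Q_sub, Q_smul, Q_smul, Q_smul, Q_σ h2 (h.sp hg), B_smul, B_smul'] at c8
  have c9 := h.aniso hQ (m := t • σ g m - m) (by rw [B_sub', b4, hm, sub_zero]) (by
    rw [Q_sub, Q_smul, Q_σ h2 (h.sp hg), B_comm]
    refine mul_left_cancel₀ (mul_ne_zero (mul_ne_zero ht0 ht0) (mul_ne_zero b6 b6)) ?_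
    linear_combination c8) (mul_mem b1.1 (inv_mem hu.1)) (U_sub hQ b4 hm b2 e)
  exact h1 (mul_inv_eq_iff_eq_mul.1 (mul_inv_eq_one.1 c9))

theorem prop_of_orth [IsAlgClosed k] {s s' : Fin 5 → k} (hs : Lg P s) (hs' : Lg P s')
    (hB : B s s' = 0) : ∃ c : k, s' = c • s := by
  by_contra! hn
  have := h.fin
  have h2 := h.h2
  have hn' : ∀ c : k, s ≠ c • s' := fun c e => by
    have hc : c ≠ 0 := by rintro rfl; exact hs.1 (by rw [e, zero_smul])
    exact hn c⁻¹ (by rw [e, smul_smul, inv_mul_cancel₀ hc, one_smul])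
  have hE : ψ s * ψ s' ≠ 0 := fun e => let ⟨c, hc⟩ := prop_of_zero h2 hs.1 e; hn c hc
  let L := Submodule.span k {s, s'}
  have l1 : s ∈ L := Submodule.subset_span (by simp)
  have l2 : s' ∈ L := Submodule.subset_span (by simp)
  let X := sub P (fun g => g.1 * (ψ s * ψ s') = ψ s * ψ s' ∧ ψ s * ψ s' * g.1 = ψ s * ψ s' ∧
    ∀ x ∈ L, σ g x ∈ L) ⟨by simp, by simp, fun x hx => by rwa [σ_one]⟩ fun a ha b hb h3 h4 =>
      ⟨by rw [Units.val_mul, mul_assoc, h4.1, h3.1], by rw [Units.val_mul, ← mul_assoc, h3.2.1, h4.2.1],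
        fun x hx => by rw [σ_mul h2 (h.sp ha) (h.sp hb)]; exact h3.2.2 _ (h4.2.2 x hx)⟩
  have hX : X ≤ P := fun _ hg => hg.1
  have := fin_of_le hX
  have a0 : ∀ a a', Q a = 0 → a ≠ 0 → B a a' = 0 → ∀ u ∈ U P a, ∃ c : k, σ u a' = a' + c • a :=
    fun a a' h3 h4 h5 u hu => by
      obtain ⟨t, ht⟩ := exists_B h2 h4
      obtain ⟨m, hm, -, e⟩ := h.U_form ht hu
      exact ⟨B m a', by rw [σ_eich h2 (h.sp hu.1) h3 hm e, h5]; simp⟩
  have a1 : ∀ g : GL I4 k, σ g s ∈ L → σ g s' ∈ L → ∀ x ∈ L, σ g x ∈ L := fun g h3 h4 x hx => by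
    obtain ⟨α, β, rfl⟩ := Submodule.mem_span_pair.1 hx
    rw [map_add, map_smul, map_smul]
    exact add_mem (L.smul_mem _ h3) (L.smul_mem _ h4)
  have hsw := ψ_neg_swap hB
  have hU : U P s ≤ X := fun u hu => ⟨hu.1, by rw [← mul_assoc, hu.2.2], by
    rw [hsw, neg_mul, mul_assoc, hu.2.1], a1 u (by rwa [h.σ_U hu]) (by
      obtain ⟨c, hc⟩ := a0 s s' hs.2.1 hs.1 hB u hu
      exact hc ▸ add_mem l2 (L.smul_mem _ l1))⟩
  have hU' : U P s' ≤ X := fun u hu => ⟨hu.1, by rw [hsw, mul_neg, ← mul_assoc, hu.2.2], by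
    rw [mul_assoc, hu.2.1], a1 u (by
      obtain ⟨c, hc⟩ := a0 s' s hs'.2.1 hs'.1 (by rw [B_comm, hB]) u hu
      exact hc ▸ add_mem l1 (L.smul_mem _ l2)) (by rwa [h.σ_U hu])⟩
  have hdet : ∀ g ∈ X, ψ (σ g s) * ψ (σ g s') = ψ s * ψ s' := fun g hg => by
    rw [← ψψ_conj h2 (h.sp hg.1), hg.2.1, (inv_mem hg).2.2.1]
  obtain ⟨b⟩ := exists_br2 σ X L (finrank_pair hs.1 hn) (fun y _ => σ_one y)
    (fun g hg g' hg' y _ => σ_mul h2 (h.sp hg.1) (h.sp hg'.1) y) fun g hg => hg.2.2.2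
  have := b.finite_img X
  have hM := (Pg.mob p).subgroup (b.img X)
  let ι : ∀ u ∈ U P s, hM.P (b.pt s) := fun u hu => ⟨⟨b.π u, b.π_mem le_rfl (hU hu)⟩,
    (b.fix_iff (hU hu) l1 hs.1).2 ⟨1, by rw [h.σ_U hu, one_smul]⟩, Subtype.ext (by
      change b.π u ^ p = 1
      rw [← b.pow (hU hu), h.U_pow hs.1 hs.2.1 hu, b.one])⟩
  have hι : ∀ u ∈ U P s, b.π u = 1 → u = 1 := fun u hu e => by
    obtain ⟨c, hc⟩ := (b.eq_one_iff (hU hu)).1 e
    exact h.eq_one_of_fix hs hs' hn hu (hc s' l2)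
  have hc : 3 < Nat.card (hM.P (b.pt s)) := hs.2.2.trans_le (Nat.card_le_card_of_injective
    (fun u : U P s => ι u u.2) fun u v e => by
      have e' : b.π u = b.π v := congrArg (fun x : hM.P (b.pt s) => x.1.1) e
      refine Subtype.ext (mul_inv_eq_one.1 (hι _ (mul_mem u.2 (inv_mem v.2)) ?_))
      rw [b.mul _ (hU u.2) _ (inv_mem (hU v.2)), b.inv (hU v.2), e', mul_inv_cancel])
  obtain ⟨u', hu', -, -, hu1', -⟩ := exists_two hs'.2.2
  have hmv : b.π u' • b.pt s ≠ b.pt s := fun e => by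
    obtain ⟨c, hc⟩ := (b.fix_iff (hU' hu') l1 hs.1).1 e
    exact hu1' (h.eq_one_of_fix hs' hs hn' hu' hc)
  have big := big_of hM hc fun e => hmv (e.ge (Subgroup.mem_top ⟨_, b.π_mem le_rfl (hU' hu')⟩))
  obtain ⟨⟨_, hγ⟩, g1, g2⟩ := exists_torus hM big hc
  obtain ⟨g, hg, -, rfl⟩ := b.mem_img.1 hγ
  have hO : b.π u' • b.pt s ∈ Mob.O (b.img X) (b.pt s) :=
    Mob.mem_O.2 ⟨⟨_, b.π_mem le_rfl (hU' hu')⟩, rfl⟩
  obtain ⟨⟨_, hγ⟩, t1, t2⟩ := big.two_trans (Mob.self_mem_O _) hO hO (Mob.self_mem_O _) hmv.symm hmv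
  obtain ⟨τ, hτ, -, rfl⟩ := b.mem_img.1 hγ
  obtain ⟨c, hc'⟩ := a0 s' s hs'.2.1 hs'.1 (by rw [B_comm, hB]) u' hu'
  have hc0 : c ≠ 0 := by
    rintro rfl
    exact hu1' (h.eq_one_of_fix hs' hs hn' hu' (c := 1) (by rw [hc']; simp))
  have l3 : σ u' s ∈ L := b.mem _ (hU' hu') _ l1
  have l4 : σ u' s ≠ 0 := b.ne _ (hU' hu') _ l1 hs.1
  change b.π τ • b.pt s = _ at t1
  change b.π τ • b.π u' • b.pt s = _ at t2
  rw [b.act _ (hU' hu') _ l1 hs.1] at t1 t2
  rw [b.act _ hτ _ l1 hs.1, eq_comm, b.eq _ l3 _ (b.mem _ hτ _ l1) l4 (b.ne _ hτ _ l1 hs.1)] at t1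
  rw [b.act _ hτ _ l3 l4, eq_comm, b.eq _ l1 _ (b.mem _ hτ _ l3) hs.1 (b.ne _ hτ _ l3 l4)] at t2
  obtain ⟨α, t1⟩ := t1
  obtain ⟨β, t2⟩ := t2
  have t3 : α * β = -1 := by
    have e1 : ψ (σ τ s) * ψ (σ τ (σ u' s)) = c • (ψ s * ψ s') := by
      rw [hc', map_add, map_add, map_smul, map_smul, mul_add, ψ_sq, Q_σ h2 (h.sp hτ.1), hs.2.1,
        mul_smul_comm, hdet τ hτ, zero_smul, zero_add]
    rw [t1, t2, hc'] at e1
    simp only [map_add, map_smul, smul_mul_assoc, mul_smul_comm, add_mul, ψ_sq, hs.2.1, zero_smul,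
      zero_add] at e1
    have e2 : (c * (α * β + 1)) • (ψ s * ψ s') = 0 := by
      rw [hsw] at e1 ⊢
      linear_combination (norm := module) -e1
    rw [smul_eq_zero, or_iff_left hE, mul_eq_zero, or_iff_right hc0] at e2
    linear_combination e2
  have t4 : σ (τ * τ) s = -s := by
    rw [σ_mul h2 (h.sp hτ.1) (h.sp hτ.1), t1, map_smul, t2, smul_smul, t3, neg_one_smul]
  have t5 : σ (τ * τ) s' = -s' := by
    have : σ (τ * τ) (σ u' s) = -σ u' s := by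
      rw [σ_mul h2 (h.sp hτ.1) (h.sp hτ.1), t2, map_smul, t1, smul_smul, mul_comm, t3, neg_one_smul]
    rw [hc', map_add, map_smul, t4, neg_add, add_right_inj, ← smul_neg] at this
    exact smul_right_injective _ hc0 this
  obtain ⟨t, g3⟩ := (b.fix_iff hg l1 hs.1).1 g1
  obtain ⟨c', t', g4⟩ := Submodule.mem_span_pair.1 (b.mem g hg s' l2)
  have g5 : t * t' = 1 := by
    have e1 := hdet g hg
    rw [g3, ← g4] at e1
    simp only [map_add, map_smul, smul_mul_assoc, mul_smul_comm, mul_add, ψ_sq, hs.2.1, zero_smul,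
      smul_zero, zero_add] at e1
    have e2 : (t * t' - 1) • (ψ s * ψ s') = 0 := by linear_combination (norm := module) e1
    rw [smul_eq_zero, or_iff_left hE] at e2
    linear_combination e2
  obtain ⟨u, hu, -, -, hu1, -⟩ := exists_two hs.2.2
  have := h.orth_end hs hs' hB hn (mul_mem hτ hτ).1 t4 t5 (mul_mem hτ hτ).2.1
    (mul_mem hτ hτ).2.2.1 hg.1 g3 (g4.symm.trans (add_comm _ _)) g5 hu
  refine g2 (hM.pow_of_commute (u := ι u hu) (fun e => hu1 (hι u hu (congrArg Subtype.val e)))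
    (ι u hu).2.2 (Subtype.ext ?_))
  change b.π g * b.π u = b.π u * b.π g
  rw [← b.mul _ hg _ (hU hu), this, b.mul _ (hU hu) _ hg]

end Hy

end Cfsg.Agent.H1.Sp4
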