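import Cfsg.Agent.H1.Sp4C

/-!
Finite subgroups of the four-dimensional symplectic group: opposite shear groups.
-/

set_option autoImplicit false
set_option linter.unusedSectionVars false

namespace Cfsg.Agent.H1.Sp4

open Module QuadraticMap Matrix Spin5 H6 MulAction

variable {k : Type*} [Field k]

local notation "f" => sympForm 2 k
local notation "Q" => Q5 k
local notation "B" => polar (Q5 k)

/-- the natural action -/
def rv (g : GL I4 k) : (I4 → k) →ₗ[k] (I4 → k) := toLin' g.1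

theorem rv_apply (g : GL I4 k) (y : I4 → k) : rv g y = g.1 *ᵥ y := rfl

theorem exists_brV (C : Subgroup (GL I4 k)) (Y : Submodule k (I4 → k)) (hY : finrank k Y = 2)
    (h : ∀ g ∈ C, ∀ y ∈ Y, g.1 *ᵥ y ∈ Y) : Nonempty (Br rv C Y) :=
  exists_br2 rv C Y hY (fun y _ => by simp [rv_apply])
    (fun g _ h _ y _ => by simp [rv_apply]) h

theorem B_of_ker {a b : Fin 5 → k} {v : I4 → k} (h0 : v ≠ 0) (ha : ψ a *ᵥ v = 0)
    (hb : ψ b *ᵥ v = 0) : B a b = 0 := by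
  have := congrArg (· *ᵥ v) (ψ_anti a b)
  simp only [add_mulVec, ← mulVec_mulVec, ha, hb, mulVec_zero, add_zero, smul_mulVec,
    one_mulVec] at this
  exact (smul_eq_zero.1 this.symm).resolve_right h0

theorem ar1 {l : k} (h3 : (3 : k) = 0) (h0 : l ≠ 0) (h1 : l ≠ 1) (h2 : l ≠ -1)
    (k1 : 2 + l = 0 ∨ (2 + l) ^ 2 = 1 ∨ (2 + l) ^ 4 - 3 * (2 + l) ^ 2 + 1 = 0)
    (k2 : 2 + -l = 0 ∨ (2 + -l) ^ 2 = 1 ∨ (2 + -l) ^ 4 - 3 * (2 + -l) ^ 2 + 1 = 0) : l ^ 2 = -1 := by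
  rcases k1 with a | a | a
  · exact (h1 (by linear_combination a - h3)).elim
  · exact (h2 (mul_left_cancel₀ h0 (by linear_combination a - (l + 1) * h3))).elim
  rcases k2 with b | b | b
  · exact (h2 (by linear_combination h3 - b)).elim
  · exact (h1 (mul_left_cancel₀ h0 (by linear_combination b + (l - 1) * h3))).elim
  exact mul_left_cancel₀ h0 (by linear_combination a - b - (5 * l ^ 3 + 13 * l) * h3)

theorem ar2 {b q l l' : k} (h1 : l + l' = -b) (h2 : l * l' = q) (h3 : l ^ 2 = -1)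
    (h4 : l' ^ 2 = -1) : (b = 0 ∧ q = 1) ∨ (b ^ 2 = -4 ∧ q = -1) := by
  rcases sq_eq_sq_iff_eq_or_eq_neg.1 (h3.trans h4.symm) with rfl | rfl
  · exact .inr ⟨by linear_combination 4 * h3 + (b - 2 * l) * h1, by linear_combination h3 - h2⟩
  · exact .inl ⟨by linear_combination h1, by linear_combination -h2 - h4⟩

theorem ar3 {a b q x y z : k} (h3 : (3 : k) = 0)
    (k1 : (a = 0 ∧ q * x = 1) ∨ (a ^ 2 = -4 ∧ q * x = -1))
    (k2 : (b = 0 ∧ q * y = 1) ∨ (b ^ 2 = -4 ∧ q * y = -1))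
    (k3 : (a - b = 0 ∧ q * (x + y - z) = 1) ∨ ((a - b) ^ 2 = -4 ∧ q * (x + y - z) = -1))
    (k4 : (a - -b = 0 ∧ q * (x + y - -z) = 1) ∨ ((a - -b) ^ 2 = -4 ∧ q * (x + y - -z) = -1)) :
    False := by
  have h2 : (2 : k) ≠ 0 := fun e => one_ne_zero (α := k) (by linear_combination h3 - e)
  have h4 : (4 : k) ≠ 0 := fun e => one_ne_zero (α := k) (by linear_combination e - h3)
  grind

namespace Br

variable {C : Subgroup (GL I4 k)} {Y : Submodule k (I4 → k)} (b : Br rv C Y)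

theorem exists_move {g : GL I4 k} (hg : g ∈ C) (h1 : b.π g ≠ 1) :
    ∃ y ∈ Y, y ≠ 0 ∧ ∀ c : k, g.1 *ᵥ y ≠ c • y := by
  by_contra! hh
  have e : ∀ z, b.π g • z = z := fun z => by
    obtain ⟨y, hy, h0, rfl⟩ := b.surj z
    exact (b.fix_iff hg hy h0).2 (hh y hy h0)
  exact h1 (Pg.three _ OnePoint.infty (0 : k) (1 : k) (by simp) (by simp) (by simp) (e _) (e _)
    (e _))

theorem pow_cases {g : GL I4 k} (hg : g ∈ C) (h1 : b.π g ≠ 1) {c : k}
    (hc : ∀ y ∈ Y, g.1 *ᵥ (g.1 *ᵥ y) = c • g.1 *ᵥ y - y) :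
    (b.π g ^ 2 = 1 → c = 0) ∧ (b.π g ^ 3 = 1 → c ^ 2 = 1) ∧ (b.π g ^ 4 = 1 → c = 0 ∨ c ^ 2 = 2) ∧
      (b.π g ^ 5 = 1 → c ^ 4 - 3 * c ^ 2 + 1 = 0) := by
  obtain ⟨y, hy, h0, hm⟩ := b.exists_move hg h1
  have key : ∀ (n : ℕ) (α β : k), (g ^ n).1 *ᵥ y = α • g.1 *ᵥ y - β • y → b.π g ^ n = 1 → α = 0 :=
    fun n α β e e' => by
      rw [← b.pow hg, b.eq_one_iff (pow_mem hg n)] at e'
      obtain ⟨t, ht⟩ := e'
      by_contra hα
      refine hm ((t + β) / α) (smul_right_injective _ hα ?_)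
      have := ht y hy
      rw [rv_apply, e] at this
      simp only [smul_smul, mul_div_cancel₀ _ hα]
      linear_combination (norm := module) this
  have st : ∀ (n : ℕ) (α β : k), (g ^ n).1 *ᵥ y = α • g.1 *ᵥ y - β • y →
      (g ^ (n + 1)).1 *ᵥ y = (α * c - β) • g.1 *ᵥ y - α • y := fun n α β e => by
    rw [pow_succ', Units.val_mul, ← mulVec_mulVec, e, mulVec_sub, mulVec_smul, mulVec_smul, hc y hy]
    module
  have e1 : (g ^ 1).1 *ᵥ y = (1 : k) • g.1 *ᵥ y - (0 : k) • y := by simp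
  have e2 := st _ _ _ e1
  have e3 := st _ _ _ e2
  have e4 := st _ _ _ e3
  have e5 := st _ _ _ e4
  refine ⟨fun e => ?_, fun e => ?_, fun e => ?_, fun e => ?_⟩
  · linear_combination key _ _ _ e2 e
  · linear_combination key _ _ _ e3 e
  · rw [← sub_eq_zero (a := c ^ 2), ← mul_eq_zero]
    linear_combination key _ _ _ e4 e
  · linear_combination key _ _ _ e5 e

end Br

variable {p : ℕ} [Fact p.Prime] [CharP k p] {P : Subgroup (GL I4 k)} [IsAlgClosed k]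

namespace Hy

variable (h : Hy p P)
include h

theorem fix_of_ker {s s' : Fin 5 → k} (hs : Lg P s) (hs' : Lg P s') {g : GL I4 k} (hg : g ∈ P)
    {v : I4 → k} (h0 : v ≠ 0) (h1 : ψ s *ᵥ v = 0) (h3 : ψ s' *ᵥ (g.1 *ᵥ v) = 0) :
    ∃ c : k, σ g s = c • s' :=
  h.prop_of_orth hs' (h.Lg_σ hs hg) (B_of_ker (v := g.1 *ᵥ v) (fun e => h0 (by
    rw [← one_mulVec v, ← g.inv_mul, ← mulVec_mulVec, e, mulVec_zero])) h3 (by
      rw [mulVec_mulVec, ψσ' h.h2 (h.sp hg), ← mulVec_mulVec, h1, mulVec_zero]))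

theorem star_of {s s' m : Fin 5 → k} (hs : Lg P s) (hs' : Lg P s') (hB : B s s' = 1) (m1 : B s m = 0)
    (m2 : B s' m = 0) (m3 : Q m ≠ 0) {u : GL I4 k} (hu : u ∈ P) (e : u.1 = 1 + ψ s * ψ m)
    {m' : Fin 5 → k} (n1 : B s m' = 0) (n2 : B s' m' = 0) {g : GL I4 k} (hg : g ∈ P)
    (e' : g.1 = 1 + ψ s' * ψ m') {v : I4 → k} (h0 : v ≠ 0) (h1 : ψ s *ᵥ v = 0)
    (h3 : (ψ s * ψ m) *ᵥ ((ψ s' * ψ m') *ᵥ v) = v) :
    ∃ g ∈ P, g.1 = 1 + ψ s' * ψ ((Q m)⁻¹ • m) := by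
  have h2 := h.h2
  have a1 : (1 * g⁻¹).1 = 1 + ψ s' * ψ (0 - m') := U_sub hs'.2.1 (B_zero' _) n2 (by simp) e'
  rw [one_mul, zero_sub] at a1
  have a2 := ψ_neg_swap m1
  have a3 := ψ_neg_swap m2
  have a4 := ψ_neg_swap n1
  have a5 := ψ_sq s
  have a6 := ψ_sq s'
  have a7 := ψ_anti s s'
  rw [hs.2.1, zero_smul] at a5
  rw [hs'.2.1, zero_smul] at a6
  rw [hB, one_smul] at a7
  obtain ⟨c, hc⟩ := h.fix_of_ker hs hs' (mul_mem hu (inv_mem hg)) h0 h1 (by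
    have : (ψ s * ψ m) *ᵥ v = 0 := by rw [a2, neg_mulVec, ← mulVec_mulVec, h1]; simp
    rw [Units.val_mul, ← mulVec_mulVec, a1, e, map_neg, mul_neg, ← sub_eq_add_neg, sub_mulVec,
      one_mulVec, add_mulVec, one_mulVec, mulVec_sub, h3, this, mulVec_add, mulVec_sub,
      mulVec_mulVec, ← mul_assoc, a6, mulVec_sub]
    simp)
  have a8 := ψσ' h2 (h.sp (mul_mem hu (inv_mem hg))) s
  rw [hc, map_smul, smul_mul_assoc] at a8
  have a9 := congrArg (ψ s' * ·) a8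
  simp only [mul_smul_comm, ← mul_assoc, a6, zero_mul, smul_zero] at a9
  rw [Units.val_mul, a1, e, map_neg] at a9
  have b1 : ψ s * ψ (m + Q m • m') = 0 := by
    have b2 : ψ s * ψ s' * ψ s = ψ s := by
      linear_combination (norm := noncomm_ring) ψ s * a7 - a5 * ψ s'
    have b3 : ψ s + ψ s * ψ m * ψ m' = 0 := by
      linear_combination (norm := noncomm_ring) -ψ s * a9 - b2 + ψ s * a6 * ψ m' * ψ s -
        ψ s * ψ s' * a2 * ψ s + ψ s * ψ s' * ψ m * a5 + b2 * ψ m * ψ s' * ψ m' * ψ s +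
        ψ s * ψ m * ψ s' * a4 - ψ s * a3 * ψ s * ψ m' + ψ s * ψ s' * a2 * ψ m' - b2 * ψ m * ψ m'
    have b4 := ψ_sq' m (ψ m')
    rw [map_add, map_smul, ← b4]
    linear_combination (norm := noncomm_ring) -ψ m * b3 + a2 + a2 * ψ m * ψ m'
  obtain ⟨t, ht⟩ := prop_of_zero h2 hs.1 b1
  have b2 := congrArg (B s') ht
  rw [B_add', B_smul', B_smul', m2, n2, B_comm, hB, mul_zero, add_zero, mul_one] at b2
  rw [← b2, zero_smul, add_eq_zero_iff_eq_neg] at ht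
  refine ⟨g⁻¹, inv_mem hg, ?_⟩
  rw [a1]
  nth_rw 2 [ht]
  rw [smul_neg, smul_smul, inv_mul_cancel₀ m3, one_smul]

theorem star_or {s s' m : Fin 5 → k} (hs : Lg P s) (hs' : Lg P s') (hB : B s s' = 1) (m1 : B s m = 0)
    (m2 : B s' m = 0) (m3 : Q m ≠ 0) {u : GL I4 k} (hu : u ∈ P) (e : u.1 = 1 + ψ s * ψ m)
    {m' : Fin 5 → k} (n1 : B s m' = 0) (n2 : B s' m' = 0) (n3 : Q m' ≠ 0)
    {u' : GL I4 k} (hu' : u' ∈ P) (e' : u'.1 = 1 + ψ s' * ψ m') {l : k}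
    (hl : l ^ 2 + B m m' * l + Q m * Q m' = 0) :
    (∃ g ∈ P, g.1 = 1 + ψ s' * ψ ((Q m)⁻¹ • m)) ∨ (p = 3 ∧ l ^ 2 = -1) := by
  have h2 := h.h2
  have := h.fin
  have hl0 : l ≠ 0 := by
    rintro rfl
    exact mul_ne_zero m3 n3 (by linear_combination hl)
  have a2 := ψ_neg_swap m1
  have a3 := ψ_neg_swap m2
  have a4 := ψ_neg_swap n1
  have a5 := ψ_sq s
  have a6 := ψ_sq s'
  have a7 := ψ_anti s s'
  rw [hs.2.1, zero_smul] at a5
  rw [hs'.2.1, zero_smul] at a6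
  rw [hB, one_smul] at a7
  obtain ⟨v, h0, h1, h3⟩ : ∃ v, v ≠ 0 ∧ ψ s *ᵥ v = 0 ∧ (ψ m * ψ m' + l • 1) *ᵥ v = 0 := by
    by_cases hh : (ψ m * ψ m' + (-B m m' - l) • 1) * ψ s = 0
    · obtain ⟨a, ha⟩ : ∃ a, ψ s *ᵥ a ≠ 0 := by
        by_contra! h'
        exact hs.1 (ψ_inj (mat_ext fun x => by rw [h', zero_mulVec]))
      refine ⟨_, ha, by rw [mulVec_mulVec, a5, zero_mulVec], ?_⟩
      obtain ⟨t, ht⟩ := prop_of_zero h2 hs.1 (b := Q m • m' + (-B m m' - l) • m) (by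
        rw [ψ_neg_swap (by rw [B_add', B_smul', B_smul', n1, m1]; simp), neg_eq_zero]
        have := congrArg (ψ m * ·) hh
        simpa only [← mul_assoc, mul_add, ψ_sq, mul_zero, map_add, map_smul, smul_mul_assoc,
          one_mul, mul_smul_comm, mul_one] using this)
      have b2 := congrArg (B s') ht
      have b3 := congrArg (B m) ht
      rw [B_add', B_smul', B_smul', B_smul', m2, n2, B_comm s' s, hB] at b2
      rw [B_add', B_smul', B_smul', B_smul', B_self, B_comm m s, m1] at b3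
      have b4 : -B m m' - l = l := mul_left_cancel₀ m3 (by linear_combination b3)
      rw [mulVec_mulVec, ← b4, hh, zero_mulVec]
    · obtain ⟨a, ha⟩ : ∃ a, ((ψ m * ψ m' + (-B m m' - l) • 1) * ψ s) *ᵥ a ≠ 0 := by
        by_contra! h'
        exact hh (mat_ext fun x => by rw [h', zero_mulVec])
      refine ⟨_, ha, ?_, ?_⟩
      · rw [mulVec_mulVec, add_mul, mul_add, smul_mul_assoc, mul_smul_comm, one_mul, a5, mul_assoc,
          ψ_neg_swap' m1, ψ_neg_swap' n1, a5]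
        simp
      · have : (ψ m * ψ m' + l • 1) * (ψ m * ψ m' + (-B m m' - l) • 1) = 0 := by
          simp only [mul_add, add_mul, mul_assoc, ψ_swap' m' m, mul_sub, ψ_sq, mul_smul_comm,
            smul_mul_assoc, one_mul, mul_one, B_comm m' m]
          linear_combination (norm := module) (-hl) • (1 : Matrix I4 I4 k)
        rw [mulVec_mulVec, ← mul_assoc, this]
        simp
  have a8 : ∀ y, ψ s *ᵥ y = 0 → ψ s *ᵥ (ψ s' *ᵥ y) = y := fun y hy => by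
    rw [mulVec_mulVec, eq_sub_of_add_eq a7, sub_mulVec, ← mulVec_mulVec, hy]; simp
  set v' := (ψ s' * ψ m') *ᵥ v with hv'
  have b0 : (ψ s * ψ m) *ᵥ v = 0 := by rw [a2, neg_mulVec, ← mulVec_mulVec, h1]; simp
  have b1 : (ψ s * ψ m) *ᵥ v' = l • v := by
    have : (ψ m * ψ m') *ᵥ v = -(l • v) := by
      simpa [add_mulVec, smul_mulVec, add_eq_zero_iff_eq_neg] using h3
    rw [hv', mulVec_mulVec, mul_assoc, ψ_neg_swap' (x := m) (by rw [B_comm, m2]), mul_neg,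
      neg_mulVec, ← mulVec_mulVec, ← mulVec_mulVec, this, mulVec_neg, mulVec_neg, neg_neg,
      mulVec_smul, mulVec_smul, a8 v h1]
  have b2 : ψ s' *ᵥ v' = 0 := by rw [hv', mulVec_mulVec, ψ_sq', hs'.2.1]; simp
  have b3 : (ψ s' * ψ m') *ᵥ v' = 0 := by
    rw [ψ_neg_swap n2, neg_mulVec, ← mulVec_mulVec, b2]; simp
  have b4 : ∀ c : k, v' ≠ c • v := fun c e => by
    rw [e, mulVec_smul, b0, smul_zero] at b1
    exact smul_ne_zero hl0 h0 b1.symm
  have b5 : v' ≠ 0 := fun e => b4 0 (by rw [e, zero_smul])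
  have ind : ∀ {α β : k}, α • v + β • v' = 0 → α = 0 := fun {α β} e => by
    have := congrArg (ψ s *ᵥ ψ s' *ᵥ ·) e
    simp only [mulVec_add, mulVec_smul, b2, a8 v h1, smul_zero, mulVec_zero, add_zero] at this
    exact (smul_eq_zero.1 this).resolve_right h0
  let Y := Submodule.span k {v, v'}
  have l1 : v ∈ Y := Submodule.subset_span (by simp)
  have l2 : v' ∈ Y := Submodule.subset_span (by simp)
  let X := sub P (fun g => ∀ y ∈ Y, g.1 *ᵥ y ∈ Y) (fun y hy => by simpa using hy)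
    fun a _ b _ h3 h4 y hy => by rw [Units.val_mul, ← mulVec_mulVec]; exact h3 _ (h4 y hy)
  have hX : X ≤ P := fun _ hg => hg.1
  have := fin_of_le hX
  have c0 : ∀ g ∈ P, g.1 *ᵥ v ∈ Y → g.1 *ᵥ v' ∈ Y → g ∈ X := fun g hg h3 h4 => ⟨hg, fun x hx => by
    obtain ⟨α, β, rfl⟩ := Submodule.mem_span_pair.1 hx
    rw [mulVec_add, mulVec_smul, mulVec_smul]
    exact add_mem (Y.smul_mem _ h3) (Y.smul_mem _ h4)⟩
  have c1 : u.1 *ᵥ v = v := by rw [e, add_mulVec, b0]; simp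
  have c2 : u.1 *ᵥ v' = v' + l • v := by rw [e, add_mulVec, b1]; simp
  have c3 : u'.1 *ᵥ v = v + v' := by rw [e', add_mulVec]; simp [hv']
  have c4 : u'.1 *ᵥ v' = v' := by rw [e', add_mulVec, b3]; simp
  have d1 : u ∈ X := c0 u hu (by rwa [c1]) (by rw [c2]; exact add_mem l2 (Y.smul_mem _ l1))
  have d2 : u' ∈ X := c0 u' hu' (by rw [c3]; exact add_mem l1 l2) (by rwa [c4])
  have d3 := mem_U hs.2.1 m1 hu e
  have d4 := mem_U hs'.2.1 n2 hu' e'
  obtain ⟨b⟩ := exists_brV X Y (finrank_pair h0 b4) fun g hg => hg.2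
  have := b.finite_img X
  have hM := (Pg.mob p).subgroup (b.img X)
  have hxy : b.pt v ≠ b.pt v' := fun e => let ⟨c, hc⟩ := (b.eq _ l1 _ l2 h0 b5).1 e; b4 c hc
  have f1 : b.π u • b.pt v' ≠ b.pt v' := fun e => by
    obtain ⟨c, hc⟩ := (b.fix_iff d1 l2 b5).1 e
    rw [rv_apply, c2] at hc
    exact hl0 (ind (β := 1 - c) (by linear_combination (norm := module) hc))
  have f2 : b.π u' • b.pt v ≠ b.pt v := fun e => by
    obtain ⟨c, hc⟩ := (b.fix_iff d2 l1 h0).1 e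
    rw [rv_apply, c3] at hc
    exact b4 (c - 1) (by linear_combination (norm := module) hc)
  have f3 : hM.P (b.pt v') ≠ ⊥ := (Subgroup.ne_bot_iff_exists_ne_one).2
    ⟨⟨⟨_, b.π_mem le_rfl d2⟩, (b.fix_iff d2 l2 b5).2 ⟨1, by rw [rv_apply, c4, one_smul]⟩,
      Subtype.ext (by
        change b.π u' ^ p = 1
        rw [← b.pow d2, h.U_pow hs'.1 hs'.2.1 d4, b.one])⟩, fun e => f2 (by
      rw [show b.π u' = 1 from congrArg (fun x : hM.P (b.pt v') => x.1.1) e, one_smul])⟩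
  have f4 : hM.P (b.pt v) ≠ ⊥ := (Subgroup.ne_bot_iff_exists_ne_one).2
    ⟨⟨⟨_, b.π_mem le_rfl d1⟩, (b.fix_iff d1 l1 h0).2 ⟨1, by rw [rv_apply, c1, one_smul]⟩,
      Subtype.ext (by
        change b.π u ^ p = 1
        rw [← b.pow d1, h.U_pow hs.1 hs.2.1 d3, b.one])⟩, fun e => f1 (by
      rw [show b.π u = 1 from congrArg (fun x : hM.P (b.pt v) => x.1.1) e, one_smul])⟩
  rcases hM.irregular f3 fun e => f1 (e.ge (Subgroup.mem_top ⟨_, b.π_mem le_rfl d1⟩)) with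
    ⟨a, -⟩ | big | ⟨hp, -, ⟨ε⟩⟩
  · obtain ⟨n, hn⟩ := card_P hM (b.pt v')
    exact (h.two ((Nat.Prime.pow_eq_iff Nat.prime_two).1 (hn.symm.trans a)).1).elim
  · left
    obtain ⟨⟨_, hγ⟩, g1, g2⟩ := big.P_trans (mem_O_of_P hM big f4)
      (Mob.mem_O.2 ⟨⟨_, b.π_mem le_rfl d1⟩, rfl⟩) hxy f1
    obtain ⟨g, hg, -, rfl⟩ := b.mem_img.1 hγ
    obtain ⟨t, n, hn⟩ := p_part p hg
    have g3 : b.π (g ^ (1 + p * t)) = b.π g := by
      rw [b.pow hg, pow_add, pow_mul, show b.π g ^ p = 1 from congrArg Subtype.val g1.2]; simp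
    have g4 := pow_mem hg (1 + p * t)
    have g5 : b.π g • b.pt v' = b.pt v' := g1.1
    change b.π g • b.pt v = b.π u • b.pt v' at g2
    rw [← g3] at g2 g5
    generalize g ^ (1 + p * t) = g' at *
    obtain ⟨c, hc⟩ := (b.fix_iff g4 l2 b5).1 g5
    obtain ⟨c', hc'⟩ := h.fix_of_ker hs' hs' g4.1 b5 b2 (by
      rw [← rv_apply g', hc, mulVec_smul, b2, smul_zero])
    have g6 := h.mem_U_of_fix hs'.1 hs'.2.1 g4.1 hn d4 (fun e => f2 (by rw [e, b.one, one_smul])) hc'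
    obtain ⟨m'', o1, o2, o3⟩ := h.U_form (s' := s) (by rw [B_comm, hB]) g6
    rw [b.act _ g4 _ l1 h0, b.act _ d1 _ l2 b5, eq_comm, b.eq _ (b.mem _ d1 _ l2) _
      (b.mem _ g4 _ l1) (b.ne _ d1 _ l2 b5) (b.ne _ g4 _ l1 h0)] at g2
    obtain ⟨d, hd⟩ := g2
    rw [rv_apply, rv_apply, c2, o3, add_mulVec, one_mulVec] at hd
    have g7 := congrArg (ψ s *ᵥ ψ s' *ᵥ ·) hd
    simp only [mulVec_add, mulVec_smul, b2, a8 v h1, zero_add] at g7
    rw [mulVec_mulVec _ (ψ s'), ψ_sq', hs'.2.1, zero_smul, zero_mulVec, mulVec_zero, add_zero] at g7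
    have g8 := congrArg ((ψ s * ψ m) *ᵥ ·) hd
    simp only [mulVec_add, mulVec_smul, b0, b1, smul_zero, zero_add, add_zero] at g8
    exact h.star_of hs hs' hB m1 m2 m3 hu e o2 o1 g4.1 o3 h0 h1 (g8.trans g7.symm)
  · have i1 : (1 * u'⁻¹).1 = 1 + ψ s' * ψ (0 - m') := U_sub hs'.2.1 (B_zero' _) n2 (by simp) e'
    rw [one_mul, zero_sub] at i1
    by_cases q1 : l = 1
    · exact Or.inl (h.star_of hs hs' hB m1 m2 m3 hu e n1 n2 hu' e' h0 h1 (by rw [b1, q1, one_smul]))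
    by_cases q2 : l = -1
    · exact Or.inl (h.star_of hs hs' hB m1 m2 m3 hu e (by rw [B_neg', n1, neg_zero])
        (by rw [B_neg', n2, neg_zero]) (inv_mem hu') i1 h0 h1 (by
          rw [map_neg, mul_neg, neg_mulVec, mulVec_neg, b1, q2]; simp))
    refine Or.inr ⟨hp, ?_⟩
    have h3 : (3 : k) = 0 := by exact_mod_cast hp ▸ CharP.cast_eq_zero k p
    have key : ∀ w ∈ X, ∀ l' : k, l' ≠ 0 → w.1 *ᵥ v = v → w.1 *ᵥ v' = v' + l' • v →
        2 + l' = 0 ∨ (2 + l') ^ 2 = 1 ∨ (2 + l') ^ 4 - 3 * (2 + l') ^ 2 + 1 = 0 :=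
      fun w hw l' hl' w1 w2 => by
      have := b.pow_cases (mul_mem hw d2) (c := 2 + l') (fun e => by
        obtain ⟨c, hc⟩ := (b.eq_one_iff (mul_mem hw d2)).1 e
        have := hc v' l2
        rw [rv_apply, Units.val_mul, ← mulVec_mulVec, c4, w2] at this
        exact hl' (ind (β := 1 - c) (by linear_combination (norm := module) this))) fun y hy => by
          obtain ⟨α, β, rfl⟩ := Submodule.mem_span_pair.1 hy
          simp only [Units.val_mul, ← mulVec_mulVec, mulVec_add, mulVec_smul, c3, c4, w1, w2]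
          module
      rcases Pg.a5_pow (ε ⟨_, b.π_mem le_rfl (mul_mem hw d2)⟩) with a | a | a <;>
        rw [← map_pow, map_eq_one_iff _ ε.injective, Subtype.ext_iff] at a
      exacts [.inl (this.1 a), .inr (.inl (this.2.1 a)), .inr (.inr (this.2.2.2 a))]
    have k1 := key u d1 l hl0 c1 c2
    have k2 := key u⁻¹ (inv_mem d1) (-l) (neg_ne_zero.2 hl0) (by
      rw [← c1, mulVec_mulVec, Units.inv_mul, one_mulVec, c1]) (by
      have : v' = u.1 *ᵥ (v' + -l • v) := by rw [mulVec_add, mulVec_smul, c1, c2]; simp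
      nth_rw 1 [this]
      rw [mulVec_mulVec, Units.inv_mul, one_mulVec])
    exact ar1 h3 hl0 q1 q2 k1 k2

theorem star {s s' m : Fin 5 → k} (hs : Lg P s) (hs' : Lg P s') (hB : B s s' = 1) (m1 : B s m = 0)
    (m2 : B s' m = 0) (m3 : Q m ≠ 0) {u : GL I4 k} (hu : u ∈ P) (e : u.1 = 1 + ψ s * ψ m)
    : ∃ g ∈ P, g.1 = 1 + ψ s' * ψ ((Q m)⁻¹ • m) := by
  by_contra hh
  have key : ∀ u' ∈ U P s', u' ≠ 1 → ∀ m', B s m' = 0 → B s' m' = 0 → u'.1 = 1 + ψ s' * ψ m' →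
      p = 3 ∧ ((B m m' = 0 ∧ Q m * Q m' = 1) ∨ (B m m' ^ 2 = -4 ∧ Q m * Q m' = -1)) :=
    fun u' hu' h1 m' n1 n2 e' => by
    have n3 : Q m' ≠ 0 := fun a => h1 (h.aniso hs'.2.1 n2 a hu'.1 e')
    obtain ⟨δ, hδ⟩ := IsAlgClosed.exists_eq_mul_self (B m m' ^ 2 - 4 * (Q m * Q m'))
    have h2 := h.h2
    have a1 := (h.star_or hs hs' hB m1 m2 m3 hu e n1 n2 n3 hu'.1 e' (l := (-B m m' + δ) / 2)
      (by field_simp; linear_combination -hδ)).resolve_left hh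
    have a2 := (h.star_or hs hs' hB m1 m2 m3 hu e n1 n2 n3 hu'.1 e' (l := (-B m m' - δ) / 2)
      (by field_simp; linear_combination -hδ)).resolve_left hh
    exact ⟨a1.1, ar2 (by field_simp; ring) (by field_simp; linear_combination hδ) a1.2 a2.2⟩
  obtain ⟨u1, hu1, u2, hu2, i1, i2, i3, i4⟩ := exists_two hs'.2.2
  have hB' : B s' s = 1 := by rw [B_comm, hB]
  obtain ⟨x, x1, x2, x3⟩ := h.U_form hB' hu1
  obtain ⟨y, y1, y2, y3⟩ := h.U_form hB' hu2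
  have j1 : (1 * u2⁻¹).1 = 1 + ψ s' * ψ (0 - y) := U_sub hs'.2.1 (B_zero' _) y1 (by simp) y3
  rw [one_mul, zero_sub] at j1
  have k1 := key u1 hu1 i1 x x2 x1 x3
  have k2 := key u2 hu2 i2 y y2 y1 y3
  have k3 := key _ (mul_mem hu1 (inv_mem hu2)) (fun e => i3 (mul_inv_eq_one.1 e).symm) (x - y)
    (by rw [B_sub', x2, y2, sub_zero]) (by rw [B_sub', x1, y1, sub_zero]) (U_sub hs'.2.1 x1 y1 x3 y3)
  have k4 := key _ (mul_mem hu1 (inv_mem (inv_mem hu2)))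
    (fun e => i4 (by rw [mul_inv_eq_one.1 e, inv_inv])) (x - -y)
    (by rw [B_sub', B_neg', x2, y2, neg_zero, sub_zero])
    (by rw [B_sub', B_neg', x1, y1, neg_zero, sub_zero])
    (U_sub hs'.2.1 x1 (by rw [B_neg', y1, neg_zero]) x3 j1)
  have h3 : (3 : k) = 0 := by exact_mod_cast k1.1 ▸ CharP.cast_eq_zero k p
  rw [B_sub', Q_sub] at k3 k4
  rw [B_neg', B_neg', Q_neg] at k4
  exact ar3 h3 k1.2 k2.2 k3.2 k4.2

end Hy

end Cfsg.Agent.H1.Sp4
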