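import Cfsg.Agent.H1.Sp4D

/-!
Finite subgroups of the four-dimensional symplectic group: short root elements.
-/

set_option autoImplicit false
set_option linter.unusedSectionVars false

namespace Cfsg.Agent.H1.Sp4

open Module QuadraticMap Matrix Spin5 H6 MulAction

variable {k : Type*} [Field k]

local notation "f" => sympForm 2 k
local notation "Q" => Q5 k
local notation "B" => polar (Q5 k)

variable {p : ℕ} [Fact p.Prime] [CharP k p]

theorem half_mem (hp : p ≠ 2) {M : Type*} [AddCommGroup M] [Module k M] (A : AddSubgroup M) {m : M}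
    (hm : (2 : k) • m ∈ A) : m ∈ A := by
  obtain ⟨j, hj⟩ := (Fact.out : p.Prime).odd_of_ne_two hp
  have h1 : ((j + 1 : ℕ) : k) * 2 = 1 := by
    have := CharP.cast_eq_zero k p
    rw [hj] at this
    push_cast at this ⊢
    linear_combination this
  have := A.nsmul_mem hm (j + 1)
  rwa [← Nat.cast_smul_eq_nsmul k, smul_smul, h1, one_smul] at this

theorem jordan (hp : p ≠ 2) (A A' : AddSubgroup (Fin 5 → k)) [Finite A] {s s' : Fin 5 → k}
    (han : ∀ m ∈ A, m ≠ 0 → Q m ≠ 0) (hinv : ∀ m ∈ A, m ≠ 0 → (Q m)⁻¹ • m ∈ A')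
    (hU : ∀ a ∈ A, ∀ b ∈ A', B a b • a - Q a • b ∈ A) (h1 : ∀ m ∈ A, B s m = 0)
    (h1' : ∀ m ∈ A, B s' m = 0) {e : Fin 5 → k} (he : e ∈ A) (he0 : e ≠ 0) :
    ∃ w ≠ 0, B s w = 0 ∧ B s' w = 0 ∧ ∀ m ∈ A, B m w = 0 := by
  by_contra! hh
  have h2 := two_ne (k := k) p hp
  have hε := han e he he0
  have hp' : ∀ (α : k) a (β : k) b, B e a = 0 → B e b = 0 → α • e + a ∈ A → β • e + b ∈ A →
      (α * β - B a b / (2 * Q e)) • e + (α • b + β • a) ∈ A := fun α a β b a1 a2 a3 a4 => by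
    refine half_mem hp (k := k) A ?_
    have := sub_mem (sub_mem (hU _ (add_mem a3 a4) _ (hinv e he he0)) (hU _ a3 _ (hinv e he he0)))
      (hU _ a4 _ (hinv e he he0))
    convert this using 1
    simp only [B_add, B_add', B_smul, B_smul', Q_add, Q_smul, B_self, B_comm a e, B_comm b e, a1, a2]
    match_scalars <;> field_simp <;> ring
  have dec : ∀ a ∈ A, ∃ (α : k) (a0 : Fin 5 → k), B e a0 = 0 ∧ B s a0 = 0 ∧ B s' a0 = 0 ∧
      a = α • e + a0 := fun a ha => ⟨B e a / (2 * Q e), a - (B e a / (2 * Q e)) • e, by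
        rw [B_sub', B_smul', B_self]; field_simp; ring,
      by rw [B_sub', B_smul', h1 a ha, h1 e he]; ring,
      by rw [B_sub', B_smul', h1' a ha, h1' e he]; ring, by simp⟩
  have hj : ∀ (α : k) a (β : k) b, B e a = 0 → B e b = 0 → α • e + a ∈ A → β • e + b ∈ A →
      (Q a / Q e) • b - (B a b / (2 * Q e)) • a ∈ A := fun α a β b a1 a2 a3 a4 => by
    have b1 := hp' α a _ _ a1 (by rw [B_add', B_smul', B_smul', a1, a2]; simp) a3
      (hp' α a β b a1 a2 a3 a4)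
    have b2 := hp' _ _ β b (by rw [B_add', B_smul', a1]; simp) a2 (hp' α a α a a1 a1 a3 a3) a4
    convert sub_mem b1 b2 using 1
    simp only [B_add, B_add', B_smul, B_smul', B_self]
    match_scalars <;> field_simp <;> ring
  let F : Subfield k :=
    { carrier := {c | c • e ∈ A}
      mul_mem' := fun {a b} ha hb => by
        simpa using hp' a 0 b 0 (B_zero' _) (B_zero' _) (by simpa using ha) (by simpa using hb)
      one_mem' := by simpa using he
      add_mem' := fun {a b} ha hb => by simpa [add_smul] using add_mem ha hb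
      zero_mem' := by simp
      neg_mem' := fun {a} ha => by simpa using ha
      inv_mem' := fun a ha => by
        by_cases h0 : a = 0
        · simp [h0]
        have := hU e he _ (hinv _ ha (smul_ne_zero h0 he0))
        change a⁻¹ • e ∈ A
        convert this using 1
        simp only [B_smul', Q_smul, B_self]
        match_scalars
        field_simp
        ring }
  have hF : ∀ c : k, c ∈ F ↔ c • e ∈ A := fun _ => Iff.rfl
  have hs : ∀ c ∈ F, ∀ a, B e a = 0 → a ∈ A → c • a ∈ A := fun c hc a a1 a2 => by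
    simpa using hp' c 0 0 a (B_zero' _) a1 (by simpa using (hF c).1 hc) (by simpa using a2)
  have hq : ∀ a, B e a = 0 → a ∈ A → Q a / Q e ∈ F := fun a a1 a2 => by
    have := hp' 0 a 0 a a1 a1 (by simpa using a2) (by simpa using a2)
    rw [← neg_mem_iff, hF]
    convert this using 1
    rw [B_self]
    match_scalars <;> field_simp <;> ring
  obtain ⟨w0, a0, a1, a2, a3, -⟩ := exists_perp s s' e e
  obtain ⟨a', ha, a4⟩ := hh w0 a0 a1 a2
  obtain ⟨α, a, b1, b2, b3, rfl⟩ := dec a' ha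
  rw [B_add, B_smul, a3, mul_zero, zero_add] at a4
  have a5 : a ≠ 0 := by rintro rfl; exact a4 (B_zero _)
  by_cases hQ : Q a = 0
  · obtain ⟨c', hc, c4⟩ := hh a a5 b2 b3
    obtain ⟨γ, c, c1, -, -, rfl⟩ := dec c' hc
    rw [B_add, B_smul, b1, mul_zero, zero_add, B_comm] at c4
    have := hj α a γ c b1 c1 ha hc
    rw [hQ, zero_div, zero_smul, zero_sub, neg_mem_iff] at this
    exact han _ this (smul_ne_zero (div_ne_zero c4 (mul_ne_zero h2 hε)) a5)
      (by rw [Q_smul, hQ, mul_zero])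
  obtain ⟨w1, d0, d1, d2, d3, d4⟩ := exists_perp s s' e a
  obtain ⟨c', hc, c4⟩ := hh w1 d0 d1 d2
  obtain ⟨γ, c, c1, -, -, rfl⟩ := dec c' hc
  rw [B_add, B_smul, d3, mul_zero, zero_add] at c4
  have j1 := hj α a γ c b1 c1 ha hc
  set j := (Q a / Q e) • c - (B a c / (2 * Q e)) • a with hj'
  have j2 : B e j = 0 := by rw [hj', B_sub', B_smul', B_smul', b1, c1]; simp
  have j3 : B a j = 0 := by rw [hj', B_sub', B_smul', B_smul', B_self]; field_simp; ring
  have j4 : j ≠ 0 := fun e' => by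
    have := congrArg (B · w1) e'
    simp only [hj', B_sub, B_smul, d4, B_zero, mul_zero, sub_zero] at this
    exact mul_ne_zero (div_ne_zero hQ hε) c4 this
  have j5 := han j j1 j4
  have j6 : α • j ∈ A := by simpa [j3] using hp' α a 0 j b1 j2 ha (by simpa using j1)
  have j7 : α ∈ F := by
    have c5 := hp' 0 j 0 (α • j) j2 (by rw [B_smul', j2, mul_zero]) (by simpa using j1)
      (by simpa using j6)
    have c6 : -(α * (Q j / Q e)) ∈ F := by
      rw [hF]
      convert c5 using 1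
      rw [B_smul', B_self]
      match_scalars <;> field_simp <;> ring
    have := div_mem (neg_mem_iff.1 c6) (hq j j2 j1)
    rwa [mul_div_cancel_right₀ _ (div_ne_zero j5 hε)] at this
  have j8 : a ∈ A := by simpa using sub_mem ha ((hF α).1 j7)
  have : Finite F := Finite.of_injective (fun c : F => (⟨c.1 • e, c.2⟩ : A)) fun c d e' =>
    Subtype.ext (smul_left_injective k he0 (congrArg (fun x : A => x.1) e'))
  have := Fintype.ofFinite F
  obtain ⟨x, y, hxy⟩ := FiniteField.exists_root_sum_quadratic (R := F)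
    («f» := Polynomial.C ⟨_, hq a b1 j8⟩ * Polynomial.X ^ 2)
    (g := Polynomial.C ⟨_, hq j j2 j1⟩ * Polynomial.X ^ 2 + Polynomial.C 0 * Polynomial.X +
      Polynomial.C 1)
    (Polynomial.degree_C_mul_X_pow _ fun e' => div_ne_zero hQ hε (congrArg Subtype.val e'))
    (Polynomial.degree_quadratic fun e' => div_ne_zero j5 hε (congrArg Subtype.val e'))
    (FiniteField.odd_card_of_char_ne_two (by rwa [ringChar.eq F p]))
  have e1 : Q a / Q e * x.1 ^ 2 + (Q j / Q e * y.1 ^ 2 + 1) = 0 := by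
    simpa using congrArg Subtype.val hxy
  refine han _ (add_mem he (add_mem (hs _ x.2 a b1 j8) (hs _ y.2 j j2 j1))) (fun e' => ?_) ?_
  · have := congrArg (B e) e'
    simp only [B_add', B_smul', b1, j2, B_self, B_zero', mul_zero, add_zero] at this
    exact mul_ne_zero h2 hε this
  · simp only [Q_add, Q_smul, B_add', B_smul', B_smul, b1, j2, j3]
    field_simp at e1
    linear_combination e1

variable {P : Subgroup (GL I4 k)}

theorem Hy.family (h : Hy p P) (Z : Submodule k (Fin 5 → k)) (hZ : finrank k Z ≤ 2)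
    (hm : ∀ g ∈ P, ∃ y ∈ Z, y ≠ 0 ∧ σ g y ∈ Z) : False := by
  have h2 := h.h2
  let T : GL I4 k → Submodule k (Fin 5 → k) := fun g => Z.map (σ g)
  have t1 : ∀ g, finrank k (T g) ≤ 2 := fun g => (Submodule.finrank_map_le _ _).trans hZ
  have t2 : ∀ g ∈ P, ∀ g' ∈ P, ∃ y ≠ 0, y ∈ T g ∧ y ∈ T g' := fun g hg g' hg' => by
    obtain ⟨y, a, b, c⟩ := hm _ (mul_mem (inv_mem hg') hg)
    refine ⟨σ g y, σ_ne h2 (h.sp hg) b, ⟨y, a, rfl⟩, _, c, ?_⟩
    rw [σ_mul h2 (h.sp (inv_mem hg')) (h.sp hg), σ_σ_inv h2 (h.sp hg')]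
  have t3 : ∀ g ∈ P, ∀ g' ∈ P, ∀ x ∈ T g', σ g x ∈ T (g * g') := by
    rintro g hg g' hg' _ ⟨x, hx, rfl⟩
    exact ⟨x, hx, σ_mul h2 (h.sp hg) (h.sp hg') x⟩
  have t4 : ∀ E : Submodule k (Fin 5 → k), finrank k E ≤ 4 → ∃ g ∈ P, ¬ T g ≤ E := fun E hE => by
    by_contra! hh
    rcases h.irr (⨆ g : P, T g) (fun g hg x hx => by
      refine Submodule.iSup_induction (motive := fun x => σ g x ∈ ⨆ g : P, T g) _ hx
        (fun g' x hx => Submodule.mem_iSup_of_mem ⟨_, mul_mem hg g'.2⟩ (t3 g hg _ g'.2 x hx))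
        (by simp) fun x y a b => ?_
      rw [map_add]; exact add_mem a b) with e | e
    · obtain ⟨y, a, b, -⟩ := t2 1 (one_mem _) 1 (one_mem _)
      exact a (e.le (Submodule.mem_iSup_of_mem ⟨1, one_mem _⟩ b))
    · have := Submodule.finrank_mono (e.ge.trans (iSup_le fun g => hh g g.2))
      simp at this
      omega
  have t5 : ∀ w ≠ 0, ∃ g ∈ P, w ∉ T g := fun w hw => by
    by_contra! hh
    rcases h.irr (⨅ g : P, T g) (fun g hg x hx => (Submodule.mem_iInf _).2 fun g' => by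
      have := t3 g hg _ (mul_mem (inv_mem hg) g'.2) x
        ((Submodule.mem_iInf _).1 hx ⟨_, mul_mem (inv_mem hg) g'.2⟩)
      rwa [mul_inv_cancel_left] at this) with e | e
    · exact hw (e.le ((Submodule.mem_iInf _).2 fun g => hh g g.2))
    · have := (Submodule.finrank_mono (e.ge.trans
        (iInf_le (fun g : P => T g) ⟨1, one_mem _⟩))).trans (t1 1)
      simp at this
  obtain ⟨g1, hg1, n1⟩ := t4 (T 1) ((t1 1).trans (by omega))
  obtain ⟨w, w0, w1, w2⟩ := t2 1 (one_mem _) g1 hg1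
  have t6 : ∀ z ∈ T 1, z ∈ T g1 → ∃ c : k, z = c • w := fun z z1 z2 => by
    by_contra! hh
    refine n1 fun y hy => ?_
    obtain ⟨α, β, rfl⟩ := span_two (t1 g1) z2 w2 w0 hh hy
    exact add_mem (Submodule.smul_mem _ _ z1) (Submodule.smul_mem _ _ w1)
  have t7 : ∀ g ∈ P, w ∉ T g → T g ≤ T 1 ⊔ T g1 := fun g hg hw y hy => by
    obtain ⟨z, z0, z1, z2⟩ := t2 g hg 1 (one_mem _)
    obtain ⟨z', z0', z1', z2'⟩ := t2 g hg g1 hg1
    obtain ⟨α, β, rfl⟩ := span_two (t1 g) z1 z1' z0' (fun c e => by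
      obtain ⟨d, hd⟩ := t6 z z2 (e ▸ Submodule.smul_mem _ _ z2')
      have : d ≠ 0 := by rintro rfl; exact z0 (by rw [hd, zero_smul])
      exact hw ((Submodule.smul_mem_iff _ this).1 (hd ▸ z1))) hy
    exact add_mem (Submodule.mem_sup_left (Submodule.smul_mem _ _ z2))
      (Submodule.mem_sup_right (Submodule.smul_mem _ _ z2'))
  obtain ⟨g2, hg2, n2⟩ := t5 w w0
  obtain ⟨g3, hg3, n3⟩ := t4 (T 1 ⊔ T g1)
    ((Submodule.finrank_add_le_finrank_add_finrank _ _).trans (add_le_add (t1 1) (t1 g1)))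
  by_cases hw : w ∈ T g3
  · refine n3 fun y hy => ?_
    obtain ⟨z, z0, z1, z2⟩ := t2 g3 hg3 g2 hg2
    obtain ⟨α, β, rfl⟩ := span_two (t1 g3) z1 hw w0 (fun d hd => by
      have : d ≠ 0 := by rintro rfl; exact z0 (by rw [hd, zero_smul])
      exact n2 ((Submodule.smul_mem_iff _ this).1 (hd ▸ z2))) hy
    exact add_mem (Submodule.smul_mem _ _ (t7 g2 hg2 n2 z2))
      (Submodule.smul_mem _ _ (Submodule.mem_sup_left w1))
  · exact n3 (t7 g3 hg3 hw)

/-- the parameters of the shears -/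
def MM (P : Subgroup (GL I4 k)) (s m : Fin 5 → k) : Prop :=
  B s m = 0 ∧ ∃ g ∈ P, g.1 = 1 + ψ s * ψ m

/-- the parameters of the shears, normalised -/
def AA (P : Subgroup (GL I4 k)) {s : Fin 5 → k} (hs : Q s = 0) (s' : Fin 5 → k) :
    AddSubgroup (Fin 5 → k) :=
  .ofSub {m | B s' m = 0 ∧ MM P s m} ⟨0, B_zero' _, B_zero' _, 1, one_mem _, by simp⟩ (by
    rintro a ⟨a1, a2, g, hg, e⟩ b ⟨b1, b2, g', hg', e'⟩
    rw [← sub_eq_add_neg]
    exact ⟨by rw [B_sub', a1, b1, sub_zero], by rw [B_sub', a2, b2, sub_zero], _,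
      mul_mem hg (inv_mem hg'), U_sub hs a2 b2 e e'⟩)

theorem mem_AA {s s' m : Fin 5 → k} (hs : Q s = 0) : m ∈ AA P hs s' ↔ B s' m = 0 ∧ MM P s m :=
  Iff.rfl

theorem MM.proj {s s' m : Fin 5 → k} (hs : Q s = 0) (hB : B s' s = 1) (hm : MM P s m) :
    m - B s' m • s ∈ AA P hs s' := by
  obtain ⟨a, g, hg, e⟩ := hm
  refine ⟨by rw [B_sub', B_smul', hB]; ring, by rw [B_sub', B_smul', B_self, a, hs]; ring, g, hg, ?_⟩
  rw [e, map_sub, map_smul, mul_sub, mul_smul_comm, ψ_sq, hs]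
  simp

theorem MM.smul {s m : Fin 5 → k} {c : k} (hm : MM P (c • s) m) : MM P s (c • m) := by
  obtain ⟨a, g, hg, e⟩ := hm
  exact ⟨by rw [B_smul', ← B_smul, a], g, hg, by rw [e]; simp⟩

namespace Hy

variable (h : Hy p P)
include h

theorem MM_σ {s m : Fin 5 → k} (hm : MM P s m) {g : GL I4 k} (hg : g ∈ P) :
    MM P (σ g s) (σ g m) := by
  obtain ⟨a, u, hu, e⟩ := hm
  refine ⟨by rw [B_σ h.h2 (h.sp hg), a], _, mul_mem (mul_mem hg hu) (inv_mem hg), ?_⟩
  rw [Units.val_mul, Units.val_mul, e, mul_add, add_mul, ψψ_conj h.h2 (h.sp hg)]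
  simp

theorem AA_ne {s s' m : Fin 5 → k} (hs : Lg P s) (hB : B s' s = 1) (hm : m ∈ AA P hs.2.1 s')
    (h0 : m ≠ 0) : Q m ≠ 0 := fun e => by
  obtain ⟨a, b, g, hg, e'⟩ := hm
  rw [h.aniso hs.2.1 b e hg e', Units.val_one, left_eq_add] at e'
  obtain ⟨t, rfl⟩ := prop_of_zero h.h2 hs.1 e'
  rw [B_smul', hB, mul_one] at a
  exact h0 (by rw [a, zero_smul])

variable [IsAlgClosed k]

theorem AA_inv {s s' m : Fin 5 → k} (hs : Lg P s) (hs' : Lg P s') (hB : B s s' = 1)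
    (hm : m ∈ AA P hs.2.1 s') (h0 : m ≠ 0) : (Q m)⁻¹ • m ∈ AA P hs'.2.1 s := by
  have := h.AA_ne hs (by rw [B_comm, hB]) hm h0
  obtain ⟨a, b, g, hg, e⟩ := hm
  exact ⟨by rw [B_smul', b, mul_zero], by rw [B_smul', a, mul_zero],
    h.star hs hs' hB b a this hg e⟩

theorem AA_U {s s' : Fin 5 → k} (hs : Lg P s) (hs' : Lg P s') (hB : B s s' = 1) :
    ∀ a ∈ AA P hs.2.1 s', ∀ b ∈ AA P hs'.2.1 s, B a b • a - Q a • b ∈ AA P hs.2.1 s' := by
  intro a ha b hb
  by_cases h0 : a = 0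
  · simp [h0]
  have a0 := h.AA_ne hs (by rw [B_comm, hB]) ha h0
  obtain ⟨-, -, g', hg', e'⟩ := h.AA_inv hs hs' hB ha h0
  obtain ⟨a1, a2, g, hg, e⟩ := ha
  obtain ⟨b1, b2⟩ := hb
  have h2 := h.h2
  have c1 := h.MM_σ (h.MM_σ (h.MM_σ b2 hg) hg') hg
  have d1 := σ_eich h2 (h.sp hg) hs.2.1 a2 e
  have d2 := σ_eich h2 (h.sp hg') hs'.2.1 (by rw [B_smul', a1]; simp) e'
  have d3 : σ g (σ g' (σ g s')) = (-Q a) • s := by
    simp only [d1, d2, B_add', B_sub', B_smul', B_smul, Q_smul, B_self,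
      B_comm a s', B_comm a s, B_comm s' s, a1, a2, hB, hs.2.1, hs'.2.1]
    match_scalars <;> field_simp <;> ring
  have d4 : σ g (σ g' (σ g b)) = b - ((Q a)⁻¹ * B a b) • a := by
    simp only [d1, d2, B_add', B_sub', B_smul', B_smul, Q_smul, B_self,
      B_comm a s', B_comm a s, B_comm s' s, a1, a2, hB, hs.2.1, b1, b2.1]
    match_scalars <;> field_simp <;> ring
  rw [d3, d4] at c1
  refine ⟨by rw [B_sub', B_smul', B_smul', a1, b2.1]; simp, ?_⟩
  convert c1.smul using 1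
  match_scalars <;> field_simp

theorem not_Lg {s : Fin 5 → k} (hs : Lg P s) : False := by
  have h2 := h.h2
  have key : ∀ g ∈ P, (∃ c : k, σ g s = c • s) ∨
      ∃ c : k, c ≠ 0 ∧ Lg P (c • σ g s) ∧ B s (c • σ g s) = 1 := fun g hg => by
    by_cases e : B s (σ g s) = 0
    · exact .inl (h.prop_of_orth hs (h.Lg_σ hs hg) e)
    · exact .inr ⟨_, inv_ne_zero e, (h.Lg_σ hs hg).smul (inv_ne_zero e), by
        rw [B_smul', inv_mul_cancel₀ e]⟩
  obtain ⟨u, hu, -, -, hu1, -⟩ := exists_two hs.2.2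
  have ex : ∀ s', B s s' = 1 → ∃ m ≠ 0, m ∈ AA P hs.2.1 s' := fun s' hB => by
    obtain ⟨m, a, b, c⟩ := h.U_form hB hu
    exact ⟨m, fun e => hu1 (Units.ext (by rw [c, e]; simp)), b, a, u, hu.1, c⟩
  obtain ⟨e, e1, e2, e3⟩ := h.U_form' hs.1 hs.2.1 hu hu1
  by_cases hd : ∀ m, MM P s m → m ∈ Submodule.span k {s, e}
  · refine h.family (Submodule.span k {s, e}) (finrank_pair hs.1 (fun c e' => e2 (by
      rw [e', Q_smul, hs.2.1, mul_zero]))).le fun g hg => ?_
    have l1 : s ∈ Submodule.span k {s, e} := Submodule.subset_span (by simp)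
    rcases key g hg with ⟨c, hc⟩ | ⟨c, c0, c1, c2⟩
    · exact ⟨s, l1, hs.1, hc ▸ Submodule.smul_mem _ _ l1⟩
    obtain ⟨m, m0, hm⟩ := ex _ c2
    have := h.MM_σ (h.AA_inv hs c1 c2 hm m0).2 (inv_mem hg)
    rw [map_smul, σ_inv_σ h2 (h.sp hg)] at this
    refine ⟨_, hd _ this.smul, smul_ne_zero c0 (σ_ne h2 (h.sp (inv_mem hg)) (smul_ne_zero
      (inv_ne_zero (h.AA_ne hs (by rw [B_comm, c2]) hm m0)) m0)), ?_⟩
    rw [map_smul, σ_σ_inv h2 (h.sp hg)]
    exact Submodule.smul_mem _ _ (Submodule.smul_mem _ _ (hd m hm.2))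
  obtain ⟨a, ha⟩ := not_forall.1 hd
  rw [Classical.not_imp] at ha
  let T := Submodule.span k (insert s {m | MM P s m})
  have hT : ∀ x, x ∈ LinearMap.BilinForm.orthogonal (Q).polarBilin T ↔ B s x = 0 ∧ ∀ m, MM P s m → B m x = 0 :=
    fun x => ⟨fun hx => ⟨hx s (Submodule.subset_span (by simp)), fun m hm =>
      hx m (Submodule.subset_span (.inr hm))⟩, fun hx y hy => by
        induction hy using Submodule.span_induction with
        | mem y hy => rcases hy with rfl | hy; exacts [hx.1, hx.2 y hy]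
        | zero => simp
        | add y z _ _ a b => rw [map_add, LinearMap.add_apply, a, b, add_zero]
        | smul c y _ a => rw [map_smul, LinearMap.smul_apply, a, smul_zero]⟩
  have l1 : ∀ c : k, c • s ∈ LinearMap.BilinForm.orthogonal (Q).polarBilin T := fun c => Submodule.smul_mem _ _
    ((hT s).2 ⟨by rw [B_self, hs.2.1, mul_zero], fun m hm => by rw [B_comm, hm.1]⟩)
  refine h.family (LinearMap.BilinForm.orthogonal (Q).polarBilin T) ?_ fun g hg => ?_
  · rw [LinearMap.BilinForm.finrank_orthogonal ⟨fun x hx => nd5 h2 x fun y => by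
      rw [B_comm]; exact hx y, fun x hx => nd5 h2 x hx⟩]
    have a1 := Submodule.finrank_sup_span_singleton ha.2
    rw [finrank_pair hs.1 (fun c e' => e2 (by rw [e', Q_smul, hs.2.1, mul_zero]))] at a1
    have a2 := Submodule.finrank_mono (show Submodule.span k {s, e} ⊔ Submodule.span k {a} ≤ T from
      sup_le (Submodule.span_mono (by
        rintro _ (rfl | rfl)
        exacts [.inl rfl, .inr ⟨e1, u, hu.1, e3⟩])) (Submodule.span_mono (by
        rintro _ rfl; exact .inr ha.1)))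
    simp only [finrank_fintype_fun_eq_card, Fintype.card_fin]
    omega
  rcases key g hg with ⟨c, hc⟩ | ⟨c, c0, c1, c2⟩
  · exact ⟨s, by simpa using l1 1, hs.1, hc ▸ l1 c⟩
  obtain ⟨m, m0, hm⟩ := ex _ c2
  have c3 : B (c • σ g s) s = 1 := by rw [B_comm, c2]
  have : Finite (AA P hs.2.1 (c • σ g s)) := by
    have := h.fin
    choose φ φ1 φ2 using fun m : AA P hs.2.1 (c • σ g s) => m.2.2.2
    refine Finite.of_injective (fun m => (⟨φ m, φ1 m⟩ : P)) fun m m' e' => Subtype.ext ?_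
    have a1 : φ m = φ m' := congrArg Subtype.val e'
    obtain ⟨t, ht⟩ := prop_of_zero h2 hs.1 (b := m - m') (by
      rw [map_sub, mul_sub, sub_eq_zero, ← add_right_inj 1, ← φ2, ← φ2, a1])
    have a2 := (sub_mem m.2 m'.2).1
    rw [ht, B_smul', c3, mul_one] at a2
    rwa [a2, zero_smul, sub_eq_zero] at ht
  obtain ⟨w, w0, w1, w2, w3⟩ := jordan h.two _ _ (fun m hm => h.AA_ne hs c3 hm)
    (fun m hm => h.AA_inv hs c1 c2 hm) (h.AA_U hs c1 c2) (fun m hm => hm.2.1) (fun m hm => hm.1) hm m0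
  refine ⟨σ g⁻¹ w, (hT _).2 ⟨?_, fun m hm => ?_⟩, σ_ne h2 (h.sp (inv_mem hg)) w0, ?_⟩
  · rw [← B_σ h2 (h.sp hg), σ_σ_inv h2 (h.sp hg)]
    exact mul_left_cancel₀ c0 (by rw [← B_smul, w2, mul_zero])
  · have a1 : MM P (c • σ g s) (c⁻¹ • σ g m) := MM.smul (by
      rw [smul_smul, inv_mul_cancel₀ c0, one_smul]; exact h.MM_σ hm hg)
    have a2 := a1.proj c1.2.1 c2
    rw [← B_σ h2 (h.sp hg), σ_σ_inv h2 (h.sp hg)]
    refine mul_left_cancel₀ (inv_ne_zero c0) ?_
    have a3 : B (c⁻¹ • σ g m - B s (c⁻¹ • σ g m) • c • σ g s) w = 0 := by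
      by_cases e' : c⁻¹ • σ g m - B s (c⁻¹ • σ g m) • c • σ g s = 0
      · rw [e', B_zero]
      have := w3 _ (h.AA_inv c1 hs c3 a2 e')
      rw [B_smul] at this
      exact (mul_eq_zero.1 this).resolve_left (inv_ne_zero (h.AA_ne c1 c2 a2 e'))
    rw [B_sub, B_smul _ (c • σ g s), w2, B_smul] at a3
    linear_combination a3
  · rw [σ_σ_inv h2 (h.sp hg)]
    refine (hT _).2 ⟨w1, fun m hm => ?_⟩
    have := w3 _ (hm.proj hs.2.1 c3)
    rwa [B_sub, B_smul, w1, mul_zero, sub_zero] at this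

theorem caseS : ∀ g ∈ P, (g.1 - 1) * (g.1 - 1) = 0 → g = 1 ∨ (p = 3 ∧ ¬ 9 ∣ Nat.card P) := by
  intro g hg hN
  refine or_iff_not_imp_left.2 fun h1 => ?_
  obtain ⟨s, s0, s1, hu⟩ := h.exists_s hg h1 hN
  have := h.finU s
  have := h.fin
  have a1 : Nat.card (U P s) ≤ 3 := not_lt.1 fun e => h.not_Lg ⟨s0, s1, e⟩
  have a2 := (Nat.le_of_dvd Nat.card_pos (h.U_dvd s0 s1 hu h1)).trans a1
  have a3 : p = 3 := by
    have := (Fact.out : p.Prime).two_le
    have := h.two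
    omega
  subst a3
  refine ⟨rfl, fun h9 => ?_⟩
  have a4 := h.U_pow s0 s1 hu
  obtain ⟨K, hK, hle⟩ := Sylow.exists_subgroup_card_pow_succ (p := 3) (n := 1) h9
    (H := Subgroup.zpowers (⟨g, hg⟩ : P)) (by
      rw [Nat.card_zpowers, Subgroup.orderOf_mk, orderOf_eq_prime a4 h1, pow_one])
  have a5 := (IsPGroup.isMulCommutative_of_card_eq_prime_sq (p := 3) hK).is_comm.comm
  have a6 : K.map P.subtype ≤ U P s := by
    rintro _ ⟨x, hx, rfl⟩
    refine h.mem_U_of_comm s0 s1 x.2 (n := 2) ?_ hu h1 ?_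
    · have := pow_card_eq_one' (x := (⟨x, hx⟩ : K))
      rw [hK] at this
      exact congrArg (fun y : K => y.1.1) this
    · exact congrArg (fun y : K => y.1.1) (a5 ⟨x, hx⟩ ⟨_, hle (Subgroup.mem_zpowers _)⟩)
  have := Subgroup.card_le_of_le a6
  rw [Subgroup.card_map_of_injective P.subtype_injective, hK] at this
  omega

end Hy

theorem caseS [IsAlgClosed k] (h : Hyp p P) :
    ∀ g ∈ P, (g.1 - 1) * (g.1 - 1) = 0 → g = 1 ∨ (p = 3 ∧ ¬ 9 ∣ Nat.card P) :=
  h.hy.caseS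

end Cfsg.Agent.H1.Sp4
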