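import Cfsg.Agent.H1.Sp4E

/-!
Finite subgroups of the four-dimensional symplectic group: roots.
-/

set_option autoImplicit false
set_option linter.unusedSectionVars false

namespace Cfsg.Agent.H1.Sp4

open Module QuadraticMap Matrix Spin5 H6 MulAction

section mob

variable {p : ℕ} {G X : Type*} [Group G] [MulAction G X] [Finite G] (h : Mob p G X)
  (np : ∀ x y : X, ∃ g : G, g • x ≠ x ∧ g • x ≠ y)
include h np

theorem exc_of (hs : ∀ x, Nat.card (h.P x) ≤ 3) :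
    Nonempty (G ≃* alternatingGroup (Fin 4)) ∨ Nonempty (G ≃* Equiv.Perm (Fin 4)) ∨
      Nonempty (G ≃* alternatingGroup (Fin 5)) := by
  rcases h.dickson with ⟨x, e⟩ | ⟨x, y, -, e⟩ | ⟨-, e⟩ | ⟨-, e⟩ | ⟨-, -, e⟩ | ⟨x, b⟩
  · obtain ⟨g, a, -⟩ := np x x
    exact (a (e.ge (Subgroup.mem_top g))).elim
  · obtain ⟨g, a, b⟩ := np x y
    exact ((e.ge (Subgroup.mem_top g)).elim (fun c => a c.1) fun c => b c.1).elim
  · exact .inl e
  · exact .inr (.inl e)
  · exact .inr (.inr e)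
  have h3 : Nat.card (h.P x) = 3 := le_antisymm (hs x) b.three_le
  obtain ⟨n, hn⟩ := card_P h x
  have hp : p = 3 := ((Nat.Prime.pow_eq_iff Nat.prime_three).1 (hn.symm.trans h3)).1
  have h6 : ∀ g : G, orderOf g ≠ 6 := fun g hg => by
    have h1 : g ^ 2 ≠ 1 := pow_ne_one_of_lt_orderOf two_ne_zero (by omega)
    have h2 : g ^ 3 ≠ 1 := pow_ne_one_of_lt_orderOf three_ne_zero (by omega)
    refine h2 (hp ▸ h.pow_of_commute h1 ?_ (by group))
    rw [hp, ← pow_mul, show 2 * 3 = orderOf g by omega, pow_orderOf_eq_one]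
  have h4 := (stabilizer G x).index_mul_card
  rw [b.index, h3] at h4
  rcases b.card with e | e <;> rw [h3] at e
  · exact .inr (.inl (SmallId.iso_S4 (by omega) h6))
  · exact .inl (SmallId.iso_A4 (by omega) h6)

theorem exc_pow (hs : ∀ x, Nat.card (h.P x) ≤ 3) (g : G) :
    g ^ 2 = 1 ∨ g ^ 3 = 1 ∨ (g ^ 4 = 1 ∧ Nat.card G = 24) ∨ (g ^ 5 = 1 ∧ Nat.card G = 60) := by
  rcases exc_of h np hs with ⟨⟨e⟩⟩ | ⟨⟨e⟩⟩ | ⟨⟨e⟩⟩
  · rcases Pg.a4_pow (e g) with a | a <;> rw [← map_pow, map_eq_one_iff _ e.injective] at a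
    exacts [.inl a, .inr (.inl a)]
  · rcases Pg.s4_pow (e g) with a | a <;> rw [← map_pow, map_eq_one_iff _ e.injective] at a
    exacts [.inr (.inl a), .inr (.inr (.inl ⟨a, (Nat.card_congr e.toEquiv).trans Pg.card_s4⟩))]
  · rcases Pg.a5_pow (e g) with a | a | a <;> rw [← map_pow, map_eq_one_iff _ e.injective] at a
    exacts [.inl a, .inr (.inl a),
      .inr (.inr (.inr ⟨a, (Nat.card_congr e.toEquiv).trans Pg.card_a5⟩))]

theorem exists_invol (N : Subgroup G) (hN : ∀ g : G, ∀ n ∈ N, g * n * g⁻¹ ∈ N) {n : G} (hn : n ∈ N)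
    (h1 : n ≠ 1) : ∃ t ∈ N, t ≠ 1 ∧ t * t = 1 := by
  have c1 : ∀ x : X, ¬ ∀ t ∈ N, t • x = x := fun x hx => by
    have a : ∀ g : G, n • g • x = g • x := fun g => by
      have := hx _ (hN g⁻¹ n hn)
      rwa [inv_inv, mul_smul, mul_smul, inv_smul_eq_iff] at this
    by_cases hp : n ^ p = 1
    · obtain ⟨z, hz⟩ := h.fix_one h1 hp
      obtain ⟨g, b, -⟩ := np x x
      exact b (((hz _).1 (a g)).trans ((hz _).1 (hx n hn)).symm)
    · obtain ⟨y, -, hy⟩ := h.fix_two' hp (hx n hn)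
      obtain ⟨g, b, c⟩ := np x y
      exact ((hy _).1 (a g)).elim b c
  have c2 : ∀ (t : N) (x y : X), x ≠ y → t • x = y → t • y = x → ∃ t ∈ N, t ≠ 1 ∧ t * t = 1 :=
    fun t x y a b c => ⟨t, t.2, fun e => a (by rw [← b, Subgroup.smul_def, e, one_smul]),
      h.sq_of_swap a b c⟩
  have c3 : 2 ∣ Nat.card N → ∃ t ∈ N, t ≠ 1 ∧ t * t = 1 := fun e => by
    obtain ⟨t, ht⟩ := exists_prime_orderOf_dvd_card' 2 e
    refine ⟨t, t.2, fun e => ?_, ?_⟩
    · rw [show t = 1 from Subtype.ext e] at ht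
      simp at ht
    · rw [← pow_two, ← ht]
      exact congrArg Subtype.val (pow_orderOf_eq_one t)
  rcases (h.subgroup N).dickson with ⟨x, e⟩ | ⟨x, y, a, e⟩ | ⟨-, ⟨e⟩⟩ | ⟨-, ⟨e⟩⟩ | ⟨-, -, ⟨e⟩⟩ |
    ⟨x, b⟩
  · exact (c1 x fun t ht => e.ge (Subgroup.mem_top ⟨t, ht⟩)).elim
  · by_contra hh
    exact c1 x fun t ht => (e.ge (Subgroup.mem_top ⟨t, ht⟩)).elim (fun c => c.1)
      fun c => (hh (c2 _ x y a c.1 c.2)).elim
  · exact c3 (by rw [Nat.card_congr e.toEquiv, Pg.card_a4]; norm_num)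
  · exact c3 (by rw [Nat.card_congr e.toEquiv, Pg.card_s4]; norm_num)
  · exact c3 (by rw [Nat.card_congr e.toEquiv, Pg.card_a5]; norm_num)
  · obtain ⟨t, ht⟩ : ∃ t : N, t • x ≠ x := by
      by_contra! hh
      exact c1 x fun t ht => hh ⟨t, ht⟩
    have hO : t • x ∈ Mob.O N x := Mob.mem_O.2 ⟨t, rfl⟩
    obtain ⟨g, a, c⟩ := b.two_trans (Mob.self_mem_O _) hO hO (Mob.self_mem_O _) ht.symm ht
    exact c2 g _ _ ht.symm a c

end mob

theorem nine_of_comm {G : Type*} [Group G] {P : Subgroup G} [Finite P] {x y : G} (hx : x ∈ P)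
    (hy : y ∈ P) (hc : x * y = y * x) (x3 : x ^ 3 = 1) (y3 : y ^ 3 = 1) (x1 : x ≠ 1) (y1 : y ≠ 1)
    (h1 : y ≠ x) (h2 : y ≠ x⁻¹) : 9 ∣ Nat.card P := by
  let K : Subgroup G :=
    { carrier := {g | g ∈ P ∧ g ^ 3 = 1 ∧ g ∈ Subgroup.closure {x, y}}
      one_mem' := ⟨one_mem _, one_pow _, one_mem _⟩
      mul_mem' := fun {a b} ha hb => ⟨mul_mem ha.1 hb.1, by
        have := (Subgroup.isMulCommutative_closure (k := {x, y}) (by
          rintro _ (rfl | rfl) _ (rfl | rfl) <;> simp [hc])).is_comm.comm ⟨a, ha.2.2⟩ ⟨b, hb.2.2⟩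
        rw [Commute.mul_pow (congrArg Subtype.val this), ha.2.1, hb.2.1, one_mul],
        mul_mem ha.2.2 hb.2.2⟩
      inv_mem' := fun {a} ha => ⟨inv_mem ha.1, by rw [inv_pow, ha.2.1, inv_one], inv_mem ha.2.2⟩ }
  have hK : K ≤ P := fun _ hg => hg.1
  have := fin_of_le hK
  have := Fact.mk Nat.prime_three
  obtain ⟨n, hn⟩ := IsPGroup.exists_card_eq (p := 3) (G := K) fun g =>
    ⟨1, Subtype.ext (by rw [pow_one]; exact g.2.2.1)⟩
  refine dvd_trans ?_ (Subgroup.card_dvd_of_le hK)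
  have a1 : x ∈ K := ⟨hx, x3, Subgroup.subset_closure (by simp)⟩
  have a2 : y ∈ K := ⟨hy, y3, Subgroup.subset_closure (by simp)⟩
  have a3 : x ≠ x⁻¹ := fun e => x1 (by
    rw [pow_succ, pow_two, mul_eq_one_iff_eq_inv.2 e, one_mul] at x3; exact x3)
  have a4 : 4 ≤ Nat.card K := by
    classical
    have := Fintype.ofFinite K
    have b := Finset.card_le_univ ({1, ⟨x, a1⟩, ⟨x⁻¹, inv_mem a1⟩, ⟨y, a2⟩} : Finset K)
    rwa [Finset.card_insert_of_notMem (by simp [x1.symm, y1.symm, Subtype.ext_iff, x1]),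
      Finset.card_insert_of_notMem (by simp [a3, h1.symm]),
      Finset.card_pair (by simp [h2.symm]), ← Nat.card_eq_fintype_card] at b
  rw [hn] at a4 ⊢
  exact pow_dvd_pow 3 (show 2 ≤ n by
    by_contra! e
    interval_cases n <;> omega)

variable {k : Type*} [Field k]

local notation "f" => sympForm 2 k
local notation "Q" => Q5 k
local notation "B" => polar (Q5 k)

theorem exists_root (h2 : (2 : k) ≠ 0) {g : GL I4 k} (hg : g ∈ spGL 2 k) (hh : g * g = 1)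
    (h1 : g ≠ 1) (h1' : g ≠ -1) : ∃ v, Q v = 1 ∧ g.1 = ψ v := by
  have h4 : (4 : k) ≠ 0 := by rw [show (4 : k) = 2 * 2 by norm_num]; exact mul_ne_zero h2 h2
  obtain ⟨v, hv⟩ := exists_ψ h2 (T := g.1 - (g.1.trace / 4) • 1) (fun u v => by
    rw [sub_mulVec, sub_mulVec, f_sub, f_sub', sp_adj hg, ← eq_inv_of_mul_eq_one_left hh]
    simp only [smul_mulVec, one_mulVec, f_smul, f_smul']) (by
      rw [trace_sub, trace_smul, trace_one]; simp; field_simp; ring)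
  generalize g.1.trace / 4 = c at hv
  have e := eq_add_of_sub_eq hv.symm
  have e2 := congrArg Units.val hh
  rw [Units.val_mul, e, Units.val_one] at e2
  simp only [add_mul, mul_add, ψ_sq, smul_mul_assoc, mul_smul_comm, one_mul, mul_one] at e2
  have e3 : ψ ((2 * c) • v) = (1 - Q v - c * c) • 1 := by
    rw [map_smul]; linear_combination (norm := module) e2
  have e4 := ψ_trace ((2 * c) • v)
  rw [e3, trace_smul, trace_one] at e4
  have e5 : 1 - Q v - c * c = 0 := by simpa [h4] using e4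
  rw [e5, zero_smul] at e3
  rcases smul_eq_zero.1 (ψ_inj e3) with a | rfl
  · rw [mul_eq_zero, or_iff_right h2] at a
    exact ⟨v, by rw [a] at e5; linear_combination -e5, by rw [e, a]; simp⟩
  · rcases mul_self_eq_one_iff.1 (show c * c = 1 by rw [map_zero] at e5; linear_combination -e5)
      with rfl | rfl
    · exact (h1 (Units.ext (by rw [e]; simp))).elim
    · exact (h1' (Units.ext (by rw [e]; simp))).elim

/-- roots -/
def Rt (P : Subgroup (GL I4 k)) (v : Fin 5 → k) : Prop := Q v = 1 ∧ ∃ g ∈ P, g.1 = ψ v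

variable {p : ℕ} [Fact p.Prime] [CharP k p] {P : Subgroup (GL I4 k)}

theorem Rt.ne {v : Fin 5 → k} (hv : Rt P v) : v ≠ 0 := by
  rintro rfl
  simpa using hv.1

theorem Rt.B {v : Fin 5 → k} (hv : Rt P v) : B v v = 2 := by rw [B_self, hv.1, mul_one]

theorem Rt.mul {a b : Fin 5 → k} (ha : Rt P a) (hb : Rt P b) : ∃ g ∈ P, g.1 = ψ a * ψ b :=
  let ⟨g, hg, e⟩ := ha.2
  let ⟨g', hg', e'⟩ := hb.2
  ⟨g * g', mul_mem hg hg', by rw [Units.val_mul, e, e']⟩

namespace Hy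

variable (h : Hy p P)
include h

theorem rt_neg {v : Fin 5 → k} (hv : Rt P v) : Rt P (-v) :=
  let ⟨g, hg, e⟩ := hv.2
  ⟨by rw [Q_neg, hv.1], -1 * g, mul_mem h.neg hg, by simp [e]⟩

theorem rt_σ {v : Fin 5 → k} (hv : Rt P v) {g : GL I4 k} (hg : g ∈ P) : Rt P (σ g v) :=
  let ⟨t, ht, e⟩ := hv.2
  ⟨by rw [Q_σ h.h2 (h.sp hg), hv.1], _, mul_mem (mul_mem hg ht) (inv_mem hg), by
    rw [ψσ h.h2 (h.sp hg), Units.val_mul, Units.val_mul, e]⟩

theorem rt_refl {a x : Fin 5 → k} (ha : Rt P a) (hx : Rt P x) : Rt P (x - B a x • a) := by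
  obtain ⟨g, hg, e⟩ := ha.2
  have := h.rt_neg (h.rt_σ hx hg)
  rwa [σ_root h.h2 (h.sp hg) e ha.1, neg_sub] at this

theorem rt_sub {a x : Fin 5 → k} (ha : Rt P a) (hx : Rt P x) (e : B a x = 1) : Rt P (x - a) := by
  simpa [e] using h.rt_refl ha hx

theorem root_ne {g : GL I4 k} {v : Fin 5 → k} (e : g.1 = ψ v) : g ≠ 1 ∧ g ≠ -1 := by
  have h4 : (4 : k) ≠ 0 := by rw [show (4 : k) = 2 * 2 by norm_num]; exact mul_ne_zero h.h2 h.h2
  have := ψ_trace v
  rw [← e] at this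
  constructor <;> rintro rfl <;> simp [h4] at this

/-- irreducibility for an invariant set of roots -/
theorem irr_roots (C : Set (Fin 5 → k)) (hC : ∀ v ∈ C, Rt P v) (hi : ∀ g ∈ P, ∀ v ∈ C, σ g v ∈ C)
    {v : Fin 5 → k} (hv : v ∈ C) (Z : Submodule k (Fin 5 → k))
    (hZ : ∀ v ∈ C, v ∈ Z ∨ ∀ z ∈ Z, B v z = 0) : Z = ⊥ ∨ Z = ⊤ := by
  have := h.fin
  have h2 := h.h2
  obtain ⟨t, ht, e⟩ := (hC v hv).2
  have := h.gen (sub P (fun g => ∀ x ∈ Z, σ g x ∈ Z) (fun x hx => by rwa [σ_one])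
    fun a ha b hb h3 h4 x hx => by rw [σ_mul h2 (h.sp ha) (h.sp hb)]; exact h3 _ (h4 x hx))
    ⟨h.neg, fun x hx => by rwa [σ_neg, σ_one]⟩ t ht (h.root_ne e).1 (h.root_ne e).2 fun g hg => by
      have a := mul_mem (mul_mem hg ht) (inv_mem hg)
      refine ⟨a, fun x hx => ?_⟩
      rw [σ_root h2 (h.sp a) (a := σ g v) (by rw [ψσ h2 (h.sp hg), Units.val_mul, Units.val_mul, e])
        (hC _ (hi g hg v hv)).1]
      rcases hZ _ (hi g hg v hv) with b | b
      · exact sub_mem (Z.smul_mem _ b) hx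
      · rw [b x hx, zero_smul, zero_sub]; exact neg_mem hx
  exact h.irr Z fun g hg => (this hg).2

theorem exists_mixed {v : Fin 5 → k} (hv : Rt P v) (Z : Submodule k (Fin 5 → k)) (h0 : v ∈ Z)
    (h4 : finrank k Z ≤ 4) : ∃ d, Rt P d ∧ d ∉ Z ∧ ∃ z ∈ Z, B d z ≠ 0 := by
  by_contra! hh
  rcases h.irr_roots {v | Rt P v} (fun _ a => a) (fun g hg v a => h.rt_σ a hg) hv Z
    (fun d hd => or_iff_not_imp_left.2 (hh d hd)) with rfl | rfl
  · exact hv.ne h0
  · simp at h4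

variable [IsAlgClosed k]

theorem three {g : GL I4 k} (hg : g ∈ P) {N : Matrix I4 I4 k} (e : g.1 = 1 + N) (hN : N * N = 0)
    (h0 : N ≠ 0) : (3 : k) = 0 ∧ p = 3 ∧ ¬ 9 ∣ Nat.card P := by
  have := (h.caseS g hg (by rw [e, add_sub_cancel_left, hN])).resolve_left fun e' => h0 (by
    rw [e', Units.val_one, left_eq_add] at e; exact e)
  exact ⟨by exact_mod_cast this.1 ▸ CharP.cast_eq_zero k p, this⟩

theorem short_tri {x y : GL I4 k} (hx : x ∈ P) (hy : y ∈ P) {M N : Matrix I4 I4 k}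
    (e : x.1 = 1 + M) (e' : y.1 = 1 + N) (hM : M * M = 0) (hN : N * N = 0) (hc : M * N = N * M)
    (h0 : M ≠ 0) : N = 0 ∨ N = M ∨ N = -M := by
  have := h.fin
  obtain ⟨h3, -, h9⟩ := h.three hx e hM h0
  have a : ∀ (x : GL I4 k) M, x.1 = 1 + M → M * M = 0 → x ^ 3 = 1 := fun x M e hM => Units.ext (by
    have : (3 : k) • M = 0 := by rw [h3, zero_smul]
    rw [show (3 : k) = 1 + 1 + 1 by norm_num, add_smul, add_smul, one_smul] at this
    rw [Units.val_pow_eq_pow_val, e, Units.val_one]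
    linear_combination (norm := noncomm_ring) this + 3 * hM + hM * M)
  by_contra! hh
  refine h9 (nine_of_comm hx hy (Units.ext ?_) (a x M e hM) (a y N e' hN) (fun c => h0 ?_)
    (fun c => hh.1 ?_) (fun c => hh.2.1 ?_) fun c => hh.2.2 ?_)
  · rw [Units.val_mul, Units.val_mul, e, e']
    linear_combination (norm := noncomm_ring) hc
  · rwa [c, Units.val_one, left_eq_add] at e
  · rwa [c, Units.val_one, left_eq_add] at e'
  · rw [c, e, add_right_inj] at e'; exact e'.symm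
  · have : (x⁻¹).1 = 1 + -M := Units.inv_eq_of_mul_eq_one_right (by
      rw [e]; linear_combination (norm := noncomm_ring) -hM)
    rw [c, this, add_right_inj] at e'; exact e'.symm

theorem short_of_two {a b : Fin 5 → k} (ha : Rt P a) (hb : Rt P b) (hB : B a b = 2) :
    B a (b - a) = 0 ∧ Q (b - a) = 0 ∧ ψ a * ψ b = 1 + ψ a * ψ (b - a) ∧
      ψ a * ψ (b - a) * (ψ a * ψ (b - a)) = 0 := by
  have a1 : B a (b - a) = 0 := by rw [B_sub', hB, ha.B, sub_self]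
  have a2 : Q (b - a) = 0 := by rw [Q_sub, ha.1, hb.1, B_comm, hB]; ring
  refine ⟨a1, a2, by rw [map_sub, mul_sub, ψ_sq, ha.1]; simp, ?_⟩
  rw [ψ_neg_swap a1, neg_mul_neg, ψψ_sq a2 (by rw [B_comm, a1])]

theorem ψψ_ne {a s : Fin 5 → k} (ha : Q a ≠ 0) (hs : s ≠ 0) : ψ a * ψ s ≠ 0 := fun e => by
  have := congrArg (ψ a * ·) e
  simp only [ψ_sq', mul_zero, smul_eq_zero, ha, false_or] at this
  exact hs (ψ_inj this)

theorem two_three {a b : Fin 5 → k} (ha : Rt P a) (hb : Rt P b) (hB : B a b = 2) (hn : b ≠ a) :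
    (3 : k) = 0 := by
  obtain ⟨g, hg, e⟩ := ha.mul hb
  obtain ⟨-, -, a3, a4⟩ := h.short_of_two ha hb hB
  exact (h.three hg (e.trans a3) a4 (h.ψψ_ne (by rw [ha.1]; simp) (sub_ne_zero.2 hn))).1

theorem four_three {a b : Fin 5 → k} (ha : Rt P a) (hb : Rt P b) (hB : B a b ^ 2 = 4) (hn : b ≠ a)
    (hn' : b ≠ -a) : (3 : k) = 0 := by
  rcases sq_eq_sq_iff_eq_or_eq_neg.1 (hB.trans (show (4 : k) = 2 ^ 2 by norm_num)) with e | e
  · exact h.two_three ha hb e hn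
  · exact h.two_three (h.rt_neg ha) hb (by rw [B_neg, e, neg_neg]) hn'

theorem tri {a b v : Fin 5 → k} (ha : Rt P a) (hb : Rt P b) (hv : Rt P v) (h1 : B a b = 2)
    (h3 : B a v = 2) (h4 : B b v = 2) (hn : b ≠ a) : v = a ∨ v = b ∨ v - a = -(b - a) := by
  obtain ⟨x, hx, e⟩ := ha.mul hb
  obtain ⟨y, hy, e'⟩ := ha.mul hv
  obtain ⟨a1, a2, a3, a4⟩ := h.short_of_two ha hb h1
  obtain ⟨b1, b2, b3, b4⟩ := h.short_of_two ha hv h3
  rw [a3] at e
  rw [b3] at e'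
  have c1 : B (b - a) (v - a) = 0 := by
    rw [B_sub, b1, B_sub', h4, B_comm, h1]; simp
  have hn' := sub_ne_zero.2 hn
  suffices v - a = 0 ∨ v - a = b - a ∨ v - a = -(b - a) by
    rwa [sub_eq_zero, sub_left_inj] at this
  generalize b - a = s at *
  generalize v - a = t at *
  have c2 := ψ_neg_swap a1
  have c3 := ψ_neg_swap b1
  have c4 := ψ_neg_swap c1
  have c5 := ψ_sq a
  have c6 := ψ_sq s
  have c7 := ψ_sq t
  rw [ha.1, one_smul] at c5
  rw [a2, zero_smul] at c6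
  rw [b2, zero_smul] at c7
  have d1 : ψ a * ψ s * (ψ a * ψ t) = -(ψ s * ψ t) := by
    linear_combination (norm := noncomm_ring) c2 * ψ a * ψ t - ψ s * c5 * ψ t
  have d2 : ψ a * ψ t * (ψ a * ψ s) = ψ s * ψ t := by
    linear_combination (norm := noncomm_ring) c3 * ψ a * ψ s - ψ t * c5 * ψ s - c4
  have d3 : (x * y * (y * x)⁻¹).1 = 1 + ψ s * ψ (-(t + t)) := by
    rw [Units.val_mul, Units.mul_inv_eq_iff_eq_mul, Units.val_mul, Units.val_mul, e, e', map_neg,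
      map_add]
    have d4 : ψ s * ψ t * (ψ a * ψ t) = 0 := by
      linear_combination (norm := noncomm_ring) ψ s * ψ t * c3 - ψ s * c7 * ψ a
    have d5 : ψ s * ψ t * (ψ a * ψ s) = 0 := by
      linear_combination (norm := noncomm_ring) ψ s * ψ t * c2 - c4 * ψ s * ψ a + ψ t * c6 * ψ a
    linear_combination (norm := noncomm_ring) d1 - d2 + 2 * d4 + 2 * d5 + 2 * d4 * ψ a * ψ s
  have d4 := h.aniso a2 (by rw [B_neg', B_add', c1]; simp) (by rw [Q_neg, Q_add, B_self, b2]; simp)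
    (mul_mem (mul_mem hx hy) (inv_mem (mul_mem hy hx))) d3
  have d5 := congrArg Units.val (mul_inv_eq_one.1 d4)
  rw [Units.val_mul, Units.val_mul, e, e'] at d5
  have d6 : ∀ u : Fin 5 → k, ψ a * ψ t = ψ a * ψ u → t = u := fun u e => by
    have := congrArg (ψ a * ·) e
    simp only [ψ_sq', ha.1, one_smul] at this
    exact ψ_injective this
  rcases h.short_tri hx hy e e' a4 b4 (by linear_combination (norm := noncomm_ring) d5)
    (h.ψψ_ne (by rw [ha.1]; simp) hn') with c | c | c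
  · exact .inl (d6 0 (by rw [c]; simp))
  · exact .inr (.inl (d6 _ c))
  · exact .inr (.inr (d6 _ (by rw [c]; simp)))

end Hy

end Cfsg.Agent.H1.Sp4
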