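import Cfsg.Agent.H1.Sp4F

/-!
Finite subgroups of the four-dimensional symplectic group: inner products of roots.
-/

set_option autoImplicit false
set_option linter.unusedSectionVars false

namespace Cfsg.Agent.H1.Sp4

open Module QuadraticMap Matrix Spin5 H6 MulAction

variable {k : Type*} [Field k]

local notation "f" => sympForm 2 k
local notation "Q" => Q5 k
local notation "B" => polar (Q5 k)

/-- the centralizer of a vector -/
def Cw (w : Fin 5 → k) : Subgroup (GL I4 k) where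
  carrier := {g | g.1 * ψ w = ψ w * g.1}
  one_mem' := by simp
  mul_mem' {a b} ha hb := by
    change (a * b).1 * _ = _ * (a * b).1
    rw [Units.val_mul, mul_assoc, hb, ← mul_assoc, ha, mul_assoc]
  inv_mem' {a} ha := by
    change (a⁻¹).1 * _ = _ * (a⁻¹).1
    rw [Units.inv_mul_eq_iff_eq_mul, ← mul_assoc, ha, Units.mul_inv_cancel_right]

theorem mem_Cw {w : Fin 5 → k} {g : GL I4 k} : g ∈ Cw w ↔ g.1 * ψ w = ψ w * g.1 := Iff.rfl

theorem Cw_neg (w : Fin 5 → k) : Cw (-w) = Cw w := by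
  ext g; simp [mem_Cw]

theorem mem_Cw_of {w a b : Fin 5 → k} (ha : B a w = 0) (hb : B b w = 0) {g : GL I4 k}
    (e : g.1 = ψ a * ψ b) : g ∈ Cw w := by
  rw [mem_Cw, e, ← sub_eq_zero, ψ_comm, ha, hb]; simp

/-- the fixed space of a vector -/
def Vp (w : Fin 5 → k) : Submodule k (I4 → k) := LinearMap.ker (toLin' (ψ w - 1))

theorem mem_Vp {w : Fin 5 → k} {y : I4 → k} : y ∈ Vp w ↔ ψ w *ᵥ y = y := by
  rw [Vp, LinearMap.mem_ker, toLin'_apply, sub_mulVec, one_mulVec, sub_eq_zero]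

theorem finrank_Vp (h2 : (2 : k) ≠ 0) {w a : Fin 5 → k} (hw : Q w = 1) (ha : Q a = 1)
    (hB : B a w = 0) : finrank k (Vp w) = 2 := by
  have a1 := ψ_sq w
  have a2 := ψ_sq a
  have a3 := ψ_neg_swap hB
  rw [hw, one_smul] at a1
  rw [ha, one_smul] at a2
  refine finrank_ker a2 fun x => ⟨fun h => ⟨(-(2 : k)⁻¹) • ψ a *ᵥ x, ?_⟩, ?_⟩
  · have : ψ a * (ψ w - 1) * ψ a = -(ψ w - 1) - 1 - 1 := by
      linear_combination (norm := noncomm_ring) a3 * ψ a - ψ w * a2 - a2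
    rw [mulVec_smul, mulVec_mulVec, this, sub_mulVec, sub_mulVec, neg_mulVec, h, one_mulVec]
    match_scalars
    field_simp
    ring
  · rintro ⟨y, rfl⟩
    have : (ψ w - 1) * (ψ a * (ψ w - 1)) = 0 := by
      linear_combination (norm := noncomm_ring) ψ w * a3 - a1 * ψ a - a3 + a1 * ψ a - a1 * ψ a
    rw [mulVec_mulVec, this, zero_mulVec]

theorem Vp_inv {w : Fin 5 → k} {g : GL I4 k} (hg : g ∈ Cw w) {y : I4 → k} (hy : y ∈ Vp w) :
    g.1 *ᵥ y ∈ Vp w := by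
  rw [mem_Vp] at hy ⊢
  rw [mulVec_mulVec, ← hg, ← mulVec_mulVec, hy]

theorem exists_brW (h2 : (2 : k) ≠ 0) {w a : Fin 5 → k} (hw : Q w = 1) (ha : Q a = 1)
    (hB : B a w = 0) : Nonempty (Br rv (Cw w) (Vp w)) :=
  exists_brV _ _ (finrank_Vp h2 hw ha hB) fun _ hg _ hy => Vp_inv hg hy

theorem ext_Vp (h2 : (2 : k) ≠ 0) {w : Fin 5 → k} (hw : Q w = 1) {S T : Matrix I4 I4 k}
    (h1 : ∀ y ∈ Vp w, S *ᵥ y = T *ᵥ y) (h3 : ∀ y ∈ Vp (-w), S *ᵥ y = T *ᵥ y) : S = T := by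
  refine mat_ext fun x => smul_right_injective _ h2 ?_
  have a1 := h1 (x + ψ w *ᵥ x) (by
    rw [mem_Vp, mulVec_add, mulVec_mulVec, ψ_sq, hw, one_smul, one_mulVec, add_comm])
  have a2 := h3 (x - ψ w *ᵥ x) (by
    rw [mem_Vp, map_neg, neg_mulVec, mulVec_sub, mulVec_mulVec, ψ_sq, hw, one_smul, one_mulVec,
      neg_sub])
  rw [mulVec_add, mulVec_add] at a1
  rw [mulVec_sub, mulVec_sub] at a2
  linear_combination (norm := module) a1 + a2

theorem ψψ_quad {a b : Fin 5 → k} (ha : Q a = 1) (hb : Q b = 1) :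
    ψ a * ψ b * (ψ a * ψ b) = B a b • (ψ a * ψ b) - 1 := by
  rw [mul_assoc, ψ_swap' b a, mul_sub, ψ_sq', ψ_sq, ha, hb, B_comm]
  simp

theorem nofix (h2 : (2 : k) ≠ 0) {a b s : Fin 5 → k} (ha : Q a = 1) (hb : Q b = 1)
    (hc : B a b ^ 2 ≠ 4) (sa : B a s = 0) (sb : B b s = 0) (qs : Q s ≠ 0) {α β μ ν : k}
    {y : I4 → k} (h0 : y ≠ 0) (h1 : (ψ a * ψ b) *ᵥ y = μ • y)
    (h3 : (ψ a * ψ (α • a + β • b + s)) *ᵥ y = ν • y) : False := by
  set e := b - (B a b / 2) • a with he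
  have e1 : B a e = 0 := by rw [he, B_sub', B_smul', B_self, ha]; field_simp; ring
  have e2 : B e s = 0 := by rw [he, B_sub, B_smul, sa, sb]; ring
  have e3 : Q e ≠ 0 := by
    rw [he, Q_sub, Q_smul, B_smul', ha, hb, B_comm b a]
    intro e'
    field_simp at e'
    exact hc (by linear_combination -e')
  have a1 : (ψ a * ψ e) *ᵥ y = (μ - B a b / 2) • y := by
    rw [he, map_sub, map_smul, mul_sub, mul_smul_comm, ψ_sq, ha, sub_mulVec, h1, smul_mulVec]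
    simp [sub_smul]
  have a2 : (ψ a * ψ s) *ᵥ y = (ν - α - β * μ) • y := by
    simp only [map_add, map_smul, mul_add, mul_smul_comm, ψ_sq, ha, add_mulVec, smul_mulVec, h1,
      one_mulVec] at h3
    linear_combination (norm := module) h3
  generalize μ - B a b / 2 = m at a1
  generalize ν - α - β * μ = n at a2
  have key : ∀ (u v : Fin 5 → k) (m n : k), B a u = 0 → (ψ a * ψ u) *ᵥ y = m • y →
      (ψ a * ψ v) *ᵥ y = n • y → (ψ u * ψ v) *ᵥ y = -(m * n) • y := fun u v m n b1 b2 b3 => by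
    have : ψ u * ψ v = -(ψ a * ψ u * (ψ a * ψ v)) := by
      rw [ψ_neg_swap b1, neg_mul, neg_neg, mul_assoc, ψ_sq', ha, one_smul]
    rw [this, neg_mulVec, ← mulVec_mulVec, b3, mulVec_smul, b2]
    module
  have b1 := key e e m m e1 a1 a1
  have b2 := key s s n n sa a2 a2
  have b3 := key e s m n e1 a1 a2
  have b4 := key s e n m sa a2 a1
  rw [ψ_sq, smul_mulVec, one_mulVec] at b1 b2
  rw [ψ_neg_swap e2, neg_mulVec, b4] at b3
  have c1 := smul_left_injective k h0 b1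
  have c2 := smul_left_injective k h0 b2
  have c3 : (2 * (m * n)) • y = 0 := by linear_combination (norm := module) b3
  simp only [smul_eq_zero, h0, h2, or_false, false_or, mul_eq_zero] at c3
  rcases c3 with rfl | rfl
  · exact e3 (by simpa using c1)
  · exact qs (by simpa using c2)

/-- three roots in general position -/
structure Tri (P : Subgroup (GL I4 k)) (a b d s : Fin 5 → k) : Prop where
  ra : Rt P a
  rb : Rt P b
  rd : Rt P d
  c0 : B a b ≠ 0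
  c4 : B a b ^ 2 ≠ 4
  sa : B a s = 0
  sb : B b s = 0
  qs : Q s ≠ 0
  dec : ∃ α β : k, d = α • a + β • b + s
  mix : B a d ≠ 0 ∨ B b d ≠ 0

variable {p : ℕ} [Fact p.Prime] [CharP k p] {P : Subgroup (GL I4 k)} [IsAlgClosed k]

theorem Tri.nofix (h2 : (2 : k) ≠ 0) {a b d s : Fin 5 → k} (t : Tri P a b d s)
    {C : Subgroup (GL I4 k)} {Y : Submodule k (I4 → k)} (r : Br rv C Y) {g1 g2 : GL I4 k}
    (m1 : g1 ∈ C) (m2 : g2 ∈ C) (e1 : g1.1 = ψ a * ψ b) (e2 : g2.1 = ψ a * ψ d) (x : OnePoint k)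
    (x1 : r.π g1 • x = x) (x2 : r.π g2 • x = x) : False := by
  obtain ⟨y, hy, h0, rfl⟩ := r.surj x
  obtain ⟨μ, h1⟩ := (r.fix_iff m1 hy h0).1 x1
  obtain ⟨ν, h3⟩ := (r.fix_iff m2 hy h0).1 x2
  obtain ⟨α, β, rfl⟩ := t.dec
  rw [rv_apply, e1] at h1
  rw [rv_apply, e2] at h3
  exact Sp4.nofix h2 t.ra.1 t.rb.1 t.c4 t.sa t.sb t.qs h0 h1 h3

theorem Br.pow_root {C : Subgroup (GL I4 k)} {Y : Submodule k (I4 → k)} (r : Br rv C Y)
    {a b : Fin 5 → k} (ha : Q a = 1) (hb : Q b = 1) {g : GL I4 k} (hg : g ∈ C)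
    (e : g.1 = ψ a * ψ b) (h1 : r.π g ≠ 1) :
    (r.π g ^ 2 = 1 → B a b = 0) ∧ (r.π g ^ 3 = 1 → B a b ^ 2 = 1) ∧
      (r.π g ^ 4 = 1 → B a b = 0 ∨ B a b ^ 2 = 2) ∧
      (r.π g ^ 5 = 1 → B a b ^ 4 - 3 * B a b ^ 2 + 1 = 0) :=
  r.pow_cases hg h1 fun y _ => by
    rw [mulVec_mulVec, e, ψψ_quad ha hb, sub_mulVec, smul_mulVec, one_mulVec]

theorem Tri.np (hp : p ≠ 2) {a b d s : Fin 5 → k} (t : Tri P a b d s)
    {C : Subgroup (GL I4 k)} {Y : Submodule k (I4 → k)} (r : Br rv C Y) {X : Subgroup (GL I4 k)}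
    (hX : X ≤ C) {g1 g2 : GL I4 k} (m1 : g1 ∈ X) (m2 : g2 ∈ X) (e1 : g1.1 = ψ a * ψ b)
    (e2 : g2.1 = ψ a * ψ d) (x y : OnePoint k) : ∃ g : r.img X, g • x ≠ x ∧ g • x ≠ y := by
  by_contra! hh
  have key : ∀ u v, Q u = 1 → Q v = 1 → B u v ≠ 0 → ∀ g ∈ X, g.1 = ψ u * ψ v → r.π g • x = x :=
    fun u v hu hv hB g hg e => by
    by_contra h1
    have a1 : r.π g • x = y := hh ⟨_, r.π_mem hX hg⟩ h1
    have a2 : r.π g • y = x := by
      by_contra h3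
      have : r.π (g * g) • x = y := hh ⟨_, r.π_mem hX (mul_mem hg hg)⟩ (by
        change r.π (g * g) • x ≠ x
        rwa [r.mul _ (hX hg) _ (hX hg), mul_smul, a1])
      rw [r.mul _ (hX hg) _ (hX hg), mul_smul, ← a1, smul_left_cancel_iff] at this
      exact h1 this
    exact hB ((r.pow_root hu hv (hX hg) e fun e => h1 (by rw [e, one_smul])).1 (by
      rw [pow_two]; exact (Pg.mob p).sq_of_swap (fun e => h1 (a1.trans e.symm)) a1 a2))
  have b1 := key a b t.ra.1 t.rb.1 t.c0 g1 m1 e1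
  refine t.nofix (two_ne p hp) r (hX m1) (hX m2) e1 e2 x b1 ?_
  rcases t.mix with c | c
  · exact key a d t.ra.1 t.rd.1 c g2 m2 e2
  · have := key b d t.rb.1 t.rd.1 c _ (mul_mem (inv_mem m1) m2) (by
      rw [Units.val_mul, Units.inv_mul_eq_iff_eq_mul, e1, e2, mul_assoc, ψ_sq', t.rb.1, one_smul])
    rw [r.mul _ (hX (inv_mem m1)) _ (hX m2), r.inv (hX m1), mul_smul, inv_smul_eq_iff] at this
    exact this.trans b1

namespace Hy

variable (h : Hy p P)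
include h

theorem nd3 {a b s : Fin 5 → k} (ha : Rt P a) (hb : Rt P b) (c0 : B a b ≠ 0) (c4 : B a b ^ 2 ≠ 4)
    (sa : B a s = 0) (sb : B b s = 0) (qs : Q s = 0) {α β : k} (hd : Rt P (α • a + β • b + s)) :
    s = 0 := by
  by_contra h0
  obtain ⟨g, hg, e⟩ := ha.mul hb
  obtain ⟨q, δ, hδ, e'⟩ := hd
  have a0 : B (α • a + β • b) s = 0 := by rw [B_add, B_smul, B_smul, sa, sb]; simp
  rw [Q_add, qs, a0, add_zero, add_zero] at q
  rw [map_add] at e'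
  have a1 : g.1 * ψ (α • a + β • b) * g.1 = ψ (α • a + β • b) := by
    simp only [e, map_add, map_smul, mul_add, add_mul, mul_smul_comm, smul_mul_assoc, mul_assoc,
      ψ_sq', ψ_sq, ha.1, hb.1, one_smul, mul_one]
  have a2 : g.1 * ψ s = ψ s * g.1 := mem_Cw_of sa sb e
  have a3 := ψ_neg_swap a0
  have a4 := ψ_sq (α • a + β • b)
  have a5 := ψ_sq s
  have a6 := ψψ_quad ha.1 hb.1
  have a7 := g.inv_mul
  have a8 := g.mul_inv
  have a9 : ψ s ≠ 0 := fun e => h0 (ψ_inj e)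
  rw [q, one_smul] at a4
  rw [qs, zero_smul] at a5
  rw [← e] at a6
  generalize ψ (α • a + β • b) = D at *
  generalize ψ s = S at *
  generalize B a b = c at *
  have b0 : (1 - (g⁻¹).1 * (g⁻¹).1) * (1 - g.1 * g.1) = (4 - c ^ 2) • 1 := by
    have b1 : g.1 + (g⁻¹).1 = c • 1 := by
      have := congrArg (· * (g⁻¹).1) a6
      simp only [sub_mul, smul_mul_assoc, mul_assoc, a8, mul_one, one_mul] at this
      rw [this]; abel
    have b2 := congrArg₂ (· * ·) b1 b1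
    simp only [mul_smul_comm, mul_one, add_mul, mul_add, a7, a8] at b2
    simp only [mul_sub, sub_mul, mul_one, one_mul, mul_assoc, Units.inv_mul_cancel_left, a7]
    linear_combination (norm := module) -b2
  have b1 : ∀ N : Matrix I4 I4 k, (1 - g.1 * g.1) * N = 0 → N = 0 := fun N e => by
    have := congrArg ((1 - (g⁻¹).1 * (g⁻¹).1) * ·) e
    simp only [← mul_assoc, b0, mul_zero, smul_mul_assoc, one_mul, smul_eq_zero] at this
    exact this.resolve_left fun e => c4 (by linear_combination -e)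
  have b2 : ∀ N : Matrix I4 I4 k, g.1 * N = 0 → N = 0 := fun N e => by
    rw [← g.inv_mul_cancel_left N, e, mul_zero]
  obtain ⟨T, hT⟩ : ∃ T, T = (1 - g.1 * g.1) * D := ⟨_, rfl⟩
  have b3 : S * T = -(T * S) := by
    rw [hT]
    linear_combination (norm := noncomm_ring) a3 + a2 * g.1 * D + g.1 * a2 * D - g.1 * g.1 * a3
  have b4 : (g * δ * g * δ).1 = 1 + T * S := by
    simp only [Units.val_mul, e', hT]
    linear_combination (norm := noncomm_ring) a1 * (D + S) - g.1 * a2 * (D + S) + a4 +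
      g.1 * g.1 * a3 + g.1 * g.1 * a5
  have b5 : (g * (g * δ * g * δ) * g⁻¹).1 = 1 + g.1 * g.1 * (T * S) := by
    rw [Units.val_mul, Units.mul_inv_eq_iff_eq_mul, Units.val_mul, b4, hT]
    linear_combination (norm := noncomm_ring) -g.1 * (1 - g.1 * g.1) * a1 * S +
      g.1 * g.1 * (1 - g.1 * g.1) * D * a2
  have b6 : T * S * (T * S) = 0 := by
    linear_combination (norm := noncomm_ring) T * b3 * S - T * T * a5
  have b7 : T * S * (g.1 * g.1 * (T * S)) = 0 := by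
    linear_combination (norm := noncomm_ring) -T * a2 * g.1 * T * S - T * g.1 * a2 * T * S +
      T * g.1 * g.1 * b3 * S - T * g.1 * g.1 * T * a5
  have b8 : T * S ≠ 0 := fun e => a9 (by
    have := b1 (D * S) (by rw [← mul_assoc, ← hT, e])
    rw [← one_mul S, ← a4, mul_assoc, this, mul_zero])
  have m1 := mul_mem (mul_mem (mul_mem hg hδ) hg) hδ
  rcases h.short_tri m1 (mul_mem (mul_mem hg m1) (inv_mem hg)) b4 b5 b6
    (by rw [mul_assoc, b7, mul_zero]) (by rw [b7, mul_assoc _ (T * S), b6, mul_zero]) b8 with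
    c | c | c
  · exact b8 (b2 _ (b2 _ (by rw [← mul_assoc, c])))
  · exact b8 (b1 _ (by rw [sub_mul, c, one_mul, sub_self]))
  · rw [a6, sub_mul, one_mul, sub_eq_iff_eq_add, neg_add_cancel, smul_mul_assoc, smul_eq_zero] at c
    exact b8 (b2 _ (c.resolve_left c0))

theorem tri_of {a b d : Fin 5 → k} (ha : Rt P a) (hb : Rt P b) (hd : Rt P d) (c0 : B a b ≠ 0)
    (c4 : B a b ^ 2 ≠ 4) (d1 : d ∉ Submodule.span k {a, b}) (d2 : B a d ≠ 0 ∨ B b d ≠ 0) :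
    ∃ s, Tri P a b d s := by
  have c5 : 4 - B a b ^ 2 ≠ 0 := fun e => c4 (by linear_combination -e)
  set α := (2 * B a d - B a b * B b d) / (4 - B a b ^ 2) with hα
  set β := (2 * B b d - B a b * B a d) / (4 - B a b ^ 2) with hβ
  have e : d = α • a + β • b + (d - (α • a + β • b)) := by simp
  have s1 : B a (d - (α • a + β • b)) = 0 := by
    rw [B_sub', B_add', B_smul', B_smul', ha.B, hα, hβ]; field_simp; ring
  have s2 : B b (d - (α • a + β • b)) = 0 := by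
    rw [B_sub', B_add', B_smul', B_smul', hb.B, B_comm b a, hα, hβ]; field_simp; ring
  refine ⟨_, ha, hb, hd, c0, c4, s1, s2, fun q => d1 ?_, ⟨α, β, e⟩, d2⟩
  rw [sub_eq_zero.1 (h.nd3 ha hb c0 c4 s1 s2 q (e ▸ hd))]
  exact Submodule.mem_span_pair.2 ⟨_, _, rfl⟩

theorem exists_tri {a b : Fin 5 → k} (ha : Rt P a) (hb : Rt P b) (c0 : B a b ≠ 0)
    (c4 : B a b ^ 2 ≠ 4) : ∃ d s, Tri P a b d s := by
  obtain ⟨d, hd, d1, z, hz, d2⟩ := h.exists_mixed ha (Submodule.span k {a, b})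
    (Submodule.subset_span (by simp)) (by
      classical exact (finrank_span_le_card _).trans (by
        simpa using (Finset.card_le_two (a := a) (b := b)).trans (by norm_num : 2 ≤ 4)))
  refine ⟨d, h.tri_of ha hb hd c0 c4 d1 ?_⟩
  by_contra! hh
  obtain ⟨x, y, rfl⟩ := Submodule.mem_span_pair.1 hz
  exact d2 (by rw [B_add', B_smul', B_smul', B_comm d a, B_comm d b, hh.1, hh.2]; simp)

theorem small {w a : Fin 5 → k} (hw : Q w = 1) (ha : Q a = 1) (hB : B a w = 0)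
    (r : Br rv (Cw w) (Vp w)) {X : Subgroup (GL I4 k)} [Finite X] (hX : X ≤ Cw w)
    (hs : ∀ g ∈ X, g * g ∈ P) (x : OnePoint k) :
    Nat.card (((Pg.mob p).subgroup (r.img X)).P x) ≤ 3 := by
  have := h.fin
  have h2 := h.h2
  have := r.finite_img X
  by_contra! hh
  obtain ⟨⟨_, hγ⟩, hγ', -, -, h1, -⟩ := exists_two hh
  obtain ⟨g, hg, -, rfl⟩ := r.mem_img.1 hγ
  have a1 : r.π g ^ p = 1 := congrArg Subtype.val hγ'.2
  obtain ⟨t, n, hn⟩ := p_part p (hs g hg)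
  have a2 := mul_mem (hX hg) (hX hg)
  have a3 : r.π ((g * g) ^ (1 + p * t)) ≠ 1 := fun e => h1 (Subtype.ext (by
    rw [r.pow a2, r.mul _ (hX hg) _ (hX hg), ← pow_two, ← pow_mul, mul_add, pow_add,
      mul_left_comm, pow_mul _ p, a1, one_pow, mul_one, mul_one] at e
    obtain ⟨j, hj⟩ := (Fact.out : p.Prime).odd_of_ne_two h.two
    rw [hj, pow_succ, pow_mul, e, one_pow, one_mul] at a1
    exact a1))
  have a4 := pow_mem (hs g hg) (1 + p * t)
  have a5 := pow_mem a2 (1 + p * t)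
  generalize (g * g) ^ (1 + p * t) = u at *
  have a6 : ∀ w, Q w = 1 → B a w = 0 → u ∈ Cw w → ∀ y ∈ Vp w,
      ((u.1 - 1) * (u.1 - 1)) *ᵥ y = (0 : Matrix I4 I4 k) *ᵥ y := fun w b1 b2 b3 y hy => by
    rw [← mulVec_mulVec, zero_mulVec]
    exact sq_zero_of_nil (finrank_Vp h2 b1 ha b2) (fun y hy => by
      rw [sub_mulVec, one_mulVec]; exact sub_mem (Vp_inv b3 hy) hy) (h.nil hn) hy
  obtain ⟨hp, h9⟩ := (h.caseS u a4 (ext_Vp h2 hw (a6 w hw hB a5) (a6 _ (by rw [Q_neg, hw])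
    (by rw [B_neg', hB, neg_zero]) (by rwa [Cw_neg])))).resolve_left fun e => a3 (by rw [e, r.one])
  refine h9 ((nine_dvd _ hp hh).trans ?_)
  rw [← Subgroup.card_map_of_injective (r.img X).subtype_injective]
  refine (Subgroup.card_dvd_of_le ?_).trans ((r.card_img_dvd (X ⊓ P)).trans
    (Subgroup.card_dvd_of_le inf_le_right))
  rintro _ ⟨⟨_, hγ⟩, hγ', rfl⟩
  obtain ⟨g, hg, -, rfl⟩ := r.mem_img.1 hγ
  have b1 : r.π g ^ 3 = 1 := hp ▸ congrArg Subtype.val hγ'.2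
  refine r.mem_img.2 ⟨(g * g) ^ 2, pow_mem (Subgroup.mem_inf.2 ⟨mul_mem hg hg, hs g hg⟩) 2,
    pow_mem (mul_mem (hX hg) (hX hg)) 2, ?_⟩
  rw [r.pow (mul_mem (hX hg) (hX hg)), r.mul _ (hX hg) _ (hX hg), ← pow_two, ← pow_mul, pow_succ,
    b1, one_mul]
  rfl

theorem tri_pow {a b d s w : Fin 5 → k} (t : Tri P a b d s) (hw : Q w = 1) (hB : B a w = 0)
    (r : Br rv (Cw w) (Vp w)) {X : Subgroup (GL I4 k)} [Finite X] (hX : X ≤ Cw w)
    (hs : ∀ g ∈ X, g * g ∈ P) {g1 g2 : GL I4 k} (m1 : g1 ∈ X) (m2 : g2 ∈ X)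
    (e1 : g1.1 = ψ a * ψ b) (e2 : g2.1 = ψ a * ψ d) :
    B a b ^ 2 = 1 ∨ (B a b ^ 2 = 2 ∧ Nat.card (r.img X) = 24) ∨
      (B a b ^ 4 - 3 * B a b ^ 2 + 1 = 0 ∧ Nat.card (r.img X) = 60) := by
  have := r.finite_img X
  have a1 := r.pow_root t.ra.1 t.rb.1 (hX m1) e1 fun e => by
    obtain ⟨x, hx⟩ := (Pg.mob p).fix (r.π g2)
    exact t.nofix h.h2 r (hX m1) (hX m2) e1 e2 x (by rw [e, one_smul]) hx
  rcases exc_pow _ (t.np h.two r hX m1 m2 e1 e2) (h.small hw t.ra.1 hB r hX hs)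
    ⟨_, r.π_mem hX m1⟩ with c | c | c | c
  · exact (t.c0 (a1.1 (congrArg Subtype.val c))).elim
  · exact .inl (a1.2.1 (congrArg Subtype.val c))
  · exact .inr (.inl ⟨(a1.2.2.1 (congrArg Subtype.val c.1)).resolve_left t.c0, c.2⟩)
  · exact .inr (.inr ⟨a1.2.2.2 (congrArg Subtype.val c.1), c.2⟩)

theorem tri_unit {a b d s : Fin 5 → k} (t : Tri P a b d s) {u : Fin 5 → k} (hu : Q u ≠ 0 ∨ u = 0)
    (u1 : B a u = 0) (u2 : B b u = 0) (u3 : B s u = 0) :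
    ∃ w, Q w = 1 ∧ B a w = 0 ∧ B b w = 0 ∧ B s w = 0 ∧ B u w = 0 := by
  have h2 := h.h2
  obtain ⟨w, a1, a2, a3, a4, a5⟩ := exists_unit h2 (a := a) (b := b - (B a b / 2) • a) (c := s)
    (d := u) (by rw [t.ra.1]; simp) (by
      rw [Q_sub, Q_smul, B_smul', t.ra.1, t.rb.1, B_comm b a]
      intro e'
      field_simp at e'
      exact t.c4 (by linear_combination -e')) (.inl t.qs) hu
    (by rw [B_sub', B_smul', t.ra.B]; field_simp; ring) t.sa u1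
    (by rw [B_sub, B_smul, t.sa, t.sb]; ring) (by rw [B_sub, B_smul, u1, u2]; ring) u3
  exact ⟨w, a1, a2, by rwa [B_sub, B_smul, a2, mul_zero, sub_zero] at a3, a4, a5⟩

omit h in
theorem _root_.Cfsg.Agent.H1.Sp4.Tri.perp {a b d s w : Fin 5 → k} (t : Tri P a b d s)
    (w1 : B a w = 0) (w2 : B b w = 0) (w3 : B s w = 0) : B d w = 0 := by
  obtain ⟨α, β, rfl⟩ := t.dec
  rw [B_add, B_add, B_smul, B_smul, w1, w2, w3]; simp

theorem val_cases {a b : Fin 5 → k} (ha : Rt P a) (hb : Rt P b) :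
    B a b = 0 ∨ B a b ^ 2 = 4 ∨ B a b ^ 2 = 1 ∨ B a b ^ 2 = 2 ∨
      B a b ^ 4 - 3 * B a b ^ 2 + 1 = 0 := by
  refine or_iff_not_imp_left.2 fun c0 => or_iff_not_imp_left.2 fun c4 => ?_
  have := h.fin
  obtain ⟨d, s, t⟩ := h.exists_tri ha hb c0 c4
  obtain ⟨w, a1, a2, a3, a4, -⟩ := h.tri_unit t (.inr rfl) (B_zero' _) (B_zero' _) (B_zero' _)
  obtain ⟨r⟩ := exists_brW h.h2 a1 ha.1 a2
  obtain ⟨g1, m1, e1⟩ := ha.mul hb
  obtain ⟨g2, m2, e2⟩ := ha.mul t.rd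
  have := fin_of_le (inf_le_left : P ⊓ Cw w ≤ P)
  exact (h.tri_pow t a1 a2 r inf_le_right (fun g hg => mul_mem hg.1 hg.1)
    ⟨m1, mem_Cw_of a2 a3 e1⟩ ⟨m2, mem_Cw_of a2 (t.perp a2 a3 a4) e2⟩ e1 e2).imp_right
    (Or.imp And.left And.left)

omit h in
theorem s4_cube : ∀ x y : Equiv.Perm (Fin 4), x ^ 3 = 1 → y ^ 3 = 1 →
    (x⁻¹ * y) ^ 2 = 1 ∨ (x⁻¹ * y) ^ 3 = 1 := by decide +kernel

theorem tri_one {a b d s : Fin 5 → k} (t : Tri P a b d s) (h1 : B a b ^ 2 = 1)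
    (h3 : B a d ^ 2 = 1) : B b d = 0 ∨ B b d ^ 2 = 1 ∨ B b d ^ 4 - 3 * B b d ^ 2 + 1 = 0 := by
  have := h.fin
  obtain ⟨w, a1, a2, a3, a4, -⟩ := h.tri_unit t (.inr rfl) (B_zero' _) (B_zero' _) (B_zero' _)
  obtain ⟨r⟩ := exists_brW h.h2 a1 t.ra.1 a2
  obtain ⟨g1, m1, e1⟩ := t.ra.mul t.rb
  obtain ⟨g2, m2, e2⟩ := t.ra.mul t.rd
  have := fin_of_le (inf_le_left : P ⊓ Cw w ≤ P)
  have n1 := mem_Cw_of a2 a3 e1
  have n2 := mem_Cw_of a2 (t.perp a2 a3 a4) e2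
  have := r.finite_img (P ⊓ Cw w)
  have key : ∀ v, Q v = 1 → B a v ^ 2 = 1 → ∀ g ∈ Cw w, g.1 = ψ a * ψ v → r.π g ^ 3 = 1 :=
    fun v hv hB g hg e => by
    rw [← r.pow hg, r.eq_one_iff (pow_mem hg 3)]
    refine ⟨-B a v, fun y _ => ?_⟩
    have : (g ^ 3).1 = -B a v • 1 := by
      rw [pow_succ, pow_two, Units.val_mul, Units.val_mul, e, ψψ_quad t.ra.1 hv, sub_mul,
        smul_mul_assoc, ψψ_quad t.ra.1 hv, one_mul]
      linear_combination (norm := module) hB • (ψ a * ψ v)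
    rw [rv_apply, this, smul_mulVec, one_mulVec]
  have b1 := key b t.rb.1 h1 g1 n1 e1
  have b2 := key d t.rd.1 h3 g2 n2 e2
  have b3 := r.pow_root t.rb.1 t.rd.1 (mul_mem (inv_mem n1) n2) (by
    rw [Units.val_mul, Units.inv_mul_eq_iff_eq_mul, e1, e2, mul_assoc, ψ_sq', t.rb.1, one_smul])
    fun e => by
      obtain ⟨x, hx⟩ := (Pg.mob p).fix (r.π g2)
      rw [r.mul _ (inv_mem n1) _ n2, r.inv n1, inv_mul_eq_one] at e
      exact t.nofix h.h2 r n1 n2 e1 e2 x (by rwa [e]) hx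
  rw [r.mul _ (inv_mem n1) _ n2, r.inv n1] at b3
  let x : r.img (P ⊓ Cw w) := ⟨_, r.π_mem inf_le_right ⟨m1, n1⟩⟩
  let y : r.img (P ⊓ Cw w) := ⟨_, r.π_mem inf_le_right ⟨m2, n2⟩⟩
  have b4 : (x⁻¹ * y) ^ 2 = 1 ∨ (x⁻¹ * y) ^ 3 = 1 ∨ (x⁻¹ * y) ^ 5 = 1 := by
    rcases exc_of _ (t.np h.two r inf_le_right ⟨m1, n1⟩ ⟨m2, n2⟩ e1 e2) (h.small a1 t.ra.1 a2 r
      inf_le_right fun g hg => mul_mem hg.1 hg.1) with ⟨⟨e⟩⟩ | ⟨⟨e⟩⟩ | ⟨⟨e⟩⟩
    · rcases Pg.a4_pow (e (x⁻¹ * y)) with c | c <;> rw [← map_pow, map_eq_one_iff _ e.injective] at c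
      exacts [.inl c, .inr (.inl c)]
    · rcases s4_cube (e x) (e y) (by rw [← map_pow, show x ^ 3 = 1 from Subtype.ext b1, map_one])
        (by rw [← map_pow, show y ^ 3 = 1 from Subtype.ext b2, map_one]) with c | c <;>
        rw [← map_inv, ← map_mul, ← map_pow, map_eq_one_iff _ e.injective] at c
      exacts [.inl c, .inr (.inl c)]
    · rcases Pg.a5_pow (e (x⁻¹ * y)) with c | c | c <;>
        rw [← map_pow, map_eq_one_iff _ e.injective] at c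
      exacts [.inl c, .inr (.inl c), .inr (.inr c)]
  exact b4.imp (fun c => b3.1 (congrArg Subtype.val c)) (Or.imp
    (fun c => b3.2.1 (congrArg Subtype.val c)) fun c => b3.2.2.2 (congrArg Subtype.val c))

end Hy

end Cfsg.Agent.H1.Sp4
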