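import Cfsg.Agent.H1.Sp4G

/-!
Finite subgroups of the four-dimensional symplectic group: roots are not squares.
-/

set_option autoImplicit false
set_option linter.unusedSectionVars false

namespace Cfsg.Agent.H1.Sp4

open Module QuadraticMap Matrix Spin5 H6 MulAction

variable {k : Type*} [Field k]

local notation "f" => sympForm 2 k
local notation "Q" => Q5 k
local notation "B" => polar (Q5 k)

/-- roots which are squares -/
def Xs (P : Subgroup (GL I4 k)) (w : Fin 5 → k) : Prop := Rt P w ∧ ∃ x ∈ P, x.1 * x.1 = ψ w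

variable {p : ℕ} [Fact p.Prime] [CharP k p] {P : Subgroup (GL I4 k)} [IsAlgClosed k]

namespace Hy

variable (h : Hy p P)
include h

theorem xs_σ {w : Fin 5 → k} (hw : Xs P w) {g : GL I4 k} (hg : g ∈ P) : Xs P (σ g w) :=
  let ⟨x, hx, e⟩ := hw.2
  ⟨h.rt_σ hw.1 hg, _, mul_mem (mul_mem hg hx) (inv_mem hg), by
    rw [ψσ h.h2 (h.sp hg), ← e]
    simp only [Units.val_mul, mul_assoc, Units.inv_mul_cancel_left]⟩

theorem step {w v : Fin 5 → k} (hw : Xs P w) (hv : Rt P v) (h1 : v ≠ w) (h1' : v ≠ -w) :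
    ∃ x ∈ P, B w (σ x v) = B w v ∧ B v (σ x v) = B w v ^ 2 / 2 ∧ σ x v ≠ v ∧ σ x v ≠ -v ∧
      σ x w = w ∧ ∀ y, σ x (σ x y) = B w y • w - y := by
  have h2 := h.h2
  obtain ⟨x, hx, e⟩ := hw.2
  have a1 : σ x w = w := by rw [σ_eq_iff h2 (h.sp hx), ← e, mul_assoc]
  have a2 : ∀ y, σ x (σ x y) = B w y • w - y := fun y => by
    rw [← σ_mul h2 (h.sp hx) (h.sp hx), σ_root h2 (h.sp (mul_mem hx hx)) e hw.1.1]
  have a3 : B w (σ x v) = B w v := by rw [← B_σ h2 (h.sp hx) w v, a1]
  have a4 : ∀ ε : k, ε * ε = 1 → σ x v ≠ ε • v := fun ε hε e => by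
    have b1 := a2 v
    rw [e, map_smul, e, smul_smul, hε, one_smul] at b1
    have b2 : v = (B w v / 2) • w := smul_right_injective _ h2 (by
      simp only [smul_smul, mul_div_cancel₀ _ h2]
      linear_combination (norm := module) b1)
    have b3 := hv.1
    rw [b2, Q_smul, hw.1.1, mul_one, mul_self_eq_one_iff] at b3
    rcases b3 with c | c <;> rw [c] at b2
    · exact h1 (by rw [b2, one_smul])
    · exact h1' (by rw [b2, neg_one_smul])
  refine ⟨x, hx, a3, ?_, by simpa using a4 1 (by simp), by simpa using a4 (-1) (by simp), a1, a2⟩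
  have := B_σ h2 (h.sp hx) v (σ x v)
  rw [a2, B_sub', B_smul', B_comm _ w, a3, B_comm (σ x v) v] at this
  field_simp
  linear_combination -this

theorem test1 {w v : Fin 5 → k} (hw : Xs P w) (hv : Rt P v) (h1 : v ≠ w) (h1' : v ≠ -w)
    (hc : B w v ^ 2 = 1) : False := by
  have h2 := h.h2
  wlog hc' : B w v = -1 generalizing v
  · refine this (h.rt_neg hv) (fun e => h1' (by rw [← e, neg_neg])) (fun e => h1 (neg_inj.1 e))
      (by rw [B_neg', neg_sq, hc]) ?_
    rw [B_neg', (sq_eq_one_iff.1 hc).resolve_right hc']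
  obtain ⟨x, hx, a1, a2, a3, a4, a5, a6⟩ := h.step hw hv h1 h1'
  have hd := h.rt_σ hv hx
  rw [hc] at a2
  rw [hc'] at a1
  by_cases h3 : (3 : k) = 0
  · rcases h.tri hw.1 hv hd (by rw [hc']; linear_combination -h3) (by rw [a1]; linear_combination -h3)
      (by rw [a2]; field_simp; linear_combination -h3) h1 with e | e | e
    · rw [← a5] at e
      exact h1 (by rw [← σ_inv_σ h2 (h.sp hx) v, e, σ_inv_σ h2 (h.sp hx)])
    · exact a3 e
    · have b1 : σ x (v - w) = -(v - w) := by rw [map_sub, a5, e]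
      have b2 := a6 (v - w)
      rw [b1, map_neg, b1, neg_neg, B_sub', hc', hw.1.B, show (-1 - 2 : k) = 0 by
        linear_combination -h3, zero_smul, zero_sub] at b2
      have b3 : (2 : k) • (v - w) = 0 := by linear_combination (norm := module) b2
      exact h1 (sub_eq_zero.1 ((smul_eq_zero.1 b3).resolve_left h2))
  obtain ⟨s, t⟩ := h.tri_of hw.1 hv hd (by rw [hc']; simp)
    (by rw [hc]; exact fun e => h3 (by linear_combination -e)) (fun e => by
      obtain ⟨α, β, e⟩ := Submodule.mem_span_pair.1 e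
      have b1 := hd.1
      rw [← e] at a1 a2 b1
      simp only [B_add', B_smul', Q_add, Q_smul, B_smul, hw.1.B, hv.B, hw.1.1, hv.1, hc',
        B_comm v w] at a1 a2 b1
      have b2 : β = 0 := mul_left_cancel₀ h3 (by
        field_simp at a2
        linear_combination a1 + a2)
      rw [b2] at a1 b1
      exact h3 (by linear_combination -4 * b1 + (2 * α - 1) * a1)) (.inl (by rw [a1]; simp))
  rcases h.tri_one t hc (by rw [a1]; simp) with e | e | e <;> rw [a2] at e
  · simp [h2] at e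
  · field_simp at e
    exact h3 (by linear_combination -e)
  · field_simp at e
    refine h3 (h.four_three hv hd ?_ a3 a4)
    rw [a2]
    field_simp
    linear_combination -3 * e

theorem test2 {w v : Fin 5 → k} (hw : Xs P w) (hv : Xs P v) (h1 : v ≠ w) (h1' : v ≠ -w)
    (hc : B w v ^ 2 = 4 ∨ B w v ^ 2 = 1 ∨ B w v ^ 2 = 2) : False := by
  rcases hc with e | e | e
  · exact h.test1 hw hv.1 h1 h1' (by linear_combination e + h.four_three hw.1 hv.1 e h1 h1')
  · exact h.test1 hw hv.1 h1 h1' e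
  · obtain ⟨x, hx, -, a2, a3, a4, -⟩ := h.step hw hv.1 h1 h1'
    exact h.test1 hv (h.rt_σ hv.1 hx) a3 a4 (by rw [a2, e, div_self h.h2, one_pow])

theorem test {w : Fin 5 → k} (hw : Xs P w) : False := by
  have h2 := h.h2
  obtain ⟨v, hv, h1, h1', c0⟩ : ∃ v, Xs P v ∧ v ≠ w ∧ v ≠ -w ∧ B w v ≠ 0 := by
    by_contra! hh
    rcases h.irr_roots {v | Xs P v} (fun _ a => a.1) (fun g hg v a => h.xs_σ a hg) hw (k ∙ w)
      (fun v hv => by
        by_cases a : v = w
        · exact .inl (a ▸ Submodule.mem_span_singleton_self _)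
        by_cases b : v = -w
        · exact .inl (b ▸ neg_mem (Submodule.mem_span_singleton_self _))
        refine .inr fun z hz => ?_
        obtain ⟨c, rfl⟩ := Submodule.mem_span_singleton.1 hz
        rw [B_smul', B_comm, hh v hv a b, mul_zero]) with e | e
    · exact hw.1.ne (Submodule.span_singleton_eq_bot.1 e)
    · have := finrank_span_singleton (K := k) hw.1.ne
      rw [e] at this
      simp at this
  have g1 := ((h.val_cases hw.1 hv.1).resolve_left c0)
  rw [← or_assoc, ← or_assoc, or_assoc (a := _ = 4)] at g1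
  replace g1 := g1.resolve_left (h.test2 hw hv h1 h1')
  obtain ⟨x, hx, -, a2, a3, a4, -⟩ := h.step hw hv.1 h1 h1'
  have hu := h.xs_σ hv hx
  have g2 := ((h.val_cases hv.1 hu.1).resolve_left (by
    rw [a2]; exact div_ne_zero (pow_ne_zero _ c0) h2))
  rw [← or_assoc, ← or_assoc, or_assoc (a := _ = 4)] at g2
  replace g2 := g2.resolve_left (h.test2 hv hu a3 a4)
  obtain ⟨y, hy, -, b2, b3, b4, -⟩ := h.step hv hu.1 a3 a4
  rw [a2] at g2 b2
  field_simp at g2
  have g3 : 5 * (4 - 3 * B w v ^ 2) = 0 := by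
    linear_combination g2 - (B w v ^ 4 + 3 * B w v ^ 2 - 4) * g1
  rcases mul_eq_zero.1 g3 with e | e
  · refine h.test2 hw hv h1 h1' (.inl ?_)
    have : (B w v ^ 2 - 4) ^ 2 = 0 := by linear_combination g1 + (3 - B w v ^ 2) * e
    exact sub_eq_zero.1 (pow_eq_zero_iff two_ne_zero |>.1 this)
  · refine h.test1 hu (h.rt_σ hu.1 hy) b3 b4 ?_
    have e1 : B w v ^ 4 = 3 := by linear_combination g1 - e
    have e2 : (11 : k) = 0 := by linear_combination -9 * e1 - (4 + 3 * B w v ^ 2) * e
    rw [b2]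
    field_simp
    linear_combination (B w v ^ 4 + 3) * e1 - 5 * e2

end Hy

end Cfsg.Agent.H1.Sp4
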