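import Cfsg.Agent.H1.Sp4H

/-!
Finite subgroups of the four-dimensional symplectic group: the roots are simply laced.
-/

set_option autoImplicit false
set_option linter.unusedSectionVars false

namespace Cfsg.Agent.H1.Sp4

open Module QuadraticMap Matrix Spin5 H6 MulAction

variable {k : Type*} [Field k]

local notation "f" => sympForm 2 k
local notation "Q" => Q5 k
local notation "B" => polar (Q5 k)

/-- the unit given by a vector of norm one -/
def un {w : Fin 5 → k} (hw : Q w = 1) : GL I4 k :=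
  ⟨ψ w, ψ w, by rw [ψ_sq, hw, one_smul], by rw [ψ_sq, hw, one_smul]⟩

theorem un_mul {w : Fin 5 → k} (hw : Q w = 1) : un hw * un hw = 1 :=
  Units.ext (by change ψ w * ψ w = 1; rw [ψ_sq, hw, one_smul])

theorem six (h2 : (2 : k) ≠ 0) (v : Fin 6 → Fin 5 → k) (h : ∀ i j, i < j → B (v i) (v j) = 0)
    (h' : ∀ i, Q (v i) ≠ 0) : False := by
  have := (LinearMap.BilinForm.linearIndependent_of_iIsOrtho («B» := (Q).polarBilin) (v := v)
    (fun i j hij => (lt_or_gt_of_ne hij).elim (h i j) fun e => (B_comm _ _).trans (h j i e))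
    fun i => by
      change B _ _ ≠ 0
      rw [B_self]; exact mul_ne_zero h2 (h' i)).fintype_card_le_finrank
  simp at this

theorem sc_sq (h2 : (2 : k) ≠ 0) {w : Fin 5 → k} (hw : Q w = 1) (r : Br rv (Cw w) (Vp w))
    {g : GL I4 k} (hg : g ∈ spGL 2 k) {c : k} (hc : ∀ y ∈ Vp w, rv g y = c • y) :
    c = 1 ∨ c = -1 := by
  obtain ⟨y, hy, h0, -⟩ := r.surj OnePoint.infty
  obtain ⟨x, hx⟩ : ∃ x, f x y ≠ 0 := by
    by_contra! hh
    exact h0 (f_nd hh)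
  have a1 : x + ψ w *ᵥ x ∈ Vp w := by
    rw [mem_Vp, mulVec_add, mulVec_mulVec, ψ_sq, hw, one_smul, one_mulVec, add_comm]
  have a2 := mem_sp.1 hg (x + ψ w *ᵥ x) y
  rw [← rv_apply, ← rv_apply, hc _ a1, hc _ hy, f_smul, f_smul', f_add, ψ_sa, mem_Vp.1 hy] at a2
  exact mul_self_eq_one_iff.1 (mul_right_cancel₀ (mul_ne_zero h2 hx) (by linear_combination a2))

variable {p : ℕ} [Fact p.Prime] [CharP k p] {P : Subgroup (GL I4 k)} [IsAlgClosed k]

namespace Hy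

variable (h : Hy p P)
include h

theorem img_eq {a b d s w : Fin 5 → k} (t : Tri P a b d s) (hc : B a b ^ 2 ≠ 1) (hw : Q w = 1)
    (hB : B a w = 0) (r : Br rv (Cw w) (Vp w)) {X X' : Subgroup (GL I4 k)} [Finite X']
    (hle : X ≤ X') (hX : X' ≤ Cw w) (hs : ∀ g ∈ X', g * g ∈ P) {g1 g2 : GL I4 k} (m1 : g1 ∈ X)
    (m2 : g2 ∈ X) (e1 : g1.1 = ψ a * ψ b) (e2 : g2.1 = ψ a * ψ d) {g : GL I4 k} (hg : g ∈ X') :
    ∃ g' ∈ X, r.π (g'⁻¹ * g) = 1 := by
  have := fin_of_le hle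
  have := r.finite_img X'
  have a1 := (h.tri_pow t hw hB r (hle.trans hX) (fun g hg => hs g (hle hg)) m1 m2 e1
    e2).resolve_left hc
  have a2 := (h.tri_pow t hw hB r hX hs (hle m1) (hle m2) e1 e2).resolve_left hc
  have a3 : ¬ (B a b ^ 2 = 2 ∧ B a b ^ 4 - 3 * B a b ^ 2 + 1 = 0) := fun e =>
    one_ne_zero (α := k) (by linear_combination (B a b ^ 2 - 1) * e.1 - e.2)
  have a4 := Subgroup.eq_of_le_of_card_ge (r.img_mono hle) (by
    rcases a1 with a1 | a1 <;> rcases a2 with a2 | a2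
    exacts [by omega, (a3 ⟨a1.1, a2.1⟩).elim, (a3 ⟨a2.1, a1.1⟩).elim, by omega])
  obtain ⟨g', b1, b2, b3⟩ := r.mem_img.1 (a4.ge (r.π_mem hX hg))
  exact ⟨g', b1, by rw [r.mul _ (inv_mem b2) _ (hX hg), r.inv b2, b3, inv_mul_cancel]⟩

theorem exists_z {a b d s w1 w2 : Fin 5 → k} (t : Tri P a b d s) (hc : B a b ^ 2 ≠ 1)
    (q1 : Q w1 = 1) (q2 : Q w2 = 1) (a1 : B a w1 = 0) (b1 : B b w1 = 0) (s1 : B s w1 = 0)
    (a2 : B a w2 = 0) (b2 : B b w2 = 0) (s2 : B s w2 = 0) (q3 : B w1 w2 = 0) :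
    ∃ z ∈ P, ∃ c : k, c ≠ 0 ∧ c • z.1 = ψ w1 * ψ w2 := by
  have := h.fin
  have h2 := h.h2
  have hu := un_mul q2
  let X : Subgroup (GL I4 k) :=
    { carrier := {g | g ∈ Cw w1 ∧ ((g ∈ P ∧ g * un q2 = un q2 * g) ∨
        (un q2 * g ∈ P ∧ g * un q2 = -(un q2 * g)))}
      one_mem' := ⟨one_mem _, .inl ⟨one_mem _, by simp⟩⟩
      mul_mem' := fun {x y} hx hy => ⟨mul_mem hx.1 hy.1, by
        rcases hx.2 with ⟨x1, x2⟩ | ⟨x1, x2⟩ <;> rcases hy.2 with ⟨y1, y2⟩ | ⟨y1, y2⟩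
        · exact .inl ⟨mul_mem x1 y1, by rw [mul_assoc, y2, ← mul_assoc, x2, mul_assoc]⟩
        · exact .inr ⟨by rw [← mul_assoc, ← x2, mul_assoc]; exact mul_mem x1 y1,
            by rw [mul_assoc, y2, mul_neg, ← mul_assoc, x2, mul_assoc]⟩
        · exact .inr ⟨by rw [← mul_assoc]; exact mul_mem x1 y1,
            by rw [mul_assoc, y2, ← mul_assoc, x2, neg_mul, mul_assoc]⟩
        · refine .inl ⟨?_, by rw [mul_assoc, y2, mul_neg, ← mul_assoc, x2, neg_mul, neg_neg,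
            mul_assoc]⟩
          have := mul_mem h.neg (mul_mem x1 y1)
          rwa [mul_assoc (un q2), ← mul_assoc x, x2, neg_mul (un q2 * x), mul_neg, mul_neg,
            neg_one_mul, neg_neg, ← mul_assoc, ← mul_assoc, hu, one_mul] at this⟩
      inv_mem' := fun {x} hx => ⟨inv_mem hx.1, by
        rcases hx.2 with ⟨x1, x2⟩ | ⟨x1, x2⟩
        · exact .inl ⟨inv_mem x1, by
            rw [inv_mul_eq_iff_eq_mul, ← mul_assoc, x2, mul_inv_cancel_right]⟩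
        · have e : x⁻¹ * un q2 = -(un q2 * x⁻¹) := by
            rw [inv_mul_eq_iff_eq_mul, mul_neg, ← mul_assoc, x2, neg_mul, neg_neg,
              mul_inv_cancel_right]
          refine .inr ⟨?_, e⟩
          have := mul_mem h.neg (inv_mem x1)
          rwa [_root_.mul_inv_rev, ← eq_inv_of_mul_eq_one_left hu, e, neg_one_mul, neg_neg] at this⟩ }
  have : Finite X := ((Set.toFinite (P : Set (GL I4 k))).union
    ((Set.toFinite (P : Set (GL I4 k))).image (un q2 * ·))).subset fun g hg => hg.2.elim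
      (fun e => .inl e.1) fun e => .inr ⟨_, e.1, by simp only [← mul_assoc, hu, one_mul]⟩
  obtain ⟨r⟩ := exists_brW h2 q1 t.ra.1 a1
  obtain ⟨g1, m1, e1⟩ := t.ra.mul t.rb
  obtain ⟨g2, m2, e2⟩ := t.ra.mul t.rd
  obtain ⟨α, hα, e3⟩ := t.ra.2
  have c1 := ψ_neg_swap a1
  have c2 := ψ_neg_swap a2
  have c3 := ψ_neg_swap q3
  have c4 := ψ_sq a
  have c5 := ψ_sq w2
  rw [t.ra.1, one_smul] at c4
  rw [q2, one_smul] at c5
  have c6 : (un q2 * α).1 = ψ w2 * ψ a := by rw [Units.val_mul, e3]; rfl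
  obtain ⟨g, hg, e⟩ := h.img_eq t hc q1 a1 r (X := P ⊓ Cw w1 ⊓ Cw w2) (X' := X)
    (fun g hg => ⟨hg.1.2, .inl ⟨hg.1.1, Units.ext hg.2⟩⟩) (fun g hg => hg.1)
    (fun g hg => hg.2.elim (fun e => mul_mem e.1 e.1) fun e => by
      have := mul_mem h.neg (mul_mem e.1 e.1)
      rwa [mul_assoc (un q2), ← mul_assoc g, e.2, neg_mul (un q2 * g), mul_neg, mul_neg,
        neg_one_mul, neg_neg, ← mul_assoc, ← mul_assoc, hu, one_mul] at this)
    ⟨⟨m1, mem_Cw_of a1 b1 e1⟩, mem_Cw_of a2 b2 e1⟩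
    ⟨⟨m2, mem_Cw_of a1 (t.perp a1 b1 s1) e2⟩, mem_Cw_of a2 (t.perp a2 b2 s2) e2⟩ e1 e2
    (g := un q2 * α) ⟨mem_Cw_of (by rw [B_comm, q3]) a1 c6, .inr ⟨by
      rwa [← mul_assoc, hu, one_mul], Units.ext (by
        rw [Units.val_neg, Units.val_mul, Units.val_mul _ (un q2 * α), c6]
        change _ * ψ w2 = -(ψ w2 * _)
        rw [mul_assoc, c2, mul_neg])⟩⟩
  obtain ⟨c, hc⟩ := (r.eq_one_iff (mul_mem (inv_mem hg.1.2)
    (mem_Cw_of (by rw [B_comm, q3]) a1 c6))).1 e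
  have d1 : ∀ y ∈ Vp w1, (ψ w2 * ψ a) *ᵥ y = (c • g.1) *ᵥ y := fun y hy => by
    have := congrArg (g.1 *ᵥ ·) (hc y hy)
    simp only [rv_apply, Units.val_mul _ (un q2 * α), c6, mulVec_mulVec,
      Units.mul_inv_cancel_left, mulVec_smul] at this
    rw [this, smul_mulVec]
  have d2 : ψ w2 * ψ a * ψ w1 = c • g.1 := ext_Vp h2 q1 (fun y hy => by
    rw [← mulVec_mulVec, mem_Vp.1 hy, d1 y hy]) fun y hy => by
      rw [mem_Vp, map_neg, neg_mulVec, neg_eq_iff_eq_neg] at hy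
      have d3 := congrArg (ψ w2 *ᵥ ·) (d1 (ψ w2 *ᵥ y) (by
        rw [mem_Vp, mulVec_mulVec, c3, neg_mulVec, ← mulVec_mulVec, hy, mulVec_neg, neg_neg]))
      have d4 : ψ w2 * (c • g.1 * ψ w2) = c • g.1 := by
        rw [smul_mul_assoc, hg.2, mul_smul_comm, ← mul_assoc, c5, one_mul]
      have d5 : ψ w2 * (ψ w2 * ψ a * ψ w2) = -(ψ w2 * ψ a) := by
        rw [← mul_assoc, ← mul_assoc, c5, one_mul, c2]
      simp only [mulVec_mulVec, d4, d5] at d3
      rw [← d3, ← mulVec_mulVec, hy, mulVec_neg, neg_mulVec]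
  have d3 : c • (α * g).1 = ψ w1 * ψ w2 := by
    rw [Units.val_mul, ← mul_smul_comm, ← d2, e3]
    linear_combination (norm := noncomm_ring) c2 * ψ a * ψ w1 - ψ w2 * c4 * ψ w1 - c3
  refine ⟨_, mul_mem hα hg.1.1, c, ?_, d3⟩
  rintro rfl
  exact h.ψψ_ne (a := w1) (s := w2) (by rw [q1]; simp) (by rintro rfl; simp at q2)
    (by rw [← d3, zero_smul])

theorem sing_case {a b d s w1 w2 t0 u : Fin 5 → k} (t : Tri P a b d s) (hc : B a b ^ 2 ≠ 1)
    (q1 : Q w1 = 1) (q2 : Q w2 = 1) (a1 : B a w1 = 0) (b1 : B b w1 = 0) (s1 : B s w1 = 0)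
    (a2 : B a w2 = 0) (b2 : B b w2 = 0) (s2 : B s w2 = 0) (q3 : B w1 w2 = 0)
    (t1 : B w1 t0 = 0) (t2 : B w2 t0 = 0) {x y : k} (hu : u = x • w1 + y • w2) (u0 : u ≠ 0)
    (qu : Q u = 0) (hd : Rt P (t0 + u)) : False := by
  have h2 := h.h2
  obtain ⟨z, hz, c, c0, e⟩ := h.exists_z t hc q1 q2 a1 b1 s1 a2 b2 s2 q3
  have pu : ∀ v, B v w1 = 0 → B v w2 = 0 → B v u = 0 := fun v e1 e2 => by
    rw [hu, B_add', B_smul', B_smul', e1, e2]; simp
  have tu : B t0 u = 0 := pu t0 (by rw [B_comm, t1]) (by rw [B_comm, t2])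
  have z1 : σ z (t0 + u) = t0 - u := by
    rw [σ_eq_iff h2 (h.sp hz)]
    refine smul_right_injective _ c0 ?_
    have e1 := ψ_comm w1 w2 t0
    have c3 := ψ_neg_swap q3
    have c4 := ψ_sq w1
    have c5 := ψ_sq w2
    rw [t1, t2, zero_smul, zero_smul, sub_self, map_zero] at e1
    rw [q1, one_smul] at c4
    rw [q2, one_smul] at c5
    have e2 : ψ w1 * (ψ w1 * ψ w2) + ψ w1 * ψ w2 * ψ w1 = 0 := by
      linear_combination (norm := noncomm_ring) ψ w1 * c3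
    have e3 : ψ w2 * (ψ w1 * ψ w2) + ψ w1 * ψ w2 * ψ w2 = 0 := by
      linear_combination (norm := noncomm_ring) c3 * ψ w2
    change c • _ = c • _
    rw [← mul_smul_comm, ← smul_mul_assoc, e]
    simp only [hu, map_add, map_sub, map_smul, sub_mul, add_mul, mul_add, smul_mul_assoc,
      mul_smul_comm]
    linear_combination (norm := module) -e1 - x • e2 - y • e3
  have qt : Q t0 = 1 := by
    have := hd.1
    rwa [Q_add, qu, tu, add_zero, add_zero] at this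
  obtain ⟨n, hn, en⟩ := hd.mul (z1 ▸ h.rt_σ hd hz)
  have n1 : n.1 = 1 + ψ u * ψ (t0 + t0) := by
    have c3 := ψ_neg_swap tu
    have c4 := ψ_sq t0
    have c5 := ψ_sq u
    rw [qt, one_smul] at c4
    rw [qu, zero_smul] at c5
    rw [en, map_add, map_sub, map_add]
    linear_combination (norm := noncomm_ring) c4 - c5 - c3
  have n2 : B u (t0 + t0) = 0 := by rw [B_add', B_comm, tu, add_zero]
  have key : ∀ v v', Rt P v → Rt P v' → B v v' ≠ 0 → B v w1 = 0 → B v w2 = 0 → B v' w1 = 0 →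
      B v' w2 = 0 → B v' t0 • v = B v t0 • v' := fun v v' hv hv' c0 v1 v2 v3 v4 => by
    obtain ⟨g, hg, eg⟩ := hv.mul hv'
    have fx : ∀ w, B v w = 0 → B v' w = 0 → σ g w = w := fun w e1 e2 =>
      (σ_eq_iff h2 (h.sp hg)).2 (mem_Cw_of e1 e2 eg).symm
    have f1 := fx u (pu v v1 v2) (pu v' v3 v4)
    have f2 : (g * n * g⁻¹).1 = 1 + ψ u * ψ (σ g (t0 + t0)) := by
      rw [Units.val_mul, Units.val_mul, n1, mul_add, add_mul, ψψ_conj h2 (h.sp hg), f1]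
      simp
    have f3 : B u (σ g (t0 + t0)) = 0 := by rw [← B_σ h2 (h.sp hg) u, f1] at n2; exact n2
    have f4 : ∀ ε : k, ψ u * ψ (σ g (t0 + t0)) = ε • (ψ u * ψ (t0 + t0)) → σ g t0 = ε • t0 :=
      fun ε e => by
      obtain ⟨l, hl⟩ := prop_of_zero h2 u0 (b := σ g (t0 + t0) - ε • (t0 + t0)) (by
        rw [map_sub, mul_sub, e, map_smul, mul_smul_comm, sub_self])
      have g1 := congrArg (B w1) hl
      have g2 := congrArg (B w2) hl
      have g3 : B w1 (σ g t0) = 0 := by rw [← fx w1 v1 v3, B_σ h2 (h.sp hg), t1]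
      have g4 : B w2 (σ g t0) = 0 := by rw [← fx w2 v2 v4, B_σ h2 (h.sp hg), t2]
      simp only [hu, map_add, B_sub', B_add', B_smul', B_self, g3, g4, t1, t2, q1, q2, q3,
        B_comm w2 w1] at g1 g2
      have g5 : l • u = 0 := by
        rw [hu, smul_add, smul_smul, smul_smul, show l * x = 0 from
          mul_left_cancel₀ h2 (by linear_combination -g1), show l * y = 0 from
          mul_left_cancel₀ h2 (by linear_combination -g2)]
        simp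
      rw [g5, map_add] at hl
      exact smul_right_injective _ h2 (by linear_combination (norm := module) hl)
    have t0' : t0 ≠ 0 := by rintro rfl; simp at qt
    have f5 : σ g t0 = t0 := by
      rcases h.short_tri hn (mul_mem (mul_mem hg hn) (inv_mem hg)) n1 f2 (ψψ_sq qu n2)
        (ψψ_sq qu f3) (by rw [ψψ_mul qu n2, ψψ_mul qu f3]) (by
          rw [ψ_neg_swap n2, neg_ne_zero]
          exact h.ψψ_ne (by rw [Q_add, B_self, qt]; intro e; exact h2 (mul_left_cancel₀ h2 (by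
            linear_combination e))) u0) with c | c | c
      · exact (σ_ne h2 (h.sp hg) t0' (by rw [f4 0 (by rw [c, zero_smul]), zero_smul])).elim
      · rw [f4 1 (by rw [c, one_smul]), one_smul]
      · have g1 := ψσ' h2 (h.sp hg) t0
        rw [f4 (-1) (by rw [c, neg_one_smul]), neg_one_smul, map_neg] at g1
        have g2 := ψψ_quad hv.1 hv'.1
        rw [← eg] at g2
        have g3 : B v v' • (ψ t0 * g.1 - g.1 * ψ t0) = 0 := by
          have g4 := congrArg (ψ t0 * ·) g2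
          have g5 := congrArg (· * ψ t0) g2
          simp only [mul_sub, sub_mul, mul_smul_comm, smul_mul_assoc, mul_one, one_mul] at g4 g5
          have g6 : ψ t0 * (g.1 * g.1) = g.1 * g.1 * ψ t0 := by
            linear_combination (norm := noncomm_ring) -g1 * g.1 + g.1 * g1
          linear_combination (norm := module) g6 - g4 + g5
        exact (σ_eq_iff h2 (h.sp hg)).2 (sub_eq_zero.1 ((smul_eq_zero.1 g3).resolve_left c0))
    have := ψ_comm v v' t0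
    rw [← eg, ← (σ_eq_iff h2 (h.sp hg)).1 f5, sub_self] at this
    exact sub_eq_zero.1 (ψ_inj this.symm)
  have k1 := key a b t.ra t.rb t.c0 a1 a2 b1 b2
  have k2 := congrArg (B a) k1
  have k3 := congrArg (B b) k1
  simp only [B_smul', t.ra.B, t.rb.B, B_comm b a] at k2 k3
  have k4 : B a t0 = 0 := mul_left_cancel₀ (sub_ne_zero.2 t.c4) (by
    linear_combination -B a b * k2 + 2 * k3)
  have k5 : B b t0 = 0 := mul_left_cancel₀ h2 (by rw [k4] at k2; linear_combination k2)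
  have k6 : B d t0 = 0 := by
    rcases t.mix with c | c
    · have := key a d t.ra t.rd c a1 a2 (t.perp a1 b1 s1) (t.perp a2 b2 s2)
      rw [k4, zero_smul] at this
      exact (smul_eq_zero.1 this).resolve_right t.ra.ne
    · have := key b d t.rb t.rd c b1 b2 (t.perp a1 b1 s1) (t.perp a2 b2 s2)
      rw [k5, zero_smul] at this
      exact (smul_eq_zero.1 this).resolve_right t.rb.ne
  have k7 : B s t0 = 0 := by
    obtain ⟨α, β, rfl⟩ := t.dec
    rwa [B_add, B_add, B_smul, B_smul, k4, k5, mul_zero, mul_zero, zero_add, zero_add] at k6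
  refine six h2 ![a, b - (B a b / 2) • a, s, w1, w2, t0] (fun i j hij => ?_) fun i => ?_
  · have e1 : B a (b - (B a b / 2) • a) = 0 := by rw [B_sub', B_smul', t.ra.B]; field_simp; ring
    fin_cases i <;> fin_cases j <;> simp at hij <;>
      simp only [Fin.zero_eta, Fin.mk_one, Fin.reduceFinMk, cons_val, B_sub, B_smul, e1, t.sa,
        t.sb, a1, a2, b1, b2, s1, s2, q3, t1, t2, k4, k5, k7, mul_zero, sub_zero]
  · have e1 : Q (b - (B a b / 2) • a) ≠ 0 := by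
      rw [Q_sub, Q_smul, B_smul', t.ra.1, t.rb.1, B_comm b a]
      intro e'
      field_simp at e'
      exact t.c4 (by linear_combination -e')
    fin_cases i <;> simp [t.ra.1, e1, t.qs, q1, q2, qt]

theorem no_big {a b d s : Fin 5 → k} (t : Tri P a b d s) : B a b ^ 2 = 1 := by
  by_contra hc
  have := h.fin
  have h2 := h.h2
  obtain ⟨w1, q1, a1, b1, s1, -⟩ := h.tri_unit t (.inr rfl) (B_zero' _) (B_zero' _) (B_zero' _)
  obtain ⟨w2, q2, a2, b2, s2, q3⟩ := h.tri_unit t (.inl (by rw [q1]; simp)) a1 b1 s1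
  let Z : Submodule k (Fin 5 → k) :=
    LinearMap.ker ((Q).polarBilin w1) ⊓ LinearMap.ker ((Q).polarBilin w2)
  have hZ : ∀ x, x ∈ Z ↔ B w1 x = 0 ∧ B w2 x = 0 := fun x => Iff.rfl
  obtain ⟨d', hd, d1, z, hz, d2⟩ := h.exists_mixed t.ra Z
    ((hZ _).2 ⟨by rw [B_comm, a1], by rw [B_comm, a2]⟩) (by
      have := Submodule.finrank_lt (s := Z) fun e => h2 (by
        have := ((hZ w1).1 (e.ge Submodule.mem_top)).1
        rwa [B_self, q1, mul_one] at this)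
      simp at this
      omega)
  replace hz := (hZ z).1 hz
  obtain ⟨x, hx⟩ : ∃ x, x = B w1 d' / 2 := ⟨_, rfl⟩
  obtain ⟨y, hy⟩ : ∃ y, y = B w2 d' / 2 := ⟨_, rfl⟩
  obtain ⟨u, hu⟩ : ∃ u, u = x • w1 + y • w2 := ⟨_, rfl⟩
  obtain ⟨t0, rfl⟩ : ∃ t0, d' = t0 + u := ⟨d' - u, by simp⟩
  have t1 : B w1 t0 = 0 := by
    rw [B_add', hu, B_add', B_smul', B_smul', B_self, q1, q3] at hx
    field_simp at hx
    linear_combination -hx
  have t2 : B w2 t0 = 0 := by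
    rw [B_add', hu, B_add', B_smul', B_smul', B_self, q2, B_comm w2 w1, q3] at hy
    field_simp at hy
    linear_combination -hy
  have u0 : u ≠ 0 := fun e => d1 (by rw [e, add_zero]; exact ⟨t1, t2⟩)
  have qu : Q u ≠ 0 := fun e => h.sing_case t hc q1 q2 a1 b1 s1 a2 b2 s2 q3 t1 t2 hu u0 e hd
  have pu : ∀ v, B v w1 = 0 → B v w2 = 0 → B v u = 0 := fun v e1 e2 => by
    rw [hu, B_add', B_smul', B_smul', e1, e2]; simp
  obtain ⟨κ, hκ⟩ := IsAlgClosed.exists_eq_mul_self (Q u)⁻¹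
  obtain ⟨w, hw⟩ : ∃ w, w = κ • (y • w1 - x • w2) := ⟨_, rfl⟩
  have pw : ∀ v, B v w1 = 0 → B v w2 = 0 → B v w = 0 := fun v e1 e2 => by
    rw [hw, B_smul', B_sub', B_smul', B_smul', e1, e2]; simp
  have qw : Q w = 1 := by
    rw [hw, Q_smul, ← hκ, inv_mul_eq_one₀ qu, hu]
    simp only [Q_add, Q_sub, Q_smul, B_smul, B_smul', q1, q2, q3]
    ring
  have uw : B u w = 0 := by
    simp only [hu, hw, B_add, B_sub', B_smul, B_smul', B_self, q1, q2, q3, B_comm w2 w1]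
    ring
  have aw := pw a a1 a2
  have dw : B (t0 + u) w = 0 := by
    rw [B_add, uw, pw t0 (by rw [B_comm, t1]) (by rw [B_comm, t2]), add_zero]
  have cw : ∀ g, g ∈ Cw w1 → g ∈ Cw w2 → g ∈ Cw w ∧ g ∈ Cw u := fun g e1 e2 => by
    simp only [mem_Cw, hw, hu, map_smul, map_sub, map_add, mul_sub, sub_mul, mul_add, add_mul,
      mul_smul_comm, smul_mul_assoc, mem_Cw.1 e1, mem_Cw.1 e2, and_self]
  have qw' : Q (-w) = 1 := by rw [Q_neg, qw]
  obtain ⟨r⟩ := exists_brW h2 qw t.ra.1 aw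
  obtain ⟨r'⟩ := exists_brW h2 qw' t.ra.1 (by rw [B_neg', aw, neg_zero])
  obtain ⟨g1, m1, e1⟩ := t.ra.mul t.rb
  obtain ⟨g2, m2, e2⟩ := t.ra.mul t.rd
  obtain ⟨α, hα, e3⟩ := t.ra.2
  obtain ⟨δ, hδ, e4⟩ := hd.2
  have := fin_of_le (inf_le_left : P ⊓ Cw w ≤ P)
  have n1 : g1 ∈ P ⊓ Cw w1 ⊓ Cw w2 := ⟨⟨m1, mem_Cw_of a1 b1 e1⟩, mem_Cw_of a2 b2 e1⟩
  have n2 : g2 ∈ P ⊓ Cw w1 ⊓ Cw w2 :=
    ⟨⟨m2, mem_Cw_of a1 (t.perp a1 b1 s1) e2⟩, mem_Cw_of a2 (t.perp a2 b2 s2) e2⟩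
  have n3 : P ⊓ Cw w1 ⊓ Cw w2 ≤ P ⊓ Cw w := fun g hg => ⟨hg.1.1, (cw g hg.1.2 hg.2).1⟩
  have n4 : α * δ ∈ P ⊓ Cw w := ⟨mul_mem hα hδ, mem_Cw_of aw dw (by rw [Units.val_mul, e3, e4])⟩
  obtain ⟨g, hg, e⟩ := h.img_eq t hc qw aw r n3 inf_le_right (fun g hg => mul_mem hg.1 hg.1)
    n1 n2 e1 e2 n4
  have n5 := mul_mem (inv_mem (n3 hg)) n4
  have hX : P ⊓ Cw w ≤ Cw (-w) := by rw [Cw_neg]; exact inf_le_right
  have sc : ∀ n ∈ P ⊓ Cw w, ∀ l m : k, (∀ y ∈ Vp w, rv n y = l • y) →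
      (∀ y ∈ Vp (-w), rv n y = m • y) → n.1 = l • 1 ∨ n.1 = l • ψ w := fun n hn l m c1 c2 => by
    have c3 : m = l ∨ m = -l := by
      rcases sc_sq h2 qw r (h.sp hn.1) c1 with rfl | rfl <;>
        rcases sc_sq h2 qw' r' (h.sp hn.1) c2 with rfl | rfl <;> simp
    refine c3.imp (fun c => ext_Vp h2 qw (fun y hy => ?_) fun y hy => ?_)
      fun c => ext_Vp h2 qw (fun y hy => ?_) fun y hy => ?_
    · rw [← rv_apply, c1 y hy, smul_mulVec, one_mulVec]
    · rw [← rv_apply, c2 y hy, smul_mulVec, one_mulVec, c]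
    · rw [← rv_apply, c1 y hy, smul_mulVec, mem_Vp.1 hy]
    · rw [← rv_apply, c2 y hy, smul_mulVec, c]
      rw [mem_Vp, map_neg, neg_mulVec, neg_eq_iff_eq_neg] at hy
      rw [hy, smul_neg, neg_smul]
  have n6 : r'.π (g⁻¹ * (α * δ)) ≠ 1 := fun e' => by
    obtain ⟨l, c1⟩ := (r.eq_one_iff n5.2).1 e
    obtain ⟨m, c2⟩ := (r'.eq_one_iff (hX n5)).1 e'
    have zw : B z w = 0 := pw z (by rw [B_comm, hz.1]) (by rw [B_comm, hz.2])
    have zu : B z u = 0 := pu z (by rw [B_comm, hz.1]) (by rw [B_comm, hz.2])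
    have c3 : B u (σ (g⁻¹ * (α * δ)) z) = 0 := by
      rcases sc _ n5 l m c1 c2 with c | c
      · rw [(σ_eq_iff (y := z) h2 (h.sp n5.1)).2 (by rw [c]; simp), B_comm, zu]
      · rw [(σ_eq_iff (y := -z) h2 (h.sp n5.1)).2 (by
          rw [c, map_neg, mul_smul_comm, smul_mul_assoc, neg_mul, ← ψ_neg_swap (by
            rw [B_comm, zw])]), B_neg', B_comm, zu, neg_zero]
    have c4 : σ g u = u := (σ_eq_iff h2 (h.sp hg.1.1)).2 (cw g hg.1.2 hg.2).2.symm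
    rw [← B_σ h2 (h.sp hg.1.1), c4, ← σ_mul h2 (h.sp hg.1.1) (h.sp n5.1), mul_inv_cancel_left,
      σ_mul h2 (h.sp hα) (h.sp hδ), σ_root h2 (h.sp hα) e3 t.ra.1, σ_root h2 (h.sp hδ) e4 hd.1] at c3
    simp only [B_sub', B_smul', B_add', B_comm u a, pu a a1 a2, B_comm u z, zu, B_comm u t0,
      pu t0 (by rw [B_comm, t1]) (by rw [B_comm, t2]), B_self] at c3
    exact mul_ne_zero d2 (mul_ne_zero h2 qu) (by linear_combination -c3)
  have := r'.finite_img (P ⊓ Cw w)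
  let N := sub (P ⊓ Cw w) (fun n => r.π n = 1) r.one fun a ha b hb c1 c2 => by
    rw [r.mul _ ha.2 _ hb.2, c1, c2, one_mul]
  obtain ⟨⟨_, hγ⟩, c1, c2, c3⟩ := exists_invol ((Pg.mob p).subgroup (r'.img (P ⊓ Cw w)))
    (t.np h.two r' hX (n3 n1) (n3 n2) e1 e2) ((r'.img N).subgroupOf _) (by
      rintro ⟨_, hγ⟩ ⟨_, hγ'⟩ hn'
      obtain ⟨g, hg, -, rfl⟩ := r'.mem_img.1 hγ
      obtain ⟨n, hn, -, rfl⟩ := r'.mem_img.1 hn'
      have c := mul_mem (mul_mem hg hn.1) (inv_mem hg)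
      refine r'.mem_img.2 ⟨g * n * g⁻¹, ⟨c, ?_⟩, hX c, ?_⟩
      · change r.π _ = 1
        rw [r.mul _ (mul_mem hg.2 hn.1.2) _ (inv_mem hg.2), r.mul _ hg.2 _ hn.1.2, hn.2, mul_one,
          r.inv hg.2, mul_inv_cancel]
      · rw [r'.mul _ (hX (mul_mem hg hn.1)) _ (hX (inv_mem hg)), r'.mul _ (hX hg) _ (hX hn.1),
          r'.inv (hX hg)]
        rfl) (n := ⟨_, r'.π_mem hX n5⟩) (r'.mem_img.2 ⟨_, ⟨n5, e⟩, hX n5, rfl⟩)
    fun e => n6 (congrArg Subtype.val e)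
  obtain ⟨x, hx, -, rfl⟩ := r'.mem_img.1 c1
  have c4 : r'.π x ≠ 1 := fun e => c2 (Subtype.ext e)
  obtain ⟨l, c5⟩ := (r.eq_one_iff hx.1.2).1 hx.2
  obtain ⟨m, c6⟩ := (r'.eq_one_iff (hX (mul_mem hx.1 hx.1))).1 (by
    rw [r'.mul _ (hX hx.1) _ (hX hx.1)]; exact congrArg Subtype.val c3)
  have c7 : l * l = 1 := mul_self_eq_one_iff.2 (sc_sq h2 qw r (h.sp hx.1.1) c5)
  rcases sc _ (mul_mem hx.1 hx.1) 1 m (fun y hy => by
    rw [rv_apply, Units.val_mul, ← mulVec_mulVec, ← rv_apply x y, c5 y hy, mulVec_smul, ← rv_apply,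
      c5 y hy, smul_smul, c7]) c6 with c | c <;> rw [one_smul] at c
  · have c8 : ∀ l : k, (∀ y ∈ Vp (-w), x.1 *ᵥ y = l • y) → False := fun l e =>
      c4 ((r'.eq_one_iff (hX hx.1)).2 ⟨l, e⟩)
    obtain ⟨v, v1, v2⟩ := exists_root h2 (h.sp hx.1.1) (Units.ext c)
      (fun e => c8 1 fun y _ => by simp [e]) fun e => c8 (-1) fun y _ => by simp [e, neg_mulVec]
    obtain ⟨l, rfl⟩ := prop_of_sc h2 (a := w) (b := v) (by rintro rfl; simp at qw)
      (c := B w v / 2) (smul_right_injective _ h2 (by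
        have := ψ_anti w v
        rw [← v2, mem_Cw.1 hx.1.2] at this
        simp only [smul_smul, mul_div_cancel₀ _ h2, two_smul, ← v2, this]))
    refine c8 (-l) fun y hy => ?_
    rw [mem_Vp, map_neg, neg_mulVec, neg_eq_iff_eq_neg] at hy
    rw [v2, map_smul, smul_mulVec, hy, smul_neg, neg_smul]
  · exact h.test ⟨⟨qw, _, (mul_mem hx.1 hx.1).1, c⟩, x, hx.1.1, c⟩

theorem val_final {a b : Fin 5 → k} (ha : Rt P a) (hb : Rt P b) (h1 : b ≠ a) (h1' : b ≠ -a) :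
    B a b = 0 ∨ B a b = 1 ∨ B a b = -1 := by
  refine or_iff_not_imp_left.2 fun c0 => sq_eq_one_iff.1 ?_
  by_cases c4 : B a b ^ 2 = 4
  · linear_combination c4 + h.four_three ha hb c4 h1 h1'
  · obtain ⟨d, s, t⟩ := h.exists_tri ha hb c0 c4
    exact h.no_big t

end Hy

end Cfsg.Agent.H1.Sp4
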