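import Cfsg.Agent.H1.Sp4I

/-!
Finite subgroups of the four-dimensional symplectic group: there are no roots.
-/

set_option autoImplicit false
set_option linter.unusedSectionVars false

namespace Cfsg.Agent.H1.Sp4

open Module QuadraticMap Matrix Spin5 H6 MulAction

variable {k : Type*} [Field k]

local notation "f" => sympForm 2 k
local notation "Q" => Q5 k
local notation "B" => polar (Q5 k)

/-- simplices of roots -/
structure Sx (P : Subgroup (GL I4 k)) (I : Finset (Fin 5 → k)) : Prop where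
  zero : 0 ∈ I
  rt : ∀ i ∈ I, ∀ j ∈ I, i ≠ j → Rt P (i - j)
  nc : ∀ i ∈ I, ∀ j ∈ I, ∀ l ∈ I, j + l = i + i → j = i

variable {p : ℕ} [Fact p.Prime] [CharP k p] {P : Subgroup (GL I4 k)} [IsAlgClosed k]

theorem B_three {I : Finset (Fin 5 → k)} (hI : ∀ i ∈ I, ∀ j ∈ I, i ≠ j → Rt P (i - j))
    {i j l : Fin 5 → k} (hi : i ∈ I) (hj : j ∈ I) (hl : l ∈ I) (h1 : i ≠ j) (h2 : i ≠ l)
    (h3 : l ≠ j) : B (i - j) (i - l) = 1 := by
  have := (hI l hl j hj h3).1
  rw [show l - j = (i - j) - (i - l) by abel, Q_sub, (hI i hi j hj h1).1, (hI i hi l hl h2).1] at this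
  linear_combination -this

theorem B_four {I : Finset (Fin 5 → k)} (hI : ∀ i ∈ I, ∀ j ∈ I, i ≠ j → Rt P (i - j))
    {i j l m : Fin 5 → k} (hi : i ∈ I) (hj : j ∈ I) (hl : l ∈ I) (hm : m ∈ I) (h1 : i ≠ j)
    (h2 : i ≠ l) (h3 : l ≠ j) (h4 : i ≠ m) (h5 : m ≠ j) : B (i - j) (l - m) = 0 := by
  rw [show l - m = (i - m) - (i - l) by abel, B_sub', B_three hI hi hj hm h1 h4 h5,
    B_three hI hi hj hl h1 h2 h3, sub_self]

theorem refl_mem {I : Finset (Fin 5 → k)} (hI : ∀ i ∈ I, ∀ j ∈ I, i ≠ j → Rt P (i - j))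
    {i j : Fin 5 → k} (hi : i ∈ I) (hj : j ∈ I) (h1 : i ≠ j) :
    ∃ t, ∀ l ∈ I, l - B (i - j) l • (i - j) + t ∈ I := by
  refine ⟨(B (i - j) i - 1) • (i - j), fun l hl => ?_⟩
  have e : l - B (i - j) l • (i - j) + (B (i - j) i - 1) • (i - j) =
      l + (B (i - j) (i - l) - 1) • (i - j) := by rw [B_sub' i l]; module
  rw [e]
  by_cases a : i = l
  · subst a; simpa [B_zero'] using hj
  by_cases b : l = j
  · subst b
    rw [(hI i hi l hl h1).B, show (2 - 1 : k) = 1 by norm_num]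
    simpa using hi
  · simpa [B_three hI hi hj hl h1 a b] using hl

namespace Hy

variable (h : Hy p P)
include h

theorem no_D4 {a b c d : Fin 5 → k} (ha : Rt P a) (hb : Rt P b) (hc : Rt P c) (hd : Rt P d)
    (ab : B a b = 0) (ac : B a c = 0) (bc : B b c = 0) (ad : B a d = 1) (bd : B b d = 1)
    (cd : B c d = 1) : False := by
  have h2 := h.h2
  have r1 := h.rt_sub hc (h.rt_sub hb (h.rt_sub ha hd ad) (by rw [B_sub', bd, B_comm, ab, sub_zero]))
    (by rw [B_sub', B_sub', cd, B_comm c a, B_comm c b, ac, bc, sub_zero, sub_zero])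
  have r2 := h.rt_refl hd r1
  simp only [B_sub', hd.B, B_comm d a, B_comm d b, B_comm d c, ad, bd, cd] at r2
  obtain ⟨e, he⟩ : ∃ e, e = d - a - b - c - ((2 : k) - 1 - 1 - 1) • d := ⟨_, rfl⟩
  rw [← he] at r2
  have ae : B a e = 0 := by simp only [he, B_sub', B_smul', ha.B, ab, ac, ad]; ring
  have be : B b e = 0 := by simp only [he, B_sub', B_smul', hb.B, B_comm b a, ab, bc, bd]; ring
  have ce : B c e = 0 := by
    simp only [he, B_sub', B_smul', hc.B, B_comm c a, B_comm c b, ac, bc, cd]; ring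
  have r3 := h.rt_sub r2 (h.rt_sub hc hd cd) (by
    rw [B_sub', B_comm e c, ce]
    simp only [he, B_sub, B_smul, hd.B, ad, bd, cd]; ring)
  have e1 : (2 : k) • ψ d = ψ a + ψ b + ψ c + ψ e := by
    simp only [he, map_sub, map_smul]; module
  have e2 : (2 : k) • ψ (d - c - e) = ψ a + ψ b - ψ c - ψ e := by
    simp only [he, map_sub, map_smul]; module
  obtain ⟨g1, m1, f1⟩ := ha.mul hc
  obtain ⟨g2, m2, f2⟩ := r3.mul hd
  have s1 := fun {x y : Fin 5 → k} (e : B x y = 0) => ψ_neg_swap ((B_comm y x).trans e)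
  have s2 := fun {x y : Fin 5 → k} (e : B x y = 0) => ψ_neg_swap' ((B_comm y x).trans e)
  have e3 : (g1 * g2).1 * (g1 * g2).1 = ψ a * (ψ b * (ψ c * ψ e)) := by
    have e4 : ((2 : k) * 2) • (g1 * g2).1 = ψ a * ψ c * ((ψ a + ψ b - ψ c - ψ e) *
        (ψ a + ψ b + ψ c + ψ e)) := by
      rw [← e1, ← e2, Units.val_mul, f1, f2]
      simp only [smul_mul_assoc, mul_smul_comm, smul_smul]
    have h4 := mul_ne_zero h2 h2
    refine smul_right_injective _ (mul_ne_zero h4 h4) ?_
    change _ • _ = _ • _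
    rw [← smul_smul, ← mul_smul_comm, ← smul_mul_assoc, e4]
    simp only [mul_add, add_mul, mul_sub, sub_mul, mul_assoc, s1 ab, s1 ac, s1 ae, s1 bc, s1 be,
      s1 ce, s2 ab, s2 ac, s2 ae, s2 bc, s2 be, s2 ce, ψ_sq, ψ_sq', ha.1, hb.1, hc.1, r2.1, one_smul,
      mul_neg, neg_mul, neg_neg, mul_one, one_mul]
    module
  obtain ⟨w, hw⟩ := exists_ψ h2 (T := ψ a * (ψ b * (ψ c * ψ e))) (fun u v => by
    simp only [← mulVec_mulVec, ψ_sa]
    simp only [mulVec_mulVec, s1 ab, s2 ac, s2 ae, s2 be, s1 bc, s1 ce, mul_neg, neg_neg]) (by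
      have := trace_mul_comm (ψ a) (ψ b * (ψ c * ψ e))
      simp only [mul_assoc, s1 ae, s2 ab, s2 ac, mul_neg, neg_neg, trace_neg] at this
      exact mul_left_cancel₀ h2 (by linear_combination this))
  have qw : Q w = 1 := sub_eq_zero.1 (smul_one_eq_zero (by
    rw [sub_smul, ← ψ_sq, hw]
    simp only [mul_assoc, s2 ab, s2 ac, s2 ae, s2 bc, s2 be, s2 ce, ψ_sq, ψ_sq', ha.1, hb.1, hc.1,
      r2.1, one_smul, mul_neg, neg_neg, sub_self]))
  have m3 := mul_mem m1 m2
  exact h.test ⟨⟨qw, _, mul_mem m3 m3, e3.trans hw.symm⟩, _, m3, e3.trans hw.symm⟩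

theorem sx_ext {I : Finset (Fin 5 → k)} (hI : Sx P I) {v i0 : Fin 5 → k} (hv : Rt P v)
    (hn : ∀ i ∈ I, ∀ j ∈ I, v ≠ i - j) (h0 : i0 ∈ I) (h1 : ∀ j ∈ I, j ≠ i0 → B v (j - i0) = 1) :
    ∃ J, Sx P J ∧ I.card < J.card := by
  classical
  have h2 := h.h2
  have a1 : i0 + v ∉ I := fun e => hn _ e _ h0 (by simp)
  have a2 : ∀ j ∈ I, Rt P (i0 + v - j) := fun j hj => by
    by_cases e : j = i0
    · simpa [e] using hv
    · rw [show i0 + v - j = v - (j - i0) by abel]
      exact h.rt_sub (hI.rt j hj i0 h0 e) hv (by rw [B_comm, h1 j hj e])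
  have a3 : ∀ i ∈ insert (i0 + v) I, ∀ j ∈ insert (i0 + v) I, i ≠ j → Rt P (i - j) := by
    simp only [Finset.mem_insert]
    rintro i (rfl | hi) j (rfl | hj) e
    · exact (e rfl).elim
    · exact a2 j hj
    · exact neg_sub (i0 + v) i ▸ h.rt_neg (a2 i hi)
    · exact hI.rt i hi j hj e
  refine ⟨insert (i0 + v) I, ⟨Finset.mem_insert_of_mem hI.zero, a3, fun i hi j hj l hl e => ?_⟩,
    by rw [Finset.card_insert_of_notMem a1]; omega⟩
  by_contra b1
  have b2 : l ≠ i := fun e' => b1 (by rw [e'] at e; exact add_right_cancel e)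
  have b3 : j ≠ l := fun e' => b1 (smul_right_injective _ h2 (by
    simp only [two_smul]; rw [← e, e']))
  have h3 : (3 : k) = 0 := by
    have := (a3 j hj l hl b3).1
    rw [show j - l = (2 : k) • (j - i) by linear_combination (norm := module) -e, Q_smul,
      (a3 j hj i hi b1).1] at this
    linear_combination this
  have key : ∀ x ∈ I, ∀ y ∈ I, i0 + v + x + y ≠ 0 := fun x hx y hy e => by
    have c1 : v + (x - i0) + (y - i0) = 0 := by linear_combination (norm := module) e - h3 • i0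
    by_cases c2 : x = i0
    · exact hn i0 h0 y hy (by rw [c2] at c1; linear_combination (norm := module) c1)
    by_cases c3 : y = i0
    · exact hn i0 h0 x hx (by rw [c3] at c1; linear_combination (norm := module) c1)
    have := congrArg (B v) c1
    rw [B_add', B_add', hv.B, h1 x hx c2, h1 y hy c3, B_zero'] at this
    exact one_ne_zero (α := k) (by linear_combination this - h3)
  have b4 : i + j + l = 0 := by linear_combination (norm := module) e + h3 • i
  rw [Finset.mem_insert] at hi hj hl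
  rcases hi with rfl | hi
  · exact key j (hj.resolve_left b1) l (hl.resolve_left b2) b4
  rcases hj with rfl | hj
  · exact key i hi l (hl.resolve_left b3.symm) (by rw [← b4]; abel)
  rcases hl with rfl | hl
  · exact key i hi j hj (by rw [← b4]; abel)
  exact b1 (hI.nc i hi j hj l hl e)

theorem sx_diff {I : Finset (Fin 5 → k)} (hI : Sx P I) (hm : ∀ J, Sx P J → J.card ≤ I.card)
    {v : Fin 5 → k} (hv : Rt P v) (hn : ∀ i ∈ I, ∀ j ∈ I, v ≠ i - j) : ∀ i ∈ I, B v i = 0 := by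
  have a1 : ∀ i ∈ I, ∀ j ∈ I, B v i = B v j ∨ B v i = B v j + 1 ∨ B v j = B v i + 1 :=
    fun i hi j hj => by
    by_cases e : i = j
    · exact .inl (by rw [e])
    rcases h.val_final hv (hI.rt i hi j hj e) (hn i hi j hj).symm
      (fun e => hn j hj i hi (by rw [← neg_sub, e, neg_neg])) with c | c | c <;> rw [B_sub'] at c
    exacts [.inl (by linear_combination c), .inr (.inl (by linear_combination c)),
      .inr (.inr (by linear_combination -c))]
  by_contra! hh
  obtain ⟨i0, h0, i1, h1, e⟩ : ∃ i0 ∈ I, ∃ i1 ∈ I, B v i1 = B v i0 + 1 := by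
    obtain ⟨i, hi, c⟩ := hh
    rcases a1 i hi 0 hI.zero with e | e | e
    · exact (c (by rw [e, B_zero'])).elim
    · exact ⟨_, hI.zero, _, hi, e⟩
    · exact ⟨_, hi, _, hI.zero, e⟩
  have n1 : ∀ {x y}, B v x = B v i1 → B v y = B v i0 → x ≠ y := fun {x y} c1 c2 c3 =>
    one_ne_zero (α := k) (by rw [c3, c2, e] at c1; linear_combination -c1)
  have n2 := n1 rfl rfl
  have a2 : ∀ l ∈ I, B v l = B v i0 ∨ B v l = B v i1 := fun l hl => by
    by_contra! c
    have c1 : B v i0 = B v l + 1 := ((a1 l hl i0 h0).resolve_left c.1).resolve_left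
      fun e' => c.2 (e'.trans e.symm)
    have h3 : (3 : k) = 0 := by
      rcases (a1 l hl i1 h1).resolve_left c.2 with e' | e'
      · linear_combination -e' - e - c1
      · exact (one_ne_zero (α := k) (by linear_combination e' - e - c1)).elim
    have c2 : i0 ≠ l := fun e' => c.1 (by rw [e'])
    have c3 : l ≠ i1 := fun e' => c.2 (by rw [e'])
    rcases h.tri (hI.rt _ h1 _ h0 n2) (hI.rt _ h0 _ hl c2) (h.rt_neg hv) (by
      rw [← neg_sub, B_neg, B_three hI.rt h0 h1 hl n2.symm c2 c3]; linear_combination -h3)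
      (by rw [B_neg', B_comm, B_sub']; linear_combination -e - h3)
      (by rw [B_neg', B_comm, B_sub']; linear_combination -c1 - h3)
      (fun e' => n2 (hI.nc i0 h0 i1 h1 l hl (by linear_combination (norm := module) -e'))) with
      e' | e' | e'
    · exact hn i0 h0 i1 h1 (by linear_combination (norm := module) -e')
    · exact hn l hl i0 h0 (by linear_combination (norm := module) -e')
    · exact hn i1 h1 l hl (by linear_combination (norm := module) -e' + h3 • (i0 - i1))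
  obtain ⟨j0, m0, c0, d0⟩ : ∃ j ∈ I, j ≠ i0 ∧ B v j = B v i0 := by
    by_contra! c
    obtain ⟨J, hJ, lt⟩ := h.sx_ext hI hv hn h0 fun j hj c' => by
      rw [B_sub', (a2 j hj).resolve_left (c j hj c'), e]; ring
    exact (hm J hJ).not_gt lt
  obtain ⟨j1, m1, c1, d1⟩ : ∃ j ∈ I, j ≠ i1 ∧ B v j = B v i1 := by
    by_contra! c
    obtain ⟨J, hJ, lt⟩ := h.sx_ext hI (h.rt_neg hv)
      (fun i hi j hj e => hn j hj i hi (by rw [← neg_sub, ← e, neg_neg])) h1 fun j hj c' => by
      rw [B_neg, B_sub', (a2 j hj).resolve_right (c j hj c'), e]; ring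
    exact (hm J hJ).not_gt lt
  refine h.no_D4 hv (hI.rt _ h1 _ m1 c1.symm) (hI.rt _ m0 _ h0 c0) (hI.rt _ h1 _ h0 n2)
    (by rw [B_sub', d1, sub_self]) (by rw [B_sub', d0, sub_self])
    (B_four hI.rt h1 m1 m0 h0 c1.symm (n1 rfl d0) (n1 d1 d0).symm n2 (n1 d1 rfl).symm)
    (by rw [B_sub', e]; ring) (B_three hI.rt h1 m1 h0 c1.symm n2 (n1 d1 rfl).symm) ?_
  rw [← neg_sub i0, ← neg_sub i0, B_neg, B_neg', neg_neg,
    B_three hI.rt h0 m0 h1 c0.symm n2.symm (n1 rfl d0)]

theorem no_root {v : Fin 5 → k} (hv : Rt P v) : False := by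
  classical
  have := h.fin
  have h2 := h.h2
  have hR : {v | Rt P v}.Finite := by
    choose φ φ1 φ2 using fun v : {v | Rt P v} => v.2.2
    exact Finite.of_injective (fun v => (⟨φ v, φ1 v⟩ : P)) fun a b e => Subtype.ext
      (ψ_injective (by rw [← φ2, ← φ2, show φ a = φ b from congrArg Subtype.val e]))
  have hS : ∀ J, Sx P J → J ∈ (insert 0 hR.toFinset).powerset.filter (Sx P) := fun J hJ =>
    Finset.mem_filter.2 ⟨Finset.mem_powerset.2 fun i hi => Finset.mem_insert.2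
      (or_iff_not_imp_left.2 fun e => by simpa using hJ.rt i hi 0 hJ.zero e), hJ⟩
  obtain ⟨I, hI, hm⟩ := Finset.exists_max_image _ Finset.card
    ⟨_, hS {0} ⟨by simp, by simp, by simp⟩⟩
  replace hI := (Finset.mem_filter.1 hI).2
  replace hm : ∀ J, Sx P J → J.card ≤ I.card := fun J hJ => hm J (hS J hJ)
  have a1 : Submodule.span k (I : Set (Fin 5 → k)) = ⊤ := by
    refine (h.irr_roots {v | Rt P v} (fun _ a => a) (fun g hg v a => h.rt_σ a hg) hv _
      fun v hv => ?_).resolve_left fun e => ?_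
    · refine or_iff_not_imp_left.2 fun c z hz => ?_
      have := h.sx_diff hI hm hv fun i hi j hj e => c (e ▸ sub_mem (Submodule.subset_span hi)
        (Submodule.subset_span hj))
      induction hz using Submodule.span_induction with
      | mem y hy => exact this y hy
      | zero => exact B_zero' _
      | add y z _ _ a b => rw [B_add', a, b, add_zero]
      | smul c y _ a => rw [B_smul', a, mul_zero]
    · have c : ∀ i ∈ I, i = 0 := fun i hi => e.le (Submodule.subset_span hi)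
      obtain ⟨J, hJ, lt⟩ := h.sx_ext hI hv (fun i hi j hj e => hv.ne (by
        rw [e, c i hi, c j hj, sub_self])) hI.zero fun j hj e => (e (c j hj)).elim
      exact (hm J hJ).not_gt lt
  have a2 : ∀ v, Rt P v → ∃ t, ∀ l ∈ I, l - B v l • v + t ∈ I := fun v hv => by
    obtain ⟨i, hi, j, hj, rfl⟩ : ∃ i ∈ I, ∃ j ∈ I, v = i - j := by
      by_contra! c
      have := h.sx_diff hI hm hv c
      refine hv.ne (nd5 h2 v fun z => ?_)
      have hz : z ∈ Submodule.span k (I : Set (Fin 5 → k)) := a1.ge Submodule.mem_top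
      induction hz using Submodule.span_induction with
      | mem y hy => rw [B_comm]; exact this y hy
      | zero => exact B_zero _
      | add y z _ _ a b => rw [B_add, a, b, add_zero]
      | smul c y _ a => rw [B_smul, a, mul_zero]
    exact refl_mem hI.rt hi hj (sub_ne_zero.1 hv.ne)
  have a3 : 5 ≤ I.card := by
    have := finrank_span_finset_le_card (R := k) I
    rw [Set.finrank, a1] at this
    simpa using this
  have pick : ∀ x y z, ∃ i ∈ I, i ≠ x ∧ i ≠ y ∧ i ≠ z := fun x y z => by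
    obtain ⟨i, hi, c⟩ := Finset.exists_mem_notMem_of_card_lt_card (s := {x, y, z}) (t := I)
      (lt_of_le_of_lt Finset.card_le_three (by omega))
    exact ⟨i, hi, by simpa using c⟩
  obtain ⟨i, hi, i1, -⟩ := pick 0 0 0
  obtain ⟨j, hj, j1, j2, -⟩ := pick 0 i 0
  have ri : Rt P i := by simpa using hI.rt i hi 0 hI.zero i1
  have rj : Rt P j := by simpa using hI.rt j hj 0 hI.zero j1
  obtain ⟨g, hg, e⟩ := ri.mul rj
  have a4 : ∀ c : k, g.1 = c • 1 → j = c • i := fun c e' => ψ_injective (by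
    rw [map_smul, ← one_smul k (ψ j), ← ri.1, ← ψ_sq', ← e, e']; simp)
  have a5 := h.gen (sub P (fun g => ∃ t, ∀ l ∈ I, σ g l + t ∈ I) ⟨0, fun l hl => by simpa [σ_one]⟩
    fun a ha b hb ⟨t, ht⟩ ⟨t', ht'⟩ => ⟨σ a t' + t, fun l hl => by
      rw [σ_mul h2 (h.sp ha) (h.sp hb), ← add_assoc, ← map_add]; exact ht _ (ht' l hl)⟩)
    ⟨h.neg, 0, fun l hl => by simpa [σ_neg, σ_one]⟩ g hg
    (fun c => j2 (by rw [a4 1 (by simp [c]), one_smul]))
    (fun c => j1 (hI.nc 0 hI.zero j hj i hi (by rw [a4 (-1) (by simp [c])]; simp)))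
    fun x hx => ⟨mul_mem (mul_mem hx hg) (inv_mem hx), by
      have ra := h.rt_σ ri hx
      have rb := h.rt_σ rj hx
      obtain ⟨α, hα, e1⟩ := ra.2
      obtain ⟨β, hβ, e2⟩ := rb.2
      obtain ⟨t, ht⟩ := a2 _ ra
      obtain ⟨t', ht'⟩ := a2 _ rb
      rw [show x * g * x⁻¹ = α * β from Units.ext (by
        rw [Units.val_mul, Units.val_mul, e, ψψ_conj h2 (h.sp hx), Units.val_mul, e1, e2])]
      refine ⟨t - σ α t', fun l hl => ?_⟩
      convert ht _ (ht' l hl) using 1
      simp only [σ_mul h2 (h.sp hα) (h.sp hβ), σ_root h2 (h.sp hα) e1 ra.1,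
        σ_root h2 (h.sp hβ) e2 rb.1, B_sub', B_add', B_smul']
      module⟩
  obtain ⟨α, hα, e1⟩ := hv.2
  obtain ⟨t, ht⟩ := (a5 hα).2
  obtain ⟨t', ht'⟩ := a2 v hv
  have a6 : ∀ l ∈ I, (t + σ α t') - l ∈ I := fun l hl => by
    convert ht _ (ht' l hl) using 1
    simp only [σ_root h2 (h.sp hα) e1 hv.1, B_sub', B_add', B_smul', hv.B]
    module
  generalize t + σ α t' = u at a6
  have a7 : ∀ x, x ≠ (2 : k)⁻¹ • u → x ≠ u - x := fun x c e => c (by
    rw [eq_inv_smul_iff₀ h2, two_smul]; exact eq_sub_iff_add_eq.1 e)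
  obtain ⟨x, hx, x1, -⟩ := pick ((2 : k)⁻¹ • u) 0 0
  obtain ⟨y, hy, y1, y2, y3⟩ := pick ((2 : k)⁻¹ • u) x (u - x)
  have := B_four hI.rt hx hy (a6 y hy) (a6 x hx) y2.symm (fun e => y3 (by rw [e]; simp))
    (a7 y y1).symm (a7 x x1) y3.symm
  rw [sub_sub_sub_cancel_left, (hI.rt x hx y hy y2.symm).B] at this
  exact h2 this

theorem caseA : ∀ g ∈ P, g * g = 1 → g = 1 ∨ g = -1 := fun g hg e => by
  by_contra! c
  obtain ⟨v, a, b⟩ := exists_root h.h2 (h.sp hg) e c.1 c.2
  exact h.no_root ⟨a, g, hg, b⟩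

end Hy

theorem caseA (h : Hyp p P) : ∀ g ∈ P, g * g = 1 → g = 1 ∨ g = -1 := h.hy.caseA

end Cfsg.Agent.H1.Sp4
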