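import Cfsg.Agent.H1.Sp4J
import Cfsg.Agent.O5.Basic

/-!
The results on short root elements and involutions of type A in the orthogonal model.
-/

set_option autoImplicit false
set_option linter.unusedSectionVars false

namespace Cfsg.Agent.H1.Sp4

open Module QuadraticMap Matrix Spin5 _root_.Cfsg.Agent.O5

variable {k : Type*} [Field k]

local notation "f" => sympForm 2 k

/-- the preimage in the symplectic group -/
def pre (G : Subgroup (GW k)) : Subgroup (GL I4 k) where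
  carrier := {A | ∃ g ∈ G, Lf A g}
  one_mem' := ⟨1, one_mem _, Lf.one⟩
  mul_mem' := fun ⟨_, a, b⟩ ⟨_, a', b'⟩ => ⟨_, mul_mem a a', b.mul b'⟩
  inv_mem' := fun ⟨_, a, b⟩ => ⟨_, inv_mem a, b.inv⟩

theorem lf_iff (h2 : (2 : k) ≠ 0) {A : GL I4 k} (hA : A ∈ spGL 2 k) {g : GW k} :
    Lf A g ↔ ∀ x, σ A x = g x :=
  ⟨fun h x => (σ_eq_iff h2 hA).2 (h.2 x), fun h => ⟨hA, fun x => (σ_eq_iff h2 hA).1 (h x)⟩⟩

theorem σ_sg (h2 : (2 : k) ≠ 0) {A : GL I4 k} (hA : A ∈ spGL 2 k) {s m : W k} (hs : Q s = 0)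
    (hm : B m s = 0) (e : A.1 = 1 + ψ s * ψ (-m)) (x : W k) : σ A x = sg s m x := by
  rw [σ_eich h2 hA hs (by rw [B_neg', B_comm, ← B_def, hm, neg_zero]) e, sg, B_neg, Q_neg,
    B_def, B_def, B_comm x s, B_comm x m]
  change _ = x + _ • m - (_ + Q5 k m * _) • s
  module

theorem transv {A : GL I4 k} (h2 : (2 : k) ≠ 0) (hA : A ∈ spGL 2 k) {v : I4 → k} (h0 : v ≠ 0)
    (h : ∀ x, ∃ c : k, A.1 *ᵥ x = x + c • v) :
    ∃ s m : W k, Q s = 0 ∧ B m s = 0 ∧ Q m = 0 ∧ A.1 = 1 + ψ s * ψ (-m) := by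
  have ex : ∀ v : I4 → k, v ≠ 0 → ∀ c : k, ∃ x, f x v = c := fun v h0 c => by
    obtain ⟨x, hx⟩ : ∃ x, f x v ≠ 0 := by
      by_contra! hh
      exact h0 (f_nd hh)
    exact ⟨(c / f x v) • x, by rw [f_smul]; field_simp⟩
  obtain ⟨x0, hx⟩ := ex v h0 1
  obtain ⟨l, hl⟩ := h x0
  have a1 : ∀ y, A.1 *ᵥ y = y + (l * f y v) • v := fun y => by
    obtain ⟨c, hc⟩ := h y
    have := mem_sp.1 hA x0 y
    rw [hl, hc, f_add, f_add', f_add', f_smul, f_smul, f_smul', f_smul', f_self, hx,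
      f_skew v y] at this
    rw [hc, show c = l * f y v by linear_combination this]
  obtain ⟨a, ha, a0⟩ := (Submodule.ne_bot_iff _).1 (LinearMap.ker_ne_bot_of_finrank_lt
    («f» := (LinearMap.pi fun i => toLin' (Matrix.of fun (_ : Unit) => J (Fin 2) k *ᵥ ![v, x0] i)))
    (by simp [Module.finrank_pi_fintype]))
  have a2 : f a v = 0 := by
    have := congrFun (congrFun ha 0) ()
    rw [sympForm, dotProduct_comm]; exact this
  have a3 : f a x0 = 0 := by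
    have := congrFun (congrFun ha 1) ()
    rw [sympForm, dotProduct_comm]; exact this
  obtain ⟨y, hy⟩ := ex a a0 l
  have a4 : f v a = 0 := by rw [f_skew, a2, neg_zero]
  have a5 : f v (y - f y v • x0) = 0 := by rw [f_skew, f_sub, f_smul, hx]; simp
  have a6 : f a (y - f y v • x0) = -l := by rw [f_sub', f_smul', a3, f_skew, hy]; simp
  obtain ⟨s, hs⟩ := exists_br h2 a4
  obtain ⟨m, hm⟩ := exists_br h2 a5
  generalize y - f y v • x0 = b at *
  have e : ∀ a b, f v a = 0 → f v b = 0 → ∀ x, (br v a * br v b) *ᵥ x = (f a b * f x v) • v :=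
    fun a b h1 h3 x => by
      simp only [← mulVec_mulVec, br_mulVec, f_sub, f_smul, f_self, f_skew b v, f_skew b a, h1, h3]
      module
  refine ⟨s, m, smul_one_eq_zero ?_, smul_one_eq_zero ?_, smul_one_eq_zero ?_, mat_ext fun x => ?_⟩
  · rw [← ψ_mul_self, hs]; exact mat_ext fun x => by simp [e a a a4 a4, f_self]
  · rw [← ψ_add_swap, hs, hm]
    exact mat_ext fun x => by simp [add_mulVec, e a b a4 a5, e b a a5 a4, f_skew b a]
  · rw [← ψ_mul_self, hm]; exact mat_ext fun x => by simp [e b b a5 a5, f_self]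
  · rw [a1, map_neg, mul_neg, add_mulVec, neg_mulVec, hs, hm, e a b a4 a5, a6]
    simp

variable {p : ℕ} {G : Subgroup (GW k)}

theorem hy_pre (h : St p G) (hL : ¬ HasLong G) : Hy p (pre G) where
  two := h.ne2
  fin := by
    have := h.fin
    choose φ hφ using fun g : G => h.lift g.2
    exact ((Set.finite_range φ).union (Set.finite_range fun g => -φ g)).subset
      fun A ⟨g, a, b⟩ => ((hφ ⟨g, a⟩).eq_or h.two b).imp (fun e => ⟨_, e.symm⟩) fun e => ⟨_, e.symm⟩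
  sp := fun _ ⟨_, _, b⟩ => b.1
  neg := ⟨1, one_mem _, Lf.one.neg⟩
  gen := fun S hS t ⟨τ, hτ, lt⟩ h1 h1' hc A ⟨g, hg, lg⟩ => by
    let T : Subgroup (GW k) :=
      { carrier := {g | ∃ A ∈ S, Lf A g}
        one_mem' := ⟨1, one_mem _, Lf.one⟩
        mul_mem' := fun ⟨g, a, b⟩ ⟨g', a', b'⟩ => ⟨_, mul_mem a a', b.mul b'⟩
        inv_mem' := fun ⟨g, a, b⟩ => ⟨_, inv_mem a, b.inv⟩ }
    have a1 := h.gen (S := {x | ∃ y ∈ G, x = y * τ * y⁻¹})
      (by rintro _ ⟨y, hy, rfl⟩; exact mul_mem (mul_mem hy hτ) (inv_mem hy))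
      (by rintro y hy _ ⟨z, hz, rfl⟩; exact ⟨_, mul_mem hy hz, by group⟩)
      (s := τ) ⟨1, one_mem _, by simp⟩ (by rintro rfl; exact (lt.of_one h.two).elim h1 h1')
    obtain ⟨A', a, b⟩ : g ∈ T := (a1.ge.trans ((Subgroup.closure_le T).2 (by
      rintro _ ⟨y, hy, rfl⟩
      obtain ⟨Y, hY⟩ := h.lift hy
      exact ⟨_, hc Y ⟨y, hy, hY⟩, (hY.mul lt).mul hY.inv⟩))) hg
    rcases b.eq_or h.two lg with rfl | rfl
    · exact a
    · simpa using mul_mem hS a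
  irr := fun Z hZ => h.irr Z fun g hg x hx => by
    obtain ⟨A, hA⟩ := h.lift hg
    exact (lf_iff h.two hA.1).1 hA x ▸ hZ A ⟨g, hg, hA⟩ x hx
  nolong := fun A ⟨g, hg, lg⟩ v hv => by
    by_cases h0 : v = 0
    · exact Units.ext (mat_ext fun x => by obtain ⟨c, hc⟩ := hv x; simp [hc, h0])
    obtain ⟨s, m, a1, a2, a3, e⟩ := transv h.two lg.1 h0 hv
    have : g = 1 := by
      by_contra c
      exact hL ⟨g, hg, c, s, m, ⟨a1, a2, fun x => by
        rw [← (lf_iff h.two lg.1).1 lg, σ_sg h.two lg.1 a1 a2 e]⟩, a3⟩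
    subst this
    refine (lg.of_one h.two).resolve_right ?_
    rintro rfl
    have b1 := ψψ_sq (m := -m) a1 (by rw [B_neg', B_comm, ← B_def, a2, neg_zero])
    have b2 : ψ s * ψ (-m) = (-2 : k) • 1 := by
      rw [Units.val_neg, Units.val_one] at e
      linear_combination (norm := module) -e
    rw [b2, smul_mul_assoc, one_mul, smul_smul] at b1
    exact h.two (mul_self_eq_zero.1 (by linear_combination smul_one_eq_zero b1))

theorem card_dvd_pre (h : St p G) : Nat.card G ∣ Nat.card (pre G) := by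
  choose φ φ1 φ2 using fun A : pre G => A.2
  refine Subgroup.card_dvd_of_surjective (MonoidHom.mk' (fun A => (⟨φ A, φ1 A⟩ : G)) fun A A' =>
    Subtype.ext ((φ2 _).unique ((φ2 A).mul (φ2 A')))) fun g => ?_
  obtain ⟨A, hA⟩ := h.lift g.2
  exact ⟨⟨A, g, g.2, hA⟩, Subtype.ext ((φ2 _).unique hA)⟩

end Cfsg.Agent.H1.Sp4

namespace Cfsg.Agent.O5

open Matrix H1.Spin5 H1.Sp4

variable {k : Type*} [Field k] [IsAlgClosed k] {p : ℕ} {G : Subgroup (GW k)}

theorem caseS (h : St p G) (hL : ¬ HasLong G) (hs : HasShort G) : p = 3 ∧ ¬ 9 ∣ Nat.card G := by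
  have := h.char
  have := Fact.mk h.prime
  have H := hy_pre h hL
  obtain ⟨g, hg, s, m, s0, ⟨a1, a2, a3⟩, a4⟩ := hs
  have e : (lift a1 a2).1 = 1 + ψ s * ψ (-m) := by simp [lift, sub_eq_add_neg]
  have a6 : QuadraticMap.polar (Q5 k) s (-m) = 0 := by
    rw [B_neg', H1.Sp4.B_comm, ← B_def, a2, neg_zero]
  refine ((H.three (g := lift a1 a2) ⟨g, hg, (lf_iff h.two (lift_mem a1 a2)).2 fun x => by
    rw [σ_sg h.two (lift_mem a1 a2) a1 a2 e, a3]⟩ e (ψψ_sq a1 a6) ?_).2).imp_right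
    fun c d => c (d.trans (card_dvd_pre h))
  rw [ψ_neg_swap a6, neg_ne_zero]
  exact H.ψψ_ne (by rwa [H1.Sp4.Q_neg]) s0

theorem caseA' (h : St p G) (hL : ¬ HasLong G) : ¬ HasA G := by
  have := h.char
  have := Fact.mk h.prime
  have H := hy_pre h hL
  rintro ⟨g, hg, v, a1, a2⟩
  obtain ⟨t, ht⟩ := IsAlgClosed.exists_eq_mul_self (Q v)⁻¹
  have q : Q5 k (t • v) = 1 := by rw [H1.Sp4.Q_smul, ← ht]; exact inv_mul_cancel₀ a1
  have b : un q ∈ spGL 2 k := mem_sp.2 fun x y => by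
    change sympForm 2 k (ψ _ *ᵥ x) (ψ _ *ᵥ y) = _
    rw [ψ_sa, mulVec_mulVec, ψ_sq, q, one_smul, one_mulVec]
  refine H.no_root ⟨q, un q, ⟨g, hg, (lf_iff h.two b).2 fun x => ?_⟩, rfl⟩
  rw [σ_root h.two b rfl q, a2, tv, H1.Sp4.B_smul, smul_smul, div_eq_mul_inv, ht, B_comm, B_def]
  module

theorem caseA (h : St p G) (hL : ¬ HasLong G) (_ : HasShort G → p = 3 ∧ ¬ 9 ∣ Nat.card G) :
    ¬ HasA G := caseA' h hL

end Cfsg.Agent.O5
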