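import Cfsg.Agent.H1.O5Plane
import Cfsg.Agent.H1.O5Frame2
import Cfsg.Agent.H7.UInst

/-!
The five-dimensional orthogonal model of the four-dimensional symplectic group.
-/

set_option autoImplicit false
set_option linter.unusedSectionVars false

namespace Cfsg.Agent.H1.Spin5

open Module H7 H7.Polar H8 QuadraticMap Matrix

theorem max_of_rel {G G' : Type*} [Group G] [Group G'] (Γ : Subgroup (G × G')) {S H : Subgroup G}
    {E K : Subgroup G'} (h1 : ∀ g ∈ S, ∃ h ∈ E, (g, h) ∈ Γ) (h2 : ∀ h ∈ E, ∃ g ∈ S, (g, h) ∈ Γ)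
    (h3 : ∀ X, K ⊓ E ≤ X → X ≤ E → ∀ x ∈ X, x ∉ K → E ≤ X)
    (h4 : ∀ g ∈ S, ∀ h ∈ K, h ∈ E → (g, h) ∈ Γ → g ∈ H) (h5 : ∃ g ∈ S, g ∉ H) :
    Geo.IsMaximalIn S (H ⊓ S) := by
  obtain ⟨g₀, a0, a1⟩ := h5
  refine ⟨lt_of_le_of_ne inf_le_right fun h => a1 (h.ge a0).1, fun M hM hS => ?_⟩
  by_cases hc : M ≤ H
  · exact Or.inl (le_antisymm (le_inf hc hS) hM)
  obtain ⟨g, hg, hg'⟩ := SetLike.not_le_iff_exists.1 hc
  obtain ⟨h, hh, hr⟩ := h1 g (hS hg)
  have key := h3 ((M.prod E ⊓ Γ).map (MonoidHom.snd G G')) (fun k hk => by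
      obtain ⟨s, hs, hr⟩ := h2 k hk.2
      exact ⟨(s, k), ⟨⟨hM ⟨h4 s hs k hk.1 hk.2 hr, hs⟩, hk.2⟩, hr⟩, rfl⟩)
    (by rintro _ ⟨p, hp, rfl⟩; exact hp.1.2) h ⟨(g, h), ⟨⟨hg, hh⟩, hr⟩, rfl⟩
    fun hk => hg' (h4 g (hS hg) h hk hh hr)
  refine Or.inr (le_antisymm hS fun s hs => ?_)
  obtain ⟨k, hk, hr⟩ := h1 s hs
  obtain ⟨⟨m, k'⟩, ⟨⟨b1, -⟩, b2⟩, rfl⟩ := key hk
  have b3 : m⁻¹ * s ∈ S := mul_mem (inv_mem (hS b1)) hs
  have := hM ⟨h4 _ b3 1 (one_mem _) (one_mem _) (by simpa using Γ.mul_mem (Γ.inv_mem b2) hr), b3⟩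
  simpa using mul_mem b1 this

theorem le_of_max {G : Type*} [Group G] {E K : Subgroup G} (h : Geo.IsMaximalIn E (K ⊓ E)) :
    ∀ X, K ⊓ E ≤ X → X ≤ E → ∀ x ∈ X, x ∉ K → E ≤ X := fun X h1 h2 _ hx hx' =>
  ((h.2 X h1 h2).resolve_left fun e => hx' (e.le hx).1).ge

variable {F : Type*} [Field F]

/-- the index type -/
abbrev I4 : Type := Fin 2 ⊕ Fin 2

/-- the trace-zero self-adjoint matrices -/
def ψ : (Fin 5 → F) →ₗ[F] Matrix I4 I4 F where
  toFun x := fromBlocks !![x 0, x 1; x 2, -x 0] !![0, x 3; -x 3, 0] !![0, x 4; -x 4, 0]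
    !![x 0, x 2; x 1, -x 0]
  map_add' x y := by
    ext (i | i) (j | j) <;> fin_cases i <;> fin_cases j <;> simp <;> ring
  map_smul' c x := by
    ext (i | i) (j | j) <;> fin_cases i <;> fin_cases j <;> simp

theorem ψ_def (x : Fin 5 → F) : ψ x = fromBlocks !![x 0, x 1; x 2, -x 0] !![0, x 3; -x 3, 0]
    !![0, x 4; -x 4, 0] !![x 0, x 2; x 1, -x 0] := rfl

variable (F) in
/-- the quadratic form -/
def Q5 : QuadraticForm F (Fin 5 → F) :=
  QuadraticMap.proj 0 0 + QuadraticMap.proj 1 2 - QuadraticMap.proj 3 4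

theorem Q5_apply (x : Fin 5 → F) : Q5 F x = x 0 * x 0 + x 1 * x 2 - x 3 * x 4 := by
  simp [Q5]

theorem ψ_sq (x : Fin 5 → F) : ψ x * ψ x = Q5 F x • (1 : Matrix I4 I4 F) := by
  rw [Q5_apply]
  ext (i | i) (j | j) <;> fin_cases i <;> fin_cases j <;>
    simp [ψ_def, mul_apply, Fintype.sum_sum_type, Fin.sum_univ_two] <;> ring

theorem ψ_anti (x y : Fin 5 → F) :
    ψ x * ψ y + ψ y * ψ x = polar (Q5 F) x y • (1 : Matrix I4 I4 F) := by
  have := ψ_sq (x + y)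
  rw [map_add, add_mul, mul_add, mul_add, ψ_sq, ψ_sq] at this
  rw [polar, sub_smul, sub_smul, ← this]
  abel

theorem ψ_inj {x : Fin 5 → F} (h : ψ x = 0) : x = 0 := by
  have e := fun i j => congrFun (congrFun h i) j
  have := e (.inl 0) (.inl 0)
  have := e (.inl 0) (.inl 1)
  have := e (.inl 1) (.inl 0)
  have := e (.inl 0) (.inr 1)
  have := e (.inr 0) (.inl 1)
  ext i
  fin_cases i <;> simp_all [ψ_def]

theorem nd5 (h2 : (2 : F) ≠ 0) : ND (Q5 F) := fun y h => by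
  have h0 := h (Pi.single 0 1)
  have h1 := h (Pi.single 1 1)
  have h3 := h (Pi.single 2 1)
  have h4 := h (Pi.single 3 1)
  have h5 := h (Pi.single 4 1)
  simp [polar, Q5_apply] at h0 h1 h3 h4 h5
  have : y 0 = 0 := mul_left_cancel₀ h2 (by linear_combination h0)
  ext i
  fin_cases i <;> simp
  exacts [this, by linear_combination h3, by linear_combination h1, by linear_combination -h5,
    by linear_combination -h4]

local notation "f" => sympForm 2 F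

theorem f_apply (u v : I4 → F) : f u v = u (.inr 0) * v (.inl 0) - u (.inl 0) * v (.inr 0) +
    (u (.inr 1) * v (.inl 1) - u (.inl 1) * v (.inr 1)) := by
  rw [sympForm_apply, Fin.sum_univ_two]

theorem ψ_sa (x : Fin 5 → F) (u v : I4 → F) : f (ψ x *ᵥ u) v = f u (ψ x *ᵥ v) := by
  simp [f_apply, ψ_def, mulVec, dotProduct, Fintype.sum_sum_type, Fin.sum_univ_two]
  ring

theorem ψ_trace (x : Fin 5 → F) : (ψ x).trace = 0 := by
  simp [ψ_def, trace, Fintype.sum_sum_type, Fin.sum_univ_two]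

theorem exists_ψ (h2 : (2 : F) ≠ 0) {T : Matrix I4 I4 F} (h : ∀ u v, f (T *ᵥ u) v = f u (T *ᵥ v))
    (ht : T.trace = 0) : ∃ x, ψ x = T := by
  have e := fun i j => h (Pi.single i 1) (Pi.single j 1)
  have a1 := e (.inl 0) (.inl 0)
  have a2 := e (.inl 0) (.inl 1)
  have a3 := e (.inl 1) (.inl 1)
  have a4 := e (.inr 0) (.inr 0)
  have a5 := e (.inr 0) (.inr 1)
  have a6 := e (.inr 1) (.inr 1)
  have a7 := e (.inl 0) (.inr 0)
  have a8 := e (.inl 0) (.inr 1)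
  have a9 := e (.inl 1) (.inr 0)
  have a10 := e (.inl 1) (.inr 1)
  simp [f_apply] at a1 a2 a3 a4 a5 a6 a7 a8 a9 a10
  simp [trace, Fintype.sum_sum_type, Fin.sum_univ_two] at ht
  refine ⟨![T (.inl 0) (.inl 0), T (.inl 0) (.inl 1), T (.inl 1) (.inl 0), T (.inl 0) (.inr 1),
    T (.inr 0) (.inl 1)], ?_⟩
  ext (i | i) (j | j) <;> fin_cases i <;> fin_cases j <;> simp [ψ_def] <;>
    refine mul_left_cancel₀ h2 ?_ <;> grind

theorem sc_of_comm (h2 : (2 : F) ≠ 0) {M : Matrix I4 I4 F} (h : ∀ x, M * ψ x = ψ x * M) :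
    ∃ c : F, M = c • 1 := by
  have e := fun k i j => congrFun (congrFun (h (Pi.single k 1)) i) j
  simp only [Fin.forall_fin_succ, Sum.forall, IsEmpty.forall_iff, and_true] at e
  simp [ψ_def, mul_apply, Fintype.sum_sum_type, Fin.sum_univ_two] at e
  refine ⟨M (.inl 0) (.inl 0), ?_⟩
  ext (i | i) (j | j) <;> fin_cases i <;> fin_cases j <;> simp <;>
    refine mul_left_cancel₀ h2 ?_ <;> grind

variable (F) in
/-- the graph of the spin action -/
def Γ : Subgroup (GL I4 F × ((Fin 5 → F) ≃ₗ[F] (Fin 5 → F))) where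
  carrier := {p | ∀ x, ψ (p.2 x) * (p.1 : Matrix I4 I4 F) = p.1 * ψ x}
  mul_mem' {a b} ha hb x := by
    simp only [Prod.fst_mul, Prod.snd_mul, LinearEquiv.mul_apply, Units.val_mul]
    rw [← mul_assoc, ha, mul_assoc, hb, mul_assoc]
  one_mem' x := by simp
  inv_mem' {a} ha x := by
    have := ha (a.2⁻¹ x)
    rw [show a.2 (a.2⁻¹ x) = x from a.2.apply_symm_apply x] at this
    simp only [Prod.fst_inv, Prod.snd_inv]
    rw [Units.mul_inv_eq_iff_eq_mul, mul_assoc, this, Units.inv_mul_cancel_left]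

theorem mem_Γ {g : GL I4 F} {h : (Fin 5 → F) ≃ₗ[F] (Fin 5 → F)} :
    (g, h) ∈ Γ F ↔ ∀ x, ψ (h x) * (g : Matrix I4 I4 F) = g * ψ x := Iff.rfl

theorem mem_sp {g : GL I4 F} : g ∈ spGL 2 F ↔ ∀ u v, f (g.1 *ᵥ u) (g.1 *ᵥ v) = f u v := Iff.rfl

theorem f_add (u v w : I4 → F) : f (u + v) w = f u w + f v w := by simp [sympForm]
theorem f_sub (u v w : I4 → F) : f (u - v) w = f u w - f v w := by simp [sympForm]
theorem f_smul (c : F) (u w : I4 → F) : f (c • u) w = c * f u w := by simp [sympForm]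
theorem f_add' (u v w : I4 → F) : f w (u + v) = f w u + f w v := by simp [sympForm, mulVec_add]
theorem f_sub' (u v w : I4 → F) : f w (u - v) = f w u - f w v := by simp [sympForm, mulVec_sub]
theorem f_smul' (c : F) (u w : I4 → F) : f w (c • u) = c * f w u := by simp [sympForm, mulVec_smul]
theorem f_self (u : I4 → F) : f u u = 0 := by rw [f_apply]; ring
theorem f_skew (u v : I4 → F) : f u v = -f v u := by rw [f_apply, f_apply]; ring

section eich

variable {u w : Fin 5 → F} (hu : Q5 F u = 0) (hw : polar (Q5 F) w u = 0)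
include hu hw

theorem ψ_wu : ψ w * ψ u = -(ψ u * ψ w) := by
  have := ψ_anti w u
  rw [hw, zero_smul] at this
  exact eq_neg_of_add_eq_zero_left this

theorem ψ_uwu : ψ u * ψ w * ψ u = 0 := by
  rw [mul_assoc, ψ_wu hu hw, mul_neg, ← mul_assoc, ψ_sq, hu]; simp

/-- the lift of an Eichler transformation -/
def lift : GL I4 F where
  val := 1 - ψ u * ψ w
  inv := 1 + ψ u * ψ w
  val_inv := by
    rw [sub_mul, mul_add, mul_add, ← mul_assoc, ← mul_assoc, ψ_uwu hu hw]; simp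
  inv_val := by
    rw [add_mul, mul_sub, mul_sub, ← mul_assoc, ← mul_assoc, ψ_uwu hu hw]; simp

theorem lift_mem : lift hu hw ∈ spGL 2 F := fun x y => by
  have h1 : f ((ψ u * ψ w) *ᵥ x) y = -f x ((ψ u * ψ w) *ᵥ y) := by
    rw [← mulVec_mulVec, ψ_sa, ψ_sa, mulVec_mulVec, ψ_wu hu hw, neg_mulVec]
    simp [sympForm, mulVec_neg]
  have h3 : f ((ψ u * ψ w) *ᵥ x) ((ψ u * ψ w) *ᵥ y) = 0 := by
    rw [← mulVec_mulVec, ← mulVec_mulVec, ψ_sa, mulVec_mulVec, mulVec_mulVec, ψ_sq, hu]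
    simp [sympForm]
  change f ((1 - ψ u * ψ w) *ᵥ x) ((1 - ψ u * ψ w) *ᵥ y) = f x y
  rw [sub_mulVec, sub_mulVec, one_mulVec, one_mulVec, f_sub, f_sub', f_sub', h1, h3]
  ring

theorem lift_rel (h2 : (2 : F) ≠ 0) {h : (Fin 5 → F) ≃ₗ[F] (Fin 5 → F)}
    (hh : ∀ x, h x = (qP (nd5 h2)).eich u w (Q5 F w) x) : (lift hu hw, h) ∈ Γ F := fun x => by
  change ψ (h x) * (1 - ψ u * ψ w) = (1 - ψ u * ψ w) * ψ x
  have e1 := ψ_anti x u
  have e2 := ψ_anti x w
  have e3 := ψ_wu hu hw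
  have e4 := ψ_sq w
  have e5 := ψ_sq u
  rw [hu, zero_smul] at e5
  rw [hh, qP_eich, map_sub, map_add, map_smul, map_smul]
  generalize ψ x = X at *
  generalize ψ u = U at *
  generalize ψ w = W at *
  have a1 : X * (U * W) = polar (Q5 F) x u • W - polar (Q5 F) x w • U + U * W * X := by
    rw [← mul_assoc, eq_sub_of_add_eq e1, sub_mul, mul_assoc U X W, eq_sub_of_add_eq e2, mul_sub]
    simp [mul_assoc]
    abel
  have a2 : W * (U * W) = -(Q5 F w • U) := by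
    rw [← mul_assoc, e3, neg_mul, mul_assoc, e4]; simp
  have a3 : U * (U * W) = 0 := by rw [← mul_assoc, e5, zero_mul]
  simp only [mul_sub, sub_mul, add_mul, mul_one, one_mul, smul_mul_assoc, a1, a2, a3]
  module

end eich

theorem exists_lift (h2 : (2 : F) ≠ 0) : ∀ h ∈ (qP (nd5 h2)).E, ∃ g ∈ spGL 2 F, (g, h) ∈ Γ F := by
  intro h hh
  obtain ⟨p, hp, rfl⟩ := E_le_of_EI (X := ((spGL 2 F).prod ⊤ ⊓ Γ F).map (MonoidHom.snd _ _))
    (fun u w c hu hw hc => EI_of_mem hu hw hc ⟨(lift ((qP_val _).1 hu).symm hw, eichE hu hw hc),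
      ⟨⟨lift_mem ((qP_val _).1 hu).symm hw, trivial⟩, lift_rel _ hw h2 fun x => by
        rw [← (qP_val _).1 hc]; rfl⟩, rfl⟩) hh
  exact ⟨p.1, hp.1.1, hp.2⟩

/-- the bracket of two vectors -/
def br (a b : I4 → F) : Matrix I4 I4 F :=
  vecMulVec b (J (Fin 2) F *ᵥ a) - vecMulVec a (J (Fin 2) F *ᵥ b)

theorem br_mulVec (a b x : I4 → F) : br a b *ᵥ x = f x a • b - f x b • a := by
  simp [br, sub_mulVec, vecMulVec_mulVec, sympForm, dotProduct_comm]

theorem exists_br (h2 : (2 : F) ≠ 0) {a b : I4 → F} (h : f a b = 0) : ∃ x, ψ x = br a b := by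
  refine exists_ψ h2 (fun u v => ?_) ?_
  · simp only [br_mulVec, f_sub, f_sub', f_smul, f_smul']
    rw [f_skew v a, f_skew v b]; ring
  · rw [br, trace_sub, trace_vecMulVec, trace_vecMulVec]
    change f b a - f a b = 0
    rw [f_skew, h]; simp

theorem smul_one_eq_zero {c : F} (h : c • (1 : Matrix I4 I4 F) = 0) : c = 0 := by
  simpa using congrFun (congrFun h (.inl 0)) (.inl 0)

theorem mat_ext {A B : Matrix I4 I4 F} (h : ∀ x, A *ᵥ x = B *ᵥ x) : A = B :=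
  toLin'.injective (LinearMap.ext h)

theorem exists_pair [Finite F] (v : Fin 2 ⊕ Fin 2 → F) (c : F) : ∃ a b, f v a = 0 ∧ f v b = 0 ∧ f a b = c := by
  obtain ⟨a, ha, b, hb, h⟩ : ∃ a ∈ (spStd 2 F).pp v, ∃ b ∈ (spStd 2 F).pp v, f a b ≠ 0 := by
    by_contra! h
    have h1 := (spStd 2 F).finrank_perp ((spStd 2 F).pp v)
    have h3 := Submodule.finrank_mono (show (spStd 2 F).pp v ≤ (spStd 2 F).perp _ from
      fun x hx y hy => h _ hx _ hy)
    have h4 := (spStd 2 F).finrank_perp (F ∙ v)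
    have h5 := finrank_span_singleton_le (F := F) v
    rw [perp_span_singleton] at h4
    rw [finrank_sum_fun] at *
    omega
  refine ⟨(c / f a b) • a, b, ?_, ?_, ?_⟩
  · rw [f_smul', f_skew v, show f a v = 0 from ha]; simp
  · rw [f_skew, show f b v = 0 from hb]; simp
  · rw [f_smul]; field_simp

theorem exists_image [Finite F] (h2 : (2 : F) ≠ 0) :
    ∀ g ∈ spGL 2 F, ∃ h ∈ (qP (nd5 h2)).E, (g, h) ∈ Γ F := by
  intro g hg
  let X := ((⊤ : Subgroup (GL I4 F)).prod (qP (nd5 h2)).E ⊓ Γ F).map (MonoidHom.fst _ _)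
  have key : ∀ v c, ∃ t ∈ X, ∀ x, t.1 *ᵥ x = x + (c * f x v) • v := fun v c => by
    obtain ⟨a, b, h1, h3, h4⟩ := exists_pair v (-c)
    obtain ⟨u, hu⟩ := exists_br h2 h1
    obtain ⟨w, hw⟩ := exists_br h2 h3
    have e : ∀ a b, f v a = 0 → f v b = 0 → ∀ x, (br v a * br v b) *ᵥ x = (f a b * f x v) • v :=
      fun a b h1 h3 x => by
        simp only [← mulVec_mulVec, br_mulVec, f_sub, f_smul, f_self, f_skew b v, f_skew b a, h1,
          h3]
        module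
    have b1 : Q5 F u = 0 := smul_one_eq_zero (by
      rw [← ψ_sq, hu]; exact mat_ext fun x => by simp [e a a h1 h1, f_self])
    have b2 : polar (Q5 F) w u = 0 := smul_one_eq_zero (by
      rw [← ψ_anti, hu, hw]
      exact mat_ext fun x => by simp [add_mulVec, e a b h1 h3, e b a h3 h1, f_skew b a])
    refine ⟨lift b1 b2, ⟨(lift b1 b2, eichE (qP_sing (nd5 h2) b1) b2 (qP_val_self _ w)),
      ⟨⟨trivial, eichE_mem_E (qP_sing (nd5 h2) b1) b2 (qP_val_self _ w)⟩, lift_rel b1 b2 h2 fun _ => rfl⟩, rfl⟩, fun x => ?_⟩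
    change (1 - ψ u * ψ w) *ᵥ x = _
    rw [sub_mulVec, one_mulVec, hu, hw, e a b h1 h3, h4]
    module
  have : g ∈ X := by
    have := E_le_of_EI (X := X.map (toLE (ι := I4) (F := F)).toMonoidHom) (fun u w c hu hw hc => by
      obtain ⟨t1, m1, e1⟩ := key (u + w) 1
      obtain ⟨t2, m2, e2⟩ := key w (-1)
      obtain ⟨t3, m3, e3⟩ := key u (-1 - c)
      replace hw : f w u = 0 := hw
      refine ⟨toLE (t1 * t2 * t3), ⟨_, mul_mem (mul_mem m1 m2) m3, rfl⟩, fun x => ?_⟩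
      simp only [toLE_apply, Units.val_mul, ← mulVec_mulVec, e1, e2, e3, f_add, f_add', f_smul,
        f_self, hw, f_skew u w, eich, spPolar_B, spPolar_ε, spPolar_σ]
      module) ((mem_spGL_iff 2 g).1 hg)
    obtain ⟨t, ht, e⟩ := this
    rwa [← toLE.injective e]
  obtain ⟨p, hp, rfl⟩ := this
  exact ⟨p.2, hp.1.2, hp.2⟩

end Cfsg.Agent.H1.Spin5
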