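import Cfsg.Agent.H1.Spin5
import Cfsg.Agent.H2.Nor4
import Cfsg.Agent.H7.C2Fr5

/-!
Maximal subgroups of the four-dimensional symplectic group in odd characteristic through the
orthogonal model.
-/

set_option autoImplicit false
set_option linter.unusedSectionVars false

namespace Cfsg.Agent.H1.Spin5

open Module H7 H7.Polar H8 QuadraticMap Matrix

variable {F : Type*} [Field F]

local notation "f" => sympForm 2 F

/-- the elements commuting or anticommuting with `j` -/
def HJ (j : Matrix I4 I4 F) : Subgroup (GL I4 F) where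
  carrier := {g | g.1 * j = j * g ∨ g.1 * j = -(j * g)}
  mul_mem' {a b} ha hb := by
    simp only [Set.mem_ofPred_eq, Units.val_mul, mul_assoc] at *
    rcases ha with ha | ha <;> rcases hb with hb | hb <;>
      simp [hb, ← mul_assoc, ha]
  one_mem' := by simp
  inv_mem' {a} ha := by
    refine ha.imp (fun h => ?_) fun h => ?_
    · rw [Units.inv_mul_eq_iff_eq_mul, ← mul_assoc, h, Units.mul_inv_cancel_right]
    · rw [Units.inv_mul_eq_iff_eq_mul, mul_neg, ← mul_assoc, h, neg_mul, neg_neg,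
        Units.mul_inv_cancel_right]

theorem mem_HJ {j : Matrix I4 I4 F} {g : GL I4 F} :
    g ∈ HJ j ↔ g.1 * j = j * g ∨ g.1 * j = -(j * g) := Iff.rfl

/-- the vectors anticommuting with `j` -/
def AC (j : Matrix I4 I4 F) : Submodule F (Fin 5 → F) where
  carrier := {x | ψ x * j = -(j * ψ x)}
  add_mem' {a b} ha hb := by
    simp only [Set.mem_ofPred_eq, map_add, add_mul, mul_add] at *
    rw [ha, hb, neg_add]
  zero_mem' := by simp
  smul_mem' c x hx := by
    simp only [Set.mem_ofPred_eq, map_smul, smul_mul_assoc, mul_smul_comm] at *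
    rw [hx, smul_neg]

theorem mem_AC {j : Matrix I4 I4 F} {x : Fin 5 → F} : x ∈ AC j ↔ ψ x * j = -(j * ψ x) := Iff.rfl

theorem smul_one_inj {c d : F} (h : c • (1 : Matrix I4 I4 F) = d • 1) : c = d :=
  sub_eq_zero.1 (smul_one_eq_zero (by rw [sub_smul, h, sub_self]))

section

variable [Fintype F] (h2 : (2 : F) ≠ 0) {j : Matrix I4 I4 F} {δ : F}
  (hj : ∀ u v, sympForm 2 F (j *ᵥ u) v = -sympForm 2 F u (j *ᵥ v))
  (hjj : j * j = δ • 1) (hδ : δ ≠ 0)
include h2 hj hjj hδ

omit h2 hj in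
theorem j_cancel {M : Matrix I4 I4 F} (h : j * M = 0) : M = 0 := by
  have := congrArg (j * ·) h
  simpa [← mul_assoc, hjj, hδ] using this

theorem exists_proj (y : Fin 5 → F) : ∃ y' ∈ AC j, (y' = 0 → ψ y * j = j * ψ y) ∧
    ∀ s ∈ AC j, polar (Q5 F) y' s = 2 * δ * polar (Q5 F) y s := by
  obtain ⟨z, hz⟩ := exists_ψ h2 (T := j * ψ y * j) (fun u v => by
    simp only [← mulVec_mulVec]
    rw [hj, ψ_sa, hj, neg_neg]) (by rw [trace_mul_cycle, hjj]; simp [ψ_trace])
  have e : j * ψ (δ • y - z) = δ • (j * ψ y - ψ y * j) := by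
    simp only [map_sub, map_smul, hz, mul_sub, ← mul_assoc, hjj, smul_sub, smul_mul_assoc,
      mul_smul_comm, one_mul]
  refine ⟨δ • y - z, ?_, fun h => ?_, fun s hs => ?_⟩
  · rw [mem_AC, e]
    simp only [map_sub, map_smul, hz, sub_mul, mul_assoc, hjj, smul_sub, smul_mul_assoc,
      mul_smul_comm, mul_one, neg_sub]
  · rw [h, map_zero, mul_zero, eq_comm, smul_eq_zero, sub_eq_zero] at e
    exact (e.resolve_left hδ).symm
  · have : polar (Q5 F) z s = -(δ * polar (Q5 F) y s) := smul_one_inj (by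
      have h1 : j * ψ s = -(ψ s * j) := by rw [hs, neg_neg]
      rw [← ψ_anti, hz, neg_smul, mul_comm δ, mul_smul, ← hjj]
      calc _ = j * ψ y * (j * ψ s) + ψ s * j * ψ y * j := by noncomm_ring
        _ = -(j * (ψ y * ψ s + ψ s * ψ y) * j) := by
          rw [h1]; nth_rewrite 2 [hs]; noncomm_ring
        _ = _ := by rw [ψ_anti]; simp)
    rw [polar_sub_left, polar_smul_left, this, smul_eq_mul]; ring

theorem ac_nd : AC j ⊓ (qP (nd5 h2)).perp (AC j) = ⊥ := by
  refine eq_bot_iff.2 fun s hs => nd5 h2 s fun y => ?_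
  obtain ⟨y', h1, -, h3⟩ := exists_proj h2 hj hjj hδ y
  have := h3 s hs.1
  rw [show polar (Q5 F) y' s = 0 from mem_perp'.1 hs.2 y' h1] at this
  simpa [h2, hδ] using this

theorem comm_of_perp {y : Fin 5 → F} (hy : y ∈ (qP (nd5 h2)).perp (AC j)) : ψ y * j = j * ψ y := by
  obtain ⟨y', h1, h3, h4⟩ := exists_proj h2 hj hjj hδ y
  refine h3 ((ac_nd h2 hj hjj hδ).le ⟨h1, fun s hs => ?_⟩)
  change polar _ _ _ = 0
  rw [h4 s hs, show polar (Q5 F) y s = 0 from hy s hs, mul_zero]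

theorem ac_dim : finrank F (AC j) = 2 := by
  have h0 : AC j ≠ ⊥ := fun h => by
    obtain ⟨c, hc⟩ := sc_of_comm h2 (M := j) fun x =>
      (comm_of_perp h2 hj hjj hδ (by rw [h]; simp [mem_perp])).symm
    have := hj (Pi.single (.inr 0) 1) (Pi.single (.inl 0) 1)
    simp [hc, f_apply] at this
    have h3 : c = 0 := mul_left_cancel₀ h2 (by linear_combination this)
    rw [hc, h3] at hjj
    exact hδ (smul_one_eq_zero (by simpa using hjj.symm))
  obtain ⟨s, hs, c, hc, hsc⟩ := exists_val_ne_of_nondeg (ac_nd h2 hj hjj hδ) h0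
  obtain rfl : c = Q5 F s := hsc
  have hs' : ψ s * j = -(j * ψ s) := hs
  obtain ⟨t, ht⟩ := exists_ψ h2 (T := j * ψ s) (fun u v => by
    rw [← mulVec_mulVec, hj, ψ_sa, mulVec_mulVec, hs', neg_mulVec]
    simp [sympForm, mulVec_neg]) (mul_left_cancel₀ h2 (by
      have := congrArg trace hs'
      rw [trace_neg, trace_mul_comm] at this
      linear_combination this))
  have ht' : t ∈ AC j := by rw [mem_AC, ht, mul_assoc, hs', mul_neg]
  have hst : polar (Q5 F) s t = 0 := smul_one_eq_zero (by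
    rw [← ψ_anti, ht, ← mul_assoc, hs']; simp)
  have htt : Q5 F t = -(δ * Q5 F s) := smul_one_inj (by
    rw [← ψ_sq, ht, mul_assoc, ← mul_assoc (ψ s), hs', neg_mul, mul_neg, mul_assoc, ψ_sq]
    simp [hjj, smul_smul, mul_comm])
  let φ : AC j →ₗ[F] F × F := ((Q5 F).polarBilin s ∘ₗ (AC j).subtype).prod
    ((Q5 F).polarBilin t ∘ₗ (AC j).subtype)
  rw [(LinearEquiv.ofBijective φ ⟨?_, fun p => ?_⟩).finrank_eq]
  · simp
  · rw [← LinearMap.ker_eq_bot, eq_bot_iff]
    rintro ⟨x, hx⟩ h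
    obtain ⟨e1, e2⟩ : polar (Q5 F) s x = 0 ∧ polar (Q5 F) t x = 0 := by simpa [φ] using h
    have a1 := ψ_anti s x
    have a2 := ψ_anti t x
    rw [e2, ht, ← mul_assoc, hx, zero_smul] at a2
    rw [e1, zero_smul] at a1
    have a3 : (2 : F) • (ψ s * ψ x) = 0 := j_cancel hjj hδ (by
      rw [two_smul, ← a2]
      nth_rewrite 2 [eq_neg_of_add_eq_zero_left a1]
      noncomm_ring)
    have a4 := congrArg (ψ s * ·) ((smul_eq_zero.1 a3).resolve_left h2)
    simp only [← mul_assoc, ψ_sq, smul_mul_assoc, one_mul, mul_zero, smul_eq_zero, hc,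
      false_or] at a4
    exact Subtype.ext (ψ_inj a4)
  · refine ⟨⟨(p.1 / (2 * Q5 F s)) • s + (p.2 / (2 * Q5 F t)) • t,
      add_mem (Submodule.smul_mem _ _ hs) (Submodule.smul_mem _ _ ht')⟩, ?_⟩
    have : Q5 F t ≠ 0 := by simp [htt, hδ, hc]
    ext <;> simp [φ, hst, polar_comm _ t s] <;> field_simp

theorem max_HJ (hq : 3 < Fintype.card F) :
    Geo.IsMaximalIn (spGL 2 F) (HJ j ⊓ spGL 2 F) := by
  have hnd := ac_nd h2 hj hjj hδ
  have hm := O5.plane_maximal (nd5 h2) h2 hq (by simp) hnd (ac_dim h2 hj hjj hδ)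
  refine max_of_rel (Γ F) (exists_image h2) (exists_lift h2) (le_of_max hm)
    (fun g _ h hK hE hr => ?_) ?_
  · have hr' : ∀ x, (g⁻¹).1 * ψ (h x) = ψ x * (g⁻¹).1 := fun x => by
      rw [Units.inv_mul_eq_iff_eq_mul, ← mul_assoc, ← hr, Units.mul_inv_cancel_right]
    obtain ⟨c, hc⟩ := sc_of_comm h2 (M := (g⁻¹).1 * j * g * j) fun x => by
      obtain ⟨a, ha, b, hb, rfl⟩ := exists_decomp hnd x
      have a1 : ψ a * j = -(j * ψ a) := ha
      have a2 : ψ (h a) * j = -(j * ψ (h a)) := (hK a).1 ha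
      have b1 := comm_of_perp h2 hj hjj hδ hb
      have b2 := comm_of_perp h2 hj hjj hδ ((Iso.mem_perp_iff (E_le_Iso hE) hK b).1 hb)
      rw [map_add, mul_add, add_mul]
      congr 1
      · rw [mul_assoc, ← neg_neg (j * ψ a), ← a1, mul_neg, ← mul_assoc, mul_assoc _ g.1, ← hr,
          ← mul_assoc, mul_assoc _ j, ← neg_neg (j * ψ (h a)), ← a2, mul_neg, ← mul_assoc, hr']
        simp [mul_assoc]
      · rw [mul_assoc, ← b1, ← mul_assoc, mul_assoc _ g.1, ← hr, ← mul_assoc, mul_assoc _ j, ← b2,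
          ← mul_assoc, hr']
        simp [mul_assoc]
    have e1 : j * g * j = c • g.1 := by
      have := congrArg (g.1 * ·) hc
      simpa [← mul_assoc] using this
    have e2 : δ • (g.1 * j) = c • (j * g.1) := by
      have := congrArg (j * ·) e1
      simpa [← mul_assoc, hjj] using this
    have e3 : c * c = δ * δ := smul_one_inj (by
      have : j * (j * g * j) * j = j * j * g * (j * j) := by simp only [mul_assoc]
      rw [e1, hjj, mul_smul_comm, smul_mul_assoc, e1] at this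
      simpa [smul_smul] using congrArg (· * (g⁻¹).1) this)
    rcases mul_self_eq_mul_self_iff.1 e3 with rfl | rfl
    · exact Or.inl (smul_right_injective _ hδ e2)
    · exact Or.inr (smul_right_injective _ hδ (by simpa using e2))
  · obtain ⟨h, hE, hK⟩ := SetLike.exists_of_lt hm.1
    obtain ⟨g, hg, hr⟩ := exists_lift h2 h hE
    refine ⟨g, hg, fun hg' => hK ⟨mem_stab_of_forall fun x hx => ?_, hE⟩⟩
    have hx' : ψ x * j = -(j * ψ x) := hx
    rw [mem_AC, ← Units.mul_left_inj g, neg_mul, mul_assoc, mul_assoc, hr]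
    rcases hg' with e | e
    · rw [← e, ← mul_assoc, hr, mul_assoc, hx', ← mul_assoc, ← e, mul_neg, mul_assoc]
    · rw [← neg_neg (j * g.1), ← e, mul_neg, ← mul_assoc, hr, mul_assoc, hx', ← mul_assoc j,
        ← neg_neg (j * g.1), ← e]
      simp [mul_assoc]

end

variable [Fintype F]

theorem tsPair (h2 : (2 : F) ≠ 0) (hq : 3 < Fintype.card F) {D : Fin 2 → Submodule F (I4 → F)}
    (hD : Geo.IsMDecomposition 2 D) (hts : ∀ i, Geo.IsTotallySingularFor f (D i)) :
    Geo.IsMaximalIn (spGL 2 F) (Geo.decompositionStabilizer D ⊓ spGL 2 F) := by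
  have hc := isCompl_of_two hD.indep hD.iSup_eq_top
  obtain ⟨j, h0, h1⟩ : ∃ j : Matrix I4 I4 F, (∀ x ∈ D 0, j *ᵥ x = x) ∧ ∀ x ∈ D 1, j *ᵥ x = -x :=
    ⟨LinearMap.toMatrix' (LinearMap.ofIsCompl hc (D 0).subtype (-(D 1).subtype)), fun x hx => by
      rw [LinearMap.toMatrix'_mulVec]; exact LinearMap.ofIsCompl_apply_left hc ⟨x, hx⟩,
      fun x hx => by
        rw [LinearMap.toMatrix'_mulVec]; exact LinearMap.ofIsCompl_apply_right hc ⟨x, hx⟩⟩
  have dec : ∀ x, ∃ a ∈ D 0, ∃ b ∈ D 1, a + b = x := fun x =>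
    Submodule.mem_sup.1 (hc.sup_eq_top ▸ Submodule.mem_top)
  have ext : ∀ A B : Matrix I4 I4 F, (∀ x ∈ D 0, A *ᵥ x = B *ᵥ x) → (∀ x ∈ D 1, A *ᵥ x = B *ᵥ x) →
      A = B := fun A B e0 e1 => mat_ext fun x => by
    obtain ⟨a, ha, b, hb, rfl⟩ := dec x
    rw [mulVec_add, mulVec_add, e0 a ha, e1 b hb]
  have m0 : ∀ x, j *ᵥ x = x → x ∈ D 0 := fun x h => by
    obtain ⟨a, ha, b, hb, rfl⟩ := dec x
    rw [mulVec_add, h0 a ha, h1 b hb, add_right_inj, neg_eq_iff_add_eq_zero, ← two_smul F] at h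
    simpa [(smul_eq_zero.1 h).resolve_left h2]
  have m1 : ∀ x, j *ᵥ x = -x → x ∈ D 1 := fun x h => by
    obtain ⟨a, ha, b, hb, rfl⟩ := dec x
    rw [mulVec_add, h0 a ha, h1 b hb, neg_add, add_left_inj, ← add_eq_zero_iff_eq_neg,
      ← two_smul F] at h
    simpa [(smul_eq_zero.1 h).resolve_left h2]
  convert max_HJ h2 (j := j) (δ := 1) (fun u v => ?_) (ext _ _ (fun x hx => ?_) fun x hx => ?_)
    one_ne_zero hq using 2
  · ext g
    rw [mem_decompositionStabilizer_iff, mem_HJ]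
    refine ⟨fun h => (mem_decStab_two.1 h).imp (fun h => ?_) fun h => ?_, fun h => ?_⟩
    · refine ext _ _ (fun x hx => ?_) fun x hx => ?_
      · rw [← mulVec_mulVec, ← mulVec_mulVec, h0 x hx, h0 (g.1 *ᵥ x) (h.1.le ⟨x, hx, rfl⟩)]
      · rw [← mulVec_mulVec, ← mulVec_mulVec, h1 x hx, h1 (g.1 *ᵥ x) (h.2.le ⟨x, hx, rfl⟩), mulVec_neg]
    · refine ext _ _ (fun x hx => ?_) fun x hx => ?_
      · rw [neg_mulVec, ← mulVec_mulVec, ← mulVec_mulVec, h0 x hx, h1 (g.1 *ᵥ x) (h.1.le ⟨x, hx, rfl⟩),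
          neg_neg]
      · rw [neg_mulVec, ← mulVec_mulVec, ← mulVec_mulVec, h1 x hx, h0 (g.1 *ᵥ x) (h.2.le ⟨x, hx, rfl⟩),
          mulVec_neg]
    · refine (IsMDecomposition.dec hD).mem_decStab (Fin.forall_fin_two.2 ?_)
      rcases h with h | h
      · exact ⟨⟨0, fun v hv => m0 _ (by rw [toLE_apply, mulVec_mulVec, ← h, ← mulVec_mulVec, h0 v hv])⟩,
          1, fun v hv => m1 _ (by
            rw [toLE_apply, mulVec_mulVec, ← h, ← mulVec_mulVec, h1 v hv, mulVec_neg])⟩
      · rw [← neg_eq_iff_eq_neg] at h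
        exact ⟨⟨1, fun v hv => m1 _ (by
          rw [toLE_apply, mulVec_mulVec, ← h, neg_mulVec, ← mulVec_mulVec, h0 v hv])⟩,
          0, fun v hv => m0 _ (by
            rw [toLE_apply, mulVec_mulVec, ← h, neg_mulVec, ← mulVec_mulVec, h1 v hv, mulVec_neg,
              neg_neg])⟩
  · obtain ⟨a, ha, b, hb, rfl⟩ := dec u
    obtain ⟨c, hc, d, hd, rfl⟩ := dec v
    simp only [mulVec_add, h0 a ha, h0 c hc, h1 b hb, h1 d hd, ← sub_eq_add_neg, f_add, f_add',
      f_sub, f_sub', hts 0 a ha c hc, hts 1 b hb d hd]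
    ring
  · simp [← mulVec_mulVec, h0 x hx]
  · simp [← mulVec_mulVec, h1 x hx, mulVec_neg]

theorem unitary (h2 : (2 : F) ≠ 0) (hq : 3 < Fintype.card F) {K : Subalgebra F (Matrix I4 I4 F)}
    (hK : Geo.IsFieldSubalgebra 2 K) (hac : Geo.IsAdjointClosedFor f K)
    (hnsa : ¬ Geo.IsSelfAdjointFor f K) :
    Geo.IsMaximalIn (spGL 2 F) (Geo.subalgebraNormalizer K ⊓ spGL 2 F) := by
  obtain ⟨J, hJ, hJ', t, n, hJJ, han, hadj⟩ :=
    exists_unitary_gen hK (spStd 2 F) (fun _ => rfl) hac hnsa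
  obtain ⟨j, hj⟩ : ∃ j, j = (2 : F) • J - t • 1 := ⟨_, rfl⟩
  have e1 : j * j = (t * t - 4 * n) • 1 := by
    simp only [hj, mul_sub, sub_mul, smul_mul_assoc, mul_smul_comm, hJJ, mul_one, one_mul]
    module
  have e2 : t * t - 4 * n ≠ 0 := fun h => h2 (han t 2 (by linear_combination -h)).2
  have e3 : ∀ c : F, j ≠ c • 1 := fun c hc => hJ' ((c + t) / 2) (by
    rw [div_eq_inv_mul, mul_smul, add_smul, ← hc, hj, sub_add_cancel, smul_smul]
    simp [h2])
  convert max_HJ h2 (j := j) (fun u v => ?_) e1 e2 hq using 2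
  · ext g
    rw [mem_subalgebraNormalizer_iff_NJ hK.finrank_eq
      (hj ▸ K.sub_mem (K.smul_mem hJ _) (K.smul_mem K.one_mem _)) e3, mem_HJ]
    constructor
    · rintro ⟨⟨a, b, h⟩, -⟩
      have h1 : g.1 * j = (a • 1 + b • j) * g.1 := mat_ext fun x => by
        simpa [add_mul, add_mulVec, smul_mulVec] using h x
      have h3 : (a • 1 + b • j) * (a • 1 + b • j) = j * j := by
        rw [← Units.mul_left_inj g, mul_assoc, ← h1, ← mul_assoc, ← h1, mul_assoc, e1]; simp
      simp only [mul_add, add_mul, smul_mul_assoc, mul_smul_comm, e1, mul_one, one_mul] at h3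
      have h4 : (2 * a * b) • j = ((t * t - 4 * n) * (1 - b * b) - a * a) • (1 : Matrix I4 I4 F) := by
        linear_combination (norm := module) h3
      have h5 : a * b = 0 := by
        by_contra h
        exact e3 ((2 * a * b)⁻¹ * _) (by
          rw [mul_smul, ← h4, smul_smul, inv_mul_cancel₀ (by simpa [h2] using h), one_smul])
      have hb : b ≠ 0 := fun h => e3 a (by
        rw [← Units.mul_right_inj g, h1, h]; simp)
      obtain rfl : a = 0 := by simpa [hb] using h5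
      have h6 := smul_one_eq_zero (h4.symm.trans (by simp))
      simp only [mul_zero, sub_zero, mul_eq_zero, e2, false_or, sub_eq_zero] at h6
      rcases mul_self_eq_one_iff.1 h6.symm with rfl | rfl
      · exact Or.inl (by simpa using h1)
      · exact Or.inr (by simpa using h1)
    · rintro (h | h)
      · exact ⟨⟨0, 1, fun x => by simp [h]⟩, 0, 1, fun x => by simp [h]⟩
      · exact ⟨⟨0, -1, fun x => by simp [h, neg_mulVec]⟩, 0, -1, fun x => by simp [h, neg_mulVec]⟩
  · have := hadj u v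
    simp only [spPolar_B] at this
    simp only [hj, sub_mulVec, smul_mulVec, one_mulVec, f_sub, f_sub', f_smul, f_smul', this]
    ring

open H2.SympType in
theorem le_of_pairs {n : Type} [Fintype n] [DecidableEq n] {R S : Subgroup (GL n F)} (hR : Pauli R)
    {a b c d : GL n F} (h : Pairs R a b c d) (ha : a ∈ S) (hb : b ∈ S) (hc : c ∈ S) (hd : d ∈ S)
    (h0 : ∀ r ∈ R, r * a = a * r → r * b = b * r → r * c = c * r → r * d = d * r → r ∈ S) :
    R ≤ S := by
  have step : ∀ (x y : GL n F) (P : GL n F → Prop), x ∈ R → y ∈ R → y ∈ S → y * x = -(x * y) →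
      (∀ r, P r → P (y * r)) → (∀ r ∈ R, P r → r * x = x * r → r ∈ S) → ∀ r ∈ R, P r → r ∈ S :=
    fun x y P hx hy hy' e h1 h2 r hr hP => (hR.comm r hr x hx).elim (h2 r hr hP) fun e' => by
      simpa using mul_mem (inv_mem hy') (h2 _ (mul_mem hy hr) (h1 r hP) (by
        rw [mul_assoc, e', mul_neg, ← mul_assoc, e, neg_mul, neg_neg, mul_assoc]))
  have cm : ∀ {x y r : GL n F}, y * x = x * y → r * x = x * r → y * r * x = x * (y * r) :=
    fun e e' => by rw [mul_assoc, e', ← mul_assoc, e, mul_assoc]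
  have cm' : ∀ {x y r : GL n F}, y * x = -(x * y) → r * y = y * r ∧ r * x = x * r →
      r * (x * y) = x * y * r := fun _ e => by
    rw [← mul_assoc, e.2, mul_assoc, e.1, mul_assoc]
  intro r hr
  refine step a b (fun _ => True) h.ma h.mb hb h.ba (fun _ _ => trivial) (fun r hr _ => ?_) r hr
    trivial
  refine step b (a * b * b) (fun r => r * a = a * r) h.mb (mul_mem (mul_mem h.ma h.mb) h.mb)
    (mul_mem (mul_mem ha hb) hb) (by simp [mul_assoc, h.ba']) (fun r => cm (by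
      simp [mul_assoc, h.ba', h.ba])) (fun r hr e1 e2 => ?_) r hr
  refine step c d (fun r => r * a = a * r ∧ r * b = b * r) h.mc h.md hd h.dc
    (fun r e => ⟨cm h.da e.1, cm h.db e.2⟩) (fun r hr e e3 => ?_) r hr ⟨e1, e2⟩
  exact step d c (fun r => (r * a = a * r ∧ r * b = b * r) ∧ r * c = c * r) h.md h.mc hc
    (anti_symm h.dc) (fun r e => ⟨⟨cm h.ca e.1.1, cm h.cb e.1.2⟩, cm rfl e.2⟩)
    (fun r hr e e4 => h0 r hr e.1.1 e.1.2 e.2 e4) r hr ⟨e, e3⟩

open H2.SympType in
theorem c6 (h2 : (2 : F) ≠ 0) (hp : (Fintype.card F).Prime) {R : Subgroup (GL I4 F)}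
    (hs : Geo.IsSymplecticTypeGroup 2 R) (habs : Geo.ActsAbsolutelyIrreducibly (Geo.matrixSet R))
    (hR : R ≤ spGL 2 F) (h32 : Nat.card R = 32) (hZ : Nat.card (Subgroup.center R) = 2)
    (hm : Geo.IsOfMinusType 2 R) :
    Geo.IsMaximalIn (spGL 2 F) (Geo.subgroupNormalizer R ⊓ spGL 2 F) := by
  have hP := pauli_of hs habs
  obtain ⟨a, b, c, d, h⟩ := hP.pairs hZ h32
  obtain ⟨a, b, c, d, ha, hb, hc, hd, h⟩ := h.minus h2 hP hm
  have m1 := hP.neg_one_mem h.mb h.ma h.ba
  have ha' : ∀ x, a * (a * x) = x := fun x => by rw [← mul_assoc, ha, one_mul]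
  have hb' : ∀ x, b * (b * x) = x := fun x => by rw [← mul_assoc, hb, one_mul]
  have hc' : ∀ x, c * (c * x) = -x := fun x => by rw [← mul_assoc, hc]; simp
  let t : Fin 5 → GL I4 F := ![a, b, a * (b * c), a * (b * d), a * (b * (c * d))]
  have t1 : ∀ i, t i ∈ R := fun i => by
    fin_cases i
    exacts [h.ma, h.mb, mul_mem h.ma (mul_mem h.mb h.mc), mul_mem h.ma (mul_mem h.mb h.md),
      mul_mem h.ma (mul_mem h.mb (mul_mem h.mc h.md))]
  have t2 : ∀ i j, t i * t j = if i = j then 1 else -(t j * t i) := fun i j => by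
    fin_cases i <;> fin_cases j <;> simp [t, mul_assoc, ha, hb, hc, hd, ha', hb', hc', h.ba, h.dc,
      h.ca, h.cb, h.da, h.db, h.ba', h.dc', h.ca', h.cb', h.da', h.db']
  have t3 : ∀ i, (t i).1 * (t i).1 = 1 := fun i => by simpa using congrArg Units.val (t2 i i)
  have t4 : ∀ i j, i ≠ j → (t i).1 * (t j).1 = -((t j).1 * (t i).1) := fun i j e => by
    simpa [e] using congrArg Units.val (t2 i j)
  choose fr hfr using fun i => exists_ψ h2 (T := (t i).1) (fun u v => by
    rw [← mem_sp.1 (hR (t1 i)), mulVec_mulVec, t3, one_mulVec]) (by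
      obtain ⟨j, hj⟩ := exists_ne i
      exact trace_eq_zero h2 (t4 j i hj))
  have f1 : ∀ i, Q5 F (fr i) = 1 := fun i => smul_one_inj (by rw [← ψ_sq, hfr, t3, one_smul])
  have f2 : ∀ i j, i ≠ j → polar (Q5 F) (fr i) (fr j) = 0 := fun i j e => smul_one_eq_zero (by
    rw [← ψ_anti, hfr, hfr, t4 i j e, neg_add_cancel])
  obtain ⟨φ, e1, e2⟩ := exists_frame_equiv h2 one_ne_zero f1 f2 (by simp)
  have hE := cE_mem_E_iff (nd5 h2) (Fr.nd0 h2) one_ne_zero e2
  refine max_of_rel (Γ F) (K := (decStab (Fr.D0 F : Fin 5 → _)).map (cE φ).toMonoidHom)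
    (exists_image h2) (exists_lift h2) (fun X h1 h3 x hx hx' y hy => ?_) ?_ ?_
  · obtain ⟨x, rfl⟩ := (cE φ).surjective x
    obtain ⟨y, rfl⟩ := (cE φ).surjective y
    exact Fr5.key5 h2 hp (by simp) (X := X.comap (cE φ).toMonoidHom)
      (fun g hg => h1 ⟨⟨g, hg.1, rfl⟩, (hE g).1 hg.2⟩) (fun g hg => (hE g).2 (h3 hg)) hx
      (fun hg => hx' ⟨x, hg, rfl⟩) ((hE y).2 hy)
  · rintro g - _ ⟨k, hk, rfl⟩ hk' hr
    have key : ∀ i, t i ∈ R.comap (MulAut.conj g).toMonoidHom := fun i => by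
      obtain ⟨j, hj⟩ := Fr.mem_mon.1 hk i
      obtain ⟨s, hs⟩ := Submodule.mem_span_singleton.1 hj
      have b1 : cE φ k (fr i) = s • fr j := by rw [← e1, cE_apply, ← hs, map_smul, e1]
      have b2 := Iso.Q_eq (E_le_Iso hk') (fr i)
      have b3 := hr (fr i)
      simp only [MulEquiv.coe_toMonoidHom, b1, Q_smul, f1, mul_one, map_smul, hfr] at b2 b3
      change g * t i * g⁻¹ ∈ R
      rcases mul_self_eq_one_iff.1 b2 with rfl | rfl
      · rw [show g * t i = t j * g from Units.ext (by simpa using b3.symm)]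
        simpa using t1 j
      · rw [show g * t i = -1 * t j * g from Units.ext (by simpa using b3.symm)]
        simpa using mul_mem m1 (t1 j)
    have : Finite R := Nat.finite_of_card_ne_zero (by omega)
    refine Subgroup.mem_normalizer_fintype fun r hr => le_of_pairs hP h (key 0) (key 1) ?_ ?_
      (fun r hr ea eb ec ed => ?_) hr
    · simpa [t, ha', hb'] using mul_mem (key 1) (mul_mem (key 0) (key 2))
    · simpa [t, ha', hb'] using mul_mem (key 1) (mul_mem (key 0) (key 3))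
    · have b1 : ∀ i, Commute r (t i) := fun i => by
        fin_cases i
        exacts [ea, eb, Commute.mul_right ea (Commute.mul_right eb ec),
          Commute.mul_right ea (Commute.mul_right eb ed),
          Commute.mul_right ea (Commute.mul_right eb (Commute.mul_right ec ed))]
      have b2 : Sc r := sc_of_comm h2 fun x => by
        obtain ⟨x, rfl⟩ := φ.surjective x
        rw [pi_eq_sum_univ' x]
        simp only [map_sum, map_smul, Finset.mul_sum, Finset.sum_mul, mul_smul_comm, smul_mul_assoc]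
        refine Finset.sum_congr rfl fun i _ => ?_
        rw [show φ (Pi.single i 1) = fr i from e1 i, hfr]
        exact congrArg _ (congrArg Units.val (b1 i).eq)
      change g * r * g⁻¹ ∈ R
      rwa [← b2.comm, mul_inv_cancel_right]
  · have q1 : Q5 F (fr 0 + fr 1 + fr 2 + fr 3) = 2 * 2 := by
      simp [Q_add, f1, f2]; norm_num
    obtain ⟨g, hg, hr⟩ := exists_lift h2 _ (O5.rQ_mul_mem_E5 (nd5 h2) (by simp)
      (a := fr 0 + fr 1 + fr 2 + fr 3) (b := (2 : F) • fr 4) (by rw [q1, Q_smul, f1, mul_one]))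
    refine ⟨g, hg, fun hg' => ?_⟩
    obtain ⟨y, hy, y0, y1⟩ : ∃ y, ψ y * g.1 = g.1 * ψ (fr 0) ∧ polar (Q5 F) y (fr 0) = 1 ∧
        polar (Q5 F) y (fr 1) = -1 := by
      refine ⟨_, hr _, ?_, ?_⟩ <;> simp [rQ_apply, q1, f1, f2] <;> field_simp <;> norm_num
    have b1 : ψ y = (g * t 0 * g⁻¹).1 := by
      rw [Units.val_mul, Units.val_mul, ← hfr, ← hy, Units.mul_inv_cancel_right]
    have b2 := ψ_anti y (fr 0)
    rcases hP.comm _ ((Subgroup.mem_normalizer_iff.1 hg' _).1 (t1 0)) _ (t1 0) with e | e <;>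
      replace e := congrArg Units.val e <;>
      simp only [Units.val_mul (_ * g⁻¹), Units.val_mul _ (_ * g⁻¹), Units.val_neg, ← b1,
        ← hfr] at e
    · have b3 := congrArg (· * ψ (fr 0)) b2
      simp only [← e, add_mul, mul_assoc, ψ_sq, f1, y0, one_smul, mul_one, one_mul, ← map_add] at b3
      have b4 := congrArg (polar (Q5 F) · (fr 1))
        (sub_eq_zero.1 (ψ_inj (x := y + y - fr 0) (by rw [map_sub, b3, sub_self])))
      simp only [polar_add_left, y1, f2 0 1 (by decide)] at b4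
      exact h2 (by linear_combination -b4)
    · rw [e, y0, neg_add_cancel] at b2
      exact one_ne_zero (smul_one_eq_zero b2.symm)

end Cfsg.Agent.H1.Spin5
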