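import Cfsg.Agent.H1.O6Frame
import Cfsg.Agent.H1.Spin5B

/-!
The six-dimensional orthogonal model of the four-dimensional linear and unitary groups.
-/

set_option autoImplicit false
set_option linter.unusedSectionVars false

namespace Cfsg.Agent.H1.Spin6

open Module H7 H7.Polar H8 QuadraticMap Matrix

variable {F : Type*} [Field F]

/-- alternating matrices -/
def ψ : (Fin 6 → F) →ₗ[F] Matrix (Fin 4) (Fin 4) F where
  toFun x := !![0, x 0, x 1, x 2; -x 0, 0, x 3, x 4; -x 1, -x 3, 0, x 5; -x 2, -x 4, -x 5, 0]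
  map_add' x y := by ext i j; fin_cases i <;> fin_cases j <;> simp <;> ring
  map_smul' c x := by ext i j; fin_cases i <;> fin_cases j <;> simp

theorem ψ_def (x : Fin 6 → F) :
    ψ x = !![0, x 0, x 1, x 2; -x 0, 0, x 3, x 4; -x 1, -x 3, 0, x 5; -x 2, -x 4, -x 5, 0] := rfl

/-- the duality -/
def τ : (Fin 6 → F) →ₗ[F] (Fin 6 → F) where
  toFun x := ![-x 5, x 4, -x 3, -x 2, x 1, -x 0]
  map_add' x y := by ext i; fin_cases i <;> simp <;> ring
  map_smul' c x := by ext i; fin_cases i <;> simp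

theorem τ_def (x : Fin 6 → F) : τ x = ![-x 5, x 4, -x 3, -x 2, x 1, -x 0] := rfl

@[simp] theorem ττ (x : Fin 6 → F) : τ (τ x) = x := by ext i; fin_cases i <;> simp [τ_def]

variable (F) in
/-- the Pfaffian -/
def Pf : QuadraticForm F (Fin 6 → F) :=
  QuadraticMap.proj 0 5 - QuadraticMap.proj 1 4 + QuadraticMap.proj 2 3

theorem Pf_apply (x : Fin 6 → F) : Pf F x = x 0 * x 5 - x 1 * x 4 + x 2 * x 3 := by simp [Pf]

theorem Pf_τ (x : Fin 6 → F) : Pf F (τ x) = Pf F x := by simp [Pf_apply, τ_def]; ring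

theorem ψ_sq (x : Fin 6 → F) : ψ x * ψ (τ x) = Pf F x • (1 : Matrix (Fin 4) (Fin 4) F) := by
  rw [Pf_apply]
  ext i j
  fin_cases i <;> fin_cases j <;> simp [ψ_def, τ_def, mul_apply, Fin.sum_univ_four] <;> ring

theorem ψ_sq' (x : Fin 6 → F) : ψ (τ x) * ψ x = Pf F x • (1 : Matrix (Fin 4) (Fin 4) F) := by
  simpa [Pf_τ] using ψ_sq (τ x)

theorem ψ_anti (x y : Fin 6 → F) :
    ψ x * ψ (τ y) + ψ y * ψ (τ x) = polar (Pf F) x y • (1 : Matrix (Fin 4) (Fin 4) F) := by
  have := ψ_sq (x + y)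
  simp only [map_add, add_mul, mul_add, ψ_sq] at this
  rw [polar, sub_smul, sub_smul, ← this]
  abel

theorem ψ_anti' (x y : Fin 6 → F) :
    ψ (τ x) * ψ y + ψ (τ y) * ψ x = polar (Pf F) x y • (1 : Matrix (Fin 4) (Fin 4) F) := by
  have := ψ_anti (τ x) (τ y)
  simpa [polar, ← map_add, Pf_τ] using this

theorem ψ_tr (x : Fin 6 → F) : (ψ x)ᵀ = -ψ x := by
  ext i j; fin_cases i <;> fin_cases j <;> simp [ψ_def]

/-- the coordinates of an alternating matrix -/
def co (A : Matrix (Fin 4) (Fin 4) F) : Fin 6 → F := ![A 0 1, A 0 2, A 0 3, A 1 2, A 1 3, A 2 3]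

theorem co_ψ (x : Fin 6 → F) : co (ψ x) = x := by ext i; fin_cases i <;> simp [co, ψ_def]

theorem ψ_inj : Function.Injective (ψ (F := F)) := Function.LeftInverse.injective co_ψ

theorem ψ_co {A : Matrix (Fin 4) (Fin 4) F} (h : Aᵀ = -A) (h0 : ∀ i, A i i = 0) : ψ (co A) = A := by
  have e : ∀ i j, A j i = -A i j := fun i j => congrFun (congrFun h i) j
  ext i j
  fin_cases i <;> fin_cases j <;> simp [co, ψ_def, h0] <;> rw [e] <;> simp

theorem ψ_co' (h2 : (2 : F) ≠ 0) {A : Matrix (Fin 4) (Fin 4) F} (h : Aᵀ = -A) : ψ (co A) = A :=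
  ψ_co h fun i => mul_left_cancel₀ h2 (by
    have : A i i = -A i i := congrFun (congrFun h i) i
    linear_combination this)

theorem ψ_act (g : Matrix (Fin 4) (Fin 4) F) (x : Fin 6 → F) :
    ψ (co (g * ψ x * gᵀ)) = g * ψ x * gᵀ :=
  ψ_co (by simp [ψ_tr, mul_assoc]) fun i => by
    simp [mul_apply, Fin.sum_univ_four, ψ_def]; ring

theorem Pf_act (g : Matrix (Fin 4) (Fin 4) F) (x : Fin 6 → F) :
    Pf F (co (g * ψ x * gᵀ)) = g.det * Pf F x := by
  simp [Pf_apply, co, mul_apply, ψ_def, det_succ_row_zero, Fin.sum_univ_succ,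
    Fin.succAbove]
  ring

theorem smul_one_inj {c d : F} (h : c • (1 : Matrix (Fin 4) (Fin 4) F) = d • 1) : c = d := by
  simpa using congrFun (congrFun h 0) 0

theorem polar_Pf (x y : Fin 6 → F) : polar (Pf F) x y =
    x 0 * y 5 + x 5 * y 0 - x 1 * y 4 - x 4 * y 1 + x 2 * y 3 + x 3 * y 2 := by
  simp [polar, Pf_apply]; ring

theorem ndPf : ND (Pf F) := fun y h => by
  have e := fun k => h (Pi.single k 1)
  simp only [Fin.forall_fin_succ, IsEmpty.forall_iff, and_true, polar_Pf] at e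
  simp at e
  ext i
  fin_cases i <;> simp [e]

section eich

variable {u w : Fin 6 → F} (hu : Pf F u = 0) (hw : polar (Pf F) w u = 0)
include hu hw

theorem ψ_uwu : ψ u * ψ (τ w) * ψ u = 0 := by
  have := ψ_anti u w
  rw [polar_comm, hw, zero_smul] at this
  rw [eq_neg_of_add_eq_zero_left this, neg_mul, mul_assoc, ψ_sq', hu]; simp

/-- the lift of an Eichler transformation -/
def lift : GL (Fin 4) F where
  val := 1 - ψ u * ψ (τ w)
  inv := 1 + ψ u * ψ (τ w)
  val_inv := by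
    rw [sub_mul, mul_add, mul_add, ← mul_assoc, ← mul_assoc, ψ_uwu hu hw]; simp
  inv_val := by
    rw [add_mul, mul_sub, mul_sub, ← mul_assoc, ← mul_assoc, ψ_uwu hu hw]; simp

theorem lift_val : (lift hu hw).1 = 1 - ψ u * ψ (τ w) := rfl

theorem lift_act (x : Fin 6 → F) : (lift hu hw).1 * ψ x * (lift hu hw).1ᵀ =
    ψ (x + polar (Pf F) x u • w - (polar (Pf F) x w + Pf F w * polar (Pf F) x u) • u) := by
  have e0 := ψ_uwu hu hw
  have e1 := ψ_anti x w
  have e2 := ψ_anti' w x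
  have e3 := ψ_anti u x
  have e4 := ψ_sq w
  have e5 := ψ_sq' u
  have e6 := ψ_anti' w u
  have e7 := ψ_anti' x u
  rw [hu, zero_smul] at e5
  rw [hw, zero_smul] at e6
  rw [polar_comm _ w] at e2
  rw [polar_comm _ u] at e3
  rw [lift_val, transpose_sub, transpose_mul, ψ_tr, ψ_tr, transpose_one, neg_mul_neg, map_sub,
    map_add, map_smul, map_smul]
  generalize ψ x = X at *
  generalize ψ u = U at *
  generalize ψ w = W at *
  generalize ψ (τ x) = X' at *
  generalize ψ (τ u) = U' at *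
  generalize ψ (τ w) = W' at *
  generalize polar (Pf F) x u = a at *
  generalize polar (Pf F) x w = b at *
  generalize Pf F w = c at *
  have a1 : U * W' * X + X * (W' * U) = b • U - a • W := by
    rw [mul_assoc, eq_sub_of_add_eq e2, eq_neg_of_add_eq_zero_left e6, mul_sub, mul_neg,
      ← mul_assoc, ← mul_assoc, eq_sub_of_add_eq e3]
    simp [sub_mul]
    abel
  have a2 : U * X' * U = a • U := by
    rw [eq_sub_of_add_eq e3, sub_mul, mul_assoc, e5]; simp
  have a3 : U * W' * X * (W' * U) = -((c * a) • U) := by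
    rw [mul_assoc U, eq_sub_of_add_eq e2, mul_sub, sub_mul, mul_smul_comm, mul_one, smul_mul_assoc,
      ← mul_assoc U W', e0, mul_assoc U, mul_assoc X', ← mul_assoc W, e4, smul_mul_assoc, one_mul,
      mul_smul_comm, mul_smul_comm, ← mul_assoc, a2, smul_smul]
    simp
  rw [sub_mul, one_mul, mul_sub, mul_one, sub_mul, a3, eq_sub_of_add_eq a1]
  module

theorem lift_det : (lift hu hw).1.det = 1 := by
  have e := Pf_act (lift hu hw).1 ![1, 0, 0, 0, 0, 1]
  rw [lift_act, co_ψ, ← qP_eich ndPf] at e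
  have := (mem_qP_Iso ndPf).1 (E_le_Iso (eichE_mem_E (qP_sing ndPf hu) hw (qP_val_self _ w)))
    ![1, 0, 0, 0, 0, 1]
  simpa [Pf_apply] using e.symm.trans this

end eich

section model

variable {K W : Type*} [Field K] [Algebra K F] [AddCommGroup W] [Module K W]
  (ι : W →ₗ[K] (Fin 6 → F))

/-- the graph of the action on alternating matrices -/
def Γ : Subgroup (GL (Fin 4) F × (W ≃ₗ[K] W)) where
  carrier := {p | ∀ x, ψ (ι (p.2 x)) = p.1.1 * ψ (ι x) * p.1.1ᵀ}
  mul_mem' {a b} ha hb x := by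
    simp only [Prod.fst_mul, Prod.snd_mul, LinearEquiv.mul_apply, Units.val_mul]
    rw [ha, hb, transpose_mul]
    simp only [mul_assoc]
  one_mem' x := by simp
  inv_mem' {a} ha x := by
    have := ha (a.2⁻¹ x)
    rw [show a.2 (a.2⁻¹ x) = x from a.2.apply_symm_apply x] at this
    simp only [Prod.fst_inv, Prod.snd_inv]
    rw [this, ← mul_assoc, ← mul_assoc, Units.inv_mul, one_mul, mul_assoc, ← transpose_mul,
      Units.inv_mul, transpose_one, mul_one]

theorem mem_Γ {g : GL (Fin 4) F} {h : W ≃ₗ[K] W} :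
    (g, h) ∈ Γ ι ↔ ∀ x, ψ (ι (h x)) = g.1 * ψ (ι x) * g.1ᵀ := Iff.rfl

variable {ι} {Q : QuadraticForm K W} (hι : ∀ x, Pf F (ι x) = algebraMap K F (Q x))
include hι

theorem polar_ι (x y : W) : polar (Pf F) (ι x) (ι y) = algebraMap K F (polar Q x y) := by
  simp [polar, ← map_add, hι]

theorem Pf_zero {u : W} (hu : Q u = 0) : Pf F (ι u) = 0 := by rw [hι, hu, map_zero]

theorem polar_zero {u w : W} (hw : polar Q w u = 0) : polar (Pf F) (ι w) (ι u) = 0 := by
  rw [polar_ι hι, hw, map_zero]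

variable (hQ : ND Q)

theorem lift_rel {u w : W} (hu : Q u = 0) (hw : polar Q w u = 0) :
    (lift (Pf_zero hι hu) (polar_zero hι hw), eichE (qP_sing hQ hu) hw (qP_val_self hQ w)) ∈ Γ ι :=
  fun x => by
    change ψ (ι ((qP hQ).eich u w (Q w) x)) = _
    rw [lift_act, qP_eich, polar_ι hι, polar_ι hι, hι, ← map_mul, ← map_add,
      algebraMap_smul, algebraMap_smul, map_sub, map_add, map_smul, map_smul]

theorem exists_lift {S : Subgroup (GL (Fin 4) F)}
    (hS : ∀ u w (hu : Q u = 0) (hw : polar Q w u = 0), lift (Pf_zero hι hu) (polar_zero hι hw) ∈ S) :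
    ∀ h ∈ (qP hQ).E, ∃ g ∈ S, (g, h) ∈ Γ ι := by
  intro h hh
  obtain ⟨p, hp, rfl⟩ := E_le_of_EI (X := (S.prod ⊤ ⊓ Γ ι).map (MonoidHom.snd _ _))
    (fun u w c hu hw hc => by
      obtain rfl : c = Q w := hc
      exact EI_of_mem hu hw (qP_val_self hQ w)
        ⟨_, ⟨⟨hS u w hu.symm hw, trivial⟩, lift_rel hι hQ hu.symm hw⟩, rfl⟩) hh
  exact ⟨p.1, hp.1.1, hp.2⟩

end model

end Cfsg.Agent.H1.Spin6
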