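import Cfsg.Agent.H1.Spin6

/-!
Normalisers of the groups `4 ∘ 2^(1+4)` through the six-dimensional orthogonal model.
-/

set_option autoImplicit false
set_option linter.unusedSectionVars false

namespace Cfsg.Agent.H1.Spin6

open Module H7 H7.Polar H8 QuadraticMap Matrix H2.SympType

variable {F : Type*} [Field F]

/-- the standard orthonormal frame -/
def frv (i : F) : Fin 6 → Fin 6 → F :=
  ![![1, 0, 0, 0, 0, 1], ![i, 0, 0, 0, 0, -i], ![0, 1, 0, 0, -1, 0], ![0, i, 0, 0, i, 0],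
    ![0, 0, 1, 1, 0, 0], ![0, 0, i, -i, 0, 0]]

theorem frv_Pf {i : F} (hi : i * i = -1) (k : Fin 6) : Pf F (frv i k) = 1 := by
  fin_cases k <;> simp [frv, Pf_apply, hi]

theorem frv_polar (i : F) {k l : Fin 6} (h : k ≠ l) : polar (Pf F) (frv i k) (frv i l) = 0 := by
  fin_cases k <;> fin_cases l <;> simp [frv, polar_Pf] at h ⊢

/-- invertible alternating matrices -/
def TU {i : F} (hi : i * i = -1) (k : Fin 6) : GL (Fin 4) F :=
  ⟨ψ (frv i k), ψ (τ (frv i k)), by rw [ψ_sq, frv_Pf hi, one_smul], by rw [ψ_sq', frv_Pf hi, one_smul]⟩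

/-- the transpose -/
def tr (g : GL (Fin 4) F) : GL (Fin 4) F :=
  ⟨g.1ᵀ, (g⁻¹).1ᵀ, by rw [← transpose_mul, Units.inv_mul, transpose_one],
    by rw [← transpose_mul, Units.mul_inv, transpose_one]⟩

/-- the standard Pauli matrices -/
structure Std (a b c d : Matrix (Fin 4) (Fin 4) F) : Prop where
  ha : a = !![1, 0, 0, 0; 0, 1, 0, 0; 0, 0, -1, 0; 0, 0, 0, -1]
  hb : b = !![0, 0, 1, 0; 0, 0, 0, 1; 1, 0, 0, 0; 0, 1, 0, 0]
  hc : c = !![1, 0, 0, 0; 0, -1, 0, 0; 0, 0, 1, 0; 0, 0, 0, -1]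
  hd : d = !![0, 1, 0, 0; 1, 0, 0, 0; 0, 0, 0, 1; 0, 0, 1, 0]

theorem Std.sc (h2 : (2 : F) ≠ 0) {a b c d m : Matrix (Fin 4) (Fin 4) F} (h : Std a b c d)
    (ea : m * a = a * m) (eb : m * b = b * m) (ec : m * c = c * m) (ed : m * d = d * m) :
    m = m 0 0 • 1 := by
  obtain ⟨rfl, rfl, rfl, rfl⟩ := h
  rw [← Matrix.ext_iff] at ea eb ec ed
  simp only [Fin.forall_fin_succ, IsEmpty.forall_iff, and_true] at ea eb ec ed
  simp [mul_apply, Fin.sum_univ_four] at ea eb ec ed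
  ext i j
  fin_cases i <;> fin_cases j <;> simp <;> refine mul_left_cancel₀ h2 ?_ <;> grind

section

variable {i : F} (hi : i * i = -1) {a b c d j : GL (Fin 4) F} (hs : Std a.1 b.1 c.1 d.1)
  (hj : j.1 = i • 1)
include hs

theorem Std.ab : a.1 * b.1 = !![0, 0, 1, 0; 0, 0, 0, 1; -1, 0, 0, 0; 0, -1, 0, 0] := by
  rw [hs.ha, hs.hb]; simp

theorem Std.abc : a.1 * b.1 * c.1 = !![0, 0, 1, 0; 0, 0, 0, -1; -1, 0, 0, 0; 0, 1, 0, 0] := by
  rw [hs.ab, hs.hc]; simp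

theorem Std.t2 : TU hi 2 * (TU hi 0)⁻¹ = -1 * (a * b * d) := Units.ext (by
  simp only [Units.val_mul, Units.val_neg, Units.val_one]
  rw [hs.ab, hs.hd]; simp [TU, frv, ψ_def, τ_def])

theorem Std.t4 : TU hi 4 * (TU hi 0)⁻¹ = a * b * c := Units.ext (by
  simp only [Units.val_mul]
  rw [hs.abc]; simp [TU, frv, ψ_def, τ_def])

include hj

theorem Std.t1 : TU hi 1 * (TU hi 0)⁻¹ = j * a := Units.ext (by
  simp only [Units.val_mul]
  rw [hj, hs.ha]; simp [TU, frv, ψ_def, τ_def])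

theorem Std.t3 : TU hi 3 * (TU hi 0)⁻¹ = -1 * (j * (a * b * c * d)) := Units.ext (by
  simp only [Units.val_mul, Units.val_neg, Units.val_one]
  rw [hj, hs.abc, hs.hd]; simp [TU, frv, ψ_def, τ_def])

theorem Std.t5 : TU hi 5 * (TU hi 0)⁻¹ = j * b := Units.ext (by
  simp only [Units.val_mul]
  rw [hj, hs.hb]; simp [TU, frv, ψ_def, τ_def])

end

variable {K W : Type*} [Field K] [Fintype K] [Algebra K F] [AddCommGroup W] [Module K W]
  [FiniteDimensional K W] {ι : W →ₗ[K] (Fin 6 → F)} {Q : QuadraticForm K W}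

theorem c6_std [Fintype F] (hι : ∀ x, Pf F (ι x) = algebraMap K F (Q x)) (hQ : ND Q) (h2 : (2 : K) ≠ 0)
    (hp : (Fintype.card K).Prime) (hn : finrank K W = 6) {i : F} (hi : i * i = -1) {fr : Fin 6 → W}
    (hfr : ∀ k, ι (fr k) = frv i k) {S R : Subgroup (GL (Fin 4) F)}
    (h1 : ∀ g ∈ S, ∃ h ∈ (qP hQ).E, (g, h) ∈ Γ ι) (h3 : ∀ h ∈ (qP hQ).E, ∃ g ∈ S, (g, h) ∈ Γ ι)
    (hP : Pauli R) {a b c d j : GL (Fin 4) F} (h : Pairs R a b c d) (hs : Std a.1 b.1 c.1 d.1)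
    (mj : j ∈ R) (hj : j.1 = i • 1) : Geo.IsMaximalIn S (Geo.subgroupNormalizer R ⊓ S) := by
  have h2' : (2 : F) ≠ 0 := by
    rw [← map_ofNat (algebraMap K F)]; exact (_root_.map_ne_zero _).2 h2
  have m1 := hP.neg_one_mem h.mb h.ma h.ba
  have f1 : ∀ k, Q (fr k) = 1 := fun k => (algebraMap K F).injective (by
    rw [← hι, hfr, frv_Pf hi, map_one])
  have f2 : ∀ k l, k ≠ l → polar Q (fr k) (fr l) = 0 := fun k l e => (algebraMap K F).injective (by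
    rw [← polar_ι hι, hfr, hfr, frv_polar i e, map_zero])
  have t1 : ∀ k, TU hi k * (TU hi 0)⁻¹ ∈ R := fun k => by
    fin_cases k
    · simp
    · exact hs.t1 hi hj ▸ mul_mem mj h.ma
    · exact hs.t2 hi ▸ mul_mem m1 (mul_mem (mul_mem h.ma h.mb) h.md)
    · exact hs.t3 hi hj ▸ mul_mem m1 (mul_mem mj (mul_mem (mul_mem (mul_mem h.ma h.mb) h.mc) h.md))
    · exact hs.t4 hi ▸ mul_mem (mul_mem h.ma h.mb) h.mc
    · exact hs.t5 hi hj ▸ mul_mem mj h.mb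
  have t2 : ∀ k l, TU hi k * (TU hi l)⁻¹ ∈ R := fun k l => by
    simpa using mul_mem (t1 k) (inv_mem (t1 l))
  obtain ⟨φ, e1, e2⟩ := exists_frame_equiv h2 one_ne_zero f1 f2 (by simp [hn])
  have hE := cE_mem_E_iff hQ (Fr.nd0 h2) one_ne_zero e2
  refine Spin5.max_of_rel (Γ ι) (K := (decStab (Fr.D0 K : Fin 6 → _)).map (cE φ).toMonoidHom)
    h1 h3 (fun X b1 b3 x hx hx' y hy => ?_) ?_ ?_
  · obtain ⟨x, rfl⟩ := (cE φ).surjective x
    obtain ⟨y, rfl⟩ := (cE φ).surjective y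
    exact Fr6.key6 h2 (by simp) (X := X.comap (cE φ).toMonoidHom)
      (fun g hg => b1 ⟨⟨g, hg.1, rfl⟩, (hE g).1 hg.2⟩) hp (fun g hg => (hE g).2 (b3 hg)) hx
      (fun hg => hx' ⟨x, hg, rfl⟩) ((hE y).2 hy)
  · rintro g - _ ⟨k, hk, rfl⟩ hk' hr
    have key : ∀ m, ∃ l s, s ∈ R ∧ Sc s ∧ g * TU hi m * tr g = s * TU hi l := fun m => by
      obtain ⟨l, hl⟩ := Fr.mem_mon.1 hk m
      obtain ⟨s, hs⟩ := Submodule.mem_span_singleton.1 hl
      have b1 : cE φ k (fr m) = s • fr l := by rw [← e1, cE_apply, ← hs, map_smul, e1]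
      have b2 := Iso.Q_eq (E_le_Iso hk') (fr m)
      have b3 := hr (fr m)
      simp only [MulEquiv.coe_toMonoidHom, b1, Q_smul, f1, mul_one, map_smul, hfr] at b2 b3
      rcases mul_self_eq_one_iff.1 b2 with rfl | rfl
      · exact ⟨l, 1, one_mem _, sc_one, Units.ext (by simpa [TU, tr] using b3.symm)⟩
      · exact ⟨l, -1, m1, sc_one.neg, Units.ext (by simpa [TU, tr] using b3.symm)⟩
    have key' : ∀ m, TU hi m * (TU hi 0)⁻¹ ∈ R.comap (MulAut.conj g).toMonoidHom := fun m => by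
      obtain ⟨l, s, b1, -, b3⟩ := key m
      obtain ⟨l', s', b4, -, b6⟩ := key 0
      change g * _ * g⁻¹ ∈ R
      rw [show g * (TU hi m * (TU hi 0)⁻¹) * g⁻¹ = g * TU hi m * tr g * (g * TU hi 0 * tr g)⁻¹ by
        group, b3, b6]
      simpa [mul_assoc] using mul_mem (mul_mem b1 (t2 l l')) (inv_mem b4)
    have sc : ∀ r ∈ R, Sc r → r ∈ R.comap (MulAut.conj g).toMonoidHom := fun r hr e => by
      change g * r * g⁻¹ ∈ R
      rwa [← e.comm, mul_inv_cancel_right]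
    have c1 := sc j mj ⟨i, hj⟩
    have c2 := sc _ m1 sc_one.neg
    have ca := (mul_mem_cancel_left c1).1 (hs.t1 hi hj ▸ key' 1)
    have cb := (mul_mem_cancel_left c1).1 (hs.t5 hi hj ▸ key' 5)
    refine Subgroup.mem_normalizer_fintype fun r hr => Spin5.le_of_pairs hP h ca cb
      ((mul_mem_cancel_left (mul_mem ca cb)).1 (hs.t4 hi ▸ key' 4))
      ((mul_mem_cancel_left (mul_mem ca cb)).1 ((mul_mem_cancel_left c2).1 (hs.t2 hi ▸ key' 2)))
      (fun r hr ea eb ec ed => sc r hr ⟨_, hs.sc h2' (congrArg Units.val ea) (congrArg Units.val eb)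
        (congrArg Units.val ec) (congrArg Units.val ed)⟩) hr
  · have q1 : Q (fr 0 + fr 1 + fr 2 + fr 3) = 2 * 2 := by
      simp [Q_add, f1, f2]; norm_num
    obtain ⟨g, hg, hr⟩ := h3 _ (O5.rQ_mul_mem_E5 hQ (by omega)
      (a := fr 0 + fr 1 + fr 2 + fr 3) (b := (2 : K) • fr 4) (by rw [q1, Q_smul, f1, mul_one]))
    refine ⟨g, hg, fun hg' => ?_⟩
    have y5 : g * TU hi 5 * tr g = TU hi 5 := Units.ext (by
      have := hr (fr 5)
      simpa [rQ_apply, f2, hfr, TU, tr] using this.symm)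
    obtain ⟨y, hy, y0⟩ : ∃ y, ψ (ι y) = g.1 * ψ (ι (fr 0)) * g.1ᵀ ∧
        y + y = fr 0 - fr 1 - fr 2 - fr 3 := by
      refine ⟨_, hr _, ?_⟩
      simp [rQ_apply, q1, f1, f2]
      match_scalars <;> field_simp <;> norm_num
    have b1 : (g * (TU hi 0 * (TU hi 5)⁻¹) * g⁻¹).1 = ψ (ι y) * ψ (τ (frv i 5)) := by
      rw [show g * (TU hi 0 * (TU hi 5)⁻¹) * g⁻¹ = g * TU hi 0 * tr g * (g * TU hi 5 * tr g)⁻¹ by
        group, y5, hy, hfr]
      rfl
    have b2 := congrArg (fun x => ψ (ι x)) y0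
    simp only [map_add, map_sub, hfr] at b2
    have i0 : i ≠ 0 := fun e => by simp [e] at hi
    have b3 := congrArg (· * ψ (τ (frv i 5))) b2
    simp only [add_mul, ← b1] at b3
    have b4 := hP.comm _ ((Subgroup.mem_normalizer_iff.1 hg' _).1 (t2 0 5)) _ (t2 0 5)
    generalize g * (TU hi 0 * (TU hi 5)⁻¹) * g⁻¹ = z at b3 b4
    have b5 : ∀ u : Matrix (Fin 4) (Fin 4) F, ((z.1 + z.1) * u) 0 0 = (z.1 * u) 0 0 + (z.1 * u) 0 0 ∧
        (u * (z.1 + z.1)) 0 0 = (u * z.1) 0 0 + (u * z.1) 0 0 := fun u => by simp [add_mul, mul_add]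
    obtain ⟨b6, b7⟩ := b5 (TU hi 0 * (TU hi 5)⁻¹).1
    rcases b4 with e | e <;> replace e := congrArg Units.val e <;>
      simp only [Units.val_mul z, Units.val_mul _ z, Units.val_neg] at e <;> rw [e] at b6
    · rw [← b7] at b6
      simp [b3, TU, frv, ψ_def, τ_def] at b6
      grind
    · rw [neg_apply, ← neg_add, ← b7] at b6
      simp [b3, TU, frv, ψ_def, τ_def] at b6
      grind

end Cfsg.Agent.H1.Spin6
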