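import Cfsg.Agent.H1.Spin6B
import Cfsg.Agent.H8.C6O

/-!
Standard coordinates for the groups `4 ∘ 2^(1+4)`, and the linear case.
-/

set_option autoImplicit false
set_option linter.unusedSectionVars false

namespace Cfsg.Agent.H1.Spin6

open Module H7 H7.Polar H8 QuadraticMap Matrix H2.SympType

variable {F : Type*} [Field F]

theorem exists_pairs [Fintype F] (h2 : (2 : F) ≠ 0) {R : Subgroup (GL (Fin 4) F)}
    (hs : Geo.IsSymplecticTypeGroup 2 R) (habs : Geo.ActsAbsolutelyIrreducibly (Geo.matrixSet R))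
    (hZ : Nat.card (Subgroup.center R) = 4) : ∃ a b c d, Pairs R a b c d := by
  have h0 := C6.pauli_mat h2 hs habs
  have hR := h0.mE
  have hI := C6.hasI_mat h0 hZ
  have : Finite (End F (Fin 4 → F)) := Module.finite_of_finite F
  obtain ⟨κ, _, _, _, _, f, hf⟩ := hR.exists_frame
  have h1 := f.finrank_V0 h2 hR fun x => hf.sc hR hI
  have h3 := f.finrank_eq h2
  have hk : finrank C6.K2 κ = 2 := Nat.pow_right_injective le_rfl (by rw [h1] at h3; simpa using h3.symm)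
  let B := finBasisOfFinrankEq C6.K2 κ hk
  obtain ⟨a, ha, ea⟩ := f.α_mem (B.coord 0)
  obtain ⟨b, hb, eb⟩ := f.β_mem (B 0)
  obtain ⟨c, hc, ec⟩ := f.α_mem (B.coord 1)
  obtain ⟨d, hd, ed⟩ := f.β_mem (B 1)
  have inj := C6.um_inj (C6.mE_bij (n := Fin 4) (F := F)).1
  refine ⟨a, b, c, d, ha, hb, hc, hd, inj ?_, inj ?_, inj ?_, inj ?_, inj ?_, inj ?_⟩ <;>
    simp only [map_mul, C6.um_neg, ea, eb, ec, ed]
  exacts [(f.anti _ _ (by simp)).symm, (f.anti _ _ (by simp)).symm, (f.α_comm _ _).eq,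
    (f.comm _ _ (by simp)).eq, (f.comm _ _ (by simp)).symm.eq, (f.β_comm _ _).eq]

theorem exists_std (h2 : (2 : F) ≠ 0) {R : Subgroup (GL (Fin 4) F)} {a b c d : GL (Fin 4) F}
    (h : Pairs R a b c d) (ha : a * a = 1) (hb : b * b = 1) (hc : c * c = 1) (hd : d * d = 1) :
    ∃ P : GL (Fin 4) F, Std (P⁻¹ * a * P).1 (P⁻¹ * b * P).1 (P⁻¹ * c * P).1 (P⁻¹ * d * P).1 := by
  have cm : ∀ {x y : GL (Fin 4) F}, x * y = y * x → ∀ u, x.1 *ᵥ (y.1 *ᵥ u) = y.1 *ᵥ (x.1 *ᵥ u) :=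
    fun e u => by rw [mulVec_mulVec, mulVec_mulVec, ← Units.val_mul, e, Units.val_mul]
  have an : ∀ {x y : GL (Fin 4) F}, y * x = -(x * y) → ∀ u, x.1 *ᵥ (y.1 *ᵥ u) = -(y.1 *ᵥ (x.1 *ᵥ u)) :=
    fun e u => by
      rw [mulVec_mulVec, mulVec_mulVec, ← Units.val_mul, ← Units.val_mul, e, Units.val_neg,
        neg_mulVec, neg_neg]
  have sq : ∀ {x : GL (Fin 4) F}, x * x = 1 → ∀ u, x.1 *ᵥ (x.1 *ᵥ u) = u :=
    fun e u => by rw [mulVec_mulVec, ← Units.val_mul, e, Units.val_one, one_mulVec]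
  have r1 := an h.ba
  have r2 := an h.dc
  have r3 := cm h.ca
  have r4 := cm h.cb
  have r5 := cm h.da.symm
  have r6 := cm h.db
  have inj : ∀ {x : GL (Fin 4) F}, x * x = 1 → ∀ u, x.1 *ᵥ u = 0 → u = 0 := fun e u h0 => by
    rw [← sq e u, h0, mulVec_zero]
  have two : ∀ u : Fin 4 → F, u + u = 0 → u = 0 := fun u e => by
    rwa [← two_smul F, smul_eq_zero, or_iff_right h2] at e
  obtain ⟨v, v0, va, vc⟩ : ∃ v, v ≠ 0 ∧ a.1 *ᵥ v = v ∧ c.1 *ᵥ v = v := by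
    by_contra! hh
    have k1 : ∀ x, x + c.1 *ᵥ x + a.1 *ᵥ (x + c.1 *ᵥ x) = 0 := fun x => by
      by_contra e
      exact hh _ e (by simp [-mulVec_mulVec, mulVec_add, sq ha, add_comm]) (by
        simp only [mulVec_add, r3, sq hc]; abel)
    have k2 : ∀ x, x + c.1 *ᵥ x = 0 := fun x => two _ (by
      have e1 := congrArg (b.1 *ᵥ ·) (k1 (b.1 *ᵥ x))
      simp only [mulVec_add, r4, r1, sq hb, mulVec_neg, mulVec_zero] at e1
      have e2 := k1 x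
      rw [mulVec_add] at e2
      linear_combination (norm := abel_nf) e1 + e2)
    have k3 : ∀ x : Fin 4 → F, x = 0 := fun x => two _ (by
      have e1 := congrArg (d.1 *ᵥ ·) (k2 (d.1 *ᵥ x))
      simp only [mulVec_add, r2, sq hd, mulVec_neg, mulVec_zero] at e1
      linear_combination (norm := abel_nf) e1 + k2 x)
    exact one_ne_zero (congrFun (k3 1) 0)
  let w : Fin 4 → Fin 4 → F := ![v, d.1 *ᵥ v, b.1 *ᵥ v, b.1 *ᵥ (d.1 *ᵥ v)]
  let P : Matrix (Fin 4) (Fin 4) F := of fun r k => w k r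
  have hP : ∀ (M : Matrix (Fin 4) (Fin 4) F) r k, (M * P) r k = (M *ᵥ w k) r := fun _ _ _ => rfl
  have pa : a.1 * P = P * !![1, 0, 0, 0; 0, 1, 0, 0; 0, 0, -1, 0; 0, 0, 0, -1] := by
    ext r k; rw [hP]; fin_cases k <;> simp [-mulVec_mulVec, w, P, mul_apply, Fin.sum_univ_four, r1, r5, va]
  have pb : b.1 * P = P * !![0, 0, 1, 0; 0, 0, 0, 1; 1, 0, 0, 0; 0, 1, 0, 0] := by
    ext r k; rw [hP]; fin_cases k <;> simp [-mulVec_mulVec, w, P, mul_apply, Fin.sum_univ_four, sq hb]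
  have pc : c.1 * P = P * !![1, 0, 0, 0; 0, -1, 0, 0; 0, 0, 1, 0; 0, 0, 0, -1] := by
    ext r k; rw [hP]; fin_cases k <;> simp [-mulVec_mulVec, w, P, mul_apply, Fin.sum_univ_four, r2, r4, vc, mulVec_neg]
  have pd : d.1 * P = P * !![0, 1, 0, 0; 1, 0, 0, 0; 0, 0, 0, 1; 0, 0, 1, 0] := by
    ext r k; rw [hP]; fin_cases k <;> simp [-mulVec_mulVec, w, P, mul_apply, Fin.sum_univ_four, r6, sq hd]
  have ker : ∀ {M N : Matrix (Fin 4) (Fin 4) F}, M * P = P * N → ∀ x, P *ᵥ x = 0 → P *ᵥ (N *ᵥ x) = 0 :=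
    fun e x h0 => by rw [mulVec_mulVec, ← e, ← mulVec_mulVec, h0, mulVec_zero]
  have ka : ∀ {x y z t}, P *ᵥ ![x, y, z, t] = 0 → P *ᵥ ![x, y, -z, -t] = 0 := fun e => by
    simpa [-mulVec_mulVec, -mulVec_cons] using ker pa _ e
  have kb : ∀ {x y z t}, P *ᵥ ![x, y, z, t] = 0 → P *ᵥ ![z, t, x, y] = 0 := fun e => by
    simpa [-mulVec_mulVec, -mulVec_cons] using ker pb _ e
  have kc : ∀ {x y z t}, P *ᵥ ![x, y, z, t] = 0 → P *ᵥ ![x, -y, z, -t] = 0 := fun e => by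
    simpa [-mulVec_mulVec, -mulVec_cons] using ker pc _ e
  have kd : ∀ {x y z t}, P *ᵥ ![x, y, z, t] = 0 → P *ᵥ ![y, x, t, z] = 0 := fun e => by
    simpa [-mulVec_mulVec, -mulVec_cons] using ker pd _ e
  have k0 : ∀ {x y z t}, P *ᵥ ![x, y, z, t] = 0 → x = 0 := fun {x y z t} h0 => by
    have e := congrArg₂ (· + ·) (congrArg₂ (· + ·) h0 (ka h0)) (congrArg₂ (· + ·) (kc h0) (ka (kc h0)))
    simp only [← mulVec_add, add_zero] at e
    have e' : (2 * 2 * x) • v = 0 := by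
      rw [← e]
      ext r
      simp [P, w, mulVec, dotProduct, Fin.sum_univ_four]
      ring
    simpa [h2, v0] using e'
  have hu : IsUnit P := mulVec_injective_iff_isUnit.1 fun x y e => by
    have h0 : P *ᵥ ![(x - y) 0, (x - y) 1, (x - y) 2, (x - y) 3] = 0 := by
      rw [show ![(x - y) 0, (x - y) 1, (x - y) 2, (x - y) 3] = x - y by
        ext k; fin_cases k <;> rfl, mulVec_sub, sub_eq_zero]; exact e
    rw [← sub_eq_zero]
    ext k; fin_cases k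
    exacts [k0 h0, k0 (kd h0), k0 (kb h0), k0 (kb (kd h0))]
  obtain ⟨Q, hQ⟩ := hu
  refine ⟨Q, ?_, ?_, ?_, ?_⟩ <;> rw [mul_assoc, Units.val_mul, Units.inv_mul_eq_iff_eq_mul,
    Units.val_mul, hQ] <;> assumption

variable {K W : Type*} [Field K] [Fintype K] [Algebra K F] [AddCommGroup W] [Module K W]
  [FiniteDimensional K W] {ι : W →ₗ[K] (Fin 6 → F)} {Q : QuadraticForm K W}

theorem c6_of [Fintype F] (hι : ∀ x, Pf F (ι x) = algebraMap K F (Q x)) (hQ : ND Q) (h2 : (2 : K) ≠ 0)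
    (hp : (Fintype.card K).Prime) (hn : finrank K W = 6) {i : F} (hi : i * i = -1) {fr : Fin 6 → W}
    (hfr : ∀ k, ι (fr k) = frv i k) {S R : Subgroup (GL (Fin 4) F)}
    (h1 : ∀ g ∈ S, ∃ h ∈ (qP hQ).E, (g, h) ∈ Γ ι) (h3 : ∀ h ∈ (qP hQ).E, ∃ g ∈ S, (g, h) ∈ Γ ι)
    (hP : Pauli R) {a b c d j P : GL (Fin 4) F} (h : Pairs R a b c d)
    (hs : Std (P⁻¹ * a * P).1 (P⁻¹ * b * P).1 (P⁻¹ * c * P).1 (P⁻¹ * d * P).1)
    (mj : j ∈ R) (hj : j.1 = i • 1) (hS : ∀ g, g ∈ S ↔ P⁻¹ * g * P ∈ S) :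
    Geo.IsMaximalIn S (Geo.subgroupNormalizer R ⊓ S) := by
  let e := MulAut.conj P⁻¹
  have he : ∀ g, e g = P⁻¹ * g * P := fun g => by simp [e]
  have en : ∀ g, e (-g) = -e g := fun g => by simp [he]
  refine isMaximalIn_of_equiv e (K' := S) (H' := Geo.subgroupNormalizer (R.map e.toMonoidHom) ⊓ S)
    (fun g => he g ▸ hS g) (fun g => and_congr ?_ (he g ▸ hS g)) (c6_std hι hQ h2 hp hn hi hfr h1 h3
      (a := e a) (b := e b) (c := e c) (d := e d) (j := j) ⟨fun M hM => ?_, ?_, ?_⟩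
      ⟨⟨a, h.ma, rfl⟩, ⟨b, h.mb, rfl⟩, ⟨c, h.mc, rfl⟩, ⟨d, h.md, rfl⟩, ?_, ?_, ?_, ?_, ?_, ?_⟩
      (by simpa only [he] using hs) ⟨j, mj, by
        change e j = j
        rw [he, mul_assoc, Sc.comm ⟨i, hj⟩, inv_mul_cancel_left]⟩ hj)
  · change g ∈ Subgroup.normalizer _ ↔ e g ∈ Subgroup.normalizer _
    rw [← Subgroup.map_equiv_normalizer_eq, Subgroup.mem_map_equiv, MulEquiv.symm_apply_apply]
  · obtain ⟨s, hs⟩ := hP.irr (P.1 * M * (P⁻¹).1) fun r hr => by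
      have := congrArg (fun x => P.1 * x * (P⁻¹).1) (hM _ ⟨r, hr, rfl⟩)
      simpa [he, mul_assoc] using this
    exact ⟨s, by simpa [mul_assoc] using congrArg (fun x => (P⁻¹).1 * x * P.1) hs⟩
  · rintro _ ⟨r, hr, rfl⟩
    rcases hP.sq r hr with e1 | e1
    · exact Or.inl (by rw [MulEquiv.coe_toMonoidHom, ← map_mul, e1, map_one])
    · exact Or.inr (by rw [MulEquiv.coe_toMonoidHom, ← map_mul, e1, en, map_one])
  · rintro _ ⟨r, hr, rfl⟩ _ ⟨s, hs, rfl⟩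
    rcases hP.comm r hr s hs with e1 | e1
    · exact Or.inl (by rw [MulEquiv.coe_toMonoidHom, ← map_mul, e1, map_mul])
    · exact Or.inr (by rw [MulEquiv.coe_toMonoidHom, ← map_mul, e1, en, map_mul])
  all_goals rw [← map_mul, ← map_mul]
  exacts [by rw [h.ba, en], by rw [h.dc, en], by rw [h.ca], by rw [h.cb], by rw [h.da], by rw [h.db]]

theorem mem_SL {g : GL (Fin 4) F} : g ∈ Geo.specialLinear (Fin 4) F ↔ g.1.det = 1 := by
  rw [Geo.specialLinear, MonoidHom.mem_ker, ← Units.val_inj]; simp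

theorem exists_vec (φ : Dual F (Fin 4 → F)) : ∃ p, ∀ x, φ x = p ⬝ᵥ x :=
  ⟨fun k => φ (fun j => if k = j then 1 else 0), fun x => by
    rw [LinearMap.pi_apply_eq_sum_univ]; simp [dotProduct, mul_comm]⟩

/-- the exterior product -/
def wd (v a : Fin 4 → F) : Fin 6 → F :=
  ![v 0 * a 1 - a 0 * v 1, v 0 * a 2 - a 0 * v 2, v 0 * a 3 - a 0 * v 3, v 1 * a 2 - a 1 * v 2,
    v 1 * a 3 - a 1 * v 3, v 2 * a 3 - a 2 * v 3]

theorem ψ_wd (v a y : Fin 4 → F) : ψ (wd v a) *ᵥ y = (a ⬝ᵥ y) • v - (v ⬝ᵥ y) • a := by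
  ext k; fin_cases k <;> simp [ψ_def, wd, mulVec, dotProduct, Fin.sum_univ_four] <;> ring

theorem Pf_wd (v a : Fin 4 → F) : Pf F (wd v a) = 0 := by simp [Pf_apply, wd]; ring

theorem polar_wd (v a p b : Fin 4 → F) :
    polar (Pf F) (τ (wd p b)) (wd v a) = a ⬝ᵥ p * v ⬝ᵥ b - v ⬝ᵥ p * a ⬝ᵥ b := by
  simp [polar_Pf, wd, τ_def, dotProduct, Fin.sum_univ_four]; ring

theorem exists_tv (φ : Dual F (Fin 4 → F)) {v : Fin 4 → F} (h : φ v = 0) : ∃ u w, ∃ (hu : Pf F u = 0)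
    (hw : polar (Pf F) w u = 0), ∀ x, (lift hu hw).1 *ᵥ x = x + φ x • v := by
  obtain ⟨a, ha, ha'⟩ : ∃ a ∈ LinearMap.ker φ, a ∉ F ∙ v := by
    by_contra! h
    have h1 := Submodule.finrank_mono (show _ ≤ F ∙ v from h)
    have h2 := finrank_span_singleton_le (F := F) v
    have h3 := φ.finrank_range_add_finrank_ker
    have h4 := (LinearMap.range φ).finrank_le
    simp at h3 h4
    omega
  obtain ⟨χ, h1, h3⟩ := exists_dual_one ha'
  obtain ⟨p, hp⟩ := exists_vec φ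
  obtain ⟨b, hb⟩ := exists_vec χ
  replace h3 := h3 v (Submodule.mem_span_singleton_self v)
  rw [LinearMap.mem_ker] at ha
  rw [hp, dotProduct_comm] at ha h
  rw [hb, dotProduct_comm] at h1 h3
  refine ⟨wd v a, τ (wd p b), Pf_wd _ _, by simp [polar_wd, ha, h], fun x => ?_⟩
  simp [-mulVec_mulVec, lift_val, sub_mulVec, ← mulVec_mulVec, ψ_wd, ha, h, h1, h3, hp]

variable (ι) in
/-- the matrices acting through the elementary group -/
def Img (hQ : ND Q) : Subgroup (GL (Fin 4) F) :=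
  ((⊤ : Subgroup (GL (Fin 4) F)).prod (qP hQ).E ⊓ Γ ι).map (MonoidHom.fst _ _)

omit [Fintype K] [FiniteDimensional K W] in
theorem mem_Img {hQ : ND Q} {g : GL (Fin 4) F} : g ∈ Img ι hQ ↔ ∃ h ∈ (qP hQ).E, (g, h) ∈ Γ ι :=
  ⟨fun ⟨p, hp, e⟩ => ⟨p.2, hp.1.2, e ▸ hp.2⟩, fun ⟨h, h1, h2⟩ => ⟨(g, h), ⟨⟨trivial, h1⟩, h2⟩, rfl⟩⟩

theorem sl_image : ∀ g ∈ Geo.specialLinear (Fin 4) F, ∃ h ∈ (qP (ndPf (F := F))).E,
    (g, h) ∈ Γ (LinearMap.id (R := F)) := by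
  intro g hg
  obtain ⟨t, ht, e⟩ := SLV_le_of_tv (X := (Img (LinearMap.id (R := F)) ndPf).map
    (toLE (ι := Fin 4) (F := F)).toMonoidHom) (fun φ v hφ => by
      obtain ⟨u, w, hu, hw, h⟩ := exists_tv φ hφ
      have := lift_rel (ι := LinearMap.id) (Q := Pf F) (fun _ => rfl) ndPf hu hw
      exact ⟨toLE (lift hu hw), Subgroup.mem_map_of_mem _ (mem_Img.2 ⟨_, eichE_mem_E _ _ _, this⟩), h⟩)
    ((mem_specialLinear_iff g).1 hg)
  exact mem_Img.1 (toLE.injective e ▸ ht)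

attribute [local irreducible] Pf

theorem hid (x : Fin 6 → F) : Pf F (LinearMap.id (R := F) x) = algebraMap F F (Pf F x) := by simp

theorem sl_lift : ∀ h ∈ (qP (ndPf (F := F))).E, ∃ g ∈ Geo.specialLinear (Fin 4) F,
    (g, h) ∈ Γ (LinearMap.id (R := F)) :=
  exists_lift hid ndPf fun _ _ hu hw => mem_SL.2 (lift_det (Pf_zero hid hu) (polar_zero hid hw))

theorem exists_std' [Fintype F] (h2 : (2 : F) ≠ 0)
    {R : Subgroup (GL (Fin 4) F)} (hs : Geo.IsSymplecticTypeGroup 2 R)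
    (habs : Geo.ActsAbsolutelyIrreducibly (Geo.matrixSet R))
    (hZ : Nat.card (Subgroup.center R) = 4) : ∃ (a b c d j P : GL (Fin 4) F) (i : F), Pairs R a b c d ∧
      Std (P⁻¹ * a * P).1 (P⁻¹ * b * P).1 (P⁻¹ * c * P).1 (P⁻¹ * d * P).1 ∧ j ∈ R ∧ j.1 = i • 1 ∧
      i * i = -1 := by
  have hP := pauli_of hs habs
  obtain ⟨j, mj, ⟨i, hj⟩, hjj⟩ := hP.exists_i hZ
  obtain ⟨a, b, c, d, h⟩ := exists_pairs h2 hs habs hZ
  obtain ⟨a, b, c, d, ha, hb, hc, hd, h⟩ := h.adj4 hP mj ⟨i, hj⟩ hjj (Or.inl rfl) (Or.inl rfl)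
  obtain ⟨P, hstd⟩ := exists_std h2 h ha hb hc hd
  refine ⟨a, b, c, d, j, P, i, h, hstd, mj, hj, smul_one_inj ?_⟩
  have := congrArg Units.val hjj
  rw [Units.val_mul, hj, smul_mul_smul_comm, mul_one] at this
  simpa using this

theorem sl_c6 [Fintype F] (h2 : (2 : F) ≠ 0) (hp : (Fintype.card F).Prime)
    {R : Subgroup (GL (Fin 4) F)} (hs : Geo.IsSymplecticTypeGroup 2 R)
    (habs : Geo.ActsAbsolutelyIrreducibly (Geo.matrixSet R))
    (hZ : Nat.card (Subgroup.center R) = 4) : Geo.IsMaximalIn (Geo.specialLinear (Fin 4) F)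
      (Geo.subgroupNormalizer R ⊓ Geo.specialLinear (Fin 4) F) := by
  obtain ⟨a, b, c, d, j, P, i, h, hstd, mj, hj, hi⟩ := exists_std' h2 hs habs hZ
  refine c6_of (fr := frv i) hid ndPf h2 hp (by simp) hi
    (fun _ => LinearMap.id_apply _) sl_image sl_lift (pauli_of hs habs) h hstd mj hj fun g => ?_
  rw [mem_SL, mem_SL, Units.val_mul, Units.val_mul, det_units_conj']

end Cfsg.Agent.H1.Spin6
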