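import Cfsg.Agent.H1.Sing
import Cfsg.Agent.H1.Dec2
import Cfsg.Agent.H9.UDecE

/-!
Unitary spaces of dimension at least four: generation by transvections, stabilisers of
non-degenerate points.
-/

set_option autoImplicit false
set_option linter.unusedSectionVars false

namespace Cfsg.Agent.H1.U4

open Module H7 H7.Polar H8 H9.UDec

variable {F : Type*} [Field F] {V : Type*} [AddCommGroup V] [Module F V] {P : Polar F V}
variable [Finite F] [FiniteDimensional F V]

theorem wild2 (h : Un P) : P.Wild 2 := wild_two_of_unitary h.σ h.ε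

theorem rc (h : Un P) (hn : 4 ≤ finrank F V) : P.ReflCongr := Small.reflCongr (wild2 h) hn hn

theorem mem_E (h : Un P) (hn : 4 ≤ finrank F V) {g : V ≃ₗ[F] V} (h1 : g ∈ P.Iso)
    (h2 : LinearMap.det (g : V →ₗ[F] V) = 1) : g ∈ P.E := by
  rw [Small.E_eq_SU h.σ h.ε hn]
  exact ⟨h1, mem_SLV.2 h2⟩

/-- The elementary group is generated by the transvections. -/
theorem E_le_of_TX (h : Un P) (hn : 4 ≤ finrank F V) {X : Subgroup (V ≃ₗ[F] V)}
    (hX : ∀ v, P.Val v 0 → TX P X v) : P.E ≤ X := by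
  refine E_le_of_EI fun u w c hu hw hc => ?_
  by_cases h0 : u = 0
  · subst h0; exact Has.id.congr fun x => by simp [eich]
  refine fullA_of_eSub hu (hX u hu).2 ?_ w c hw hc
  obtain ⟨δ, hδ0, hδ⟩ := exists_lam_ne_of_unitary h.σ h.ε
  have h1 : ∀ r, P.Val r 0 → P.B r u = 0 → r ∈ P.eSub X hu := fun r hr hru =>
    ⟨hru, fun a => ⟨0, sing_smul hr a, by
      have h2 : P.B u ((a / -P.σ δ) • r) = 0 := by simp [P.B_symm hru]
      have := (hX u hu).EI (hX _ (sing_smul hr (a / -P.σ δ)))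
        (hX _ (by simpa using val_add_orth hu (sing_smul hr _) h2)) h2 hδ
      rwa [smul_smul, mul_div_cancel₀ _ (by simpa using hδ0)] at this⟩⟩
  have h2 : P.perp (P.eSub X hu) ≤ P.perp (P.pp u) := fun z hz => by
    by_contra hz'
    obtain ⟨e, he, hes, hez⟩ := Sub4.exists_sing_ne2 (wild2 h) hz' (by
      have := Polar.finrank_pp (P := P) h0
      have := finrank_pp_inf_perp_le (P := P) u
      omega)
    exact hez (mem_perp'.1 hz e (h1 e hes he))
  have h3 := perp_anti (P := P) h2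
  rwa [perp_perp, perp_perp] at h3

/-- a torus element fixing a non-degenerate subspace of codimension at least three -/
theorem exists_torus (h : Un P) (hn : 4 ≤ finrank F V) {M : Submodule F V}
    (hM : M ⊓ P.perp M = ⊥) (hd : 3 ≤ finrank F M) {u : V} (huM : u ∈ M) (hu : P.Val u 0)
    (h0 : u ≠ 0) {b : F} (hb : b ≠ 0) :
    ∃ k ∈ P.E, k u = b • u ∧ ∀ x ∈ P.perp M, k x = x := by
  obtain ⟨f, hfM, hf, huf⟩ := Dec2.exists_partner hM huM hu h0
  obtain ⟨w, hw, w', hw', hww⟩ := exists_nonperp_pair (P := P) huM (by rw [hM]; simpa using hd)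
  obtain ⟨y, hy, hy1⟩ : ∃ y ∈ M ⊓ P.pp u, P.B y y = 1 := by
    by_contra hcon
    exact hww (B_eq_zero_of_forall_isotropic h.σ (U := M ⊓ P.pp u) (fun x hx => by
      by_contra h1; exact hcon (exists_unit_vector h.σ h.ε hx h1)) hw hw')
  have hyu : P.B y u = 0 := hy.2
  have hv : ∀ c, ∃ z ∈ M, P.B u z = 0 ∧ P.Val z c := fun c => by
    obtain ⟨a, ha⟩ := h.exists_nm (t := c + P.σ c) (by simp [add_comm])
    refine ⟨a • y, M.smul_mem _ hy.1, by simp [P.B_symm hyu], ?_⟩
    rw [val_iff_of_unitary h.σ h.ε]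
    simp [hy1, ← ha, nm, mul_comm]
  have hb' : P.σ b ≠ 0 := by simpa using hb
  have h1 : P.Val (u + b • f) (P.σ b) := val_congr (val_add_sing hu hf b) (by simp [huf])
  have h2 : P.Val (u + (1 : F) • f) 1 := val_congr (val_add_sing hu hf 1) (by simp [huf])
  obtain ⟨y1, m1, u1, v1⟩ := hv (P.σ b)
  obtain ⟨y2, m2, u2, v2⟩ := hv 1
  have m3 : u + b • f ∈ M := M.add_mem huM (M.smul_mem _ hfM)
  have m4 : u + (1 : F) • f ∈ M := M.add_mem huM (M.smul_mem _ hfM)
  refine ⟨_, P.E.mul_mem (rc h hn _ _ _ v2 h2 one_ne_zero) (rc h hn _ _ _ h1 v1 hb'), ?_,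
    fun x hx => ?_⟩
  · simp only [LinearEquiv.mul_apply]
    rw [reflE_inv_fix v1 hb' u1]
    have e1 : reflE h1 hb' u = reflE h2 one_ne_zero (b • u) := by
      simp only [reflE_apply, Polar.refl, map_add, map_smul, B_smul_right,
        huf, sing_B hu, map_one]
      match_scalars <;> field_simp <;> ring
    rw [e1, show ∀ y, (reflE h2 one_ne_zero)⁻¹ (reflE h2 one_ne_zero y) = y from
      (reflE h2 one_ne_zero).symm_apply_apply, map_smul, reflE_apply, refl_fix _ u2]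
  · simp only [LinearEquiv.mul_apply]
    rw [reflE_inv_fix v1 hb' (hx _ m1), reflE_apply h1, refl_fix _ (hx _ m3),
      reflE_inv_fix h2 one_ne_zero (hx _ m4), reflE_apply, refl_fix _ (hx _ m2)]

/-- The stabiliser of a non-degenerate point is maximal. -/
theorem nondeg_point (h : Un P) (hn : 4 ≤ finrank F V) {W : Submodule F V}
    (hW : W ⊓ P.perp W = ⊥) (h0 : W ≠ ⊥) (hd : finrank F W ≤ 1) :
    Geo.IsMaximalIn P.E (stab W ⊓ P.E) := by
  have hM := P.finrank_perp W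
  refine isMaximalIn_of inf_le_right ?_ fun X hH hXE g hg hg' => ?_
  · obtain ⟨g, h1, h2⟩ := Polar.exists_E_notMem_stab (wild2 h) (by omega) (by omega) h0 (by
      rintro rfl; rw [finrank_top] at hd; omega)
    exact ⟨g, h1, fun h => h2 h.1⟩
  have hI := E_le_Iso (hXE hg)
  obtain ⟨u, hu, hu0, hus⟩ := wild2 h (P.perp W ⊓ (P.perp W).map (g : V →ₗ[F] V)) (by
    have := Submodule.finrank_sup_add_finrank_inf_eq (P.perp W) ((P.perp W).map (g : V →ₗ[F] V))
    have := Submodule.finrank_le (P.perp W ⊔ (P.perp W).map (g : V →ₗ[F] V))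
    rw [LinearEquiv.finrank_map_eq] at *
    omega)
  obtain ⟨u', hu', hgu⟩ := hu.2
  by_contra hcon
  obtain ⟨p, hp, hpz, hp0⟩ : ∃ p ∈ W, p ∈ P.zSub X hus ∧ p ≠ 0 := by
    by_contra! H
    exact hg' ⟨Sing.mem_stab_of_sing hW hH hXE hu.1 hus hu0 H hg hu' hgu, hXE hg⟩
  refine hcon (Sing.E_le_of_le_eSub hW hH (by omega) hu.1 hus hu0 fun x hx => ?_)
  obtain ⟨a, rfl⟩ := Submodule.mem_span_singleton.1 (Sing.mem_span_of_le_one hd hp hp0 hx)
  refine Submodule.smul_mem _ _ (Sing.mem_eSub_of_forall fun b => ?_)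
  by_cases hb : b = 0
  · simp [hb]
  have hb' : P.σ b ≠ 0 := by simpa using hb
  obtain ⟨k, hk, h1, h2⟩ := exists_torus h hn (inf_perp_perp hW) (by omega) hu.1 hus hu0 hb'
  rw [perp_perp] at h2
  have := map_mem_zSub hus (hH ⟨mem_stab_of_forall fun x hx => by rwa [h2 x hx], hk⟩)
    (E_le_Iso hk) hb' h1 hpz
  rwa [σσ, h2 p hp] at this

open Geo in
theorem su_point {F : Type*} [Field F] [Fintype F] {q : ℕ} (hF : Fintype.card F = q ^ 2)
    (W : Submodule F (Fin 4 → F)) (hW0 : W ≠ ⊥)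
    (hW : IsNondegenerateOn (hermForm 4 F q) W) (hdim : 2 * finrank F W < 4) :
    IsMaximalIn (GU 4 F q ⊓ specialLinear (Fin 4) F)
      (subspaceStabilizer W ⊓ (GU 4 F q ⊓ specialLinear (Fin 4) F)) := by
  refine isMaximalIn_of_equiv toLE (Small.mem_SU_iff hF le_rfl) (fun g => ?_)
    (nondeg_point (P := uStd hF 4) ⟨GenSU.σ_ne hF, rfl⟩ (by simp)
      ((inf_perp_iff_nondegenerateOn _ (fun _ _ => rfl)).2 hW) hW0 (by omega))
  rw [Subgroup.mem_inf, Small.mem_SU_iff hF le_rfl, mem_subspaceStabilizer_iff, Subgroup.mem_inf]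

end Cfsg.Agent.H1.U4
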