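import Cfsg.Agent.H1.Spin6C
import Cfsg.Agent.H1.U4A
import Cfsg.Agent.Asch.FinField

/-!
The six-dimensional orthogonal model of the four-dimensional unitary group.
-/

set_option autoImplicit false
set_option linter.unusedSectionVars false

namespace Cfsg.Agent.H1.Spin6

open Module H7 H7.Polar H8 QuadraticMap Matrix H2.SympType

variable {F : Type*} [Field F]

theorem ψτ_wd (v a : Fin 4 → F) : ψ (τ (wd v a)) *ᵥ v = 0 ∧ ψ (τ (wd v a)) *ᵥ a = 0 := by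
  constructor <;> ext k <;> fin_cases k <;>
    simp [ψ_def, τ_def, wd, mulVec, dotProduct, Fin.sum_univ_four] <;> ring

theorem eq_wd {v z : Fin 4 → F} (hz : v ⬝ᵥ z = 1) {y : Fin 6 → F} (h : ψ (τ y) *ᵥ v = 0) :
    y = wd v (-(ψ y *ᵥ z)) := by
  have h0 := congrFun h 0
  have h1 := congrFun h 1
  have h2 := congrFun h 2
  have h3 := congrFun h 3
  simp [ψ_def, τ_def, mulVec, dotProduct, Fin.sum_univ_four] at h0 h1 h2 h3 hz
  ext k
  fin_cases k <;> simp [ψ_def, wd, dotProduct, Fin.sum_univ_four] <;> grind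

theorem exists_dot {v : Fin 4 → F} {U : Submodule F (Fin 4 → F)} (h : v ∉ U) :
    ∃ z, v ⬝ᵥ z = 1 ∧ ∀ u ∈ U, u ⬝ᵥ z = 0 := by
  obtain ⟨χ, h1, h3⟩ := exists_dual_one h
  obtain ⟨b, hb⟩ := exists_vec χ
  exact ⟨b, by rw [dotProduct_comm, ← hb, h1], fun u hu => by rw [dotProduct_comm, ← hb, h3 u hu]⟩

theorem wd_add (v a b : Fin 4 → F) : wd v (a + b) = wd v a + wd v b := by
  ext k; fin_cases k <;> simp [wd] <;> ring

theorem wd_smul (v a : Fin 4 → F) (c : F) : wd v (c • a) = c • wd v a := by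
  ext k; fin_cases k <;> simp [wd] <;> ring

theorem wd_neg (v a : Fin 4 → F) : wd v (-a) = wd a v := by
  ext k; fin_cases k <;> simp [wd] <;> ring

theorem polar_wd_wd (a b c d : Fin 4 → F) :
    polar (Pf F) (wd a b) (wd c d) = (of ![a, b, c, d]).det := by
  simp [polar_Pf, wd, det_succ_row_zero, Fin.sum_univ_succ, Fin.succAbove]
  ring

section sigma

variable (σ : F →+* F)

/-- the fixed field -/
abbrev KK : Subfield F := σ.eqLocusField (RingHom.id F)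

theorem σK (a : KK σ) : σ a = a := a.2

/-- the real structure -/
def ιU : (Fin 3 → F) →ₗ[KK σ] (Fin 6 → F) where
  toFun x := ![x 0, x 1, x 2, σ (x 2), -σ (x 1), σ (x 0)]
  map_add' x y := by ext i; fin_cases i <;> simp; ring
  map_smul' c x := by ext i; fin_cases i <;> simp [Subfield.smul_def, σK]

theorem ιU_def (x : Fin 3 → F) : ιU σ x = ![x 0, x 1, x 2, σ (x 2), -σ (x 1), σ (x 0)] := rfl

/-- the conjugation on alternating matrices -/
def ρ (y : Fin 6 → F) : Fin 6 → F := -τ (σ ∘ y)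

theorem ρ_add (x y : Fin 6 → F) : ρ σ (x + y) = ρ σ x + ρ σ y := by
  ext i; fin_cases i <;> simp [ρ, τ_def] <;> ring

theorem ρ_smul (c : F) (x : Fin 6 → F) : ρ σ (c • x) = σ c • ρ σ x := by
  ext i; fin_cases i <;> simp [ρ, τ_def]

theorem ψ_map (y : Fin 6 → F) : ψ (σ ∘ y) = (ψ y).map σ := by
  ext i j; fin_cases i <;> fin_cases j <;> simp [ψ_def]

theorem ψτ_map (y : Fin 6 → F) : ψ (τ (σ ∘ y)) = (ψ (τ y)).map σ := by
  ext i j; fin_cases i <;> fin_cases j <;> simp [ψ_def, τ_def]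

theorem wd_map (a b : Fin 4 → F) : σ ∘ wd a b = wd (σ ∘ a) (σ ∘ b) := by
  ext i; fin_cases i <;> simp [wd]

theorem mulVec_map (A : Matrix (Fin 4) (Fin 4) F) (v : Fin 4 → F) :
    A.map σ *ᵥ (σ ∘ v) = σ ∘ (A *ᵥ v) := funext fun i => (RingHom.map_mulVec σ A v i).symm

/-- the special unitary group -/
def SUσ : Subgroup (GL (Fin 4) F) where
  carrier := {g | (g.1.map σ)ᵀ * g.1 = 1 ∧ g.1.det = 1}
  one_mem' := by simp
  mul_mem' {a b} ha hb := ⟨by
    rw [Units.val_mul, Matrix.map_mul, transpose_mul, mul_assoc, ← mul_assoc _ a.1, ha.1, one_mul,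
      hb.1], by simp [ha.2, hb.2]⟩
  inv_mem' {a} ha := ⟨by
    have h1 : (a.1.map σ)ᵀ = (a⁻¹).1 := Units.eq_inv_of_mul_eq_one_right ha.1
    have h2 : ((a⁻¹).1.map σ)ᵀ * (a.1.map σ)ᵀ = 1 := by
      rw [← transpose_mul, ← Matrix.map_mul, Units.mul_inv]; simp
    rwa [h1] at h2, by simp [ha.2]⟩

variable {σ} (hσ : ∀ a, σ (σ a) = a)
include hσ

theorem σσ_vec {n : Type*} (x : n → F) : σ ∘ σ ∘ x = x := funext fun _ => hσ _

theorem ρρ (y : Fin 6 → F) : ρ σ (ρ σ y) = y := by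
  ext i; fin_cases i <;> simp [ρ, τ_def, hσ]

theorem ρ_ι (x : Fin 3 → F) : ρ σ (ιU σ x) = ιU σ x := by
  ext i; fin_cases i <;> simp [ρ, τ_def, ιU_def, hσ]

theorem τ_real {y : Fin 6 → F} (h : ρ σ y = y) : τ y = -(σ ∘ y) := by
  conv_lhs => rw [← h, ρ, map_neg, ττ]

omit hσ in
theorem exists_ι {y : Fin 6 → F} (h : ρ σ y = y) : ∃ x, ιU σ x = y := by
  refine ⟨![y 0, y 1, y 2], ?_⟩
  have h3 := congrFun h 3
  have h4 := congrFun h 4
  have h5 := congrFun h 5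
  simp [ρ, τ_def] at h3 h4 h5
  ext i; fin_cases i <;> simp [ιU_def, h3, h4, h5]

/-- the norm form -/
def QU : QuadraticForm (KK σ) (Fin 3 → F) :=
  QuadraticMap.ofPolar (fun x => ⟨Pf F (ιU σ x), by
      simp [RingHom.mem_eqLocusField, Pf_apply, ιU_def, hσ, mul_comm]⟩)
    (fun a x => Subtype.ext (by simp [Pf_apply, ιU_def, Subfield.smul_def, σK]; ring))
    (fun x x' y => Subtype.ext (by simp [polar, Pf_apply, ιU_def]; ring))
    (fun a x y => Subtype.ext (by simp [polar, Pf_apply, ιU_def, Subfield.smul_def, σK]; ring))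

theorem hιU (x : Fin 3 → F) : Pf F (ιU σ x) = algebraMap (KK σ) F (QU hσ x) := rfl

attribute [local irreducible] Pf

theorem ndU (hne : ∃ a, σ a ≠ a) : ND (QU hσ) := fun y h => by
  obtain ⟨a, ha⟩ := hne
  have e : ∀ x, polar (Pf F) (ιU σ x) (ιU σ y) = 0 := fun x => by
    rw [polar_ι (hιU hσ), h, map_zero]
  ext i
  have e1 := e (Pi.single i 1)
  have e2 := e (Pi.single i a)
  refine (mul_eq_zero.1 (show (σ a - a) * y i = 0 from ?_)).resolve_left (sub_ne_zero.2 ha)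
  fin_cases i <;> simp [polar_Pf, ιU_def] at e1 e2 ⊢ <;> grind

theorem lift_SU (u w : Fin 3 → F) (hu : QU hσ u = 0) (hw : polar (QU hσ) w u = 0) :
    lift (Pf_zero (hιU hσ) hu) (polar_zero (hιU hσ) hw) ∈ SUσ σ := by
  refine ⟨?_, lift_det _ _⟩
  have e1 : ∀ x, ((ψ (ιU σ x)).map σ)ᵀ = ψ (τ (ιU σ x)) := fun x => by
    rw [τ_real hσ (ρ_ι hσ x), ← ψ_map, ψ_tr, map_neg]
  have e2 : ∀ x, ((ψ (τ (ιU σ x))).map σ)ᵀ = ψ (ιU σ x) := fun x => by
    rw [← ψτ_map, ψ_tr, ← map_neg]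
    exact congrArg ψ (ρ_ι hσ x)
  have e3 := ψ_anti (ιU σ w) (ιU σ u)
  have e4 := ψ_sq' (ιU σ u)
  rw [polar_zero (hιU hσ) hw, zero_smul] at e3
  rw [Pf_zero (hιU hσ) hu, zero_smul] at e4
  rw [lift_val, Matrix.map_sub _ (map_sub σ), Matrix.map_mul, transpose_sub, transpose_mul, e1, e2,
    Matrix.map_one _ (map_zero σ) (map_one σ), transpose_one, sub_mul, mul_sub, mul_sub, one_mul,
    one_mul, mul_one, mul_assoc, ← mul_assoc (ψ (τ (ιU σ u))), e4, zero_mul, mul_zero, sub_zero,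
    sub_sub, add_comm, e3, sub_zero]

theorem su_lift (hne : ∃ a, σ a ≠ a) : ∀ h ∈ (qP (ndU hσ hne)).E, ∃ g ∈ SUσ σ, (g, h) ∈ Γ (ιU σ) :=
  exists_lift (hιU hσ) _ (lift_SU hσ)

variable (hne : ∃ a, σ a ≠ a) {P : Polar F (Fin 4 → F)} (hP : ∀ x y, P.B x y = x ⬝ᵥ σ ∘ y)
  (hPσ : ∀ a, P.σ a = σ a) (hε : P.ε = 1) [Finite F]
include hP

theorem ψψ_wd {v a b : Fin 4 → F} (hv : P.B v v = 0) (ha : P.B a v = 0) (hb : P.B b v = 0)
    (h : ρ σ (wd v b) = wd v b) (x : Fin 4 → F) :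
    (ψ (wd v a) * ψ (τ (wd v b))) *ᵥ x = (P.B a b * P.B x v) • v := by
  replace hb := P.B_symm hb
  simp only [hP] at *
  simp only [τ_real hσ h, wd_map, map_neg, ← mulVec_mulVec, neg_mulVec, ψ_wd, dotProduct_neg,
    dotProduct_sub, dotProduct_smul, hv, ha, hb, dotProduct_comm (σ ∘ v) x, smul_eq_mul]
  module

include hne hPσ hε

theorem exists_real_tv {v : Fin 4 → F} (h0 : v ≠ 0) (hv : P.B v v = 0) {c : F}
    (hc : σ c = -c) : ∃ a b, P.B a v = 0 ∧ P.B b v = 0 ∧ ρ σ (wd v a) = wd v a ∧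
      ρ σ (wd v b) = wd v b ∧ P.B a b = c := by
  obtain ⟨z, hz, -⟩ := exists_dot (U := ⊥) h0
  have k1 : ∀ a, P.B a v = 0 → ∃ a', P.B a' v = 0 ∧ ρ σ (wd v a) = wd v a' := fun a ha => by
    have e1 : ψ (τ (ρ σ (wd v a))) *ᵥ v = 0 := by
      have h1 := P.B_symm ha
      rw [hP] at hv h1
      rw [ρ, map_neg, ττ, wd_map, map_neg, neg_mulVec, ψ_wd, dotProduct_comm, h1, dotProduct_comm,
        hv]
      simp
    refine ⟨_, ?_, eq_wd hz e1⟩
    have e2 := (ψτ_wd (σ ∘ v) (σ ∘ a)).1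
    rw [hP, neg_dotProduct, ← vecMul_transpose, ← dotProduct_mulVec, ψ_tr, ρ, wd_map,
      map_neg, neg_neg, e2]
    simp
  obtain ⟨θ, hθ⟩ := hne
  replace hθ := sub_ne_zero.2 hθ
  have k2 : ∀ N : Submodule F (Fin 4 → F), (∀ a, P.B a v = 0 → ρ σ (wd v a) = wd v a → a ∈ N) →
      P.pp v ≤ N := fun N hN a ha => by
    obtain ⟨a', h1, h2⟩ := k1 a ha
    have h3 : ρ σ (wd v a') = wd v a := by rw [← h2, ρρ hσ]
    have h4 := hN (a + a') (by simp [h1, mem_pp.1 ha]) (by rw [wd_add, ρ_add, h2, h3, add_comm])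
    have h5 := hN (θ • a + σ θ • a') (by simp [h1, mem_pp.1 ha]) (by
      rw [wd_add, wd_smul, wd_smul, ρ_add, ρ_smul, ρ_smul, h2, h3, hσ, add_comm])
    convert N.smul_mem (σ θ - θ)⁻¹ (sub_mem (N.smul_mem (σ θ) h4) h5) using 1
    match_scalars <;> field_simp <;> ring
  have k3 : ∀ a, P.B a v = 0 → ρ σ (wd v a) = wd v a → P.B a a = 0 := fun a ha h => by
    obtain ⟨x, hx⟩ := P.exists_B_ne h0
    have := ψψ_wd hσ hP hv ha ha h x
    rw [ψ_sq, Pf_wd, zero_smul, zero_mulVec] at this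
    simpa [h0, P.B_ne_symm hx] using this.symm
  obtain ⟨a, ha, ha', b, hb, hb', h1⟩ : ∃ a, P.B a v = 0 ∧ ρ σ (wd v a) = wd v a ∧
      ∃ b, P.B b v = 0 ∧ ρ σ (wd v b) = wd v b ∧ P.B a b ≠ 0 := by
    by_contra! h
    have h1 := two_mul_finrank_le_of_le_perp (k2 (P.perp (P.pp v)) fun a ha ha' b hb =>
      P.B_symm (k2 (P.pp a) (fun b hb hb' => h b hb hb' a ha ha') hb))
    have h2 := Polar.finrank_pp (P := P) h0
    simp at h1 h2
    omega
  have h2 := k3 (a + b) (by simp [ha, hb]) (by rw [wd_add, ρ_add, ha', hb'])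
  have h3 := P.herm a b
  simp only [map_add, LinearMap.add_apply, k3 a ha ha', k3 b hb hb', h3, hε, hPσ] at h2
  have h4 : σ (P.B a b) = -P.B a b := by linear_combination h2
  refine ⟨(c / P.B a b) • a, b, by simp [ha], hb, ?_, hb', by simp [h1]⟩
  rw [wd_smul, ρ_smul, ha', map_div₀, hc, h4, neg_div_neg_eq]

theorem su_image (hS : ∀ g ∈ SUσ σ, toLE g ∈ P.E) :
    ∀ g ∈ SUσ σ, ∃ h ∈ (qP (ndU hσ hne)).E, (g, h) ∈ Γ (ιU σ) := by
  intro g hg
  have hU : H9.UDec.Un P := ⟨by simpa only [hPσ] using hne, hε⟩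
  obtain ⟨t, ht, e⟩ := U4.E_le_of_TX hU (by simp) (X := (Img (ιU σ) (ndU hσ hne)).map
    (toLE (ι := Fin 4) (F := F)).toMonoidHom) (fun v hv => ⟨hv, fun c hc => by
      by_cases h0 : v = 0
      · exact ⟨1, one_mem _, fun x => by simp [h0, eich]⟩
      obtain ⟨a, b, ha, hb, ha', hb', h⟩ := exists_real_tv hσ hne hP hPσ hε h0 (sing_B hv)
        (c := σ c) (by rw [hσ, ← hPσ, hU.lam.1 hc, neg_neg])
      obtain ⟨u, hu⟩ := exists_ι ha'
      obtain ⟨w, hw⟩ := exists_ι hb'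
      have h1 : QU hσ u = 0 := (algebraMap (KK σ) F).injective (by
        rw [← hιU, hu, Pf_wd, map_zero])
      have h2 : polar (QU hσ) w u = 0 := (algebraMap (KK σ) F).injective (by
        rw [← polar_ι (hιU hσ), hu, hw, map_zero]; simp [polar_Pf, wd]; ring)
      refine ⟨_, Subgroup.mem_map_of_mem _ (mem_Img.2 ⟨_, eichE_mem_E _ _ _,
        lift_rel (hιU hσ) (ndU hσ hne) h1 h2⟩), fun x => ?_⟩
      change (1 - ψ (ιU σ u) * ψ (τ (ιU σ w))) *ᵥ x = _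
      rw [hu, hw, sub_mulVec, one_mulVec, ψψ_wd hσ hP (sing_B hv) ha hb hb', h, eich_tv, hPσ]⟩)
    (hS g hg)
  exact mem_Img.1 (toLE.injective e ▸ ht)

end sigma

end Cfsg.Agent.H1.Spin6
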