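import Cfsg.Agent.H1.Spin6U

/-!
Maximal subgroups of `SU_4(q)` through the six-dimensional orthogonal model.
-/

set_option autoImplicit false
set_option linter.unusedSectionVars false

namespace Cfsg.Agent.H1.Spin6

open Module H7 H7.Polar H8 QuadraticMap Matrix H2.SympType

attribute [local irreducible] Pf

section

variable {F : Type*} [Field F]

theorem exists_two {L : Submodule F (Fin 4 → F)} (h : finrank F L = 2) :
    ∃ a b, b ∉ F ∙ a ∧ a ∉ F ∙ b ∧ L = Submodule.span F {a, b} := by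
  obtain ⟨a, ha, h0⟩ := exists_notMem_of_finrank_lt (U := (⊥ : Submodule F _)) (W := L)
    (by rw [finrank_bot]; omega)
  obtain ⟨b, hb, h1⟩ := exists_notMem_of_finrank_lt (U := F ∙ a) (W := L)
    (by have := finrank_span_singleton_le (F := F) a; omega)
  refine ⟨a, b, h1, by
    simpa using notMem_sup_span_swap (U := (⊥ : Submodule F _)) h0 (by simpa using h1),
    (Submodule.eq_of_le_of_finrank_le (Submodule.span_le.2 ?_) ?_).symm⟩
  · rintro _ (rfl | rfl) <;> assumption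
  · have := Submodule.finrank_lt_finrank_of_lt (s := F ∙ a) (t := Submodule.span F {a, b})
      (lt_of_le_of_ne (Submodule.span_mono (by simp)) fun e =>
        h1 (e.ge (Submodule.subset_span (by simp))))
    rw [finrank_span_singleton h0] at this
    omega

theorem exists_real_wd {σ : F →+* F} (hσ : ∀ a, σ (σ a) = a) (hne : ∃ a, σ a ≠ a)
    {a b : Fin 4 → F} (h0 : a ≠ 0) (h : b ∉ F ∙ a) (haa : a ⬝ᵥ σ ∘ a = 0) (hab : a ⬝ᵥ σ ∘ b = 0)
    (hba : b ⬝ᵥ σ ∘ a = 0) (hbb : b ⬝ᵥ σ ∘ b = 0) : ∃ u, ∃ l : F, l ≠ 0 ∧ ιU σ u = l • wd a b := by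
  obtain ⟨z, hz, hz'⟩ := exists_dot h
  replace hz' := hz' a (Submodule.mem_span_singleton_self a)
  obtain ⟨z', h1, -⟩ := exists_dot (U := ⊥) h0
  have e1 : ∀ x, x ⬝ᵥ σ ∘ a = 0 → x ⬝ᵥ σ ∘ b = 0 → ψ (τ (ρ σ (wd a b))) *ᵥ x = 0 := fun x h1 h2 => by
    rw [ρ, map_neg, ττ, wd_map, map_neg, neg_mulVec, ψ_wd, dotProduct_comm, h2, dotProduct_comm, h1]
    simp
  obtain ⟨c, hc⟩ : ∃ c : F, ρ σ (wd a b) = c • wd a b := by
    have e2 := eq_wd h1 (e1 a haa hab)
    have e3 := eq_wd hz (e1 b hba hbb)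
    generalize -(ψ (ρ σ (wd a b)) *ᵥ z') = a' at e2
    rw [e2, ψ_wd, hz', zero_smul, sub_zero, ← smul_neg, wd_smul, wd_neg] at e3
    exact ⟨_, e2.trans e3⟩
  have k : ∀ θ, ∃ u, ιU σ u = (θ + σ θ * c) • wd a b := fun θ => exists_ι (by
    rw [add_smul, mul_smul, ← hc, ρ_add, ρ_smul, ρ_smul, ρρ hσ, hσ, add_comm])
  obtain ⟨θ, hθ⟩ := hne
  by_cases h2 : 1 + σ 1 * c = 0
  · obtain ⟨u, hu⟩ := k θ
    refine ⟨u, _, fun e => hθ ?_, hu⟩
    rw [map_one] at h2
    linear_combination σ θ * h2 - e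
  · obtain ⟨u, hu⟩ := k 1
    exact ⟨u, _, h2, hu⟩

theorem exists_ts {σ : F →+* F} (hσ : ∀ a, σ (σ a) = a) (hne : ∃ a, σ a ≠ a)
    {L : Submodule F (Fin 4 → F)} (h : finrank F L = 2) (hL : ∀ x ∈ L, ∀ y ∈ L, x ⬝ᵥ σ ∘ y = 0) :
    ∃ u a b, ∃ l : F, l ≠ 0 ∧ ιU σ u = l • wd a b ∧ L = Submodule.span F {a, b} ∧
      LinearMap.range (ψ (ιU σ u)).mulVecLin = L := by
  obtain ⟨a, b, h1, h2, rfl⟩ := exists_two h
  have ha : a ∈ Submodule.span F {a, b} := Submodule.subset_span (by simp)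
  have hb : b ∈ Submodule.span F {a, b} := Submodule.subset_span (by simp)
  obtain ⟨u, l, hl, hu⟩ := exists_real_wd hσ hne (by rintro rfl; simp at h2) h1 (hL a ha a ha)
    (hL a ha b hb) (hL b hb a ha) (hL b hb b hb)
  refine ⟨u, a, b, l, hl, hu, rfl, le_antisymm ?_ (Submodule.span_le.2 ?_)⟩
  · rintro _ ⟨z, rfl⟩
    rw [mulVecLin_apply, hu, map_smul, smul_mulVec, ψ_wd]
    exact Submodule.smul_mem _ _ (sub_mem (Submodule.smul_mem _ _ ha) (Submodule.smul_mem _ _ hb))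
  · obtain ⟨z, e1, e2⟩ := exists_dot h1
    obtain ⟨z', e3, e4⟩ := exists_dot h2
    rintro _ (rfl | rfl)
    · exact ⟨l⁻¹ • z, by simp [hu, ψ_wd, e1, e2 _ (Submodule.mem_span_singleton_self _), hl]⟩
    · exact ⟨-l⁻¹ • z', by simp [hu, ψ_wd, e3, e4 _ (Submodule.mem_span_singleton_self _), hl]⟩

end

variable {F : Type*} [Field F] [Fintype F] {q : ℕ} (hF : Fintype.card F = q ^ 2)

theorem uStd_B (x y : Fin 4 → F) : (uStd hF 4).B x y = x ⬝ᵥ qFrob hF ∘ y := rfl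

theorem mem_GU {g : GL (Fin 4) F} : g ∈ GU 4 F q ↔ (g.1.map (qFrob hF))ᵀ * g.1 = 1 := by
  have e : ∀ x y, hermForm 4 F q (g.1 *ᵥ x) (g.1 *ᵥ y) =
      hermForm 4 F q (((g.1.map (qFrob hF))ᵀ * g.1) *ᵥ x) y := fun x y => by
    change _ ⬝ᵥ qFrob hF ∘ _ = _ ⬝ᵥ qFrob hF ∘ _
    rw [← mulVec_map, dotProduct_mulVec, ← mulVec_transpose, mulVec_mulVec]
  refine ⟨fun h => ?_, fun h x y => (e x y).trans (by rw [h, one_mulVec])⟩
  refine toLin'.injective (LinearMap.ext fun x => ?_)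
  rw [← sub_eq_zero]
  exact (uStd hF 4).nondeg _ fun y => (uStd hF 4).B_symm (by
    rw [map_sub, LinearMap.sub_apply, sub_eq_zero, toLin'_one]
    exact (e x y).symm.trans (h x y))

theorem SU_eq : GU 4 F q ⊓ Geo.specialLinear (Fin 4) F = SUσ (qFrob hF) := by
  ext g
  rw [Subgroup.mem_inf, mem_GU hF, mem_SL]
  rfl

theorem card_KK : Nat.card (KK (qFrob hF)) = q := by
  have hq : 2 ≤ q := by
    have := Fintype.one_lt_card (α := F)
    by_contra h
    interval_cases q <;> omega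
  exact Asch.card_fixed_pow (L := F) q hq (by
    rw [Nat.card_eq_fintype_card, hF]; simpa using Nat.sub_one_dvd_pow_sub_one q 2)

theorem finrank_KK : finrank (KK (qFrob hF)) (Fin 3 → F) = 6 := by
  have h1 := Module.natCard_eq_pow_finrank (K := KK (qFrob hF)) (V := F)
  have h2 := Finite.one_lt_card (α := KK (qFrob hF))
  rw [card_KK] at h1 h2
  rw [Nat.card_eq_fintype_card, hF] at h1
  rw [finrank_pi_fintype, ← Nat.pow_right_injective h2 h1]
  simp

theorem su_image' : ∀ g ∈ SUσ (qFrob hF), ∃ h ∈ (qP (ndU (qFrob_qFrob hF) (qFrob_ne hF))).E,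
    (g, h) ∈ Γ (ιU (qFrob hF)) :=
  su_image _ (qFrob_ne hF) (uStd_B hF) (fun _ => rfl) rfl fun g hg =>
    (Small.mem_SU_iff hF le_rfl g).1 (SU_eq hF ▸ hg)

include hF in
theorem su_c6 (hp : q.Prime) (h4 : q % 4 = 3)
    {R : Subgroup (GL (Fin 4) F)} (hs : Geo.IsSymplecticTypeGroup 2 R)
    (habs : Geo.ActsAbsolutelyIrreducibly (Geo.matrixSet R)) (hR : R ≤ GU 4 F q)
    (hZ : Nat.card (Subgroup.center R) = 4) :
    Geo.IsMaximalIn (GU 4 F q ⊓ Geo.specialLinear (Fin 4) F)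
      (Geo.subgroupNormalizer R ⊓ (GU 4 F q ⊓ Geo.specialLinear (Fin 4) F)) := by
  have h2 : (2 : F) ≠ 0 := two_ne_zero_of_odd_card (by
    rw [hF]; exact (Nat.odd_iff.2 (by omega)).pow)
  obtain ⟨a, b, c, d, j, P, i, h, hstd, mj, hj, hi⟩ := exists_std' h2 hs habs hZ
  have := Fintype.ofFinite (KK (qFrob hF))
  set σ := qFrob hF with hσ
  have hσi : σ i = -i := by
    rw [hσ, qFrob_apply, ← Nat.div_add_mod q 4, h4, pow_add, pow_mul,
      show i ^ 4 = 1 by linear_combination (i ^ 2 - 1) * hi, one_pow]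
    linear_combination i * hi
  have cj : ∀ g : GL (Fin 4) F, ((P⁻¹ * g * P).1.map σ)ᵀ * ((P.1.map σ)ᵀ * P.1) * (P⁻¹ * g * P).1 =
      (P.1.map σ)ᵀ * ((g.1.map σ)ᵀ * g.1) * P.1 := fun g => by
    rw [← mul_assoc, ← transpose_mul, ← Matrix.map_mul, ← Units.val_mul, mul_assoc P⁻¹,
      mul_inv_cancel_left, mul_assoc, ← Units.val_mul, mul_inv_cancel_left]
    simp only [Units.val_mul, Matrix.map_mul, transpose_mul, mul_assoc]
  have k : ∀ g ∈ R, ((P⁻¹ * g * P).1.map σ)ᵀ = (P⁻¹ * g * P).1 →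
      (P⁻¹ * g * P).1 * (P⁻¹ * g * P).1 = 1 →
      (P.1.map σ)ᵀ * P.1 * (P⁻¹ * g * P).1 = (P⁻¹ * g * P).1 * ((P.1.map σ)ᵀ * P.1) :=
    fun g hg e1 e2 => by
    have := cj g
    rw [(mem_GU hF).1 (hR hg), mul_one, e1] at this
    conv_rhs => rw [← this, ← mul_assoc, ← mul_assoc, e2, one_mul]
  have hm := hstd.sc h2 (k a h.ma ?_ ?_) (k b h.mb ?_ ?_) (k c h.mc ?_ ?_) (k d h.md ?_ ?_)
  · generalize ((P.1.map σ)ᵀ * P.1) 0 0 = m at hm
    have hm0 : m ≠ 0 := by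
      rintro rfl
      have := congrArg (fun x => x * (P⁻¹).1 * ((P⁻¹).1.map σ)ᵀ) hm
      simp only [Units.mul_inv_cancel_right, ← transpose_mul, ← Matrix.map_mul, Units.inv_mul] at this
      simp at this
    rw [SU_eq hF]
    refine c6_of (fr := ![![1, 0, 0], ![i, 0, 0], ![0, 1, 0], ![0, i, 0], ![0, 0, 1], ![0, 0, i]])
      (hιU (qFrob_qFrob hF)) (ndU _ (qFrob_ne hF)) (fun e => h2 (congrArg Subtype.val e))
      (by rwa [← Nat.card_eq_fintype_card, card_KK]) (finrank_KK hF) hi (fun k => ?_)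
      (su_image' hF) (su_lift _ (qFrob_ne hF)) (pauli_of hs habs) h hstd mj hj fun g => and_congr ?_ ?_
    · fin_cases k <;> simp [ιU_def, frv, ← hσ, hσi]
    · have h1 : (P.1.map σ)ᵀ = m • (P⁻¹).1 := by
        simpa using congrArg (· * (P⁻¹).1) hm
      have h3 := cj g
      rw [hm, h1, mul_smul_comm, mul_one, smul_mul_assoc, smul_mul_assoc, smul_mul_assoc] at h3
      rw [← hσ, smul_right_injective _ hm0 h3, Units.mul_eq_one_iff_eq_inv (u := P),
        Units.inv_mul_eq_iff_eq_mul, Units.mul_inv]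
    · rw [Units.val_mul, Units.val_mul, det_units_conj']
  all_goals simp only [hstd.ha, hstd.hb, hstd.hc, hstd.hd]
  all_goals ext r s; fin_cases r <;> fin_cases s <;> simp

include hF in
theorem su_ts (hq : 4 ≤ q) (D : Fin 2 → Submodule F (Fin 4 → F)) (hD : Geo.IsMDecomposition 2 D)
    (hts : ∀ i, Geo.IsTotallySingularFor (hermForm 4 F q) (D i)) :
    Geo.IsMaximalIn (GU 4 F q ⊓ Geo.specialLinear (Fin 4) F)
      (Geo.decompositionStabilizer D ⊓ (GU 4 F q ⊓ Geo.specialLinear (Fin 4) F)) := by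
  have hσ := qFrob_qFrob hF
  have := Fintype.ofFinite (KK (qFrob hF))
  have hc := isCompl_of_two hD.indep hD.iSup_eq_top
  choose u a b l hl hu hab hr using fun i => exists_ts hσ (qFrob_ne hF) (hD.finrank_eq i) (hts i)
  set hQ := ndU hσ (qFrob_ne hF)
  have q0 : ∀ i, QU hσ (u i) = 0 := fun i => (algebraMap _ F).injective (by
    rw [← hιU, hu, Q_smul, Pf_wd, map_zero, mul_zero])
  have q1 : polar (QU hσ) (u 0) (u 1) ≠ 0 := fun e => by
    have h1 := polar_zero (hιU hσ) e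
    simp only [hu, polar_smul_left, polar_smul_right, smul_eq_mul, mul_eq_zero, hl, false_or,
      polar_wd_wd] at h1
    refine (isUnit_iff_ne_zero.1 ((isUnit_iff_isUnit_det _).1
      (vecMul_surjective_iff_isUnit.1 fun x => ?_))) h1
    obtain ⟨y, hy, z, hz, rfl⟩ := Submodule.mem_sup.1 (hc.sup_eq_top ▸ Submodule.mem_top (x := x))
    rw [hab, Submodule.mem_span_pair] at hy hz
    obtain ⟨s, t, rfl⟩ := hy
    obtain ⟨s', t', rfl⟩ := hz
    exact ⟨![s, t, s', t'], by simp [add_assoc]⟩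
  have q2 : polar (QU hσ) (u 1) (u 0) ≠ 0 := by rwa [polar_comm]
  set M := Submodule.span (KK (qFrob hF)) {u 0, u 1} with hM
  have m0 : ∀ i, u i ∈ M := fun i => Submodule.subset_span (by fin_cases i <;> simp)
  have hnd : M ⊓ (qP hQ).perp M = ⊥ := eq_bot_iff.2 fun x hx => by
    obtain ⟨s, t, rfl⟩ := Submodule.mem_span_pair.1 hx.1
    have h1 := hx.2 _ (m0 0)
    have h2 := hx.2 _ (m0 1)
    simp [q0, q1, q2] at h1 h2
    simp [h1, h2]
  have d1 : finrank (KK (qFrob hF)) M ≤ 2 := by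
    classical
    have := (finrank_span_finset_le_card (R := KK (qFrob hF)) {u 0, u 1}).trans Finset.card_le_two
    rwa [Finset.coe_pair] at this
  have d2 := (qP hQ).finrank_perp M
  rw [finrank_KK] at d2
  rw [SU_eq hF]
  refine Spin5.max_of_rel (Γ (ιU (qFrob hF))) (K := stab M) (su_image' hF) (su_lift _ (qFrob_ne hF))
    (fun X b1 b2 x hx hx' => E_le_of_nondeg_orth (O5.qP_lam hQ) hnd b1
      (O5.qP_rc hQ (by rw [finrank_KK]; omega)) (by omega) (by rw [card_KK]; omega)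
      (by rw [card_KK]; omega) (b2.trans E_le_Iso) (fun g _ e => ?_) hx hx')
    (fun g _ h hK hE hh => ?_) ?_
  · have := Submodule.finrank_mono e
    rw [LinearEquiv.finrank_map_eq] at this
    omega
  · refine (mem_decompositionStabilizer_iff D g).2 ((IsMDecomposition.dec hD).mem_decStab fun i => ?_)
    obtain ⟨s, t, e⟩ := Submodule.mem_span_pair.1 ((hK _).1 (m0 i))
    have h1 := Iso.Q_eq (E_le_Iso hE) (u i)
    rw [← e] at h1
    obtain ⟨j, s, e⟩ : ∃ j, ∃ s : KK (qFrob hF), h (u i) = s • u j := by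
      simp only [Q_add, Q_smul, q0, mul_zero, zero_add, polar_smul_left, polar_smul_right,
        smul_eq_mul, mul_eq_zero, q1, or_false] at h1
      rcases h1 with rfl | rfl
      exacts [⟨0, s, by simp [← e]⟩, ⟨1, t, by simp [← e]⟩]
    refine ⟨j, fun v hv => ?_⟩
    rw [← hr] at hv ⊢
    obtain ⟨z, rfl⟩ := hv
    refine ⟨(s : F) • ((g⁻¹).1ᵀ *ᵥ z), ?_⟩
    have h2 := congrArg (· *ᵥ ((g⁻¹).1ᵀ *ᵥ z)) (hh (u i))
    simp only [e, map_smul, mulVec_mulVec, mul_assoc, ← transpose_mul, Units.inv_mul,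
      transpose_one, mul_one] at h2
    simp [toLE_apply, ← h2, Subfield.smul_def, smul_mulVec]
  · have hU : H9.UDec.Un (uStd hF 4) := ⟨GenSU.σ_ne hF, rfl⟩
    obtain ⟨v, hv, h0⟩ := exists_notMem_of_finrank_lt (U := (⊥ : Submodule F _)) (W := D 0)
      (by rw [finrank_bot, hD.finrank_eq]; omega)
    obtain ⟨c, hc0, hc'⟩ := GenSU.lam (n := 4) hF
    have hs : (uStd hF 4).Val v 0 := hU.sing.2 (hts 0 v hv v hv)
    obtain ⟨w, hw, hvw⟩ : ∃ w ∈ D 1, (uStd hF 4).B w v ≠ 0 := by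
      by_contra! h
      refine h0 ((uStd hF 4).nondeg v fun x => ?_)
      obtain ⟨y, hy, z, hz, rfl⟩ := Submodule.mem_sup.1 (hc.sup_eq_top ▸ Submodule.mem_top (x := x))
      rw [map_add, LinearMap.add_apply, h z hz, add_zero]
      exact hts 0 y hy v hv
    obtain ⟨g, hg⟩ := toLE.surjective (eichE hs (by simp) hc')
    refine ⟨g, SU_eq hF ▸ (Small.mem_SU_iff hF le_rfl g).2 (hg ▸ eichE_mem_E _ _ _), fun h => ?_⟩
    rw [mem_decompositionStabilizer_iff, hg] at h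
    refine h0 ((Submodule.disjoint_def.1 hc.disjoint) v hv ?_)
    rcases mem_decStab_two.1 h with h1 | h1
    · have h2 := (mem_stab.1 (mem_stab_iff_map.2 h1.2) w).1 hw
      rwa [eichE_apply, eich_tv, Submodule.sub_mem_iff_right _ hw,
        Submodule.smul_mem_iff _ (by simp [hc0, hvw])] at h2
    · have h2 : eichE hs (by simp) hc' v ∈ D 1 := h1.1.le (Submodule.mem_map_of_mem hv)
      rwa [eichE_apply, eich_fix _ (sing_B hs) (by simp)] at h2

end Cfsg.Agent.H1.Spin6
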