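import Cfsg.Agent.H7.SubPolar2
import Cfsg.Agent.H8.PBlk

/-!
Subfield subgroups of symplectic and unitary groups in small dimension, first part: an overgroup
whose Eichler transformations with rational centre are rational normalises the rational structure.
-/

set_option autoImplicit false
set_option linter.unusedSectionVars false

namespace Cfsg.Agent.H1.Sub4

open Module H7 H7.Polar

variable {F : Type*} [Field F] {V : Type*} [AddCommGroup V] [Module F V] {P : Polar F V}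
variable {F₀ : Subfield F} {R : RatStr F₀ V}
variable [Finite F] [FiniteDimensional F V]

variable (P R) in
/-- The setting: a rational structure with rational transvections, dimension at least four. -/
structure Ctx (c₀ : F) : Prop where
  ok : P.RatOK R
  wild : ok.restrict.Wild 2
  dim : 4 ≤ finrank F V
  mem : c₀ ∈ F₀
  ne : c₀ ≠ 0
  lam : P.Val 0 c₀
  simple : ∀ S : Subring F, (∀ a ∈ F₀, a ∈ S) → (∃ ξ ∈ S, ξ ∉ F₀) → S = ⊤

variable (P R) in
/-- `X` contains all rational Eichler transformations. -/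
def HX (X : Subgroup (V ≃ₗ[F] V)) : Prop :=
  ∀ e y c, R.τ e = e → R.τ y = y → c ∈ F₀ → P.Val e 0 → P.B y e = 0 → P.Val y c → P.EI X e y c

omit [Finite F] [FiniteDimensional F V] in
theorem mem_of_smul_sub {w y : V} {s : F} (hy : R.τ y = y) (hyw : y ∉ F ∙ w)
    (h : R.τ (s • y) - s • y ∈ F ∙ w) : s ∈ F₀ := by
  rw [RatStr.τ_smul, hy, ← sub_smul] at h
  by_contra hs
  rw [← R.θ_iff, ← sub_eq_zero] at hs
  exact hyw ((Submodule.smul_mem_iff _ hs).1 h)

omit [Finite F] [FiniteDimensional F V] in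
/-- the ratio of the coordinates of a rational point on a rational line -/
theorem ratio_mem {w w' : V} (hw : R.τ w = w) (hw' : R.τ w' = w') (h0 : w ≠ 0) (hww : w' ∉ F ∙ w)
    {a b : F} (ha : a ≠ 0) (h : R.τ (a • w + b • w') ∈ F ∙ (a • w + b • w')) : b / a ∈ F₀ := by
  obtain ⟨l, hl⟩ := Submodule.mem_span_singleton.1 h
  simp only [map_add, RatStr.τ_smul, hw, hw'] at hl
  have h1 : (l * b - R.θ b) • w' = (R.θ a - l * a) • w := by
    linear_combination (norm := module) hl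
  have h2 : l * b - R.θ b = 0 := by
    by_contra h2
    apply hww
    rw [← Submodule.smul_mem_iff _ h2, h1]
    exact Submodule.smul_mem _ _ (Submodule.mem_span_singleton_self w)
  rw [h2, zero_smul, eq_comm, smul_eq_zero, or_iff_left h0] at h1
  rw [← R.θ_iff, map_div₀, ← sub_eq_zero.1 h2, sub_eq_zero.1 h1]
  have hl0 : l ≠ 0 := by
    rintro rfl
    simp [ha] at h1
  field_simp

omit [Finite F] [FiniteDimensional F V] in
/-- a quadratic element generates -/
theorem forall_of_quadratic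
    (hs : ∀ S : Subring F, (∀ a ∈ F₀, a ∈ S) → (∃ ξ ∈ S, ξ ∉ F₀) → S = ⊤) {κ s t : F}
    (hκ : κ ∉ F₀) (hs' : s ∈ F₀) (ht : t ∈ F₀) (h : κ * κ = s * κ + t) (x : F) :
    ∃ a ∈ F₀, ∃ b ∈ F₀, x = a + b * κ := by
  let S : Subring F :=
    { carrier := {x | ∃ a ∈ F₀, ∃ b ∈ F₀, x = a + b * κ}
      zero_mem' := ⟨0, F₀.zero_mem, 0, F₀.zero_mem, by simp⟩
      one_mem' := ⟨1, F₀.one_mem, 0, F₀.zero_mem, by simp⟩
      add_mem' := by
        rintro _ _ ⟨a, ha, b, hb, rfl⟩ ⟨c, hc, d, hd, rfl⟩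
        exact ⟨a + c, F₀.add_mem ha hc, b + d, F₀.add_mem hb hd, by ring⟩
      neg_mem' := by
        rintro _ ⟨a, ha, b, hb, rfl⟩
        exact ⟨-a, F₀.neg_mem ha, -b, F₀.neg_mem hb, by ring⟩
      mul_mem' := by
        rintro _ _ ⟨a, ha, b, hb, rfl⟩ ⟨c, hc, d, hd, rfl⟩
        exact ⟨a * c + b * d * t, F₀.add_mem (F₀.mul_mem ha hc) (F₀.mul_mem (F₀.mul_mem hb hd) ht),
          a * d + b * c + b * d * s, F₀.add_mem (F₀.add_mem (F₀.mul_mem ha hd) (F₀.mul_mem hb hc))
            (F₀.mul_mem (F₀.mul_mem hb hd) hs'), by linear_combination (b * d) * h⟩ }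
  have := hs S (fun a ha => ⟨a, ha, 0, F₀.zero_mem, by simp⟩)
    ⟨κ, ⟨0, F₀.zero_mem, 1, F₀.one_mem, by simp⟩, hκ⟩
  exact (show x ∈ S by simp [this])

theorem fix_of_sub_mem {g : V ≃ₗ[F] V} (hg : g ∈ P.Iso) {L : Submodule F V}
    (h : ∀ x, g x - x ∈ L) {u : V} (hu : u ∈ P.perp L) : g u = u := by
  rw [← sub_eq_zero]
  refine P.nondeg _ fun x => ?_
  obtain ⟨y, rfl⟩ := g.surjective x
  have := mem_perp'.1 hu _ (h y)
  simp only [map_sub, LinearMap.sub_apply] at this ⊢
  rw [Iso.B hg]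
  linear_combination -this

theorem smul_mem_zSub_self {X : Subgroup (V ≃ₗ[F] V)} {w : V} (hws : P.Val w 0) (a : F) :
    a • w ∈ P.zSub X hws := by
  refine ⟨by simp [sing_B hws], P.σ a - P.ε * a, ?_, ?_⟩
  · simpa using val_add_lam (sing_smul hws a) (P.val_min (P.σ a))
  · have := (EI.add_smul_iff (P := P) (X := X) (u := w) (w := 0) (c := P.σ a - P.ε * a) a).2
      (by simpa using EI.zero w)
    simpa using this

namespace Ctx

variable {c₀ : F} (h : Ctx P R c₀)
include h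

theorem exists_sing : ∃ w, R.τ w = w ∧ P.Val w 0 ∧ w ≠ 0 := by
  obtain ⟨w, -, hw1, hws, h0⟩ := h.ok.exists_sing h.wild RatStr.inv_top ⊥ (by
    have := h.dim
    rw [finrank_top, finrank_bot]; omega)
  exact ⟨w, hw1, hws, by simpa using h0⟩

theorem exists_sing_perp {w : V} (hw : R.τ w = w) (h0 : w ≠ 0) :
    ∃ e, R.τ e = e ∧ P.Val e 0 ∧ P.B e w = 0 ∧ e ∉ F ∙ w := by
  obtain ⟨e, he, he1, hes, h1⟩ := h.ok.exists_sing h.wild (h.ok.inv_pp hw) (F ∙ w) (by
    have := finrank_pp (P := P) h0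
    have := finrank_span_singleton_le (F := F) w
    have := h.dim
    omega)
  exact ⟨e, he1, hes, he, h1⟩

theorem σc₀ : P.σ c₀ ∈ F₀ := h.ok.σ_mem h.mem

variable {X : Subgroup (V ≃ₗ[F] V)} (hX : HX P R X) (hXI : X ≤ P.Iso)
  (hL : ∀ (w : V) (hws : P.Val w 0), R.τ w = w → w ≠ 0 → ∀ z ∈ P.zSub X hws, R.τ z - z ∈ F ∙ w)
include hX hL

/-- the centre of a transvection of `X` orthogonal to a rational singular vector is rational -/
theorem τ_mem_of_perp {x w : V} {c : F} (hxs : P.Val x 0) (hc : P.Val 0 c) (hc0 : c ≠ 0)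
    (hx : P.EI X x 0 c) (hws : P.Val w 0) (hw1 : R.τ w = w) (h0 : w ≠ 0) (hxw : P.B x w = 0) :
    R.τ x ∈ F ∙ x := by
  by_cases hxF : x ∈ F ∙ w
  · obtain ⟨a, rfl⟩ := Submodule.mem_span_singleton.1 hxF
    by_cases ha : a = 0
    · simp [ha]
    rw [RatStr.τ_smul, hw1, Submodule.span_singleton_smul_eq (IsUnit.mk0 a ha)]
    exact Submodule.smul_mem _ _ (Submodule.mem_span_singleton_self w)
  obtain ⟨z, hz, hz1, hz2⟩ := RatOK.exists_B_ne (h.ok.inv_pp hw1) (z := x) (by rwa [perp_pp])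
  have hzw : P.B z w = 0 := hz
  have h1 := eich_sub_mem_zSub (h.ok.mem_zSub_of_rat hX hws hw1 hz1 hzw) hxs (by simp) hc hx
    (P.B_symm hxw) (by simp)
  set a := -(P.σ c * P.B z x) with ha
  have ha0 : a ≠ 0 := by simp [ha, hc0, hz2]
  have h2 : a • x ∈ P.zSub X hws := by
    convert h1 using 1
    simp [ha]
  have h3 := hL w hws hw1 h0 _ h2
  have hinv : R.Inv ((F ∙ w) ⊔ F ∙ (a • x)) := (RatStr.inv_span' hw1).sup_span (by
    have := Submodule.add_mem _ (Submodule.mem_sup_left (T := F ∙ (a • x)) h3)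
      (Submodule.mem_sup_right (Submodule.mem_span_singleton_self (a • x)))
    simpa using this)
  obtain ⟨y', hy', hy'1, hy'2⟩ := hinv.exists_notMem (N := F ∙ w) fun hle =>
    hxF ((Submodule.smul_mem_iff _ ha0).1
      (hle (Submodule.mem_sup_right (Submodule.mem_span_singleton_self _))))
  obtain ⟨u, hu, s', hs'⟩ := mem_sup_span_singleton.1 hy'
  obtain ⟨b', rfl⟩ := Submodule.mem_span_singleton.1 hu
  have hs'0 : s' ≠ 0 := by
    rintro rfl
    exact hy'2 (by simpa [hs'] using hu)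
  have h4 : a • x = s'⁻¹ • y' + (-(b' / s')) • w := by
    rw [hs']; match_scalars <;> field_simp <;> ring
  have h5 : s'⁻¹ ∈ F₀ := mem_of_smul_sub (w := w) hy'1 hy'2 (by
    rw [h4] at h3
    have h6 := Submodule.sub_mem _ h3 (Submodule.smul_mem _ (R.θ (-(b' / s')) - (-(b' / s')))
      (Submodule.mem_span_singleton_self w))
    convert h6 using 1
    simp only [map_add, RatStr.τ_smul, hw1]
    module)
  obtain ⟨y, b, hy1, hyw, h6⟩ : ∃ y b, R.τ y = y ∧ y ∉ F ∙ w ∧ a • x = y + b • w :=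
    ⟨_, _, RatStr.τ_smul_of_mem h5 hy'1,
      by rwa [Submodule.smul_mem_iff _ (inv_ne_zero hs'0)], h4⟩
  have hy : y = a • x + (-b) • w := by rw [h6]; module
  have hyw' : P.B y w = 0 := by simp [hy, hxw, sing_B hws]
  have hys : P.Val y 0 := by
    simpa [hy, hxw] using val_add_sing (sing_smul hxs a) hws (-b)
  have hσa : P.σ a ≠ 0 := by simpa using ha0
  set c' := c / (a * P.σ a) with hc'
  have hc'l : P.Val 0 c' := val_congr (lam_smul a⁻¹ hc) (by rw [hc', map_inv₀]; field_simp)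
  have h7 : P.B z y = P.σ a * P.B z x := by simp [hy, hzw]
  have h8 : P.σ c' = -(P.B z y)⁻¹ := by
    rw [h7, hc', map_div₀, map_mul, σσ]
    conv_lhs => rw [mul_comm (P.σ a) a]
    have : P.σ c ≠ 0 := by simpa using hc0
    rw [ha] at hσa ⊢
    field_simp
  have hc'F : c' ∈ F₀ := by
    rw [← P.σσ c', h8]
    exact h.ok.σ_mem (F₀.neg_mem (F₀.inv_mem (h.ok.B_mem _ _ hz1 hy1)))
  have hc'0 : c' ≠ 0 := by simp [hc', hc0, ha0]
  have h9 : P.EI X (y + b • w) 0 c' := by
    rw [← h6, EI.smul_iff, smul_zero]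
    exact hx.congr rfl (by rw [hc']; field_simp)
  have h10 := hX y 0 c' hy1 (by simp) hc'F hys (by simp) hc'l
  have h11 : P.EI X w (-(P.σ (c' * b)) • y) (b * P.σ b * c') := by
    refine h9.has.of_comp_left h10.has fun v => ?_
    simp only [eich, map_add, map_sub, map_smul, LinearMap.add_apply, LinearMap.sub_apply,
      LinearMap.smul_apply, smul_eq_mul, sing_B hys, P.B_symm hyw', map_zero,
      B_smul_right, map_neg, σσ, map_mul]
    rw [lam_σ hc'l]
    module
  have h12 : -(P.σ (c' * b)) • y ∈ P.zSub X hws :=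
    ⟨by simp [hyw'], _, val_congr (val_add_lam (sing_smul hys _) (lam_smul b hc'l)) (zero_add _),
      h11⟩
  have h13 := h.ok.σ_mem (F₀.neg_mem (mem_of_smul_sub hy1 hyw (hL w hws hw1 h0 _ h12)))
  rw [neg_neg, σσ] at h13
  have hb : b ∈ F₀ := by simpa [hc'0] using F₀.mul_mem (F₀.inv_mem hc'F) h13
  have h14 : R.τ (a • x) = a • x := by
    rw [h6, map_add, hy1, RatStr.τ_smul_of_mem hb hw1]
  rw [RatStr.τ_smul] at h14
  rw [← Submodule.smul_mem_iff _ ((map_ne_zero R.θ).2 ha0), h14]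
  exact Submodule.smul_mem _ _ (Submodule.mem_span_singleton_self x)

include hXI

theorem τ_mem {g : V ≃ₗ[F] V} (hg : g ∈ X) {w₀ : V} (hw₀s : P.Val w₀ 0) (hw₀ : R.τ w₀ = w₀) :
    R.τ (g w₀) ∈ F ∙ g w₀ := by
  have tv : ∀ g ∈ X, ∀ w, P.Val w 0 → R.τ w = w → P.EI X (g w) 0 c₀ := fun g hg w hws hw => by
    simpa using (hX w 0 c₀ hw (by simp) h.mem hws (by simp) h.lam).conj hg (hXI hg)
  have key : ∀ g ∈ X, ∀ w₀, P.Val w₀ 0 → R.τ w₀ = w₀ → ∀ w, P.Val w 0 → R.τ w = w → w ≠ 0 →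
      P.B (g w₀) w = 0 → R.τ (g w₀) ∈ F ∙ g w₀ := fun g hg w₀ h1 h2 w h3 h4 h5 h6 =>
    h.τ_mem_of_perp hX hL (Iso.val (hXI hg) h1) h.lam h.ne (tv g hg w₀ h1 h2) h3 h4 h5 h6
  by_contra hcon
  set x := g w₀ with hx
  have hxs : P.Val x 0 := Iso.val (hXI hg) hw₀s
  have hno : ∀ w, P.Val w 0 → R.τ w = w → w ≠ 0 → P.B w x ≠ 0 := fun w h1 h2 h3 h4 =>
    hcon (key g hg w₀ hw₀s hw₀ w h1 h2 h3 (P.B_symm h4))
  obtain ⟨w, hw1, hws, h0⟩ := h.exists_sing
  obtain ⟨w', hw1', hws', hww, h0'⟩ := h.exists_sing_perp hw1 h0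
  have hw'0 : w' ≠ 0 := by rintro rfl; simp at h0'
  have swap : ∀ w, P.Val w 0 → R.τ w = w → w ≠ 0 →
      ∃ k ∈ X, ∃ μ : F, μ ≠ 0 ∧ k w = μ • x ∧ ∀ u, P.B u x = 0 → P.B u w = 0 → k u = u := by
    intro w hws hw1 h0
    have hwx := hno w hws hw1 h0
    obtain ⟨k, hk, μ, h3, h4⟩ := exists_swap_tv
      (hX w 0 c₀ hw1 (by simp) h.mem hws (by simp) h.lam).tv (tv g hg w₀ hw₀s hw₀).tv
      (by simp [sing_B hws]) (by simp [← hx, sing_B hxs])
      (by simp [← hx, h.ne, P.B_ne_symm hwx]) (by simp [← hx, h.ne, hwx])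
    refine ⟨k, hk, μ, ?_, h3, fun u h5 h6 => fix_of_sub_mem (hXI hk) h4 ?_⟩
    · rintro rfl
      exact h0 (by simpa using h3)
    · rw [perp_sup, perp_span_singleton, perp_span_singleton]
      exact ⟨h5, h6⟩
  obtain ⟨k, hk, μ, hμ0, hμ, hkL⟩ := swap w hws hw1 h0
  obtain ⟨k', hk', μ', hμ0', hμ', hkL'⟩ := swap w' hws' hw1' hw'0
  have hβ := hno w hws hw1 h0
  have hβ' := hno w' hws' hw1' hw'0
  set κ := P.B w x / P.B w' x with hκ
  have hκ0 : κ ≠ 0 := div_ne_zero hβ hβ'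
  have hu1 : P.B (w - κ • w') x = 0 := by simp [hκ, hβ']
  have hu2 : P.B (w - κ • w') w = 0 := by simp [sing_B hws, hww]
  have hu3 : P.B (w - κ • w') w' = 0 := by simp [sing_B hws', P.B_symm hww]
  have hj : k'⁻¹ * k ∈ X := X.mul_mem (X.inv_mem hk') hk
  set j := k'⁻¹ * k with hjdef
  have hjw : j w = (μ / μ') • w' := by
    rw [hjdef, LinearEquiv.mul_apply, hμ, ← div_mul_cancel₀ μ hμ0', mul_smul, ← hμ', map_smul,
      show k'⁻¹ (k' w') = w' from k'.symm_apply_apply w', mul_div_cancel_right₀ _ hμ0']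
  have hju : j (w - κ • w') = w - κ • w' := by
    rw [hjdef, LinearEquiv.mul_apply, hkL _ hu1 hu2]
    conv_lhs => rw [← hkL' _ hu1 hu3]
    exact k'.symm_apply_apply _
  set ν := μ / μ' with hν
  have hjw' : j w' = (-κ⁻¹) • w + ((ν + κ) / κ) • w' := by
    rw [map_sub, map_smul, hjw] at hju
    have : j w' = κ⁻¹ • κ • j w' := by rw [smul_smul, inv_mul_cancel₀ hκ0, one_smul]
    rw [this, show κ • j w' = ν • w' - (w - κ • w') by rw [← hju]; module]
    match_scalars <;> field_simp <;> ring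
  have hjww' : j (w + w') = (-κ⁻¹) • w + ((ν + κ + κ * ν) / κ) • w' := by
    rw [map_add, hjw, hjw']
    match_scalars <;> field_simp <;> ring
  have h1 := key j hj w' hws' hw1' w hws hw1 h0 (by simp [hjw', sing_B hws, hww])
  have h2 := key j hj (w + w') (by simpa using val_add_orth hws hws' (P.B_symm hww))
    (by simp [hw1, hw1']) w hws hw1 h0 (by simp [hjww', sing_B hws, hww])
  rw [hjw'] at h1
  rw [hjww'] at h2
  have h3 := F₀.neg_mem (ratio_mem hw1 hw1' h0 h0' (by simp [hκ0]) h1)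
  have h4 := F₀.neg_mem (ratio_mem hw1 hw1' h0 h0' (by simp [hκ0]) h2)
  rw [show -((ν + κ) / κ / -κ⁻¹) = ν + κ by field_simp] at h3
  rw [show -((ν + κ + κ * ν) / κ / -κ⁻¹) = ν + κ + κ * ν by field_simp] at h4
  have h5 : κ * ν ∈ F₀ := by simpa using F₀.sub_mem h4 h3
  have hκF : κ ∉ F₀ := fun hκF => hno (w - κ • w')
    (by simpa [P.B_symm hww] using val_sub hws (sing_smul hws' κ))
    (by rw [map_sub, hw1, RatStr.τ_smul_of_mem hκF hw1'])
    (fun h6 => h0' (by
      rw [← Submodule.smul_mem_iff _ hκ0, ← sub_eq_zero.1 h6]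
      exact Submodule.mem_span_singleton_self w)) hu1
  have hθκ : R.θ κ = ν := by
    have h6 := R.θ_of_mem h3
    have h7 := R.θ_of_mem h5
    rw [map_add] at h6
    rw [map_mul] at h7
    have h8 : (R.θ κ - κ) * (R.θ κ - ν) = 0 := by
      linear_combination (R.θ κ) * h6 - h7
    rcases mul_eq_zero.1 h8 with h9 | h9
    · exact absurd ((R.θ_iff κ).1 (sub_eq_zero.1 h9)) hκF
    · exact sub_eq_zero.1 h9
  have hθθ : ∀ a, R.θ (R.θ a) = a := fun a => by
    obtain ⟨s, hs, t, ht, rfl⟩ := forall_of_quadratic h.simple hκF h3 (F₀.neg_mem h5)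
      (by ring) a
    have h6 := R.θ_of_mem h3
    rw [map_add, hθκ] at h6
    simp only [map_add, map_mul, R.θ_of_mem hs, R.θ_of_mem ht, hθκ]
    rw [add_left_cancel (a := ν) (b := R.θ ν) (c := κ) (by linear_combination h6)]
  have hττ : ∀ v, R.τ (R.τ v) = v := by
    let N : Submodule F V :=
      { carrier := {v | R.τ (R.τ v) = v}
        zero_mem' := by simp
        add_mem' := fun {a b} ha hb => by
          simp only [Set.mem_ofPred_eq, map_add] at *; rw [ha, hb]
        smul_mem' := fun a v hv => by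
          simp only [Set.mem_ofPred_eq, RatStr.τ_smul, hθθ] at *; rw [hv] }
    have := R.span N fun v hv => by
      show R.τ (R.τ v) = v
      rw [hv, hv]
    exact fun v => (show v ∈ N by simp [this])
  have hD : R.Inv ((F ∙ x) ⊔ F ∙ R.τ x) := by
    intro v hv
    obtain ⟨u, hu, b, rfl⟩ := mem_sup_span_singleton.1 hv
    obtain ⟨a, rfl⟩ := Submodule.mem_span_singleton.1 hu
    rw [map_add, RatStr.τ_smul, RatStr.τ_smul, hττ, add_comm]
    exact Submodule.add_mem_sup (Submodule.smul_mem _ _ (Submodule.mem_span_singleton_self _))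
      (Submodule.smul_mem _ _ (Submodule.mem_span_singleton_self _))
  obtain ⟨e, he, he1, hes, he0⟩ := h.ok.exists_sing h.wild (h.ok.inv_perp hD) ⊥ (by
    have := finrank_span_pair_le (F := F) x (R.τ x)
    have := P.finrank_perp ((F ∙ x) ⊔ F ∙ R.τ x)
    have := h.dim
    rw [finrank_bot]; omega)
  exact hno e hes he1 (by simpa using he0)
    (he x (Submodule.mem_sup_left (Submodule.mem_span_singleton_self x)))

theorem le_N : X ≤ R.N := by
  intro g hg
  have h3 : ∀ x, R.τ x = x → P.Val x 0 → ∃ c : F, R.τ (g x) = c • g x := fun x hx hxs => by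
    obtain ⟨c, hc⟩ := Submodule.mem_span_singleton.1 (h.τ_mem hX hXI hL hg hxs hx)
    exact ⟨c, hc.symm⟩
  choose! c hc using h3
  have h4 : ∀ x y, R.τ x = x → P.Val x 0 → R.τ y = y → P.Val y 0 → P.Val (x + y) 0 → x ≠ 0 →
      y ∉ F ∙ x → c x = c y := by
    intro x y hx hxs hy hys hxy hx0 hyx
    have h5 := hc (x + y) (by simp [hx, hy]) hxy
    rw [map_add, map_add, hc x hx hxs, hc y hy hys] at h5
    have h6 : (c y - c (x + y)) • y = (c (x + y) - c x) • x := by
      apply g.injective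
      rw [map_smul, map_smul]; linear_combination (norm := module) h5
    have h8 : c y - c (x + y) = 0 := by
      by_contra h
      apply hyx
      rw [← Submodule.smul_mem_iff _ h, h6]
      exact Submodule.smul_mem _ _ (Submodule.mem_span_singleton_self x)
    rw [h8, zero_smul, eq_comm, smul_eq_zero, or_iff_left hx0] at h6
    linear_combination -h6 - h8
  have h5 : ∀ x a, R.τ x = x → P.Val x 0 → x ≠ 0 → a ∈ F₀ → a ≠ 0 → c (a • x) = c x := by
    intro x a hx hxs hx0 ha ha0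
    have h6 := hc (a • x) (RatStr.τ_smul_of_mem ha hx) (sing_smul hxs a)
    rw [map_smul, RatStr.τ_smul, R.θ_of_mem ha, hc x hx hxs, smul_comm] at h6
    exact (smul_left_injective F (smul_ne_zero ha0 (by simpa using hx0)) h6).symm
  obtain ⟨w, hw1, hws, h0⟩ := h.exists_sing
  have h6 : ∀ y, R.τ y = y → P.Val y 0 → R.τ (g y) = c w • g y := by
    intro y hy hys
    by_cases hy0 : y = 0
    · simp [hy0]
    rw [hc y hy hys]
    congr 1
    by_cases hyw : y ∈ F ∙ w
    · obtain ⟨a, rfl⟩ := Submodule.mem_span_singleton.1 hyw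
      have ha0 : a ≠ 0 := by rintro rfl; simp at hy0
      refine h5 w a hw1 hws h0 ?_ ha0
      rw [RatStr.τ_smul, hw1] at hy
      exact (R.θ_iff a).1 (smul_left_injective F h0 hy)
    by_cases hB : P.B w y = 0
    · exact (h4 w y hw1 hws hy hys (by simpa using val_add_orth hws hys hB) h0 hyw).symm
    · have ha : P.σ (c₀ / P.B w y) ∈ F₀ :=
        h.ok.σ_mem (F₀.div_mem h.mem (h.ok.B_mem _ _ hw1 hy))
      have ha0 : P.σ (c₀ / P.B w y) ≠ 0 := by simp [h.ne, hB]
      rw [← h5 y _ hy hys hy0 ha ha0]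
      refine (h4 w _ hw1 hws (RatStr.τ_smul_of_mem ha hy) (sing_smul hys _) ?_ h0
        (by rwa [Submodule.smul_mem_iff _ ha0])).symm
      exact val_congr (val_sub_lam (val_add_sing hws hys _) h.lam) (by simp [hB])
  refine RatStr.mem_N_of (c := c w) fun x hx => ?_
  let N : Submodule F₀ V :=
    { carrier := {x | R.τ (g x) = c w • g x}
      zero_mem' := by simp
      add_mem' := fun {x y} hx hy => by
        simp only [Set.mem_ofPred_eq, map_add, smul_add] at *; rw [hx, hy]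
      smul_mem' := fun a x hx => by
        simp only [Set.mem_ofPred_eq, Subfield.smul_def, map_smul, RatStr.τ_smul,
          R.θ_of_mem a.2] at *
        rw [hx, smul_comm] }
  exact h.ok.span_sing h.wild RatStr.inv_top
    (by have := h.dim; rw [perp_top, inf_bot_eq, finrank_bot, finrank_top]; omega) (N := N)
    (fun e _ h1 h2 => h6 e h1 h2) trivial hx

end Ctx

end Cfsg.Agent.H1.Sub4
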