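import Cfsg.Agent.H1.Small
import Cfsg.Agent.H7.GenSp
import Cfsg.Agent.H7.GenSU

/-!
Subfield subgroups of symplectic and unitary groups of dimension at least four, in matrix form.
-/

set_option autoImplicit false
set_option linter.unusedSectionVars false

namespace Cfsg.Agent.H1.Sub4

open Module H7 Geo

variable {F : Type*} [Field F] [Fintype F]

theorem sp_subfield {m : ℕ} (hm : 2 ≤ m) (F₀ : Subfield F) (r : ℕ) (P : GL (Fin m ⊕ Fin m) F)
    (ζ : F) (hr : r.Prime) (hcard : Fintype.card F = Nat.card F₀ ^ r) (hζ : ζ ≠ 0)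
    (hP : IsFormRationalStructure (sympForm m F) F₀ ζ P) :
    IsMaximalIn (spGL m F) (subfieldSubgroup F₀ P ⊓ spGL m F) := by
  have : Nonempty (Fin m ⊕ Fin m) := ⟨.inl ⟨0, by omega⟩⟩
  have hn := finrank_sum_fun (F := F) m
  have h := GenSp.ratOK hζ hP
  have hC : Ctx _ _ (1 : F) := ⟨h, (Polar.wild_one_of_sp fun _ => trivial).mono (by omega),
    by omega, F₀.one_mem, one_ne_zero, trivial, subring_eq_top hr hcard⟩
  have := hC.N_maximal (exists_notMem_subfield hr hcard) (fun c _ => ?_)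
  · rw [Polar.scale_E] at this
    refine isMaximalIn_of_equiv toLE (mem_spGL_iff m) (fun g => ?_) this
    rw [Subgroup.mem_inf, mem_spGL_iff, mem_subfieldSubgroup_iff_N, Subgroup.mem_inf]
  · simp only [Polar.scale_σ, Polar.scale_ε, spPolar_σ, spPolar_ε]
    by_cases h2 : (2 : F) = 0
    · obtain ⟨l, hl⟩ := Asch.exists_sq_of_two_eq_zero h2 c
      exact ⟨0, l, 1, F₀.one_mem, trivial, by simp [hl]⟩
    · exact ⟨c / 2, 0, 0, F₀.zero_mem, trivial, by field_simp; ring⟩

variable {n q : ℕ} (hF : Fintype.card F = q ^ 2)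
include hF

theorem su_parabolic (hn : 4 ≤ n) (W : Submodule F (Fin n → F)) (hW0 : W ≠ ⊥)
    (hW : IsTotallySingularFor (hermForm n F q) W) :
    IsMaximalIn (GU n F q ⊓ specialLinear (Fin n) F)
      (subspaceStabilizer W ⊓ (GU n F q ⊓ specialLinear (Fin n) F)) := by
  refine isMaximalIn_of_equiv toLE (Small.mem_SU_iff hF hn) (fun g => ?_)
    (Polar.parabolic_maximal (P := uStd hF n) hW0
      (fun x hx => (Polar.sing_iff_of_unitary (GenSU.σ_ne hF) rfl).2 (hW x hx x hx))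
      (fun x hx y hy => hW x hx y hy) (Or.inl (GenSU.lam hF)) (Or.inl (GenSU.lam hF)))
  rw [Subgroup.mem_inf, Small.mem_SU_iff hF hn, mem_subspaceStabilizer_iff, Subgroup.mem_inf]

theorem su_subfield_odd (hn : 4 ≤ n) (F₀ : Subfield F) (r : ℕ) (P : GL (Fin n) F) (hr : r.Prime)
    (hro : Odd r) (hcard : Fintype.card F = Nat.card F₀ ^ r)
    (hP : IsFormRationalStructure (hermForm n F q) F₀ 1 P) :
    IsMaximalIn (GU n F q ⊓ specialLinear (Fin n) F)
      (subfieldSubgroup F₀ P ⊓ (GU n F q ⊓ specialLinear (Fin n) F)) := by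
  have : Nonempty (Fin n) := ⟨⟨0, by omega⟩⟩
  have hn' : finrank F (Fin n → F) = n := by simp
  have h := GenSU.ratOK_odd hF hr hro hcard hP
  obtain ⟨a, ha, ha'⟩ := GenSU.exists_ne_odd hF hr hro hcard
  have hσ : ∃ a, h.restrict.σ a ≠ a := ⟨⟨a, ha⟩, fun h => ha' (congrArg Subtype.val h)⟩
  obtain ⟨c₀, hc₀, hc₀'⟩ := Polar.exists_lam_ne_of_unitary (P := h.restrict) hσ rfl
  have hC : Ctx _ _ (c₀ : F) := ⟨h, Polar.wild_two_of_unitary hσ rfl,
    by omega, c₀.2, fun h => hc₀ (Subtype.ext h), hc₀', subring_eq_top hr hcard⟩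
  refine isMaximalIn_of_equiv toLE (Small.mem_SU_iff hF hn) (fun g => ?_)
    (hC.N_maximal (exists_notMem_subfield hr hcard) (fun c hc => ?_))
  · rw [Subgroup.mem_inf, Small.mem_SU_iff hF hn, mem_subfieldSubgroup_iff_N, Subgroup.mem_inf]
  · obtain ⟨a, ha⟩ := Polar.lam_of_unitary (GenSU.σ_ne hF) rfl hc
    exact ⟨a, 0, 0, F₀.zero_mem, Polar.val_zero, by simpa using ha⟩

theorem su_subfield_sp (hn : 4 ≤ n) (F₀ : Subfield F) (P : GL (Fin n) F) (ζ : F)
    (hcard : Fintype.card F = Nat.card F₀ ^ 2) (hζ0 : ζ ≠ 0) (hζ : ζ + ζ ^ q = 0)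
    (hP : IsFormRationalStructure (hermForm n F q) F₀ ζ P)
    (halt : ∀ u : Fin n → F, (∀ i, u i ∈ F₀) →
      hermForm n F q (Matrix.mulVec (P : Matrix (Fin n) (Fin n) F) u)
        (Matrix.mulVec (P : Matrix (Fin n) (Fin n) F) u) = 0) :
    IsMaximalIn (GU n F q ⊓ specialLinear (Fin n) F)
      (subfieldSubgroup F₀ P ⊓ (GU n F q ⊓ specialLinear (Fin n) F)) := by
  have : Nonempty (Fin n) := ⟨⟨0, by omega⟩⟩
  have hn' : finrank F (Fin n → F) = n := by simp
  have h := GenSU.ratOK_sp hF hζ0 hζ hP halt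
  have hsing : ∀ x, h.restrict.Val x 0 := fun x => by
    obtain ⟨u, hu, hx⟩ := stdRat_fix x.2
    show ((uStd hF n).scale hζ0 (Or.inr rfl) (GenSU.σ_skew hF hζ)).Val x 0
    rw [Polar.scale_val, zero_div, Polar.sing_iff_of_unitary (GenSU.σ_ne hF) rfl, hx]
    exact halt u hu
  have hC : Ctx _ _ (1 : F) := ⟨h, (Polar.wild_one_of_sp hsing).mono (by omega),
    by omega, F₀.one_mem, one_ne_zero, by
      rw [Polar.scale_val, Polar.val_iff_of_unitary (GenSU.σ_ne hF) rfl, map_zero, map_div₀,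
        GenSU.σ_skew hF hζ]
      field_simp
      simp, subring_eq_top Nat.prime_two hcard⟩
  have := hC.N_maximal (exists_notMem_subfield Nat.prime_two hcard)
    (fun c hc => ⟨0, 1, c, ?_, hc, by simp⟩)
  · rw [Polar.scale_E] at this
    refine isMaximalIn_of_equiv toLE (Small.mem_SU_iff hF hn) (fun g => ?_) this
    rw [Subgroup.mem_inf, Small.mem_SU_iff hF hn, mem_subfieldSubgroup_iff_N, Subgroup.mem_inf]
  · have := Polar.lam_σ hc
    rw [Polar.scale_σ, Polar.scale_ε, unitPowPolar_ε] at this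
    rw [← GenSU.fix_iff hF hcard (n := n), this]
    ring

end Cfsg.Agent.H1.Sub4
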