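import Mathlib
import Cfsg.Agent.H1.Delta
import Cfsg.Agent.H1.PermModule

/-!
The permutation module in characteristic `p` of a primitive group of degree `2 * p` containing a
fixed-point-free element of order `p`.
-/

set_option autoImplicit false

namespace Cfsg.Agent.H1.TwoPMod

open MulAction Cfsg H1.PermModule H1.Delta

variable {G Ω : Type*} [Group G] [MulAction G Ω] {p : ℕ} [hp : Fact p.Prime]

/-- The difference operator of `σ` on functions with values in `ZMod p`. -/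
noncomputable abbrev D (p : ℕ) (Ω : Type*) [MulAction G Ω] (σ : G) :
    Module.End (ZMod p) (Ω → ZMod p) := permRep (ZMod p) G Ω σ - 1

theorem permRep_mul (g : G) (u v : Ω → ZMod p) :
    permRep (ZMod p) G Ω g (u * v) = permRep (ZMod p) G Ω g u * permRep (ZMod p) G Ω g v := rfl

/-- invariance of a subspace -/
def Inv (G : Type*) [Group G] [MulAction G Ω] (M : Submodule (ZMod p) (Ω → ZMod p)) : Prop :=
  ∀ g : G, ∀ v ∈ M, permRep (ZMod p) G Ω g v ∈ M

theorem Inv.D_mem {M : Submodule (ZMod p) (Ω → ZMod p)} (hM : Inv G M) (σ : G) {v : Ω → ZMod p}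
    (hv : v ∈ M) : D p Ω σ v ∈ M := M.sub_mem (hM σ v hv) hv

theorem Inv.pow_D_mem {M : Submodule (ZMod p) (Ω → ZMod p)} (hM : Inv G M) (σ : G) (n : ℕ)
    {v : Ω → ZMod p} (hv : v ∈ M) : (D p Ω σ ^ n) v ∈ M := by
  induction n with
  | zero => exact hv
  | succ n ih => rw [pow_succ_apply']; exact hM.D_mem σ ih

variable {σ : G} {E : Bool × ZMod p ≃ Ω}

theorem pow_smul_E (hE : ∀ b j, σ • E (b, j) = E (b, j + 1)) (n : ℕ) (b : Bool) (j : ZMod p) :
    σ ^ n • E (b, j) = E (b, j + n) := by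
  induction n with
  | zero => simp
  | succ n ih => rw [pow_succ', mul_smul, ih, hE, Nat.cast_succ, add_assoc]

theorem sum_range_eq_sum_zmod {M : Type*} [AddCommMonoid M] (f : ZMod p → M) :
    ∑ i ∈ Finset.range p, f (i : ZMod p) = ∑ j, f j := by
  refine Finset.sum_bij' (fun i _ => (i : ZMod p)) (fun j _ => j.val) (fun _ _ => Finset.mem_univ _)
    (fun j _ => Finset.mem_range.2 (ZMod.val_lt j)) (fun i hi => ?_) (fun j _ => by simp)
    (fun _ _ => rfl)
  exact ZMod.val_cast_of_lt (Finset.mem_range.1 hi)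

theorem D_pow_pred_apply (hE : ∀ b j, σ • E (b, j) = E (b, j + 1)) (u : Ω → ZMod p) (b : Bool)
    (j : ZMod p) : (D p Ω σ ^ (p - 1)) u (E (b, j)) = ∑ i, u (E (b, i)) := by
  rw [sub_one_pow_pred p, LinearMap.sum_apply, Finset.sum_apply]
  have h1 : ∀ i : ℕ, (permRep (ZMod p) G Ω σ ^ i) u (E (b, j)) = u (E (b, j - i)) := by
    intro i
    rw [← map_pow, permRep_apply]
    congr 1
    rw [inv_smul_eq_iff, pow_smul_E hE, sub_add_cancel]
  simp only [h1]
  rw [sum_range_eq_sum_zmod (fun i => u (E (b, j - i)))]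
  exact Fintype.sum_equiv (Equiv.subLeft j) _ _ fun _ => rfl

theorem D_apply (hE : ∀ b j, σ • E (b, j) = E (b, j + 1)) (u : Ω → ZMod p) (b : Bool)
    (j : ZMod p) : D p Ω σ u (E (b, j + 1)) = u (E (b, j)) - u (E (b, j + 1)) := by
  change u (σ⁻¹ • E (b, j + 1)) - _ = _
  rw [← hE, inv_smul_smul]
  rfl

theorem const_on_orbit (hE : ∀ b j, σ • E (b, j) = E (b, j + 1)) {u : Ω → ZMod p}
    (hu : D p Ω σ u = 0) (b : Bool) (j : ZMod p) : u (E (b, j)) = u (E (b, 0)) := by
  obtain ⟨n, rfl⟩ := ZMod.natCast_zmod_surjective j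
  induction n with
  | zero => simp
  | succ n ih =>
    have := D_apply hE u b n
    rw [hu, Pi.zero_apply, eq_comm, sub_eq_zero] at this
    rw [Nat.cast_succ, ← this, ih]

theorem sum_eq_sum_E [Fintype Ω] {M : Type*} [AddCommMonoid M] (E : Bool × ZMod p ≃ Ω)
    (f : Ω → M) : ∑ x, f x = ∑ j, f (E (true, j)) + ∑ j, f (E (false, j)) := by
  rw [← Fintype.sum_equiv E (fun z => f (E z)) f (fun _ => rfl), Fintype.sum_prod_type]
  simp

theorem all_eq_of_two_values {w : ZMod p → ZMod p} {α β : ZMod p} (hne : α ≠ β)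
    (hw : ∀ j, w j = α ∨ w j = β) (hsum : ∑ j, w j = 0) (i j : ZMod p) : w i = w j := by
  classical
  let S := Finset.univ.filter fun j => w j = α
  have h1 : ∑ j, w j = (S.card : ZMod p) * (α - β) := by
    have h2 : ∀ j, w j = (if w j = α then α - β else 0) + β := by
      intro j
      split_ifs with h
      · rw [h]; ring
      · rw [(hw j).resolve_left h]; ring
    rw [Finset.sum_congr rfl fun j _ => h2 j, Finset.sum_add_distrib, ← Finset.sum_filter]
    simp [S, mul_sub]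
  rw [h1, mul_eq_zero, sub_eq_zero, ZMod.natCast_eq_zero_iff] at hsum
  have h3 : p ∣ S.card := hsum.resolve_right hne
  have h4 : S.card ≤ p := by
    have := Finset.card_le_univ S
    rwa [ZMod.card] at this
  by_cases h5 : S.card = 0
  · rw [Finset.card_eq_zero, Finset.filter_eq_empty_iff] at h5
    rw [(hw i).resolve_left (h5 (Finset.mem_univ i)), (hw j).resolve_left (h5 (Finset.mem_univ j))]
  · have h6 : S = Finset.univ := by
      apply Finset.eq_univ_of_card
      rw [ZMod.card]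
      exact le_antisymm h4 (Nat.le_of_dvd (Nat.pos_of_ne_zero h5) h3)
    have h7 : ∀ k, w k = α := fun k => (Finset.mem_filter.1 (h6 ▸ Finset.mem_univ k : k ∈ S)).2
    rw [h7, h7]

variable [IsPreprimitive G Ω]

/-- In an invariant subspace of functions with zero sums along the two orbits of `σ`, the
vectors fixed by `σ` are constant. -/
theorem const_of_fixed (hE : ∀ b j, σ • E (b, j) = E (b, j + 1))
    {M : Submodule (ZMod p) (Ω → ZMod p)} (hM : Inv G M)
    (hM0 : ∀ v ∈ M, (D p Ω σ ^ (p - 1)) v = 0) {u : Ω → ZMod p} (hu : u ∈ M)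
    (hDu : D p Ω σ u = 0) : ∃ c : ZMod p, u = c • 1 := by
  by_cases hne : u (E (true, 0)) = u (E (false, 0))
  · refine ⟨u (E (true, 0)), funext fun x => ?_⟩
    obtain ⟨⟨b, j⟩, rfl⟩ := E.surjective x
    rw [const_on_orbit hE hDu]
    cases b
    · simp [hne]
    · simp
  exfalso
  have hval : ∀ x, u x = u (E (true, 0)) ∨ u x = u (E (false, 0)) := by
    intro x
    obtain ⟨⟨b, j⟩, rfl⟩ := E.surjective x
    rw [const_on_orbit hE hDu]
    cases b
    · exact Or.inr rfl
    · exact Or.inl rfl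
  have hinv : ∀ (g : G) x y, u x = u y → u (g • x) = u (g • y) := by
    intro g x y hxy
    obtain ⟨⟨b, i⟩, rfl⟩ := E.surjective x
    obtain ⟨⟨b', j⟩, rfl⟩ := E.surjective y
    have hb : b = b' := by
      rw [const_on_orbit hE hDu b, const_on_orbit hE hDu b'] at hxy
      cases b <;> cases b'
      · rfl
      · exact absurd hxy.symm hne
      · exact absurd hxy hne
      · rfl
    subst hb
    refine all_eq_of_two_values (w := fun j => u (g • E (b, j))) hne (fun _ => hval _) ?_ i j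
    have h1 := congrFun (hM0 _ (hM g⁻¹ u hu)) (E (b, 0))
    rw [D_pow_pred_apply hE] at h1
    simpa using h1
  rcases H1.Basic.equivalence_trivial_or_univ (G := G) (fun x y => u x = u y)
    ⟨fun _ => rfl, Eq.symm, Eq.trans⟩ hinv with h | h
  · have := h (E (true, 1)) (E (true, 0)) (const_on_orbit hE hDu _ _)
    simp at this
  · exact hne (h _ _)

/-- Such a subspace is uniserial. -/
theorem mem_of_height (hE : ∀ b j, σ • E (b, j) = E (b, j + 1))
    {M : Submodule (ZMod p) (Ω → ZMod p)} (hM : Inv G M)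
    (hM0 : ∀ v ∈ M, (D p Ω σ ^ (p - 1)) v = 0) {M' : Submodule (ZMod p) (Ω → ZMod p)}
    (hM' : ∀ v ∈ M', D p Ω σ v ∈ M') (hle : M' ≤ M) (a : ℕ) {u w : Ω → ZMod p} (hu : u ∈ M')
    (hw : w ∈ M) (hu1 : (D p Ω σ ^ a) u ≠ 0) (hu2 : (D p Ω σ ^ (a + 1)) u = 0)
    (hw2 : (D p Ω σ ^ (a + 1)) w = 0) : w ∈ M' := by
  have key : ∀ (a : ℕ) {u w : Ω → ZMod p}, u ∈ M' → w ∈ M → (D p Ω σ ^ a) u ≠ 0 →
      (D p Ω σ ^ (a + 1)) u = 0 → (D p Ω σ ^ (a + 1)) w = 0 →
      ∃ c : ZMod p, (D p Ω σ ^ a) (w - c • u) = 0 := by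
    intro a u w hu hw hu1 hu2 hw2
    obtain ⟨α, hα⟩ := const_of_fixed hE hM hM0 (hM.pow_D_mem σ a (hle hu))
      (by rw [← pow_succ_apply', hu2])
    obtain ⟨β, hβ⟩ := const_of_fixed hE hM hM0 (hM.pow_D_mem σ a hw)
      (by rw [← pow_succ_apply', hw2])
    have hα0 : α ≠ 0 := by
      rintro rfl
      exact hu1 (by rw [hα, zero_smul])
    refine ⟨β * α⁻¹, ?_⟩
    rw [map_sub, map_smul, hα, hβ, smul_smul, mul_assoc, inv_mul_cancel₀ hα0, mul_one, sub_self]
  induction a generalizing u w with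
  | zero =>
    obtain ⟨c, hc⟩ := key 0 hu hw hu1 hu2 hw2
    rw [pow_zero, Module.End.one_apply, sub_eq_zero] at hc
    rw [hc]
    exact M'.smul_mem c hu
  | succ a ih =>
    obtain ⟨c, hc⟩ := key (a + 1) hu hw hu1 hu2 hw2
    have h1 := ih (hM' u hu) (M.sub_mem hw (M.smul_mem c (hle hu)))
      (by rw [← pow_succ_apply]; exact hu1) (by rw [← pow_succ_apply]; exact hu2) hc
    have := M'.add_mem h1 (M'.smul_mem c hu)
    rwa [sub_add_cancel] at this

theorem exists_step (hE : ∀ b j, σ • E (b, j) = E (b, j + 1))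
    {M : Submodule (ZMod p) (Ω → ZMod p)} (hM : Inv G M)
    (hM0 : ∀ v ∈ M, (D p Ω σ ^ (p - 1)) v = 0) {u : Ω → ZMod p} (hu : u ∈ M)
    (hDu : D p Ω σ u ≠ 0) : ∃ ξ ∈ M, D p Ω σ ξ = 1 := by
  obtain ⟨a, -, ha1, ha2⟩ := exists_height (D p Ω σ) hDu (hM0 _ (hM.D_mem σ hu))
  obtain ⟨α, hα⟩ := const_of_fixed hE hM hM0 (hM.pow_D_mem σ a (hM.D_mem σ hu))
    (by rw [← pow_succ_apply', ha2])
  have hα0 : α ≠ 0 := by
    rintro rfl
    exact ha1 (by rw [hα, zero_smul])
  refine ⟨α⁻¹ • (D p Ω σ ^ a) u, M.smul_mem _ (hM.pow_D_mem σ a hu), ?_⟩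
  rw [map_smul, ← pow_succ_apply', pow_succ_apply, hα, smul_smul, inv_mul_cancel₀ hα0, one_smul]

/-- There is no non-constant invariant subspace of small height. -/
theorem small (hE : ∀ b j, σ • E (b, j) = E (b, j + 1))
    {M : Submodule (ZMod p) (Ω → ZMod p)} (hM : Inv G M) {e : ℕ} (he1 : e + 2 ≤ p)
    (he2 : 2 ≤ e → 2 * e + 2 ≤ p) (hkill : ∀ w ∈ M, (D p Ω σ ^ (e + 1)) w = 0)
    {u : Ω → ZMod p} (hu : u ∈ M) : D p Ω σ u = 0 := by
  by_contra hDu
  have hM0 : ∀ v ∈ M, (D p Ω σ ^ (p - 1)) v = 0 := fun v hv =>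
    pow_eq_zero_of_le _ (by omega) (hkill v hv)
  obtain ⟨ξ, hξ, hDξ⟩ := exists_step hE hM hM0 hu hDu
  have h1 : (1 : Ω → ZMod p) ∈ M := hDξ ▸ hM.D_mem σ hξ
  have hpow := pow_pow_of_step (permRep_mul σ) rfl hDξ
  have hP : ∀ a, (∃ u ∈ M, (D p Ω σ ^ a) u ≠ 0 ∧ (D p Ω σ ^ (a + 1)) u = 0) → ξ ^ a ∈ M := by
    intro a
    induction a with
    | zero => intro _; simpa using h1
    | succ a ih =>
      rintro ⟨u, hu, hu1, hu2⟩
      rcases a.eq_zero_or_pos with rfl | ha
      · simpa using hξ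
      have hae : a + 1 ≤ e := by
        by_contra hcon
        exact hu1 (pow_eq_zero_of_le _ (by omega) (hkill u hu))
      have hξa := ih ⟨D p Ω σ u, hM.D_mem σ hu, by rw [← pow_succ_apply]; exact hu1,
        by rw [← pow_succ_apply]; exact hu2⟩
      have hMM : Inv G (M * M) := by
        intro g v hv
        refine Submodule.mul_induction_on hv (fun x hx y hy => ?_) (fun x y hx hy => ?_)
        · rw [permRep_mul]
          exact Submodule.mul_mem_mul (hM g x hx) (hM g y hy)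
        · rw [map_add]
          exact Submodule.add_mem _ hx hy
      have hMM0 : ∀ v ∈ M * M, (D p Ω σ ^ (p - 1)) v = 0 := by
        intro v hv
        refine Submodule.mul_induction_on hv (fun x hx y hy => ?_) (fun x y hx hy => ?_)
        · have := he2 (by omega)
          exact pow_eq_zero_of_le _ (by omega)
            (pow_add_succ_mul (permRep_mul σ) e e x y (hkill x hx) (hkill y hy))
        · rw [map_add, hx, hy, add_zero]
      refine mem_of_height hE hMM hMM0 (fun v hv => hM.D_mem σ hv) (fun v hv => ?_) (a + 1) hu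
        ?_ hu1 hu2 (hpow (a + 1)).2
      · rw [← mul_one v]
        exact Submodule.mul_mem_mul hv h1
      · rw [pow_succ]
        exact Submodule.mul_mem_mul hξa hξ
  have hQ : ∀ a, ∀ w ∈ M, (D p Ω σ ^ a) w = 0 → ∀ x y, ξ x = ξ y → w x = w y := by
    intro a
    induction a with
    | zero =>
      intro w _ hw x y _
      have : w = 0 := hw
      simp [this]
    | succ a ih =>
      intro w hw hw2 x y hxy
      by_cases hw1 : (D p Ω σ ^ a) w = 0
      · exact ih w hw hw1 x y hxy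
      have hae : a ≤ e := by
        by_contra hcon
        exact hw1 (pow_eq_zero_of_le _ (by omega) (hkill w hw))
      have hξa := hP a ⟨w, hw, hw1, hw2⟩
      obtain ⟨β, hβ⟩ := const_of_fixed hE hM hM0 (hM.pow_D_mem σ a hw)
        (by rw [← pow_succ_apply', hw2])
      have hfac : ((a.factorial : ℕ) : ZMod p) ≠ 0 := by
        rw [Ne, ZMod.natCast_eq_zero_iff, hp.out.dvd_factorial]
        omega
      have h2 := ih (w - (β * (a.factorial : ZMod p)⁻¹) • ξ ^ a)
        (M.sub_mem hw (M.smul_mem _ hξa)) (by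
          rw [map_sub, map_smul, (hpow a).1, hβ]
          funext z
          simp [hfac]) x y hxy
      simpa [hxy] using h2
  rcases H1.Basic.equivalence_trivial_or_univ (G := G) (fun x y => ∀ w ∈ M, w x = w y)
    ⟨fun _ _ _ => rfl, fun h w hw => (h w hw).symm, fun h h' w hw => (h w hw).trans (h' w hw)⟩
    (fun g x y h w hw => by simpa using h _ (hM g⁻¹ w hw)) with h | h
  · have hinj : Function.Injective (ξ ∘ E) := by
      refine Function.Injective.comp (fun x y hxy => h x y fun w hw => ?_) E.injective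
      exact hQ (e + 1) w hw (hkill w hw) x y hxy
    have := Fintype.card_le_of_injective _ hinj
    simp only [Fintype.card_prod, Fintype.card_bool, ZMod.card] at this
    omega
  · have h2 := D_apply hE ξ true 0
    rw [hDξ, h _ _ ξ hξ, sub_self] at h2
    exact one_ne_zero h2

theorem perp [Fintype Ω] (hE : ∀ b j, σ • E (b, j) = E (b, j + 1)) (h2 : p ≠ 2)
    {M M'' : Submodule (ZMod p) (Ω → ZMod p)} (hM : Inv G M)
    (hM0 : ∀ v ∈ M, (D p Ω σ ^ (p - 1)) v = 0) (hM'' : Inv G M'') (hle : M'' ≤ M) {b : ℕ}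
    (hb : b + 3 ≤ p) (hkill : ∀ w ∈ M'', (D p Ω σ ^ (b + 1)) w = 0) {v : Ω → ZMod p}
    (hv : v ∈ M'') (hv1 : (D p Ω σ ^ b) v ≠ 0) {ξ : Ω → ZMod p} (hξ : ξ ∈ M)
    (hDξ : D p Ω σ ξ = 1) : ∃ M' : Submodule (ZMod p) (Ω → ZMod p), Inv G M' ∧ ξ ∈ M' ∧
      ∀ u ∈ M', (D p Ω σ ^ (p - 1 - b)) u = 0 := by
  let M' : Submodule (ZMod p) (Ω → ZMod p) :=
    { carrier := {u | u ∈ M ∧ ∀ w ∈ M'', ∑ x, (u * w) x = 0}
      add_mem' := by
        rintro a b ⟨ha, ha'⟩ ⟨hb, hb'⟩
        refine ⟨M.add_mem ha hb, fun w hw => ?_⟩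
        simp only [add_mul, Pi.add_apply, Finset.sum_add_distrib, ha' w hw, hb' w hw, add_zero]
      zero_mem' := ⟨M.zero_mem, fun w _ => by simp⟩
      smul_mem' := by
        rintro c a ⟨ha, ha'⟩
        refine ⟨M.smul_mem c ha, fun w hw => ?_⟩
        simp only [smul_mul_assoc, Pi.smul_apply, ← Finset.smul_sum, ha' w hw, smul_zero] }
  have hsum : ∀ f : Ω → ZMod p, ∑ x, f x =
      (D p Ω σ ^ (p - 1)) f (E (true, 0)) + (D p Ω σ ^ (p - 1)) f (E (false, 0)) := by
    intro f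
    rw [sum_eq_sum_E E, D_pow_pred_apply hE, D_pow_pred_apply hE]
  refine ⟨M', ?_, ⟨hξ, fun w hw => ?_⟩, ?_⟩
  · rintro g u ⟨hu, hu'⟩
    refine ⟨hM g u hu, fun w hw => ?_⟩
    rw [← hu' _ (hM'' g⁻¹ w hw)]
    refine Fintype.sum_equiv (MulAction.toPerm g⁻¹) _ _ fun x => ?_
    simp
  · have hξ2 : (D p Ω σ ^ (1 + 1)) ξ = 0 := by
      have := (pow_pow_of_step (permRep_mul σ) rfl hDξ 1).2
      rwa [pow_one ξ] at this
    have := pow_eq_zero_of_le _ (show 1 + b + 1 ≤ p - 1 by omega)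
      (pow_add_succ_mul (permRep_mul σ) 1 b ξ w hξ2 (hkill w hw))
    rw [hsum, this]
    simp
  · rintro u ⟨hu, hu'⟩
    by_contra hcon
    have hu0 : u ≠ 0 := by
      rintro rfl
      exact hcon (map_zero _)
    obtain ⟨e, he, he1, he2⟩ := exists_height (D p Ω σ) hu0 (hM0 u hu)
    have hbe : p - 1 - b ≤ e := by
      by_contra h
      exact hcon (pow_eq_zero_of_le _ (by omega) he2)
    let w := (D p Ω σ ^ (b - (p - 1 - e))) v
    have hw : w ∈ M'' := hM''.pow_D_mem σ _ hv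
    have hw1 : (D p Ω σ ^ (p - 1 - e)) w = (D p Ω σ ^ b) v := by
      rw [← pow_add_apply]
      congr 2
      omega
    have hw2 : (D p Ω σ ^ (p - 1 - e + 1)) w = 0 := by
      rw [pow_succ_apply', hw1, ← pow_succ_apply', hkill v hv]
    have h1 := pow_add_mul (permRep_mul σ) e (p - 1 - e) u w he2 hw2
    obtain ⟨α, hα⟩ := const_of_fixed hE hM hM0 (hM.pow_D_mem σ e hu)
      (by rw [← pow_succ_apply', he2])
    obtain ⟨β, hβ⟩ := const_of_fixed hE hM hM0 (hM.pow_D_mem σ b (hle hv))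
      (by rw [← pow_succ_apply', hkill v hv])
    have hα0 : α ≠ 0 := by
      rintro rfl
      exact he1 (by rw [hα, zero_smul])
    have hβ0 : β ≠ 0 := by
      rintro rfl
      exact hv1 (by rw [hβ, zero_smul])
    rw [show e + (p - 1 - e) = p - 1 by omega, hw1, hα, hβ] at h1
    have h3 := hu' w hw
    rw [hsum, h1] at h3
    have h4 : (((p - 1).choose e : ℕ) : ZMod p) ≠ 0 := by
      rw [Ne, ZMod.natCast_eq_zero_iff]
      intro h
      have h5 : p ∣ (p - 1).factorial := by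
        rw [← Nat.choose_mul_factorial_mul_factorial he.le]
        exact (h.mul_right _).mul_right _
      rw [hp.out.dvd_factorial] at h5
      omega
    have h5 : (2 : ZMod p) ≠ 0 := by
      intro h
      have : ((2 : ℕ) : ZMod p) = 0 := by exact_mod_cast h
      rw [ZMod.natCast_eq_zero_iff] at this
      exact h2 ((Nat.prime_dvd_prime_iff_eq hp.out Nat.prime_two).1 this)
    simp only [Pi.mul_apply, Pi.natCast_apply, Pi.smul_apply, Pi.one_apply, smul_eq_mul, mul_one,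
      ← two_mul] at h3
    exact mul_ne_zero h5 (mul_ne_zero h4 (mul_ne_zero hα0 hβ0)) h3

/-- An invariant matrix whose row and column sums along both orbits of `σ` vanish is
constant. -/
theorem const_of_invariant [Fintype Ω] (hE : ∀ b j, σ • E (b, j) = E (b, j + 1)) (h2 : p ≠ 2)
    (B : Ω → Ω → ZMod p) (hB : ∀ (g : G) x y, B (g • x) (g • y) = B x y)
    (hrow : ∀ x b, ∑ j, B x (E (b, j)) = 0) (hcol : ∀ y b, ∑ j, B (E (b, j)) y = 0) :
    ∃ c, ∀ x y, B x y = c := by
  classical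
  have h3 : 3 ≤ p := lt_of_le_of_ne hp.out.two_le (Ne.symm h2)
  -- the linear map of an invariant matrix
  have gen : ∀ B : Ω → Ω → ZMod p, (∀ (g : G) x y, B (g • x) (g • y) = B x y) →
      (∀ y b, ∑ j, B (E (b, j)) y = 0) →
      (∀ (g : G) v, Matrix.toLin' (Matrix.of B) (permRep (ZMod p) G Ω g v) =
        permRep (ZMod p) G Ω g (Matrix.toLin' (Matrix.of B) v)) ∧
      Inv G (LinearMap.range (Matrix.toLin' (Matrix.of B))) ∧
      ∀ v ∈ LinearMap.range (Matrix.toLin' (Matrix.of B)), (D p Ω σ ^ (p - 1)) v = 0 := by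
    intro B hB hcol
    have h1 : ∀ (g : G) v, Matrix.toLin' (Matrix.of B) (permRep (ZMod p) G Ω g v) =
        permRep (ZMod p) G Ω g (Matrix.toLin' (Matrix.of B) v) := by
      intro g v
      funext x
      simp only [Matrix.toLin'_apply, Matrix.mulVec, dotProduct, Matrix.of_apply, permRep_apply]
      exact Fintype.sum_equiv (MulAction.toPerm g⁻¹) _ _ fun y => by
        simp only [MulAction.toPerm_apply, hB]
    refine ⟨h1, ?_, ?_⟩
    · rintro g _ ⟨v, rfl⟩
      exact ⟨_, h1 g v⟩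
    · rintro _ ⟨v, rfl⟩
      funext x
      obtain ⟨⟨b, j⟩, rfl⟩ := E.surjective x
      rw [D_pow_pred_apply hE]
      simp only [Matrix.toLin'_apply, Matrix.mulVec, dotProduct, Matrix.of_apply]
      rw [Finset.sum_comm]
      simp [← Finset.sum_mul, hcol]
  by_cases hB0 : ∀ x y, B x y = 0
  · exact ⟨0, hB0⟩
  push Not at hB0
  obtain ⟨x₀, y₀, hB0⟩ := hB0
  obtain ⟨hT, hN, hN0⟩ := gen B hB hcol
  obtain ⟨-, hN', hN0'⟩ := gen (fun x y => B y x) (fun g x y => hB g y x) hrow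
  set T := Matrix.toLin' (Matrix.of B) with hTdef
  have hcolumn : ∀ x y, T (Pi.single y 1) x = B x y := by
    intro x y
    simp [hTdef]
  by_cases hconst : ∀ u ∈ LinearMap.range T, D p Ω σ u = 0
  · refine ⟨B x₀ y₀, fun x y => ?_⟩
    obtain ⟨c, hc⟩ := const_of_fixed hE hN hN0 ⟨Pi.single y₀ 1, rfl⟩ (hconst _ ⟨_, rfl⟩)
    obtain ⟨g, rfl⟩ := exists_smul_eq G y₀ y
    rw [← smul_inv_smul g x, hB, ← hcolumn, ← hcolumn, hc]
    rfl
  exfalso
  push Not at hconst
  obtain ⟨u₀, hu₀, hDu₀⟩ := hconst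
  obtain ⟨ξ, hξ, hDξ⟩ := exists_step hE hN hN0 hu₀ hDu₀
  have hDξ0 : D p Ω σ ξ ≠ 0 := by
    rw [hDξ]
    intro h
    exact one_ne_zero (congrFun h x₀)
  -- the kernel of `T` consists of functions with sum zero
  have hker : ∀ z, T z = 0 → ∑ x, z x = 0 := by
    have h1 : ∃ t, Matrix.toLin' (Matrix.of fun x y => B y x) t = 1 := by
      have hne : Matrix.toLin' (Matrix.of fun x y => B y x) (Pi.single x₀ 1) ≠ 0 := by
        intro h
        apply hB0
        simpa using congrFun h y₀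
      obtain ⟨a, -, ha1, ha2⟩ := exists_height (D p Ω σ) hne (hN0' _ ⟨_, rfl⟩)
      have hmem := hN'.pow_D_mem σ a (v := _) ⟨Pi.single x₀ 1, rfl⟩
      obtain ⟨α, hα⟩ := const_of_fixed hE hN' hN0' hmem (by rw [← pow_succ_apply', ha2])
      have hα0 : α ≠ 0 := by
        rintro rfl
        exact ha1 (by rw [hα, zero_smul])
      rw [hα, Submodule.smul_mem_iff _ hα0] at hmem
      exact hmem
    obtain ⟨t, ht⟩ := h1
    intro z hz
    have h4 : ∀ y, ∑ x, B x y * t x = 1 := fun y => congrFun ht y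
    have h5 : ∀ x, ∑ y, B x y * z y = 0 := fun x => congrFun hz x
    calc ∑ y, z y = ∑ y, (∑ x, B x y * t x) * z y := by simp [h4]
      _ = ∑ x, t x * ∑ y, B x y * z y := by
        simp only [Finset.sum_mul, Finset.mul_sum]
        rw [Finset.sum_comm]
        exact Finset.sum_congr rfl fun x _ => Finset.sum_congr rfl fun y _ => by ring
      _ = 0 := by simp [h5]
  -- the maximal height in the range of `T`
  have hex : ∃ n, ∀ w ∈ LinearMap.range T, (D p Ω σ ^ n) w = 0 := ⟨p - 1, hN0⟩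
  obtain ⟨a, ha⟩ : ∃ a, Nat.find hex = a + 1 + 1 := by
    refine ⟨Nat.find hex - 2, ?_⟩
    by_contra hcon
    exact hDξ0 (pow_one (D p Ω σ) ▸ pow_eq_zero_of_le _ (by omega) (Nat.find_spec hex ξ hξ))
  have hkill : ∀ w ∈ LinearMap.range T, (D p Ω σ ^ (a + 1 + 1)) w = 0 := ha ▸ Nat.find_spec hex
  have hap : a + 1 + 1 ≤ p - 1 := ha ▸ Nat.find_min' hex hN0
  obtain ⟨u, hu, hu1⟩ : ∃ u ∈ LinearMap.range T, (D p Ω σ ^ (a + 1)) u ≠ 0 := by
    have := Nat.find_min hex (m := a + 1) (by omega)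
    push Not at this
    exact this
  rcases a.eq_zero_or_pos with rfl | hapos
  · exact hDξ0 (small hE hN (e := 1) h3 (by omega) hkill hξ)
  let M'' : Submodule (ZMod p) (Ω → ZMod p) := (permSumZero (ZMod p) G Ω).toSubmodule.map T
  have hM'' : Inv G M'' := by
    rintro g _ ⟨v, hv, rfl⟩
    exact ⟨_, (permSumZero (ZMod p) G Ω).apply_mem_toSubmodule g hv, hT g v⟩
  have hle : M'' ≤ LinearMap.range T := LinearMap.map_le_range
  have hkill'' : ∀ w ∈ M'', (D p Ω σ ^ (a + 1)) w = 0 := by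
    intro w hw
    by_contra hcon
    obtain ⟨z, hz, hz'⟩ := mem_of_height hE hN hN0 (fun v hv => hM''.D_mem σ hv) hle (a + 1) hw
      ⟨Pi.single x₀ 1, rfl⟩ hcon (hkill w (hle hw)) (hkill _ ⟨_, rfl⟩)
    have h6 := hker (Pi.single x₀ 1 - z) (by rw [map_sub, hz', sub_self])
    have h7 : ∑ x, z x = 0 := hz
    simp [Finset.sum_sub_distrib, h7] at h6
  have hv : D p Ω σ u ∈ M'' := by
    obtain ⟨z, rfl⟩ := hu
    refine ⟨D p Ω σ z, ?_, ?_⟩
    · change ∑ x, (z (σ⁻¹ • x) - z x) = 0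
      rw [Finset.sum_sub_distrib, sub_eq_zero]
      exact Fintype.sum_equiv (MulAction.toPerm σ⁻¹) _ _ fun _ => rfl
    · simp only [LinearMap.sub_apply, Module.End.one_apply, map_sub, hT]
  have hv1 : (D p Ω σ ^ a) (D p Ω σ u) ≠ 0 := by rw [← pow_succ_apply]; exact hu1
  by_cases hsm : 2 * a + 2 ≤ p
  · have h8 := small hE hM'' (e := a) (by omega) (fun _ => hsm) hkill'' hv
    exact hv1 (pow_eq_zero_of_le _ hapos (by rw [pow_one]; exact h8))
  · obtain ⟨M', hM', hξ', hkill'⟩ := perp hE h2 hN hN0 hM'' hle (by omega) hkill'' hv hv1 hξ hDξ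
    refine hDξ0 (small hE hM' (e := p - 2 - a) (by omega) (fun _ => by omega) ?_ hξ')
    rwa [show p - 2 - a + 1 = p - 1 - a by omega]

end Cfsg.Agent.H1.TwoPMod
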