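import Mathlib
import Cfsg.Agent.H1.TwoPMod
import Cfsg.Agent.S0673

/-!
The orbitals of a primitive group of degree `2 * p` containing a fixed-point-free element of
order `p`.
-/

set_option autoImplicit false

namespace Cfsg.Agent.H1.TwoPRank

open MulAction Cfsg H1.TwoPMod

variable {G Ω : Type*} [Group G] [MulAction G Ω]

/-- the orbital through the pair `(a, b)` -/
def Orb (G : Type*) [Group G] [MulAction G Ω] (a b x y : Ω) : Prop :=
  ∃ g : G, g • a = x ∧ g • b = y

theorem Orb.refl (a b : Ω) : Orb G a b a b := ⟨1, one_smul _ _, one_smul _ _⟩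

theorem orb_smul (a b : Ω) (g : G) (x y : Ω) : Orb G a b (g • x) (g • y) ↔ Orb G a b x y := by
  constructor
  · rintro ⟨k, h1, h2⟩
    exact ⟨g⁻¹ * k, by rw [mul_smul, h1, inv_smul_smul], by rw [mul_smul, h2, inv_smul_smul]⟩
  · rintro ⟨k, h1, h2⟩
    exact ⟨g * k, by rw [mul_smul, h1], by rw [mul_smul, h2]⟩

theorem Orb.ne {a b x y : Ω} (hab : a ≠ b) (h : Orb G a b x y) : x ≠ y := by
  obtain ⟨g, rfl, rfl⟩ := h
  simpa using hab

theorem Orb.trans {a b c d x y : Ω} (h : Orb G a b c d) (h' : Orb G c d x y) : Orb G a b x y := by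
  obtain ⟨g, rfl, rfl⟩ := h'
  exact (orb_smul a b g c d).2 h

theorem Orb.symm {a b c d : Ω} (h : Orb G a b c d) : Orb G c d a b := by
  obtain ⟨g, rfl, rfl⟩ := h
  exact ⟨g⁻¹, inv_smul_smul _ _, inv_smul_smul _ _⟩

theorem Orb.swap {a b c d : Ω} (h : Orb G a b c d) : Orb G b a d c := by
  obtain ⟨g, h1, h2⟩ := h
  exact ⟨g, h2, h1⟩

open Classical in
/-- the adjacency matrix of an orbital -/
noncomputable def adj (G : Type*) [Group G] [MulAction G Ω] (a b x y : Ω) : ℤ :=
  if Orb G a b x y then 1 else 0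

theorem adj_smul (a b : Ω) (g : G) (x y : Ω) : adj G a b (g • x) (g • y) = adj G a b x y := by
  unfold adj
  rw [orb_smul]

theorem adj_pos {a b x y : Ω} (h : Orb G a b x y) : adj G a b x y = 1 := if_pos h

theorem adj_neg {a b x y : Ω} (h : ¬ Orb G a b x y) : adj G a b x y = 0 := if_neg h

theorem adj_cases (a b x y : Ω) : adj G a b x y = 0 ∨ adj G a b x y = 1 := by
  by_cases h : Orb G a b x y
  · exact Or.inr (adj_pos h)
  · exact Or.inl (adj_neg h)

theorem adj_nonneg (a b x y : Ω) : 0 ≤ adj G a b x y := by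
  rcases adj_cases (G := G) a b x y with h | h <;> simp [h]

theorem sum_adj_eq_card [Fintype Ω] (a b : Ω) :
    ∑ y, adj G a b a y = Nat.card (orbit (stabilizer G a) b) := by
  classical
  rw [Nat.card_eq_fintype_card, Fintype.card_subtype]
  simp only [adj, Finset.sum_boole]
  congr 2
  ext y
  simp only [Finset.mem_filter, Finset.mem_univ, true_and]
  constructor
  · rintro ⟨g, h1, h2⟩
    exact ⟨⟨g, h1⟩, h2⟩
  · rintro ⟨g, h⟩
    exact ⟨g, g.2, h⟩

theorem rowsum_eq [Fintype Ω] [IsPretransitive G Ω] {A : Ω → Ω → ℤ}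
    (hA : ∀ (g : G) x y, A (g • x) (g • y) = A x y) (x x' : Ω) : ∑ y, A x y = ∑ y, A x' y := by
  obtain ⟨g, rfl⟩ := exists_smul_eq G x x'
  exact Fintype.sum_equiv (MulAction.toPerm g) _ _ fun y => (hA g x y).symm

variable {p : ℕ} [hp : Fact p.Prime] {σ : G} {E : Bool × ZMod p ≃ Ω}

theorem shift (hE : ∀ b j, σ • E (b, j) = E (b, j + 1)) {A : Ω → Ω → ℤ}
    (hA : ∀ (g : G) x y, A (g • x) (g • y) = A x y) (b b' : Bool) (i j : ZMod p) :
    A (E (b, i)) (E (b', j)) = A (E (b, 0)) (E (b', j - i)) := by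
  rw [← hA (σ ^ i.val) (E (b, 0)), pow_smul_E hE, pow_smul_E hE]
  simp

/-- the row sums of the four blocks -/
def cnt (E : Bool × ZMod p ≃ Ω) (A : Ω → Ω → ℤ) (b b' : Bool) : ℤ :=
  ∑ j, A (E (b, 0)) (E (b', j))

theorem sum_row (hE : ∀ b j, σ • E (b, j) = E (b, j + 1)) {A : Ω → Ω → ℤ}
    (hA : ∀ (g : G) x y, A (g • x) (g • y) = A x y) (b b' : Bool) (i : ZMod p) :
    ∑ j, A (E (b, i)) (E (b', j)) = cnt E A b b' := by
  simp only [shift hE hA b b' i]
  exact Fintype.sum_equiv (Equiv.subRight i) _ _ fun _ => rfl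

theorem sum_col (hE : ∀ b j, σ • E (b, j) = E (b, j + 1)) {A : Ω → Ω → ℤ}
    (hA : ∀ (g : G) x y, A (g • x) (g • y) = A x y) (b b' : Bool) (j : ZMod p) :
    ∑ i, A (E (b, i)) (E (b', j)) = cnt E A b b' := by
  rw [Finset.sum_congr rfl fun i _ => shift hE hA b b' i j]
  exact Fintype.sum_equiv (Equiv.subLeft j) _ _ fun _ => rfl

variable [Fintype Ω]

theorem cnt_symm [IsPretransitive G Ω] (hE : ∀ b j, σ • E (b, j) = E (b, j + 1)) {A : Ω → Ω → ℤ}
    (hA : ∀ (g : G) x y, A (g • x) (g • y) = A x y) :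
    cnt E A false true = cnt E A true false ∧ cnt E A false false = cnt E A true true := by
  have h1 := rowsum_eq hA (E (true, 0)) (E (false, 0))
  have h2 := rowsum_eq (A := fun x y => A y x) (fun g x y => hA g y x) (E (true, 0)) (E (false, 0))
  rw [sum_eq_sum_E E, sum_eq_sum_E E] at h1 h2
  simp only [sum_row hE hA, sum_col hE hA] at h1 h2
  omega

theorem rowsum_eq_cnt [IsPretransitive G Ω] (hE : ∀ b j, σ • E (b, j) = E (b, j + 1))
    {A : Ω → Ω → ℤ} (hA : ∀ (g : G) x y, A (g • x) (g • y) = A x y) (x : Ω) :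
    ∑ y, A x y = cnt E A true true + cnt E A true false := by
  rw [rowsum_eq hA x (E (true, 0)), sum_eq_sum_E E, sum_row hE hA, sum_row hE hA]

variable [IsPreprimitive G Ω]

theorem cnt_pos (hE : ∀ b j, σ • E (b, j) = E (b, j + 1)) {a b : Ω} (hab : a ≠ b) :
    0 < cnt E (adj G a b) true false := by
  have h0 : ∀ b₁ b₂, 0 ≤ cnt E (adj G a b) b₁ b₂ := fun _ _ =>
    Finset.sum_nonneg fun _ _ => adj_nonneg _ _ _ _
  refine lt_of_le_of_ne (h0 _ _) fun h => ?_
  have key : ∀ b₁ b₂ i j, cnt E (adj G a b) b₁ b₂ = 0 → ¬ Orb G a b (E (b₁, i)) (E (b₂, j)) := by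
    intro b₁ b₂ i j h1 h2
    rw [← sum_row hE (adj_smul a b) b₁ b₂ i,
      Finset.sum_eq_zero_iff_of_nonneg fun _ _ => adj_nonneg _ _ _ _] at h1
    have := h1 j (Finset.mem_univ j)
    rw [adj_pos h2] at this
    exact one_ne_zero this
  have := H1.Basic.connected_of_invariant (G := G) (Orb G a b)
    (fun g x y h => (orb_smul a b g x y).2 h) hab (Orb.refl a b) {x | (E.symm x).1 = true}
    (by
      intro x y hxy
      obtain ⟨⟨b₁, i⟩, rfl⟩ := E.surjective x
      obtain ⟨⟨b₂, j⟩, rfl⟩ := E.surjective y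
      cases b₁ <;> cases b₂
      · simp
      · exact absurd hxy (key _ _ _ _ ((cnt_symm hE (adj_smul a b)).1.trans h.symm))
      · exact absurd hxy (key _ _ _ _ h.symm)
      · simp) (E (true, 0)) (E (false, 0))
  simp at this

/-- There are at most two non-trivial orbitals. -/
theorem orb_or_orb (hE : ∀ b j, σ • E (b, j) = E (b, j + 1)) (h2 : p ≠ 2) {a b c : Ω}
    (hab : a ≠ b) (hac : a ≠ c) (hbc : ¬ Orb G a b a c) {x y : Ω} (hxy : x ≠ y) :
    Orb G a b x y ∨ Orb G a c x y := by
  classical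
  set x₁ := cnt E (adj G a b) true true with hx₁
  set y₁ := cnt E (adj G a b) true false with hy₁
  set x₂ := cnt E (adj G a c) true true with hx₂
  set y₂ := cnt E (adj G a c) true false with hy₂
  have hdisj : ∀ u v, Orb G a b u v → ¬ Orb G a c u v := fun u v h h' => hbc (h.trans h'.symm)
  have hp1 : 0 < y₁ := cnt_pos hE hab
  have hp2 : 0 < y₂ := cnt_pos hE hac
  have hle : y₁ + y₂ ≤ p := by
    rw [hy₁, hy₂, cnt, cnt, ← Finset.sum_add_distrib]
    have : ∑ _j : ZMod p, (1 : ℤ) = p := by simp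
    rw [← this]
    refine Finset.sum_le_sum fun j _ => ?_
    by_cases h : Orb G a b (E (true, 0)) (E (false, j))
    · rw [adj_pos h, adj_neg (hdisj _ _ h)]; rfl
    · rw [adj_neg h]
      rcases adj_cases (G := G) a c (E (true, 0)) (E (false, j)) with h | h <;> simp [h]
  let B : Ω → Ω → ℤ := fun u v => y₂ * adj G a b u v - y₁ * adj G a c u v -
    (y₂ * x₁ - y₁ * x₂) * (if u = v then 1 else 0)
  have hB : ∀ (g : G) u v, B (g • u) (g • v) = B u v := by
    intro g u v
    simp only [B, adj_smul, smul_left_cancel_iff]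
  have hcnt : ∀ b₁ b₂, cnt E B b₁ b₂ = 0 := by
    intro b₁ b₂
    have h1 : cnt E B b₁ b₂ = y₂ * cnt E (adj G a b) b₁ b₂ - y₁ * cnt E (adj G a c) b₁ b₂ -
        (y₂ * x₁ - y₁ * x₂) * (if b₁ = b₂ then 1 else 0) := by
      simp only [cnt, B, Finset.sum_sub_distrib, ← Finset.mul_sum]
      congr 2
      by_cases h : b₁ = b₂
      · simp [h]
      · simp [h]
    have h3 := cnt_symm hE (adj_smul (G := G) a b)
    have h4 := cnt_symm hE (adj_smul (G := G) a c)
    rw [h1]
    cases b₁ <;> cases b₂ <;> simp only [h3.1, h3.2, h4.1, h4.2, ← hx₁, ← hx₂, ← hy₁, ← hy₂] <;>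
      simp [mul_comm]
  obtain ⟨e, he⟩ := const_of_invariant hE h2 (fun u v => (B u v : ZMod p))
    (fun g u v => by simp only [hB]) (by
      intro u b₂
      obtain ⟨⟨b₁, i⟩, rfl⟩ := E.surjective u
      rw [← Int.cast_sum, sum_row hE hB, hcnt, Int.cast_zero]) (by
      intro v b₁
      obtain ⟨⟨b₂, j⟩, rfl⟩ := E.surjective v
      rw [← Int.cast_sum, sum_col hE hB, hcnt, Int.cast_zero])
  by_contra hcon
  push Not at hcon
  have h5 := (he a b).trans (he x y).symm
  simp only [B, adj_pos (Orb.refl a b), adj_neg (hdisj _ _ (Orb.refl a b)), if_neg hab,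
    adj_neg hcon.1, adj_neg hcon.2, if_neg hxy, mul_one, mul_zero, sub_zero, Int.cast_zero] at h5
  rw [ZMod.intCast_zmod_eq_zero_iff_dvd] at h5
  have := Int.le_of_dvd hp2 h5
  omega

omit [Fintype Ω] [IsPreprimitive G Ω] in
theorem const_of_conv {Y Z : ZMod p → ZMod p} (hY : ∑ j, Y j ≠ 0) (m : ZMod p)
    (h : ∀ d, ∑ e, Y (d - e) * Z e = m) (i j : ZMod p) : Z i = Z j := by
  let W : Submodule (ZMod p) (ZMod p → ZMod p) :=
    { carrier := {Z | ∃ m, ∀ d, ∑ e, Y (d - e) * Z e = m}
      add_mem' := by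
        rintro u v ⟨m, hm⟩ ⟨n, hn⟩
        exact ⟨m + n, fun d => by simp [mul_add, Finset.sum_add_distrib, hm, hn]⟩
      zero_mem' := ⟨0, by simp⟩
      smul_mem' := by
        rintro c u ⟨m, hm⟩
        refine ⟨c * m, fun d => ?_⟩
        rw [← hm d, Finset.mul_sum]
        exact Finset.sum_congr rfl fun _ _ => by simp only [Pi.smul_apply, smul_eq_mul]; ring }
  obtain ⟨r, -, -, hr⟩ := S0673.result W (by
    rintro f ⟨m, hm⟩
    refine ⟨m, fun d => ?_⟩
    rw [← hm (d - 1)]
    refine Fintype.sum_equiv (Equiv.subRight 1) _ _ fun e => ?_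
    simp)
  have hr1 : r ≤ 1 := by
    by_contra hcon
    obtain ⟨m, hm⟩ := (hr (fun j => j)).2 ⟨Polynomial.X, by
      rw [Polynomial.degree_X]; exact_mod_cast (by omega), by simp⟩
    have h1 := hm 1
    have h2 : ∑ e, Y (1 - e) * e = ∑ e, Y (0 - e) * (e + 1) := by
      refine Fintype.sum_equiv (Equiv.subRight 1) _ _ fun e => ?_
      simp
    have h3 : ∑ e, Y (0 - e) = ∑ j, Y j :=
      Fintype.sum_equiv (Equiv.subLeft 0) _ _ fun _ => rfl
    simp only [h2, mul_add, Finset.sum_add_distrib, hm 0, mul_one, h3] at h1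
    exact hY (by simpa using h1)
  obtain ⟨P, hP, hZ⟩ := (hr Z).1 ⟨m, h⟩
  have hP' : P.degree ≤ 0 := by
    have : P.degree < (1 : ℕ) := hP.trans_le (by exact_mod_cast hr1)
    exact Order.le_of_lt_succ this
  rw [hZ, hZ, Polynomial.eq_C_of_degree_le_zero hP']
  simp

theorem rowsum_ne_one {a b c : Ω} (hab : a ≠ b) (hac : a ≠ c) (hbc : ¬ Orb G a b a c)
    (hsym : Orb G a b b a) : ∑ y, adj G a b a y ≠ 1 := by
  classical
  intro h1
  have hs : ∀ {x y}, Orb G a b x y → Orb G a b y x := fun h => hsym.trans h.swap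
  rcases H1.Basic.equivalence_trivial_or_univ (G := G) (fun x y => x = y ∨ Orb G a b x y)
    ⟨fun _ => Or.inl rfl, fun h => h.imp Eq.symm hs, by
      rintro x y z (rfl | hxy) h
      · exact h
      rcases h with rfl | hyz
      · exact Or.inr hxy
      left
      by_contra hne
      have h2 : ∑ w ∈ {x, z}, adj G a b y w ≤ ∑ w, adj G a b y w :=
        Finset.sum_le_sum_of_subset_of_nonneg (Finset.subset_univ _) fun _ _ _ => adj_nonneg _ _ _ _
      rw [Finset.sum_pair hne, adj_pos (hs hxy), adj_pos hyz, rowsum_eq (adj_smul a b) y a,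
        h1] at h2
      omega⟩
    (fun g x y h => h.imp (fun h => by rw [h]) (orb_smul a b g x y).2) with h | h
  · exact hab (h a b (Or.inr (Orb.refl a b)))
  · exact (h a c).elim hac hbc

theorem orb_symm (hE : ∀ b j, σ • E (b, j) = E (b, j + 1)) (h2 : p ≠ 2) {a b c : Ω}
    (hab : a ≠ b) (hac : a ≠ c) (hbc : ¬ Orb G a b a c) :
    Orb G a b b a ∧ ∀ x y, x ≠ y → adj G a b x y + adj G a c x y = 1 := by
  have hsum : ∀ x y, x ≠ y → adj G a b x y + adj G a c x y = 1 := by
    intro x y hxy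
    by_cases h : Orb G a b x y
    · rw [adj_pos h, adj_neg fun h' => hbc (h.trans h'.symm)]; rfl
    · rw [adj_neg h, adj_pos ((orb_or_orb hE h2 hab hac hbc hxy).resolve_left h)]; rfl
  refine ⟨?_, hsum⟩
  by_contra hcon
  have h1 := (orb_or_orb hE h2 hab hac hbc hab.symm).resolve_left hcon
  have h3 : ∀ x y, adj G a c x y = adj G a b y x := by
    intro x y
    by_cases h : Orb G a b y x
    · rw [adj_pos h, adj_pos (h1.trans h.swap)]
    · rw [adj_neg h, adj_neg fun h' => h (h1.symm.trans h').swap]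
  have h4 : cnt E (adj G a c) true false = cnt E (adj G a b) true false := by
    rw [← (cnt_symm hE (adj_smul a b)).1, ← sum_col hE (adj_smul a b) false true 0]
    simp only [cnt, h3]
  have h5 : cnt E (adj G a b) true false + cnt E (adj G a c) true false = p := by
    rw [cnt, cnt, ← Finset.sum_add_distrib, Finset.sum_congr rfl fun j _ => hsum _ _ (by simp)]
    simp
  have := hp.out.eq_two_or_odd.resolve_left h2
  omega

theorem params (hE : ∀ b j, σ • E (b, j) = E (b, j + 1)) (h2 : p ≠ 2) {a b c : Ω}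
    (hab : a ≠ b) (hac : a ≠ c) (hbc : ¬ Orb G a b a c) :
    ∃ s : ℤ, (p : ℤ) = 2 * s ^ 2 + 2 * s + 1 ∧ ∑ y, adj G a b a y = 2 * s ^ 2 + s := by
  classical
  have h3 : 3 ≤ p := lt_of_le_of_ne hp.out.two_le (Ne.symm h2)
  have hcb : ¬ Orb G a c a b := fun h => hbc h.symm
  obtain ⟨hsym, hsum⟩ := orb_symm hE h2 hab hac hbc
  obtain ⟨hsym', -⟩ := orb_symm hE h2 hac hab hcb
  have hk1 := rowsum_ne_one hab hac hbc hsym
  have hk1' := rowsum_ne_one hac hab hcb hsym'
  set A := adj G a b with hAdef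
  set A' := adj G a c with hA'def
  have hA : ∀ (g : G) x y, A (g • x) (g • y) = A x y := adj_smul a b
  have hA' : ∀ (g : G) x y, A' (g • x) (g • y) = A' x y := adj_smul a c
  have hAs : ∀ x y, A x y = A y x := by
    have hs : ∀ {x y}, Orb G a b x y → Orb G a b y x := fun h => hsym.trans h.swap
    intro x y
    by_cases h : Orb G a b x y
    · rw [hAdef, adj_pos h, adj_pos (hs h)]
    · rw [hAdef, adj_neg h, adj_neg fun h' => h (hs h')]
  have hA0 : ∀ x, A x x = 0 := fun x => adj_neg fun h => h.ne hab rfl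
  have hA0' : ∀ x, A' x x = 0 := fun x => adj_neg fun h => h.ne hac rfl
  rw [rowsum_eq_cnt hE hA] at hk1 ⊢
  rw [rowsum_eq_cnt hE hA'] at hk1'
  set x := cnt E A true true with hx
  set y := cnt E A true false with hy
  set x' := cnt E A' true true with hx'
  set y' := cnt E A' true false with hy'
  have hy0 : 0 < y := cnt_pos hE hab
  have hy0' : 0 < y' := cnt_pos hE hac
  have hyy : y + y' = p := by
    rw [hy, hy', cnt, cnt, ← Finset.sum_add_distrib,
      Finset.sum_congr rfl fun j _ => hsum _ _ (by simp)]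
    simp
  have hxx : x + x' = p - 1 := by
    have h4 : ∀ j : ZMod p, A (E (true, 0)) (E (true, j)) + A' (E (true, 0)) (E (true, j)) =
        1 - if j = 0 then 1 else 0 := by
      intro j
      split_ifs with h
      · rw [h, hA0, hA0']; rfl
      · rw [hsum _ _ (by simpa using Ne.symm h)]; rfl
    rw [hx, hx', cnt, cnt, ← Finset.sum_add_distrib, Finset.sum_congr rfl fun j _ => h4 j]
    simp
  -- common neighbours
  let C : Ω → Ω → ℤ := fun u v => ∑ z, A u z * A z v
  have hC : ∀ (g : G) u v, C (g • u) (g • v) = C u v := by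
    intro g u v
    exact (Fintype.sum_equiv (MulAction.toPerm g) _ _ fun z => by
      simp only [MulAction.toPerm_apply, hA]).symm
  have hCne : ∀ u v, u ≠ v → C u v = C a b * A u v + C a c * A' u v := by
    intro u v huv
    rcases orb_or_orb hE h2 hab hac hbc huv with h | h
    · have h5 : A u v = 1 := adj_pos h
      have h6 := hsum u v huv
      obtain ⟨g, rfl, rfl⟩ := h
      rw [hC, h5, show A' (g • a) (g • b) = 0 by omega]
      ring
    · have h5 : A' u v = 1 := adj_pos h
      have h6 := hsum u v huv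
      obtain ⟨g, rfl, rfl⟩ := h
      rw [hC, h5, show A (g • a) (g • c) = 0 by omega]
      ring
  have hCeq : ∀ u, C u u = x + y := by
    intro u
    rw [← rowsum_eq_cnt hE hA u]
    refine Finset.sum_congr rfl fun z _ => ?_
    rw [hAs z u]
    rcases adj_cases (G := G) a b u z with h | h <;> simp [hAdef, h]
  set l := C a b
  set m := C a c
  let X : ZMod p → ℤ := fun e => A (E (true, 0)) (E (true, e))
  let Y : ZMod p → ℤ := fun e => A (E (true, 0)) (E (false, e))
  let W : ZMod p → ℤ := fun e => A (E (false, 0)) (E (false, e))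
  have hconv : ∀ d, ∑ e, Y (d - e) * (X e + W e) = (l - m) * Y d + m := by
    intro d
    have h5 := hCne (E (true, 0)) (E (false, d)) (by simp)
    have h6 := hsum (E (true, 0)) (E (false, d)) (by simp)
    have h7 : C (E (true, 0)) (E (false, d)) = ∑ e, Y (d - e) * (X e + W e) := by
      simp only [C, mul_add, Finset.sum_add_distrib]
      rw [sum_eq_sum_E E]
      congr 1
      · refine Finset.sum_congr rfl fun e _ => ?_
        rw [shift hE hA true false e d, mul_comm]
      · refine Fintype.sum_equiv (Equiv.subLeft d) _ _ fun e => ?_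
        rw [shift hE hA false false e d]
        simp [Y, W]
    rw [← h7, h5, show A' (E (true, 0)) (E (false, d)) = 1 - Y d by simp only [Y]; omega]
    simp only [Y]
    ring
  have hY : ∑ j, ((Y j : ℤ) : ZMod p) ≠ 0 := by
    rw [← Int.cast_sum, Ne, ZMod.intCast_zmod_eq_zero_iff_dvd]
    intro h
    have := Int.le_of_dvd hy0 h
    omega
  have hZ := const_of_conv (Z := fun e => ((X e + W e - (l - m) * (if e = 0 then 1 else 0) : ℤ) :
      ZMod p)) hY (m : ZMod p) (by
    intro d
    simp only [← Int.cast_mul, ← Int.cast_sum]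
    congr 1
    simp only [mul_sub, Finset.sum_sub_distrib, hconv]
    simp
    ring)
  have hX01 : ∀ e, X e = 0 ∨ X e = 1 := fun e => adj_cases _ _ _ _
  have hW01 : ∀ e, W e = 0 ∨ W e = 1 := fun e => adj_cases _ _ _ _
  obtain ⟨c₀, hc₀, hc₀'⟩ : ∃ c₀ : ℤ, (c₀ = 0 ∨ c₀ = 1 ∨ c₀ = 2) ∧
      ∀ e, X e + W e = c₀ - c₀ * if e = 0 then 1 else 0 := by
    refine ⟨X 1 + W 1, by rcases hX01 1 with h | h <;> rcases hW01 1 with h' | h' <;> omega,
      fun e => ?_⟩
    split_ifs with h
    · subst h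
      simp [X, W, hA0]
    · have h5 := hZ e 1
      simp only [if_neg h, if_neg (one_ne_zero : (1 : ZMod p) ≠ 0), mul_zero, sub_zero] at h5
      rw [ZMod.intCast_eq_intCast_iff_dvd_sub] at h5
      have h6 : X 1 + W 1 - (X e + W e) = 0 := by
        apply Int.eq_zero_of_abs_lt_dvd h5
        rw [abs_lt]
        rcases hX01 1 with h | h <;> rcases hW01 1 with h' | h' <;>
          rcases hX01 e with h'' | h'' <;> rcases hW01 e with h''' | h''' <;> omega
      omega
  have hYsum : ∀ d, ∑ e, Y (d - e) = y := fun d =>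
    Fintype.sum_equiv (Equiv.subLeft d) _ _ fun _ => rfl
  have hconv' : ∀ d, c₀ * y - c₀ * Y d = (l - m) * Y d + m := by
    intro d
    rw [← hconv d]
    simp only [hc₀', mul_sub, Finset.sum_sub_distrib, ← Finset.sum_mul, hYsum]
    simp
    ring
  obtain ⟨d₀, hd₀⟩ : ∃ d, Y d = 0 := by
    by_contra hcon
    push Not at hcon
    have h5 : y = ∑ _j : ZMod p, (1 : ℤ) :=
      Finset.sum_congr rfl fun j _ => (adj_cases _ _ _ _).resolve_left (hcon j)
    simp at h5
    omega
  obtain ⟨d₁, hd₁⟩ : ∃ d, Y d = 1 := by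
    by_contra hcon
    push Not at hcon
    have h5 : y = ∑ _j : ZMod p, (0 : ℤ) :=
      Finset.sum_congr rfl fun j _ => (adj_cases _ _ _ _).resolve_right (hcon j)
    simp at h5
    omega
  have hm : m = c₀ * y := by
    have := hconv' d₀
    rw [hd₀] at this
    linarith
  have hl : l = c₀ * y - c₀ := by
    have := hconv' d₁
    rw [hd₁] at this
    linarith
  have h2x : 2 * x = c₀ * (p - 1) := by
    have h5 : ∑ e, (X e + W e) = x + x := by
      rw [Finset.sum_add_distrib]
      congr 1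
      exact (cnt_symm hE hA).2
    simp only [hc₀', Finset.sum_sub_distrib] at h5
    simp at h5
    linarith
  have hquad : x * x + y * y = x + y + l * x + m * x' := by
    have h5 : ∑ d, C (E (true, 0)) (E (true, d)) = x * x + y * y := by
      simp only [C]
      rw [Finset.sum_comm, sum_eq_sum_E E]
      simp only [← Finset.mul_sum, sum_row hE hA, ← Finset.sum_mul, (cnt_symm hE hA).1]
      rfl
    have h6 : ∀ d : ZMod p, C (E (true, 0)) (E (true, d)) = (x + y) * (if d = 0 then 1 else 0) +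
        l * A (E (true, 0)) (E (true, d)) + m * A' (E (true, 0)) (E (true, d)) := by
      intro d
      split_ifs with h
      · rw [h, hCeq, hA0, hA0']; ring
      · rw [hCne _ _ (by simpa using Ne.symm h)]; ring
    rw [← h5, Finset.sum_congr rfl fun d _ => h6 d]
    simp only [Finset.sum_add_distrib, ← Finset.mul_sum]
    simp
    rfl
  rcases hc₀ with rfl | rfl | rfl
  · exfalso
    have hx0 : x = 0 := by omega
    rw [hx0, hm] at hquad
    apply hk1
    have : y * (y - 1) = 0 := by linarith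
    rcases mul_eq_zero.1 this with h | h <;> omega
  · refine ⟨x - y, ?_, ?_⟩
    · rw [hl, hm, show x' = x by omega] at hquad
      nlinarith
    · rw [hl, hm, show x' = x by omega] at hquad
      nlinarith
  · exfalso
    have hx0 : x' = 0 := by omega
    rw [hx0, hl] at hquad
    apply hk1'
    have : (x - y) * (x - y + 1) = 0 := by linarith
    rcases mul_eq_zero.1 this with h | h <;> omega

end Cfsg.Agent.H1.TwoPRank
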