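import Cfsg.Agent.H1.U4A

/-!
Orthonormal frames of four-dimensional unitary spaces: monomial elements and new elements fixing
a line of the frame.
-/

set_option autoImplicit false
set_option linter.unusedSectionVars false

namespace Cfsg.Agent.H1.U4

open Module H7 H7.Polar H8 H9.UDec Equiv

variable {F : Type*} [Field F] {V : Type*} [AddCommGroup V] [Module F V] {P : Polar F V}
variable [Finite F] [FiniteDimensional F V]

theorem exists_real_comb {ξ : F} (hξ : P.σ ξ ≠ ξ) (k : F) :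
    ∃ a b, P.σ a = a ∧ P.σ b = b ∧ k = a + b * ξ := by
  have h6 : ξ - P.σ ξ ≠ 0 := sub_ne_zero.2 hξ.symm
  have h7 : P.σ ξ - ξ ≠ 0 := sub_ne_zero.2 hξ
  refine ⟨(ξ * P.σ k - P.σ ξ * k) / (ξ - P.σ ξ), (k - P.σ k) / (ξ - P.σ ξ), ?_, ?_, ?_⟩
  · simp only [map_div₀, map_sub, map_mul, σσ]
    field_simp
    ring
  · simp only [map_div₀, map_sub, σσ]
    field_simp
    ring
  · field_simp
    ring

theorem coord_mono {e : Fin 4 → V} (h : ON P e) {t : V ≃ₗ[F] V} {π : Perm (Fin 4)} {d : Fin 4 → F}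
    (ht : ∀ i, t (e i) = d i • e (π i)) (x : V) (m : Fin 4) :
    P.B (t x) (e (π m)) = d m * P.B x (e m) := by
  conv_lhs => rw [← h.sum x]
  simp [ht, LinearMap.sum_apply, h.B, mul_comm]

theorem coord_diag {e : Fin 4 → V} (h : ON P e) {t : V ≃ₗ[F] V} {d : Fin 4 → F}
    (ht : ∀ i, t (e i) = d i • e i) (x : V) (m : Fin 4) :
    P.B (t x) (e m) = d m * P.B x (e m) := coord_mono h (π := 1) ht x m

variable (P) in
/-- an overgroup of the stabiliser of an orthonormal frame in dimension four -/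
structure C4 (e : Fin 4 → V) (X : Subgroup (V ≃ₗ[F] V)) : Prop extends ON P e where
  le : decStab (L F e) ⊓ P.E ≤ X
  le' : X ≤ P.E

namespace C4

variable {e : Fin 4 → V} {X : Subgroup (V ≃ₗ[F] V)} (h : C4 P e X)
include h

theorem iso {g : V ≃ₗ[F] V} (hg : g ∈ X) : g ∈ P.Iso := E_le_Iso (h.le' hg)

theorem dim : 4 ≤ finrank F V := by simp [h.finrank_eq]

theorem conj_mem {g : V ≃ₗ[F] V} (hg : g ∈ P.Iso) {t : V ≃ₗ[F] V} :
    t ∈ decStab (L F fun i => g (e i)) ↔ g⁻¹ * t * g ∈ decStab (L F e) := by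
  rw [(h.toON.map hg).mem_mon, h.mem_mon]
  refine forall_congr' fun i => exists_congr fun j => ?_
  simp only [Submodule.mem_span_singleton]
  refine exists_congr fun a => ?_
  rw [← map_smul, LinearEquiv.mul_apply, LinearEquiv.mul_apply]
  exact ⟨fun h => by rw [← h]; exact (g.symm_apply_apply _).symm,
    fun h => by rw [h]; exact g.apply_symm_apply _⟩

theorem map {g : V ≃ₗ[F] V} (hg : g ∈ X) : C4 P (fun i => g (e i)) X where
  toON := h.toON.map (h.iso hg)
  le' := h.le'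
  le t ht := by
    have := h.le (x := g⁻¹ * t * g) ⟨(h.conj_mem (h.iso hg)).1 ht.1, by
      simpa using E_normal (P.Iso.inv_mem (h.iso hg)) ht.2⟩
    simpa [mul_assoc] using mul_mem (mul_mem hg this) (inv_mem hg)

theorem exists_mono (π : Perm (Fin 4)) {d : Fin 4 → F} (hd : ∀ i, nm P (d i) = 1)
    (h1 : ((Perm.sign π : ℤ) : F) * ∏ i, d i = 1) :
    ∃ t ∈ decStab (L F e) ⊓ X, ∀ i, t (e i) = d i • e (π i) := by
  have hli : LinearIndependent F e := Fintype.linearIndependent_iff.2 fun c hc i => by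
    simpa [LinearMap.sum_apply, h.B] using congrArg (P.B · (e i)) hc
  let b := basisOfLinearIndependentOfCardEqFinrank hli h.finrank_eq.symm
  have hb : ∀ i, b i = e i := fun i => by simp [b]
  let u : Fin 4 → Fˣ := fun i => Units.mk0 (d i) (ne_zero_of_nm (hd i))
  let t := b.equiv ((b.reindex π.symm).unitsSMul u) (Equiv.refl _)
  have ht : ∀ i, t (e i) = d i • e (π i) := fun i => by
    rw [← hb i, Basis.equiv_apply]
    simp [Basis.unitsSMul_apply, u, Units.smul_def, hb]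
  have hm : t ∈ decStab (L F e) := h.mem_mon.2 fun i =>
    ⟨π i, ht i ▸ Submodule.smul_mem _ _ (mem_L e _)⟩
  refine ⟨t, ⟨hm, h.le ⟨hm, mem_E h.un h.dim (h.un.iso fun x y => ?_) ?_⟩⟩, ht⟩
  · rw [h.B_sum, h.B_sum x, ← Equiv.sum_comp π]
    refine Finset.sum_congr rfl fun i _ => ?_
    rw [coord_mono h.toON ht, coord_mono h.toON ht, map_mul]
    have := hd i
    rw [nm] at this
    linear_combination (P.B x (e i) * P.σ (P.B y (e i))) * this
  · have := b.det_comp (t : V →ₗ[F] V) b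
    rw [show (t : V →ₗ[F] V) ∘ b = fun i => d i • (b ∘ π) i from funext fun i => by
      simp [hb, ht], AlternatingMap.map_smul_univ, AlternatingMap.map_perm, Basis.det_self,
      mul_one] at this
    rw [← this]
    simpa [Units.smul_def, mul_comm] using h1

theorem exists_dg {d : Fin 4 → F} (hd : ∀ i, nm P (d i) = 1) (h1 : ∏ i, d i = 1) :
    ∃ t ∈ decStab (L F e) ⊓ X, ∀ i, t (e i) = d i • e i :=
  h.exists_mono 1 hd (by simpa using h1)

theorem exists_diag' {i j : Fin 4} (hij : i ≠ j) {a : F} (ha : nm P a = 1) :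
    ∃ t ∈ decStab (L F e) ⊓ X, ∀ x, t x =
      x + ((a - 1) * P.B x (e i)) • e i + ((P.σ a - 1) * P.B x (e j)) • e j := by
  obtain ⟨t, h1, h2⟩ := h.exists_dg (d := fun m => if m = i then a else if m = j then P.σ a else 1)
    (fun m => by split_ifs <;> simp [ha]) (by
      rw [nm] at ha
      fin_cases i <;> fin_cases j <;> simp [Fin.prod_univ_four, ha, mul_comm (P.σ a)] at hij ⊢)
  refine ⟨t, h1, fun x => h.ext fun m => ?_⟩
  rw [coord_diag h.toON h2]
  by_cases hi : m = i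
  · simp [hi, h.B, hij.symm]; ring
  by_cases hj : m = j
  · simp [hj, h.B, hij, hij.symm]; ring
  · simp [hi, hj, h.B, Ne.symm hi, Ne.symm hj]

theorem exists_swap {i j : Fin 4} (hij : i ≠ j) : ∃ s ∈ decStab (L F e) ⊓ X,
    s (e i) = e j ∧ ∀ l, l ≠ i → l ≠ j → s (e l) = e l := by
  obtain ⟨t, h1, h2⟩ := h.exists_mono (swap i j) (d := fun m => if m = j then -1 else 1)
    (fun m => by split_ifs <;> simp) (by simp [hij])
  exact ⟨t, h1, by simp [h2, hij], fun l hi hj => by simp [h2, hj, swap_apply_of_ne_of_ne hi hj]⟩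

theorem T2_left {i j l : Fin 4} (hij : i ≠ j) (h1 : Ctx.T2 P e X i j) (hl : l ≠ j) :
    Ctx.T2 P e X l j := by
  by_cases hi : i = l
  · exact hi ▸ h1
  obtain ⟨s, hs, h2, h3⟩ := h.exists_swap hi
  intro x y hxy
  simpa [h2, h3 j hij.symm hl.symm] using (h1 x y hxy).conj hs.2 (h.iso hs.2)

theorem T2_all {i j : Fin 4} (hij : i ≠ j) (h1 : Ctx.T2 P e X i j) {k l : Fin 4} (hkl : k ≠ l) :
    Ctx.T2 P e X k l := by
  by_cases hl : l = i
  · subst hl
    exact h.T2_left hij.symm h1.symm hkl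
  · exact h.T2_left (Ne.symm hl) (h.T2_left hij.symm h1.symm hl).symm hkl

theorem E_le_of_four {w : F} (hw : nm P w = 1) (hw4 : w ^ 4 ≠ 1)
    (h2 : ∀ i j, i ≠ j → Ctx.T2 P e X i j) {a b c d : F} (ha : a ≠ 0) (hc : c ≠ 0)
    (hab : nm P a + nm P b = 0) (hcd : nm P c + nm P d = 0)
    (hv : TX P X (a • e 0 + b • e 3 + (c • e 1 + d • e 2))) : P.E ≤ X := by
  have hw0 := ne_zero_of_nm hw
  have hwσ := σ_eq_inv hw
  have hw1 : w - 1 ≠ 0 := fun h => hw4 (by rw [sub_eq_zero.1 h, one_pow])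
  have hw2 : w ^ 2 - 1 ≠ 0 := fun h => hw4 (by linear_combination (w ^ 2 + 1) * h)
  have hd : d ≠ 0 := by rintro rfl; simp [hc] at hcd
  have hp := h2 0 3 (by decide) a b hab
  have hr := h2 1 2 (by decide) c d hcd
  have hr' := h2 1 2 (by decide) c (w * d) (by simp [hw, hcd])
  set p := a • e 0 + b • e 3 with hp'
  set r := c • e 1 + d • e 2 with hr0
  set r' := c • e 1 + (w * d) • e 2 with hr1
  have hrp : P.B r p = 0 := by simp [hr0, hp', h.B]
  have hrp' : P.B r' p = 0 := by simp [hr1, hp', h.B]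
  have hrr : P.B r r' ≠ 0 := by
    have : P.B r r' = (1 - w⁻¹) * nm P c := by
      simp only [nm] at hcd ⊢
      simp [hr0, hr1, h.B, hwσ]
      linear_combination w⁻¹ * hcd
    rw [this]
    exact mul_ne_zero (fun h => hw1 (by field_simp at h; linear_combination h)) (by simpa)
  obtain ⟨δ, hδ0, hδ⟩ := exists_lam_ne_of_unitary h.un.σ h.un.ε
  have hδσ := h.un.lam.1 hδ
  have k0 : δ • r ∈ P.zSub X hp.1 := ⟨by simp [hrp], 0, sing_smul hr.1 _, by
    simpa [hδσ] using hp.EI hr hv (P.B_symm hrp) hδ⟩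
  have k1 : ∀ s t : F, P.σ t = t → s • r ∈ P.zSub X hp.1 → (t * s) • r ∈ P.zSub X hp.1 := by
    intro s t ht hs
    have hc' : P.Val 0 (t / (δ * nm P (P.B r r'))) := h.un.lam.2 (by
      simp [ht, hδσ, div_neg])
    have := Sub4.tv_mem_zSub (Sub4.tv_mem_zSub hs hr'.1 hδ (hr'.2 _ hδ) hrp') hr.1 hc'
      (hr.2 _ hc') hrp
    convert this using 2
    have h3 : P.σ (P.B r r') ≠ 0 := by simpa
    rw [h.un.lam.1 hc']
    simp only [map_smul, LinearMap.smul_apply, smul_eq_mul, hδσ, h.un.herm r r', nm]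
    field_simp
  have k2 : (w⁻¹ * w⁻¹ * δ) • r ∈ P.zSub X hp.1 := by
    obtain ⟨t, h1, h3⟩ := h.exists_dg (d := ![w, w⁻¹, w⁻¹, w])
      (fun m => by fin_cases m <;> simp [hw]) (by simp [Fin.prod_univ_four, hw0])
    have := map_mem_zSub hp.1 h1.2 (h.iso h1.2) hw0 (by simp [hp', h3]; module) k0
    convert this using 1
    simp [hr0, h3, hwσ]
    module
  have k3 : r ∈ P.eSub X hp.1 := Sing.mem_eSub_of_forall fun x => by
    obtain ⟨s, t, hs, ht, h3⟩ := exists_real_comb (P := P) (ξ := w⁻¹ * w⁻¹) (fun h3 => hw4 (by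
      simp only [map_mul, map_inv₀, hwσ, inv_inv] at h3
      field_simp at h3
      linear_combination h3)) (x / δ)
    convert add_mem (k1 _ s hs k0) (k1 _ t ht k2) using 1
    rw [← add_smul, (div_eq_iff hδ0).1 h3]
    congr 1
    ring
  have k4 : e 1 ∈ P.eSub X hp.1 ∧ e 2 ∈ P.eSub X hp.1 := by
    obtain ⟨t, h1, h3⟩ := h.exists_dg (d := ![1, w, w⁻¹, 1])
      (fun m => by fin_cases m <;> simp [hw]) (by simp [Fin.prod_univ_four, hw0])
    have k5 := apply_mem_eSub hp.1 h1.2 (h.iso h1.2) (by simp [hp', h3]) k3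
    constructor
    · rw [← Submodule.smul_mem_iff _ (mul_ne_zero hw2 hc)]
      convert sub_mem (Submodule.smul_mem _ w k5) k3 using 1
      simp [hr0, h3]
      match_scalars <;> field_simp
      ring
    · rw [← Submodule.smul_mem_iff _ (mul_ne_zero hw2 hd)]
      convert sub_mem (Submodule.smul_mem _ (w ^ 2) k3) (Submodule.smul_mem _ w k5) using 1
      simp [hr0, h3]
      match_scalars <;> field_simp
      ring
  have k5 : p ∈ P.eSub X hp.1 :=
    Sing.mem_eSub_of_forall fun x => Sub4.smul_mem_zSub_self hp.1 x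
  have k6 : P.FullA X p := fullA_of_eSub hp.1 hp.2 fun x hx => by
    have h1 : P.σ a * P.B x (e 0) + P.σ b * P.B x (e 3) = 0 := by simpa [hp'] using hx
    have h3 : x = (P.B x (e 0) / a) • p + P.B x (e 1) • e 1 + P.B x (e 2) • e 2 :=
      h.ext fun m => by
        have hb : P.σ b ≠ 0 := fun hb => ha (by simpa [P.σ_eq_zero.1 hb] using hab)
        simp only [nm] at hab
        fin_cases m <;> simp [hp', h.B, ha]
        field_simp
        exact mul_left_cancel₀ hb (by linear_combination a * h1 - P.B x (e 0) * hab)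
    rw [h3]
    exact add_mem (add_mem (Submodule.smul_mem _ _ k5) (Submodule.smul_mem _ _ k4.1))
      (Submodule.smul_mem _ _ k4.2)
  obtain ⟨t, h1, h3⟩ := h.exists_dg (d := ![w, w⁻¹, 1, 1])
    (fun m => by fin_cases m <;> simp [hw]) (by simp [Fin.prod_univ_four, hw0])
  refine E_le_of_fullA hp.1 (Iso.val (h.iso h1.2) hp.1) k6 (k6.conj h1.2 (h.iso h1.2)) fun h4 => ?_
  simp only [nm] at hab
  simp [hp', h3, h.B] at h4
  exact mul_ne_zero hw1 (mul_ne_zero ha (P.σ_eq_zero.not.2 ha)) (by linear_combination h4 - hab)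

theorem E_le_of_T2 (hb : Big P) {w : F} (hw : nm P w = 1) (hw4 : w ^ 4 ≠ 1)
    (h2 : ∀ i j, i ≠ j → Ctx.T2 P e X i j) : P.E ≤ X := by
  obtain ⟨c, hc, hc0, hc1⟩ := h.un.exists_lam hb
  obtain ⟨y, hy⟩ := h.un.exists_nm (t := -1) (by simp)
  have hy0 : y ≠ 0 := by rintro rfl; simp at hy
  have h3 : ∀ a b : Fin 4, a ≠ b → TX P X (e a + y • e b) := fun a b hab => by
    simpa using h2 _ _ hab 1 y (by simp [hy])
  have h4 := (h3 2 3 (by decide)).sub ((h3 0 1 (by decide)).sub (h3 1 2 (by decide))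
    (h.un.lam.2 hc)) (h.un.lam.2 hc)
  rw [nm] at hy
  refine h.E_le_of_four hw hw4 h2
    (a := c * P.σ y) (b := c * y * y) (c := 1 - c) (d := y * (1 + c)) (by simp [hc0, hy0])
    (fun h => hc1 (by linear_combination (1 + c) * h)) ?_ ?_ ?_
  · simp only [nm, map_mul, σσ, hc]
    linear_combination (-c ^ 2 * y * P.σ y) * hy
  · simp only [nm, map_mul, map_sub, map_add, map_one, hc]
    linear_combination (1 - c ^ 2) * hy
  · convert h4 using 1
    simp [h.B, hc]
    match_scalars <;> first | ring1 | linear_combination (-c) * hy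

theorem E_le_of_fix_self (hb : Big P) {w : F} (hw : nm P w = 1) (hw4 : w ^ 4 ≠ 1)
    {g : V ≃ₗ[F] V} (hg : g ∈ X) (hg' : g ∉ decStab (L F e))
    {i : Fin 4} (hi : g (e i) ∈ L F e i) : P.E ≤ X := by
  have key : ∀ g ∈ X, g (e i) ∈ L F e i → ∀ k, k ≠ i → P.B (g (e k)) (e i) = 0 ∧
      RX P (Ind P X (P.perp (L F e i)) ⊥) (g (e k)) := fun g hg hi k hk => by
    obtain ⟨m, hm, h1⟩ := h.nm_of_mem (h.iso hg) hi
    have h2 : P.B (g (e k)) (e i) = 0 := by
      simpa [h1, ne_zero_of_nm hm] using (h.map hg).orth hk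
    refine ⟨h2, rx_ind h.un ((h.map hg).one k) (h.perp_L.2 h2) fun a ha => ?_⟩
    obtain ⟨t, h3, h4⟩ := (h.map hg).exists_diag' hk ha
    exact ⟨t, h3.2, by simp [mem_stab], fun x hx => by simp [h4, rf, h1, h.perp_L.1 hx]⟩
  obtain ⟨k, hk⟩ : ∃ k, ∀ j, g (e k) ∉ L F e j := by simpa [h.mem_mon] using hg'
  have hki : k ≠ i := by rintro rfl; exact hk _ hi
  have h0 : ∀ k, k ≠ i → RX P (Ind P X (P.perp (L F e i)) ⊥) (e k) := fun k hk =>
    (key 1 (one_mem _) (mem_L e i) k hk).2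
  obtain ⟨j, hj, k, hk, hjk, α, β, hα, hβ, h1⟩ := h.weight hb (K := {k | k ≠ i}) h0
    (key g hg hi k hki).2 (fun l hl => by rintro rfl; exact hl (key g hg hi k hki).1)
    (h.two_le_supp hk i)
  have h2 := h.nm_add hjk h1.1
  refine h.E_le_of_T2 hb hw hw4 fun _ _ => h.T2_all hjk fun x y hxy => ?_
  have h3 := tx_plane h.un (h0 j hj) h1 (by simp [h.orth hjk.symm]) (by simpa)
    (fun h3 => hβ (by simpa [h3] using h2)) (x := x) (y := y / β) (by
      rw [← h2, add_sub_cancel_left, nm_div, div_mul_cancel₀ _ (by simpa), hxy])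
  rw [smul_smul, div_mul_cancel₀ _ hβ] at h3
  refine ⟨h3.1, fun c hc => ?_⟩
  obtain ⟨h4, t, ht, -, h5⟩ := h3.mem hc
  have h6 : t⁻¹ * eichE h3.1 (by simp) hc ∈ FixIso P (L F e i) :=
    ⟨P.Iso.mul_mem (P.Iso.inv_mem (h.iso ht)) h4.1, fun x hx => by
      rw [LinearEquiv.mul_apply, ← sub_eq_zero.1 (h5 x hx)]
      exact t.symm_apply_apply x⟩
  exact EI_of_mem _ _ hc (by simpa using mul_mem ht (h.le ⟨h.pDec.FixIso_le i h6,
    P.E.mul_mem (P.E.inv_mem (h.le' ht)) (eichE_mem_E _ _ _)⟩))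

theorem E_le_of_fix (hb : Big P) {w : F} (hw : nm P w = 1) (hw4 : w ^ 4 ≠ 1)
    {g : V ≃ₗ[F] V} (hg : g ∈ X) (hg' : g ∉ decStab (L F e))
    {i j : Fin 4} (hi : g (e i) ∈ L F e j) : P.E ≤ X := by
  by_cases hij : j = i
  · exact h.E_le_of_fix_self hb hw hw4 hg hg' (hij ▸ hi)
  obtain ⟨s, hs, h1, -⟩ := h.exists_swap hij
  refine h.E_le_of_fix_self hb hw hw4 (mul_mem hs.2 hg) (fun h2 => hg' ?_) (i := i) ?_
  · simpa using Subgroup.mul_mem _ (Subgroup.inv_mem _ hs.1) h2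
  · obtain ⟨a, ha⟩ := Submodule.mem_span_singleton.1 hi
    rw [LinearEquiv.mul_apply, ← ha, map_smul, h1]
    exact Submodule.smul_mem _ _ (mem_L e i)

end C4

end Cfsg.Agent.H1.U4
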