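import Cfsg.Agent.H1.U4Fr1

/-!
Orthonormal frames of four-dimensional unitary spaces: the field with four elements, new elements
have no zero entries, and characteristic two.
-/

set_option autoImplicit false
set_option linter.unusedSectionVars false

namespace Cfsg.Agent.H1.U4

open Module H7 H7.Polar H8 H9.UDec Equiv

variable {F : Type*} [Field F] {V : Type*} [AddCommGroup V] [Module F V] {P : Polar F V}
variable [Finite F] [FiniteDimensional F V]

namespace C4

variable {e : Fin 4 → V} {X : Subgroup (V ≃ₗ[F] V)} (h : C4 P e X)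
include h

theorem R0_sing (h2 : (2 : F) = 0) {v : V} (hv : R0 P e v) : P.B v v = 0 := by
  obtain ⟨i, j, hij, a, b, ha, hb, rfl⟩ := hv
  simp only [nm] at ha hb
  simp [h.B, hij, hij.symm]
  linear_combination ha + hb + h2

theorem exists_tv (h2 : (2 : F) = 0) {v : V} (hv : R0 P e v) :
    ∃ t ∈ decStab (L F e) ⊓ X, ∀ x, t x = x - P.B x v • v := by
  have h1 : P.Val 0 1 := h.un.lam.2 (by simp; linear_combination h2)
  have h3 := h.un.sing.2 (h.R0_sing h2 hv)
  have h4 : ∀ x, eichE h3 (by simp) h1 x = x - P.B x v • v := fun x => by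
    rw [eichE_apply, eich_tv]; simp
  have h5 : eichE h3 (by simp) h1 ∈ decStab (L F e) := by
    obtain ⟨i, j, hij, a, b, ha, hb, rfl⟩ := hv
    simp only [nm] at ha hb
    refine h.mem_mon.2 fun l => ⟨Equiv.swap i j l, h.mem_L_iff.2 fun m hm => ?_⟩
    rw [h4]
    by_cases hi : l = i
    · subst hi
      by_cases hl : l = m
      · simp [← hl, h.B, hij, hij.symm]; linear_combination -ha
      · simp at hm; simp [h.B, hl, Ne.symm hm]
    by_cases hj : l = j
    · subst hj
      by_cases hl : l = m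
      · simp [← hl, h.B, hij, hij.symm]; linear_combination -hb
      · simp at hm; simp [h.B, hl, Ne.symm hm]
    · rw [Equiv.swap_apply_of_ne_of_ne hi hj] at hm
      simp [h.B, hi, hj, hm.symm]
  exact ⟨_, ⟨h5, h.le ⟨h5, eichE_mem_E _ _ _⟩⟩, h4⟩

section small

variable (hb : ¬ Big P)
include hb

theorem T2_small (i j : Fin 4) (hij : i ≠ j) : Ctx.T2 P e X i j := fun x y hxy => by
  have h2 := two_of_small hb
  refine ⟨h.un.sing.2 (by simpa [h.B, hij, hij.symm, nm, mul_comm] using hxy), fun c hc => ?_⟩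
  by_cases hx : x = 0
  · obtain rfl : y = 0 := by simpa [hx] using hxy
    exact Has.id.congr fun _ => by simp [hx, eich]
  have hy : y ≠ 0 := by rintro rfl; simp [hx] at hxy
  rcases fix_of_small hb (t := c) (by rw [h.un.lam.1 hc]; linear_combination -c * h2) with rfl | rfl
  · exact EI.zero _
  · obtain ⟨t, h1, h3⟩ := h.exists_tv h2 ⟨i, j, hij, x, y, nm_of_small hb hx, nm_of_small hb hy, rfl⟩
    exact ⟨t, h1.2, fun z => by rw [h3, eich_tv, map_one, one_mul]⟩

omit h in
theorem cube_of_small {x : F} (hx : x ≠ 0) : x ^ 3 = 1 := by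
  have h2 := two_of_small hb
  have h1 : x * P.σ x = 1 := nm_of_small hb hx
  rcases fix_of_small hb (t := x + P.σ x) (by simp [add_comm]) with h3 | h3
  · rcases fix_of_small hb (t := x) (by linear_combination h3 - x * h2) with h4 | h4
    · exact absurd h4 hx
    · simp [h4]
  · linear_combination (x + 1) * x * h3 - (x + 1) * h1 - h2

theorem supp_of_sing {v : V} (hv : P.B v v = 0) {m : Fin 4} (hm : P.B v (e m) = 0) :
    (supp P e v).card ≤ 2 := by
  have h1 := h.card_supp hb v
  have h3 : (supp P e v).card ≤ 3 := by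
    simpa [Finset.card_erase_of_mem] using Finset.card_le_card
      (show supp P e v ⊆ Finset.univ.erase m from fun l hl => by
        simpa using fun (h : l = m) => mem_supp.1 hl (h ▸ hm))
  by_contra h4
  rw [show (supp P e v).card = 3 by omega, hv] at h1
  exact one_ne_zero (α := F) (by push_cast at h1; linear_combination h1 - two_of_small hb)

theorem E_le_of_full {v : V} (hv : TX P X v) (h4 : ∀ m, P.B v (e m) ≠ 0) : P.E ≤ X := by
  refine E_le_of_TX h.un h.dim fun z hz => ?_
  by_cases hm : ∃ m, P.B z (e m) = 0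
  · obtain ⟨m, hm⟩ := hm
    obtain ⟨S, hS, h2⟩ := Finset.exists_superset_card_eq (h.supp_of_sing hb (sing_B hz) hm)
      (by simp)
    obtain ⟨i, j, hij, rfl⟩ := Finset.card_eq_two.1 h2
    have h3 := h.eq_two hij (x := z) fun l h5 h6 => by
      by_contra h7
      simpa [h5, h6] using hS (mem_supp.2 h7)
    rw [h3]
    refine h.T2_small hb i j hij _ _ ?_
    have := sing_B hz
    rw [h3] at this
    simpa [h.B, hij, hij.symm, nm, mul_comm] using this
  push Not at hm
  set l := (∏ m, P.B z (e m) / P.B v (e m))⁻¹ with hl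
  have hl0 : l ≠ 0 := inv_ne_zero (Finset.prod_ne_zero_iff.2 fun m _ => div_ne_zero (hm m) (h4 m))
  obtain ⟨t, h1, h2⟩ := h.exists_dg (d := fun m => l * (P.B z (e m) / P.B v (e m)))
    (fun m => nm_of_small hb (by simp [hl0, hm, h4])) (by
      rw [Finset.prod_mul_distrib, ← inv_inv (∏ m, P.B z (e m) / P.B v (e m)), ← hl]
      simp only [Finset.prod_const, Finset.card_univ, Fintype.card_fin]
      field_simp
      exact cube_of_small hb hl0)
  convert TX_smul (hv.conj h1.2 (h.iso h1.2)) l⁻¹ using 1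
  refine h.ext fun m => ?_
  have := h4 m
  simp only [map_smul, LinearMap.smul_apply, smul_eq_mul, coord_diag h.toON h2]
  field_simp

theorem E_le_small {g : V ≃ₗ[F] V} (hg : g ∈ X) (hg' : g ∉ decStab (L F e)) : P.E ≤ X := by
  obtain ⟨i, hi⟩ : ∃ i, ∀ j, g (e i) ∉ L F e j := by simpa [h.mem_mon] using hg'
  have h' := h.map hg
  have h2 := two_of_small hb
  have h3 : 2 < (supp P e (g (e i))).card := lt_of_le_of_ne (h.two_le_supp hi i) fun h4 => by
    have := h.card_supp hb (g (e i))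
    rw [← h4, h'.one] at this
    exact one_ne_zero (α := F) (by push_cast at this; linear_combination h2 - this)
  obtain ⟨S, hS, h4⟩ := Finset.exists_subset_card_eq h3
  obtain ⟨m, hm⟩ := exists_notMem_of_card_lt (s := S) (by simp [h4])
  obtain ⟨j, hj, h5⟩ : ∃ j, j ≠ i ∧ (P.B (g (e i)) (e m) = 0 → P.B (g (e j)) (e m) ≠ 0) := by
    by_cases h5 : P.B (g (e i)) (e m) = 0
    · by_contra! H
      refine h.ne_zero m (h'.span _ fun j => P.B_symm ?_)
      by_cases hj : j = i
      · exact hj ▸ h5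
      · exact (H j hj).2
    · obtain ⟨j, hj⟩ := exists_ne i
      exact ⟨j, hj, fun h => absurd h h5⟩
  by_contra H
  have key : ∀ a, nm P a = 1 → 2 ≤ (insert m S \ supp P e (g (e i) + a • g (e j))).card :=
    fun a ha => by
      have h6 : TX P X (g (e i) + a • g (e j)) := by
        simpa using h'.T2_small hb i j hj.symm 1 a (by simp [ha, one_add_one_eq_two, h2])
      obtain ⟨n, hn⟩ : ∃ n, P.B (g (e i) + a • g (e j)) (e n) = 0 := by
        by_contra! H'
        exact H (h.E_le_of_full hb h6 H')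
      have := h.supp_of_sing hb (sing_B h6.1) hn
      have := Finset.le_card_sdiff (supp P e (g (e i) + a • g (e j))) (insert m S)
      rw [Finset.card_insert_of_notMem hm] at this
      omega
  have dis : ∀ a b : F, a ≠ b → Disjoint (insert m S \ supp P e (g (e i) + a • g (e j)))
      (insert m S \ supp P e (g (e i) + b • g (e j))) := fun a b hab => by
    refine Finset.disjoint_left.2 fun p h6 h8 => ?_
    simp only [Finset.mem_sdiff, mem_supp, not_not, map_add, map_smul, LinearMap.add_apply,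
      LinearMap.smul_apply, smul_eq_mul, Finset.mem_insert] at h6 h8
    have k1 : P.B (g (e j)) (e p) = 0 := mul_left_cancel₀ (sub_ne_zero.2 hab) (by
      linear_combination h6.2 - h8.2)
    have k2 : P.B (g (e i)) (e p) = 0 := by simpa [k1] using h6.2
    rcases h6.1 with rfl | h9
    · exact h5 k2 k1
    · exact mem_supp.1 (hS h9) k2
  obtain ⟨ω, k1, k2, k3, -⟩ := h.un.exists_omega hb
  have k4 := Finset.card_le_card (Finset.union_subset (Finset.union_subset
    (Finset.sdiff_subset (s := insert m S) (t := supp P e (g (e i) + (1 : F) • g (e j))))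
    (Finset.sdiff_subset (t := supp P e (g (e i) + ω • g (e j)))))
    (Finset.sdiff_subset (t := supp P e (g (e i) + P.σ ω • g (e j)))))
  rw [Finset.card_union_of_disjoint (Finset.disjoint_union_left.2 ⟨dis _ _ (fun h => k2 (by
    simpa using congrArg P.σ h.symm)), dis _ _ k3.symm⟩),
    Finset.card_union_of_disjoint (dis _ _ k2.symm), Finset.card_insert_of_notMem hm] at k4
  have := key 1 nm_one
  have := key ω k1
  have := key (P.σ ω) (by simpa)
  omega

end small

end C4

/-- a frame with enough diagonal elements, determined by each of its lines -/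
structure FA (X : Subgroup (V ≃ₗ[F] V)) (D : Fin 4 → Submodule F V) (a : F) : Prop where
  dec : Dec 1 D
  two : ∀ {k l}, k ≠ l →
    ∃ t ∈ X, ∀ x, t x = x + (a - 1) • dec.pr k x + (a⁻¹ - 1) • dec.pr l x
  one : ∀ z, ∃ t ∈ X, ∀ x, t x = a • x + ((a ^ 3)⁻¹ - a) • dec.pr z x
  fix : ∀ g ∈ X, ∀ i j, ∀ v ∈ D i, v ≠ 0 → g v ∈ D j → g ∈ decStab D

section

variable {X : Subgroup (V ≃ₗ[F] V)} {D D' : Fin 4 → Submodule F V} {a : F}
  (a0 : a ≠ 0) (a4 : a ^ 4 ≠ 1) (a3 : a ^ 3 ≠ 1)
include a0 a4 a3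

theorem one_zero (h : FA X D a) (h' : FA X D' a)
    (hd : ∀ i j v, v ∈ D i → v ∈ D' j → v = 0) {w : V} {i : Fin 4} (hw : w ∈ D' i) (w0 : w ≠ 0)
    {k l : Fin 4} (hkl : k ≠ l) (hk : h.dec.pr k w = 0) (hl : h.dec.pr l w = 0) : False := by
  have a1 : a - 1 ≠ 0 := fun h => a4 (by rw [sub_eq_zero.1 h, one_pow])
  have a2 : a + 1 ≠ 0 := fun h => a4 (by linear_combination (a - 1) * (a ^ 2 + 1) * h)
  have a3' : a + a⁻¹ + 1 ≠ 0 := fun h => a3 (by
    field_simp at h; linear_combination (a - 1) * h)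
  have a4' : a + a⁻¹ ≠ 0 := fun h => a4 (by
    field_simp at h; linear_combination (a ^ 2 - 1) * h)
  have a5 : a - a⁻¹ ≠ 0 := fun h => a4 (by
    field_simp at h; linear_combination (a ^ 2 + 1) * h)
  obtain ⟨t, h1, h2⟩ := h.two hkl
  have ht := h'.fix t h1 i i w hw w0 (by simpa [h2, hk, hl] using hw)
  obtain ⟨r, x, hx, h3, -, h4⟩ := exists_two h.dec h'.dec hd a0 a1 a2 a3' hkl ht h2
  have x0 : x ≠ 0 := by rintro rfl; simp at h3
  have h5 : x = h.dec.pr k x + h.dec.pr l x := h.dec.ext fun m => by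
    by_cases e1 : m = k
    · subst e1; simp [h.dec.pr_pr_ne hkl.symm]
    by_cases e2 : m = l
    · subst e2; simp [h.dec.pr_pr_ne hkl]
    simp [h4 m e1 e2, h.dec.pr_pr_ne (Ne.symm e1), h.dec.pr_pr_ne (Ne.symm e2)]
  obtain ⟨s, hs⟩ := Dec.exists_mem ht hx
  obtain ⟨s', hs'⟩ := Dec.exists_mem ht hs
  refine h'.dec.false_of_three hx hs (u := s') (α := -1) (β := a + a⁻¹) ?_ (by simp) a4' x0
    fun h6 => ?_
  · convert hs' using 1
    simp only [h2, map_add, map_smul, Dec.pr_pr, h.dec.pr_pr_ne hkl, h.dec.pr_pr_ne hkl.symm,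
      smul_zero, add_zero]
    generalize h.dec.pr k x = y at h5
    generalize h.dec.pr l x = z at h5
    rw [h5]
    match_scalars <;> field_simp <;> ring
  · refine smul_ne_zero a5 h3 (hd k r _ ((D k).smul_mem _ (h.dec.pr_mem _ _)) ?_)
    convert sub_mem h6 ((D' r).smul_mem a⁻¹ hx) using 1
    rw [h2]
    generalize h.dec.pr k x = y at h5
    generalize h.dec.pr l x = z at h5
    rw [h5]
    module

theorem pr_ne_zero (h : FA X D a) (h' : FA X D' a)
    (hd : ∀ i j v, v ∈ D i → v ∈ D' j → v = 0) {w : V} {i : Fin 4} (hw : w ∈ D' i) (w0 : w ≠ 0)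
    (z : Fin 4) : h.dec.pr z w ≠ 0 := by
  intro hz
  have a4' : (a ^ 3)⁻¹ - a ≠ 0 := fun h => a4 (by
    field_simp at h; linear_combination -h)
  obtain ⟨t, h1, h3⟩ := h.one z
  have ht := h'.fix t h1 i i w hw w0 (by simpa [h3, hz] using (D' i).smul_mem a hw)
  obtain ⟨r, x, hx, h4⟩ : ∃ r, ∃ x ∈ D' r, h.dec.pr z x ≠ 0 := by
    by_contra! hh
    obtain ⟨u, hu, u0⟩ := h.dec.exists_ne_zero z
    have := congrArg (· u) (h'.dec.hom_ext (f := h.dec.pr z) (g := 0) hh)
    exact u0 (by simpa [h.dec.pr_self hu] using this)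
  obtain ⟨s, hs⟩ := Dec.exists_mem ht hx
  obtain ⟨k, hk⟩ := exists_notMem_of_card_lt (s := {r, s}) (Finset.card_le_two.trans_lt (by simp))
  obtain ⟨l, hl⟩ := exists_notMem_of_card_lt (s := {r, s, k})
    (Finset.card_le_three.trans_lt (by simp))
  simp only [Finset.mem_insert, Finset.mem_singleton, not_or] at hk hl
  have h5 : ∀ m, m ≠ r → m ≠ s → h'.dec.pr m (((a ^ 3)⁻¹ - a) • h.dec.pr z x) = 0 := by
    intro m e1 e2
    rw [show ((a ^ 3)⁻¹ - a) • h.dec.pr z x = t x - a • x by rw [h3]; module, map_sub, map_smul,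
      h'.dec.pr_ne e2.symm hs, h'.dec.pr_ne e1.symm hx]
    simp
  exact one_zero a0 a4 a3 h' h (fun i j v k3 k4 => hd j i v k4 k3)
    ((D z).smul_mem _ (h.dec.pr_mem z x)) (smul_ne_zero a4' h4) (Ne.symm hl.2.2)
    (h5 k hk.1 hk.2) (h5 l hl.1 hl.2.1)

end

variable (P) in
/-- every new element has only non-zero entries -/
structure F4 (e : Fin 4 → V) (X : Subgroup (V ≃ₗ[F] V)) : Prop extends C4 P e X where
  zero : ∀ g ∈ X, ∀ i j, P.B (g (e i)) (e j) = 0 → g ∈ decStab (L F e)

section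

variable {e : Fin 4 → V} {X : Subgroup (V ≃ₗ[F] V)}

theorem C4.fA (h : C4 P e X) {a : F} (ha : nm P a = 1)
    (hf : ∀ g ∈ X, ∀ i j, g (e i) ∈ L F e j → g ∈ decStab (L F e)) : FA X (L F e) a where
  dec := h.pDec.toDec
  two hkl := by
    obtain ⟨t, h1, h2⟩ := h.exists_diag' hkl ha
    exact ⟨t, h1.2, fun x => by simp [h2, h.pr, smul_smul, σ_eq_inv ha]⟩
  one z := by
    have a0 := ne_zero_of_nm ha
    obtain ⟨t, h1, h2⟩ := h.exists_dg (d := fun m => if m = z then (a ^ 3)⁻¹ else a)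
      (fun m => by split_ifs <;> simp [ha, pow_succ]) (by
        fin_cases z <;> simp [Fin.prod_univ_four] <;> field_simp)
    refine ⟨t, h1.2, fun x => h.ext fun m => ?_⟩
    rw [coord_diag h.toON h2]
    by_cases hm : m = z
    · simp [hm, h.pr, h.one]; ring
    · simp [hm, h.pr, h.orth (Ne.symm hm)]
  fix g hg i j v hv v0 h1 := by
    obtain ⟨c, rfl⟩ := Submodule.mem_span_singleton.1 hv
    rw [map_smul, Submodule.smul_mem_iff _ (by rintro rfl; simp at v0)] at h1
    exact hf g hg i j h1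

theorem C4.f4 (h : C4 P e X) {a : F} (ha : nm P a = 1) (a4 : a ^ 4 ≠ 1) (a3 : a ^ 3 ≠ 1)
    (hf : ∀ g ∈ X, ∀ i j, g (e i) ∈ L F e j → g ∈ decStab (L F e)) : F4 P e X := by
  refine ⟨h, fun g hg i j h0 => ?_⟩
  by_contra hg'
  have h' := h.map hg
  refine pr_ne_zero (ne_zero_of_nm ha) a4 a3 (h.fA ha hf) (h'.fA ha fun k hk i j h1 => ?_)
    (fun i j v h1 h2 => ?_) (mem_L _ i) (h'.ne_zero i) j (by simp [h.pr, h0])
  · refine (h.conj_mem (h.iso hg)).2 (hf _ (mul_mem (mul_mem (inv_mem hg) hk) hg) i j ?_)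
    obtain ⟨c, hc⟩ := Submodule.mem_span_singleton.1 h1
    refine Submodule.mem_span_singleton.2 ⟨c, ?_⟩
    rw [LinearEquiv.mul_apply, LinearEquiv.mul_apply, ← hc, ← map_smul]
    exact (g.symm_apply_apply _).symm
  · obtain ⟨c, rfl⟩ := Submodule.mem_span_singleton.1 h2
    by_contra h3
    exact hg' (hf g hg j i ((Submodule.smul_mem_iff _ (by rintro rfl; simp at h3)).1 h1))

theorem F4.map (h : F4 P e X) {g : V ≃ₗ[F] V} (hg : g ∈ X) : F4 P (fun i => g (e i)) X :=
  ⟨h.toC4.map hg, fun k hk i j h0 => (h.conj_mem (h.iso hg)).2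
    (h.zero _ (mul_mem (mul_mem (inv_mem hg) hk) hg) i j (by
      rw [← Iso.B (h.iso hg)]; simpa using h0))⟩

end

end Cfsg.Agent.H1.U4
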