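import Cfsg.Agent.H1.U4Fr2
import Cfsg.Agent.H7.C2Odd

/-!
Orthonormal frames of four-dimensional unitary spaces in characteristic two.
-/

set_option autoImplicit false
set_option linter.unusedSectionVars false

namespace Cfsg.Agent.H1.U4

open Module H7 H7.Polar H8 H9.UDec Equiv

variable {F : Type*} [Field F] {V : Type*} [AddCommGroup V] [Module F V] {P : Polar F V}
variable [Finite F] [FiniteDimensional F V]

theorem exists_compl : ∀ i j : Fin 4, i ≠ j → ∃ k l, k ≠ l ∧ k ≠ i ∧ k ≠ j ∧ l ≠ i ∧ l ≠ j := by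
  decide

theorem cover_or : ∀ i j k l : Fin 4, (∃ n, n ≠ i ∧ n ≠ j ∧ n ≠ k ∧ n ≠ l) ∨
    (k ≠ i ∧ k ≠ j ∧ l ≠ i ∧ l ≠ j) := by
  decide

variable (P) in
/-- singular vectors in a coordinate plane -/
def R2 (e : Fin 4 → V) (v : V) : Prop :=
  v ≠ 0 ∧ P.B v v = 0 ∧ ∃ i j, i ≠ j ∧ ∀ l, l ≠ i → l ≠ j → P.B v (e l) = 0

namespace F4

variable {e : Fin 4 → V} {X : Subgroup (V ≃ₗ[F] V)} (h : F4 P e X)
include h

theorem R2_spec {v : V} (h0 : v ≠ 0) (hv : P.B v v = 0) {i j : Fin 4} (hij : i ≠ j)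
    (h1 : ∀ l, l ≠ i → l ≠ j → P.B v (e l) = 0) :
    P.B v (e i) ≠ 0 ∧ nm P (P.B v (e i)) + nm P (P.B v (e j)) = 0 := by
  have h2 := h.eq_two hij h1
  have h3 : nm P (P.B v (e i)) + nm P (P.B v (e j)) = 0 := by
    rw [h2] at hv
    simpa [h.B, hij, hij.symm, nm, mul_comm] using hv
  refine ⟨fun h4 => h0 ?_, h3⟩
  have h5 : P.B v (e j) = 0 := by simpa [h4] using h3
  rw [h2, h4, h5]; simp

variable {c : F} (hc : nm P c = 1) (hc2 : c ^ 2 ≠ 1)
include hc hc2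

theorem mem_of_R2 {v : V} (hv : R2 P e v) {k : V ≃ₗ[F] V} (hk : k ∈ X) (hv' : R2 P e (k v)) :
    k ∈ decStab (L F e) := by
  obtain ⟨h0, hs, i, j, hij, h1⟩ := hv
  obtain ⟨h0', hs', i', j', hij', h1'⟩ := hv'
  obtain ⟨a0, hab⟩ := h.R2_spec h0 hs hij h1
  obtain ⟨a0', -⟩ := h.R2_spec h0' hs' hij' h1'
  have c0 := ne_zero_of_nm hc
  obtain ⟨s, hs1, hs2⟩ := h.exists_dg (d := fun m => if m = i ∨ m = j then c⁻¹ else c)
    (fun m => by split_ifs <;> simp [hc]) (by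
      fin_cases i <;> fin_cases j <;> simp [Fin.prod_univ_four, c0] at hij ⊢)
  obtain ⟨k', l', hkl, k1, k2, l1, l2⟩ := exists_compl i' j' hij'
  obtain ⟨y, hy⟩ := k.surjective (e k')
  have h2 : P.B y v = 0 := by rw [← Iso.B (h.iso hk), hy]; exact P.B_symm (h1' k' k1 k2)
  have h3 : s y = c • y + ((c⁻¹ - c) * P.B y (e i) / P.B v (e i)) • v := h.ext fun m => by
    rw [coord_diag h.toON hs2]
    by_cases hi : m = i
    · simp [hi, a0]; ring
    by_cases hj : m = j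
    · rw [h.eq_two hij h1] at h2
      have hb : P.σ (P.B v (e j)) ≠ 0 := fun hb => a0 (by simpa [P.σ_eq_zero.1 hb] using hab)
      simp only [nm] at hab
      simp at h2
      simp [hj]
      field_simp
      exact mul_left_cancel₀ hb (by
        linear_combination (1 - c ^ 2) * (P.B v (e i) * h2 - P.B y (e i) * hab))
    · simp [hi, hj, h1 m hi hj]
  generalize (c⁻¹ - c) * P.B y (e i) / P.B v (e i) = α at h3
  have h4 : (k * s * k⁻¹) (e k') = c • e k' + α • k v := by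
    rw [← hy, LinearEquiv.mul_apply, LinearEquiv.mul_apply,
      show k⁻¹ (k y) = y from k.symm_apply_apply y, h3, map_add, map_smul, map_smul]
  obtain ⟨n, hn⟩ := h.mem_mon.1 (h.zero _ (mul_mem (mul_mem hk hs1.2) (inv_mem hk)) k' l' (by
    simp [h4, h.orth hkl, h1' l' l1 l2, -LinearEquiv.mul_apply])) k'
  rw [h4, h.mem_L_iff] at hn
  have h5 : k' = n := by
    by_contra h5
    simpa [h.one, h1' k' k1 k2, c0] using hn k' h5
  have h6 : α = 0 := by simpa [h.orth k1, a0'] using hn i' (h5 ▸ k1.symm)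
  have h7 := congrArg (P.B · (e i)) h3
  simp only [coord_diag h.toON hs2, h6] at h7
  refine inv_mem_iff.1 (h.zero _ (inv_mem hk) k' i ?_)
  rw [← hy, show k⁻¹ (k y) = y from k.symm_apply_apply y]
  by_contra h8
  simp [h8] at h7
  field_simp at h7
  exact hc2 h7.symm

variable (h2 : (2 : F) = 0)
include h2

theorem generic {k : V ≃ₗ[F] V} (hk : k ∈ X) (hk' : k ∉ decStab (L F e)) {u : V}
    (h1 : ∀ x, k x = x - P.B x u • u) : (∀ l, P.B u (e l) ≠ 0) ∧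
      ∀ i j, i ≠ j → nm P (P.B u (e i)) ≠ nm P (P.B u (e j)) := by
  have h3 : ∀ l, P.B u (e l) ≠ 0 := fun l hl => by
    obtain ⟨m, hm⟩ := exists_ne l
    exact hk' (h.zero k hk l m (by simp [h1, P.B_symm hl, h.orth hm.symm]))
  refine ⟨h3, fun i j hij h4 => hk' ?_⟩
  simp only [nm] at h4
  have h5 : R2 P e (P.B u (e i) • e i + P.B u (e j) • e j) := ⟨fun h0 => h3 i (by
    simpa [h.B, hij.symm] using congrArg (P.B · (e i)) h0), by
      simp [h.B, hij, hij.symm]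
      linear_combination h4 + P.B u (e j) * P.σ (P.B u (e j)) * h2, i, j, hij, fun l k1 k2 => by
      simp [h.B, k1.symm, k2.symm]⟩
  refine h.mem_of_R2 hc hc2 h5 hk ?_
  rwa [h1, show P.B (P.B u (e i) • e i + P.B u (e j) • e j) u = 0 by
    simp [← h.un.σB u]
    linear_combination h4 + P.B u (e j) * P.σ (P.B u (e j)) * h2, zero_smul, sub_zero]

omit hc hc2 in
theorem R2_of_R0 {v : V} (hv : R0 P e v) : R2 P e v := by
  refine ⟨?_, h.R0_sing h2 hv, ?_⟩ <;> obtain ⟨i, j, hij, a, b, ha, hb, rfl⟩ := hv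
  · intro h0
    simpa [h.B, hij.symm, ne_zero_of_nm ha] using congrArg (P.B · (e i)) h0
  · exact ⟨i, j, hij, fun l k1 k2 => by simp [h.B, k1.symm, k2.symm]⟩

theorem mem_of_conj {v : V} (hv : R0 P e v) {g t : V ≃ₗ[F] V} (hg : g ∈ X)
    (ht : ∀ x, t x = x - P.B x v • v) (h1 : g * t * g⁻¹ ∈ decStab (L F e)) :
    g ∈ decStab (L F e) := by
  have hv' := h.R2_of_R0 h2 hv
  refine h.mem_of_R2 hc hc2 hv' hg ?_
  have h3 := conj_tv (h.iso hg) ht
  have h0 : g v ≠ 0 := by simpa using hv'.1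
  have hs : P.B (g v) (g v) = 0 := by rw [Iso.B (h.iso hg), hv'.2.1]
  generalize g v = u at h3 h0 hs
  obtain ⟨i, hi⟩ : ∃ i, P.B u (e i) ≠ 0 := by
    by_contra! H; exact h0 (h.span u H)
  obtain ⟨j, hj⟩ := h.mem_mon.1 h1 i
  rw [h.mem_L_iff] at hj
  have h4 : ∀ l, l ≠ i → l ≠ j → P.B u (e l) = 0 := fun l k1 k2 => by
    simpa [h3, h.orth k1.symm, P.B_ne_symm hi, -LinearEquiv.mul_apply] using hj l k2
  refine ⟨h0, hs, i, j, ?_, h4⟩
  rintro rfl
  obtain ⟨c, rfl⟩ := Submodule.mem_span_singleton.1 (h.mem_L_iff.2 fun l hl => h4 l hl hl)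
  simp [h.one] at hs hi
  exact hi hs

omit hc hc2 in
theorem ZT_mem {t : V ≃ₗ[F] V} (ht : t ∈ ZT P e) : t ∈ decStab (L F e) ⊓ X := by
  obtain ⟨v, hv, h1⟩ := ht
  obtain ⟨t', h3, h4⟩ := h.exists_tv h2 hv
  rwa [show t = t' from LinearEquiv.ext fun x => by rw [h1, h4]]

theorem oddCtx : OddCtx X (decStab (L F e) ⊓ X) (ZT P e) where
  le := inf_le_right
  mem _ := h.ZT_mem h2
  sq := by
    rintro t ⟨v, hv, h1⟩
    ext x
    simp [h1, h.R0_sing h2 hv]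
    linear_combination (norm := module) -h2 • P.B x v • v
  conj := by
    rintro g hg t ⟨v, ⟨i, j, hij, a, b, ha, hb, rfl⟩, h1⟩
    refine ⟨_, ?_, conj_tv (h.iso hg.2) h1⟩
    obtain ⟨ρ, hρ⟩ := Dec.exists_perm hg.1
    obtain ⟨m, hm, h3⟩ := h.nm_of_mem (h.iso hg.2) (hρ i _ (mem_L e i))
    obtain ⟨m', hm', h3'⟩ := h.nm_of_mem (h.iso hg.2) (hρ j _ (mem_L e j))
    exact ⟨ρ i, ρ j, ρ.injective.ne hij, a * m, b * m', by simp [ha, hm], by simp [hb, hm'],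
      by simp [h3, h3', smul_smul]⟩
  hD := by
    rintro g hg t ⟨v, hv, h1⟩ h3
    exact ⟨h.mem_of_conj hc hc2 h2 hv hg h1 h3.1, hg⟩
  hE := by
    rintro g hg t ⟨v, hv, h1⟩ t₁ ⟨v₁, hv₁, h1'⟩ τ ⟨w, hw, h3⟩ τ₁ ⟨w₁, hw₁, h3'⟩ hne - h4
    have key : ∀ w, R0 P e w → ∀ (x : V) (c : F), c ≠ 0 → (t * t₁) x - x = c • g w →
        g ∈ decStab (L F e) ⊓ X := fun w hw x c hc0 h5 => by
      refine ⟨by_contra fun hg' => ?_, hg⟩
      obtain ⟨s, hs, h6⟩ := h.exists_tv h2 hw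
      obtain ⟨k1, k2⟩ := h.generic hc hc2 h2 (mul_mem (mul_mem hg hs.2) (inv_mem hg))
        (fun h7 => hg' (h.mem_of_conj hc hc2 h2 hw hg h6 h7)) (conj_tv (h.iso hg) h6)
      obtain ⟨α, β, h7⟩ : ∃ α β : F, c • g w = α • v + β • v₁ :=
        ⟨-P.B (t₁ x) v, -P.B x v₁, by
          rw [← h5, LinearEquiv.mul_apply, h1]
          generalize P.B (t₁ x) v = z
          rw [h1']; module⟩
      obtain ⟨i, j, hij, a, b, ha, hb, rfl⟩ := hv
      obtain ⟨k, l, -, a', b', -, -, rfl⟩ := hv₁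
      rcases cover_or i j k l with ⟨n, n1, n2, n3, n4⟩ | ⟨n1, n2, n3, n4⟩
      · simpa [h.B, n1.symm, n2.symm, n3.symm, n4.symm, hc0, k1] using congrArg (P.B · (e n)) h7
      · have e1 := congrArg (fun y => nm P (P.B y (e i))) h7
        have e2 := congrArg (fun y => nm P (P.B y (e j))) h7
        simp [h.B, n1, n2, n3, n4, hij, hij.symm, ha, hb] at e1 e2
        exact k2 i j hij (mul_left_cancel₀ (nm_eq_zero.not.2 hc0) (e1.trans e2.symm))
    have h5 : ∀ x, (t * t₁) x = (x - P.B x (g w₁) • g w₁) -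
        P.B (x - P.B x (g w₁) • g w₁) (g w) • g w := fun x => by
      rw [h4, ← conj_mul, LinearEquiv.mul_apply, conj_tv (h.iso hg) h3, conj_tv (h.iso hg) h3']
    by_cases h6 : g w ∈ F ∙ g w₁
    · obtain ⟨c, hc⟩ := Submodule.mem_span_singleton.1 h6
      obtain ⟨x, hx⟩ : ∃ x, (t * t₁) x ≠ x := by
        by_contra! H
        refine hne (LinearEquiv.ext fun x => ?_)
        obtain ⟨y, rfl⟩ := t₁.surjective x
        rw [← LinearEquiv.mul_apply, H, h1', h1']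
        simp [h.R0_sing h2 hv₁]
        linear_combination (norm := module) h2 • P.B y v₁ • v₁
      have h7 : (t * t₁) x - x = -(P.B x (g w₁) + P.B (x - P.B x (g w₁) • g w₁) (g w) * c) • g w₁ := by
        rw [h5]
        generalize P.B (x - _) (g w) = z
        rw [← hc]
        module
      exact key w₁ hw₁ x _ (fun h8 => hx (by rwa [h8, zero_smul, sub_eq_zero] at h7)) h7
    · obtain ⟨x, hx, hx'⟩ := exists_sep' (P := P) h6 1
      rw [perp_span_singleton, mem_pp] at hx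
      exact key w hw x (-1) (by simp) (by simp [h5, hx, hx', -LinearEquiv.mul_apply])

theorem le_of_even : X ≤ decStab (L F e) := by
  have hC := h.oddCtx hc hc2 h2
  have := finite_linearEquiv (F := F) (V := V)
  intro g hg
  by_contra hg'
  have hz : ∀ a b : Fin 4, a ≠ b → ∃ t ∈ ZT P e,
      ∀ x, t x = x - P.B x (e a + e b) • (e a + e b) := fun a b hab => by
    have h1 : R0 P e (e a + e b) := ⟨_, _, hab, 1, 1, by simp, by simp, by simp⟩
    obtain ⟨t, -, h3⟩ := h.exists_tv h2 h1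
    exact ⟨t, ⟨_, h1, h3⟩, h3⟩
  obtain ⟨t, ht, h3⟩ := hz 0 1 (by decide)
  obtain ⟨t', ht', h3'⟩ := hz 2 3 (by decide)
  obtain ⟨s, h4, h5⟩ := hC.exists_swaps hg (fun h => hg' h.1) ht
  have key : ∀ t ∈ ZT P e, ∃ u, ((∀ l, P.B u (e l) ≠ 0) ∧
      ∀ i j, i ≠ j → nm P (P.B u (e i)) ≠ nm P (P.B u (e j))) ∧
      ∀ x, s t x = x - P.B x u • u := fun t ht => by
    obtain ⟨h7, h8⟩ := h4 t ht
    have h10 := hC.cjs_mem h7
    obtain ⟨g, hg, τ, ⟨w, hw, h6⟩, h7⟩ := h7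
    have h9 := conj_tv (h.iso hg) h6
    rw [← h7] at h9
    exact ⟨g w, h.generic hc hc2 h2 h10 (fun h => h8 ⟨h, h10⟩) h9, h9⟩
  obtain ⟨u, ⟨hu, hu'⟩, h6⟩ := key t ht
  obtain ⟨u', -, h6'⟩ := key t' ht'
  obtain ⟨h7, h8, -⟩ := h5 t ht t' ht'
  have h9 : ∀ x, ∃ α β : F, (s t * s t') x = x + α • u + β • u' := fun x =>
    ⟨-P.B (s t' x) u, -P.B x u', by
      rw [LinearEquiv.mul_apply, h6]
      generalize P.B (s t' x) u = z
      rw [h6']; module⟩
  generalize s t * s t' = k at h7 h8 h9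
  obtain ⟨i, hi⟩ := h.mem_mon.1 h7.1 2
  obtain ⟨j, hj⟩ := h.mem_mon.1 h7.1 3
  obtain ⟨m, hm, hi⟩ := h.nm_of_mem (h.iso h7.2) hi
  obtain ⟨m', hm', hj⟩ := h.nm_of_mem (h.iso h7.2) hj
  have m0 := ne_zero_of_nm hm
  have m0' := ne_zero_of_nm hm'
  have hij : i ≠ j := by
    rintro rfl
    simpa [hi, hj, h.one, m0, m0'] using (h.toC4.map h7.2).orth (by decide : (2 : Fin 4) ≠ 3)
  have h10 : ∀ a : Fin 4, a ≠ 0 → a ≠ 1 → i ≠ a ∧ j ≠ a := fun a a2 a3 => by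
    have k1 := congrArg (fun s => P.B (s (e 2)) (e a)) h8
    simp [h3, h3', h.B, a2.symm, a3.symm, hi, hj] at k1
    by_cases k3 : i = a <;> by_cases k4 : j = a <;> simp_all
  obtain ⟨i2, j2⟩ := h10 2 (by decide) (by decide)
  obtain ⟨i3, j3⟩ := h10 3 (by decide) (by decide)
  obtain ⟨α, β, k1⟩ := h9 (e 2)
  obtain ⟨γ, δ, k2⟩ := h9 (e 3)
  rw [hi] at k1
  rw [hj] at k2
  have k3 : (α * δ - γ * β) • u = δ • (m • e i - e 2) - β • (m' • e j - e 3) := by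
    rw [k1, k2]; module
  have e1 := congrArg (P.B · (e 2)) k3
  have e2 := congrArg (P.B · (e i)) k3
  have e3 := congrArg (P.B · (e 3)) k3
  simp [h.B, i2, j2, i3, j3, i2.symm, i3.symm, hij.symm] at e1 e2 e3
  by_cases hΔ : α * δ - γ * β = 0
  · have hβ : β = 0 := by simpa [hΔ] using e3.symm
    have e4 := congrArg (P.B · (e 2)) k1
    have e5 := congrArg (P.B · (e 3)) k1
    simp [h.B, i2, i3, hβ, hu] at e4 e5
    simp [e5] at e4
  · refine hu' 2 i i2.symm (mul_left_cancel₀ ((nm_eq_zero (P := P)).not.2 hΔ) ?_)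
    rw [← nm_mul, ← nm_mul, e1, e2]
    simp [hm]

end F4

end Cfsg.Agent.H1.U4
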