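import Cfsg.Agent.H1.U4Fr3

/-!
Orthonormal frames of four-dimensional unitary spaces in odd characteristic; the stabiliser of an
orthonormal frame is maximal in `SU_4(q)` for `q ≠ 3`.
-/

set_option autoImplicit false
set_option linter.unusedSectionVars false

namespace Cfsg.Agent.H1.U4

open Module H7 H7.Polar H8 H9.UDec Equiv

theorem dih {G : Type*} [Group G] [Finite G] (S : Subgroup G) [S.Normal] {Y : Subgroup G} {a b : G}
    (ha : a * a = 1) (hb : b * b = 1) (haY : a ∈ Y) (hbY : b ∈ Y) :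
    (∃ d ∈ Y, d * a * d⁻¹ * b⁻¹ ∈ S) ∨ ∃ c ∈ Y, c ∉ S ∧ c * c ∈ S ∧ c * a * c⁻¹ * a⁻¹ ∈ S ∧
      c * b * c⁻¹ * b⁻¹ ∈ S ∧ (∃ d ∈ Y, c * a = d * a * d⁻¹ ∨ c * a = d * b * d⁻¹) ∧
      (∃ d ∈ Y, c⁻¹ * b = d * b * d⁻¹ ∨ c⁻¹ * b = d * a * d⁻¹) := by
  have h1 : ∀ n, (a * b) ^ n ∈ S ↔ orderOf (QuotientGroup.mk' S (a * b)) ∣ n := fun n => by
    rw [orderOf_dvd_iff_pow_eq_one, ← map_pow, QuotientGroup.mk'_apply, QuotientGroup.eq_one_iff]
  have h0 := orderOf_pos (QuotientGroup.mk' S (a * b))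
  have h2 : ∀ k, (b * a) ^ k = ((a * b) ^ k)⁻¹ := fun k => by
    rw [← inv_pow, mul_inv_rev, inv_eq_of_mul_eq_one_right ha, inv_eq_of_mul_eq_one_right hb]
  obtain ⟨k, hk | hk⟩ := Nat.even_or_odd' (orderOf (QuotientGroup.mk' S (a * b)))
  · have h3 : (a * b) ^ k * (a * b) ^ k ∈ S := by rw [← pow_add, h1, hk, two_mul]
    refine Or.inr ⟨(a * b) ^ k, Y.pow_mem (Y.mul_mem haY hbY) k, fun h => ?_, h3, ?_, ?_,
      dih_conj ha hb haY hbY k, h2 k ▸ dih_conj hb ha hbY haY k⟩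
    · have := Nat.le_of_dvd (by omega) ((h1 k).1 h)
      omega
    · rwa [mul_assoc _ a, dih_semi' ha hb, mul_assoc, mul_inv_cancel_right]
    · rwa [mul_assoc _ b, ← h2, dih_semi hb ha, h2, inv_inv, mul_assoc, mul_inv_cancel_right]
  · refine Or.inl ⟨(a * b) ^ k, Y.pow_mem (Y.mul_mem haY hbY) k, ?_⟩
    rw [mul_assoc _ a, dih_semi' ha hb, inv_eq_of_mul_eq_one_right hb, mul_assoc, mul_assoc,
      ← pow_succ, ← pow_add, h1, hk]
    exact dvd_of_eq (by ring)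

/-- `ρ` maps the partition given by `i, j` to the partition given by `i', j'` -/
def Pt (ρ : Perm (Fin 4)) (i j i' j' : Fin 4) : Prop :=
  (∀ m, (m = i ∨ m = j) ↔ (ρ m = i' ∨ ρ m = j')) ∨
    (∀ m, (m = i ∨ m = j) ↔ ¬ (ρ m = i' ∨ ρ m = j'))

instance decPt (ρ : Perm (Fin 4)) (i j i' j' : Fin 4) : Decidable (Pt ρ i j i' j') := by
  unfold Pt; infer_instance

theorem pt1 : ∀ (ρ : Perm (Fin 4)) (i j : Fin 4), i ≠ j →
    (∀ m, (m = i ∨ m = j) ↔ (ρ m = i ∨ ρ m = j)) → ρ * ρ = 1 := by decide +kernel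

theorem pt2 : ∀ (ρ : Perm (Fin 4)) (i j : Fin 4), i ≠ j → Pt ρ i j i j →
    ρ * ρ * (ρ * ρ) = 1 := by decide +kernel

theorem pt3 : ∀ ρ : Perm (Fin 4), ρ * ρ = 1 → ∃ j, 0 ≠ j ∧ Pt ρ 0 j 0 j := by decide +kernel

set_option synthInstance.maxSize 1024 in
theorem pt4 : ∀ π : Perm (Fin 4), π * π = 1 → (∀ m, π m ≠ m) →
    ∃ j, 0 ≠ j ∧ ∀ ρ, π * ρ = ρ * π → ¬ Pt ρ 0 j 0 (π 0) := by decide +kernel

theorem pt5 : ∀ π : Perm (Fin 4), π * π = 1 → (∀ m, π m ≠ m) → ∀ j, 0 ≠ j → Pt π 0 j 0 j := by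
  decide +kernel

set_option synthInstance.maxSize 1024 in
theorem pt6 : ∀ ρ ρ' : Perm (Fin 4), ρ * ρ = 1 → ρ ≠ 1 → (∃ m, ρ m = m) →
    ρ * (swap 0 1 * swap 2 3) = (swap 0 1 * swap 2 3) * ρ → ρ' * ρ' = 1 → ρ' ≠ 1 →
    (∃ m, ρ' m = m) → ρ' * (swap 0 2 * swap 1 3) = (swap 0 2 * swap 1 3) * ρ' →
    (∃ m, (ρ * ρ' * (ρ * ρ') * (ρ * ρ' * (ρ * ρ'))) m = m) ∧
      ρ * ρ' * (ρ * ρ') * (ρ * ρ' * (ρ * ρ')) ≠ 1 := by decide +kernel

variable {F : Type*} [Field F] {V : Type*} [AddCommGroup V] [Module F V] {P : Polar F V}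
variable [Finite F] [FiniteDimensional F V]

variable (F V) in
/-- the scalars -/
def Sc : Subgroup (V ≃ₗ[F] V) where
  carrier := {g | ∃ c : F, c ≠ 0 ∧ ∀ x, g x = c • x}
  one_mem' := ⟨1, one_ne_zero, by simp⟩
  mul_mem' := by
    rintro g g' ⟨c, h0, hc⟩ ⟨c', h0', hc'⟩
    exact ⟨c * c', mul_ne_zero h0 h0', fun x => by simp [hc, hc', mul_smul]⟩
  inv_mem' := by
    rintro g ⟨c, h0, hc⟩
    exact ⟨c⁻¹, inv_ne_zero h0, fun x => g.symm_apply_eq.2 (by simp [hc, h0])⟩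

instance normal_Sc : (Sc F V).Normal := ⟨by
  rintro g ⟨c, h0, hc⟩ k
  exact ⟨c, h0, fun x => by simp [hc]⟩⟩

theorem comm_of_Sc {k t t' : V ≃ₗ[F] V} (h : k * t * k⁻¹ * t'⁻¹ ∈ Sc F V) :
    ∃ l : F, l ≠ 0 ∧ ∀ x, k (t x) = l • t' (k x) := by
  obtain ⟨l, h0, hl⟩ := h
  exact ⟨l, h0, fun x => by simpa using hl (t' (k x))⟩

variable (F V) in
/-- the elements commuting with `y` modulo scalars -/
def Cm (y : V ≃ₗ[F] V) : Subgroup (V ≃ₗ[F] V) where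
  carrier := {x | y * x * y⁻¹ * x⁻¹ ∈ Sc F V}
  one_mem' := by simp
  mul_mem' := fun {a b} ha hb => by
    have := mul_mem ha (normal_Sc.conj_mem _ hb a)
    simpa [mul_assoc] using this
  inv_mem' := fun {a} ha => by
    have := normal_Sc.conj_mem _ (inv_mem ha) a⁻¹
    simpa [mul_assoc] using this

/-- the signs of a diagonal involution -/
def sg (F : Type*) [Field F] (i j m : Fin 4) : F := if m = i ∨ m = j then -1 else 1

theorem sg_sq (i j m : Fin 4) : sg F i j m * sg F i j m = 1 := by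
  unfold sg; split_ifs <;> simp

/-- monomial elements -/
def Mon (e : Fin 4 → V) (g : V ≃ₗ[F] V) (ρ : Perm (Fin 4)) : Prop :=
  ∀ m, ∃ d : F, g (e m) = d • e (ρ m)

/-- diagonal involutions -/
def IsZ (e : Fin 4 → V) (t : V ≃ₗ[F] V) (i j : Fin 4) : Prop :=
  i ≠ j ∧ ∀ m, t (e m) = sg F i j m • e m

variable {e e' : Fin 4 → V} {X : Subgroup (V ≃ₗ[F] V)}

theorem mon_of {g : V ≃ₗ[F] V} (hg : g ∈ decStab (L F e)) : ∃ ρ, Mon e g ρ := by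
  obtain ⟨ρ, hρ⟩ := Dec.exists_perm hg
  exact ⟨ρ, fun m => (Submodule.mem_span_singleton.1 (hρ m _ (mem_L e m))).imp fun _ => Eq.symm⟩

theorem Mon.mul {g g' : V ≃ₗ[F] V} {ρ ρ' : Perm (Fin 4)} (h : Mon e g ρ) (h' : Mon e g' ρ') :
    Mon e (g * g') (ρ * ρ') := fun m => by
  obtain ⟨d, hd⟩ := h' m
  obtain ⟨d', hd'⟩ := h (ρ' m)
  exact ⟨d * d', by simp [hd, hd', mul_smul]⟩

theorem Mon.inv (hO : ON P e) {g : V ≃ₗ[F] V} {ρ : Perm (Fin 4)} (h : Mon e g ρ) :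
    Mon e g⁻¹ ρ⁻¹ := fun m => by
  obtain ⟨d, hd⟩ := h (ρ⁻¹ m)
  have h0 : d ≠ 0 := by rintro rfl; simp [hO.ne_zero] at hd
  exact ⟨d⁻¹, g.symm_apply_eq.2 (by rw [map_smul, hd]; simp [h0])⟩

theorem Mon.unique (hO : ON P e) {g : V ≃ₗ[F] V} {ρ ρ' : Perm (Fin 4)} (h : Mon e g ρ)
    (h' : Mon e g ρ') : ρ = ρ' := Equiv.ext fun m => by
  obtain ⟨d, hd⟩ := h m
  obtain ⟨d', hd'⟩ := h' m
  have h0 : d ≠ 0 := by rintro rfl; simp [hO.ne_zero] at hd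
  by_contra h1
  simpa [hO.B, h0, Ne.symm h1] using congrArg (P.B · (e (ρ m))) (hd.symm.trans hd')

theorem Mon.mem (hO : ON P e) {g : V ≃ₗ[F] V} {ρ : Perm (Fin 4)} (h : Mon e g ρ) :
    g ∈ decStab (L F e) := hO.mem_mon.2 fun m => by
  obtain ⟨d, hd⟩ := h m
  exact ⟨ρ m, hd ▸ Submodule.smul_mem _ _ (mem_L e _)⟩

theorem mon_Sc {g : V ≃ₗ[F] V} (hg : g ∈ Sc F V) : Mon e g 1 := fun m => by
  obtain ⟨c, -, hc⟩ := hg
  exact ⟨c, hc _⟩

theorem IsZ.mon {t : V ≃ₗ[F] V} {i j : Fin 4} (h : IsZ e t i j) : Mon e t 1 := fun m => ⟨_, h.2 m⟩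

theorem ext_frame (hO : ON P e) {g g' : V ≃ₗ[F] V} (h : ∀ m, g (e m) = g' (e m)) : g = g' :=
  LinearEquiv.ext fun x => by rw [← hO.sum x]; simp [h]

theorem IsZ.sq (hO : ON P e) {t : V ≃ₗ[F] V} {i j : Fin 4} (h : IsZ e t i j) : t * t = 1 :=
  ext_frame hO fun m => by simp [h.2, smul_smul, sg_sq]

theorem IsZ.map {t g : V ≃ₗ[F] V} {i j : Fin 4} (h : IsZ e t i j) :
    IsZ (fun m => g (e m)) (g * t * g⁻¹) i j := ⟨h.1, fun m => by simp [h.2]⟩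

theorem Mon.scal (hO : ON P e) {t : V ≃ₗ[F] V} (h : Mon e t 1) {w : V}
    (hw : ∀ m, P.B w (e m) ≠ 0) {l : F} (hl : t w = l • w) : t ∈ Sc F V := by
  choose d hd using h
  have h1 : ∀ m, d m = l := fun m => mul_right_cancel₀ (hw m) (by
    rw [← coord_diag hO hd, hl]; simp)
  have h2 : ∀ x, t x = l • x := fun x => hO.ext fun m => by simp [coord_diag hO hd, h1]
  refine ⟨l, ?_, h2⟩
  rintro rfl
  simpa [hO.ne_zero] using h2 (e 0)

theorem Mon.perm_comm (hO : ON P e) {g k : V ≃ₗ[F] V} {ρ π : Perm (Fin 4)} (hg : Mon e g ρ)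
    (hk : Mon e k π) (h : g * k * g⁻¹ * k⁻¹ ∈ Sc F V) : ρ * π = π * ρ := by
  have := (((hg.mul hk).mul (hg.inv hO)).mul (hk.inv hO)).unique hO (mon_Sc h)
  rwa [mul_inv_eq_one, mul_inv_eq_iff_eq_mul] at this

theorem Mon.sg_eq (hO : ON P e) {k t t' : V ≃ₗ[F] V} {ρ : Perm (Fin 4)} (hk : Mon e k ρ)
    {i j i' j' : Fin 4} (ht : IsZ e t i j) (ht' : IsZ e t' i' j') {l : F}
    (h : ∀ x, k (t x) = l • t' (k x)) (m : Fin 4) : sg F i j m = l * sg F i' j' (ρ m) := by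
  obtain ⟨d, hd⟩ := hk m
  have h0 : d ≠ 0 := by rintro rfl; simp [hO.ne_zero] at hd
  have := congrArg (P.B · (e (ρ m))) (h (e m))
  simp [ht.2, ht'.2, hd, hO.one] at this
  exact mul_right_cancel₀ h0 (by linear_combination this)

theorem Mon.pt (hO : ON P e) (h2 : (2 : F) ≠ 0) {k t t' : V ≃ₗ[F] V} {ρ : Perm (Fin 4)}
    (hk : Mon e k ρ) {i j i' j' : Fin 4} (ht : IsZ e t i j) (ht' : IsZ e t' i' j')
    (h : k * t * k⁻¹ * t'⁻¹ ∈ Sc F V) : Pt ρ i j i' j' := by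
  obtain ⟨l, -, hl⟩ := comm_of_Sc h
  have h1 := hk.sg_eq hO ht ht' hl
  have h3 : (1 : F) ≠ -1 := fun h => h2 (by linear_combination h)
  have h4 : l = 1 ∨ l = -1 := by
    have := h1 0
    unfold sg at this
    split_ifs at this <;> grind
  refine h4.imp (fun h4 m => ?_) fun h4 m => ?_ <;>
  · have := h1 m
    unfold sg at this
    split_ifs at this <;> grind

theorem Mon.comm_of_pt (hO : ON P e) {k t : V ≃ₗ[F] V} {ρ : Perm (Fin 4)}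
    (hk : Mon e k ρ) {i j : Fin 4} (ht : IsZ e t i j) (h : Pt ρ i j i j) : t ∈ Cm F V k := by
  obtain ⟨l, h0, hl⟩ : ∃ l : F, l ≠ 0 ∧ ∀ m, sg F i j m = l * sg F i j (ρ m) := by
    rcases h with h | h
    · exact ⟨1, one_ne_zero, fun m => by simp [sg, h m]⟩
    · refine ⟨-1, by simp, fun m => ?_⟩
      have := h m
      unfold sg
      split_ifs <;> grind
  refine ⟨l, h0, fun x => ?_⟩
  obtain ⟨x, rfl⟩ := (t * k).surjective x
  simp only [LinearEquiv.mul_apply, show ∀ x, t⁻¹ (t x) = x from t.symm_apply_apply,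
    show ∀ x, k⁻¹ (k x) = x from k.symm_apply_apply]
  rw [← hO.sum x]
  simp only [map_sum, map_smul, Finset.smul_sum]
  refine Finset.sum_congr rfl fun m _ => ?_
  obtain ⟨d, hd⟩ := hk m
  simp only [ht.2, map_smul, hd, hl m]
  module

theorem C4.exists_Z (h : C4 P e X) {i j : Fin 4} (hij : i ≠ j) : ∃ t ∈ X, IsZ e t i j := by
  obtain ⟨t, h1, h2⟩ := h.exists_dg (d := sg F i j) (fun m => by unfold sg; split_ifs <;> simp) (by
    fin_cases i <;> fin_cases j <;> simp [Fin.prod_univ_four, sg] at hij ⊢)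
  exact ⟨t, h1.2, hij, h2⟩

namespace F4

variable (h : F4 P e X) (h2 : (2 : F) ≠ 0)
include h h2

theorem mem_of_comm {k t t' : V ≃ₗ[F] V} (hk : k ∈ X) {i j i' j' : Fin 4} (ht : IsZ e t i j)
    (ht' : IsZ e t' i' j') (h1 : k * t * k⁻¹ * t'⁻¹ ∈ Sc F V) : k ∈ decStab (L F e) := by
  by_contra hk'
  obtain ⟨l, -, hl⟩ := comm_of_Sc h1
  have h3 : ∀ m, sg F i j m = l * sg F i' j' 0 := fun m => by
    have := congrArg (P.B · (e 0)) (hl (e m))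
    simp only [ht.2, map_smul, LinearMap.smul_apply, smul_eq_mul, coord_diag h.toON ht'.2] at this
    exact mul_right_cancel₀ (mt (h.zero k hk m 0) hk') (by linear_combination this)
  obtain ⟨m, -, -, m1, m2, -⟩ := exists_compl i j ht.1
  have := (h3 i).trans (h3 m).symm
  simp [sg, m1, m2] at this
  exact h2 (by linear_combination -this)

variable (h' : F4 P e' X) (hG : ∀ a b, P.B (e' a) (e b) ≠ 0) {s : F} (hs : nm P s = 1)
  (hs4 : s ^ 4 ≠ 1)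
include h' hG hs hs4

theorem not_mem_Z {y : V ≃ₗ[F] V} {i j : Fin 4} (hy : IsZ e' y i j) :
    y ∉ decStab (L F e) := fun hy' => by
  obtain ⟨π, hπ⟩ := mon_of hy'
  have hππ : π * π = 1 := (hπ.mul hπ).unique h.toON (hy.sq h'.toON ▸ mon_Sc (one_mem _))
  have hπ' := hπ
  choose d hd using hπ'
  have h1 : ∀ m, π m ≠ m := fun m hm => by
    have h3 : ∀ a, sg F i j a = d m := fun a => mul_right_cancel₀ (hG a m) (by
      rw [← coord_mono h.toON hd, hm, hy.2]; simp)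
    obtain ⟨a, -, -, m1, m2, -⟩ := exists_compl i j hy.1
    have := (h3 i).trans (h3 a).symm
    simp [sg, m1, m2] at this
    exact h2 (by linear_combination -this)
  have s0 := ne_zero_of_nm hs
  obtain ⟨t, ht, h3⟩ := h.exists_dg (d := fun m => if m = 0 ∨ m = π 0 then s else s⁻¹)
    (fun m => by split_ifs <;> simp [hs]) (by
      have := h1 0
      generalize π 0 = n at this
      fin_cases n <;> simp [Fin.prod_univ_four, s0] at this ⊢)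
  have h4 : t * y = y * t := ext_frame h.toON fun m => by
    have e1 : ∀ m, π (π m) = m := fun m => congrArg (· m) hππ
    have e2 : (π m = 0 ∨ π m = π 0) ↔ (m = 0 ∨ m = π 0) := by grind
    simp only [LinearEquiv.mul_apply, hd, h3, map_smul, e2]
    rw [smul_comm]
  have h5 : t * y * t⁻¹ * y⁻¹ = 1 := by rw [h4]; group
  obtain ⟨ρ, hρ⟩ := mon_of (h'.mem_of_comm h2 ht.2 hy hy (h5 ▸ one_mem _))
  have h6 := hρ.sg_eq h'.toON hy hy (l := 1) fun x => by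
    rw [one_smul]; exact congrArg (· x) h4
  have h7 := pt1 ρ i j hy.1 fun m => by
    have := h6 m
    have h3 : (1 : F) ≠ -1 := fun h => h2 (by linear_combination h)
    unfold sg at this
    split_ifs at this <;> grind
  obtain ⟨l, hl⟩ := (h7 ▸ hρ.mul hρ) 0
  have h8 : ∀ m, P.B ((t * t) (e' 0)) (e m) = _ := fun m => by
    rw [LinearEquiv.mul_apply, coord_diag h.toON h3, coord_diag h.toON h3]
  obtain ⟨m, -, -, m1, m2, -⟩ := exists_compl 0 (π 0) (h1 0).symm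
  have e1 := h8 0
  have e2 := h8 m
  simp only [hl, Perm.coe_one, id, map_smul, LinearMap.smul_apply, smul_eq_mul, true_or,
    if_true, m1, m2, or_self, if_false, ← mul_assoc] at e1 e2
  have e3 := (mul_right_cancel₀ (hG 0 0) e1).symm.trans (mul_right_cancel₀ (hG 0 m) e2)
  field_simp at e3
  exact hs4 e3

omit h' hG in
theorem mem_of_conjZ {g t : V ≃ₗ[F] V} (hg : g ∈ X) {i j : Fin 4} (ht : IsZ e t i j)
    (h1 : g * t * g⁻¹ ∈ decStab (L F e)) : g ∈ decStab (L F e) := by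
  by_contra hg'
  exact h.not_mem_Z h2 (h.map hg) (fun a b h3 => hg' (h.zero g hg a b h3)) hs hs4 ht.map h1

omit h' hG in
theorem mon_of_conjZ {g t : V ≃ₗ[F] V} (hg : g ∈ X) {i j : Fin 4} (ht : IsZ e t i j)
    (h1 : g * t * g⁻¹ ∈ decStab (L F e)) : Mon e (g * t * g⁻¹) 1 := by
  obtain ⟨ρ, hρ⟩ := mon_of (h.mem_of_conjZ h2 hs hs4 hg ht h1)
  simpa using (hρ.mul ht.mon).mul (hρ.inv h.toON)

end F4

namespace F4

variable (h : F4 P e X) (h2 : (2 : F) ≠ 0) {s : F} (hs : nm P s = 1) (hs4 : s ^ 4 ≠ 1)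
  {g : V ≃ₗ[F] V} (hg : g ∈ X) (hg' : g ∉ decStab (L F e))
include h h2 hs hs4 hg hg'

theorem exists_conj {t τ : V ≃ₗ[F] V} {i j i' j' : Fin 4} (ht : IsZ e t i j) (hτ : IsZ e τ i' j')
    {Y : Subgroup (V ≃ₗ[F] V)} (hY : Y ≤ X) (h1 : t ∈ Y) (h3 : g * τ * g⁻¹ ∈ Y) :
    ∃ d ∈ Y, d * t * d⁻¹ * (g * τ * g⁻¹)⁻¹ ∈ Sc F V := by
  have h' := h.map hg
  have hu : IsZ (fun m => g (e m)) (g * τ * g⁻¹) i' j' := hτ.map
  have := finite_linearEquiv (F := F) (V := V)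
  refine (dih (Sc F V) (ht.sq h.toON) (hu.sq h'.toON) h1 h3).resolve_right ?_
  rintro ⟨c, hc, c1, -, c3, c4, ⟨d, hd, c5⟩, d', hd', c6⟩
  have k1 := mul_mem (h.mem_of_comm h2 (hY hc) ht ht c3) (ht.mon.mem h.toON)
  have k2 := mul_mem (inv_mem (h'.mem_of_comm h2 (hY hc) hu hu c4)) (hu.mon.mem h'.toON)
  have k3 : Mon e (c * t) 1 := by
    rcases c5 with c5 | c5
    · exact c5 ▸ h.mon_of_conjZ h2 hs hs4 (hY hd) ht (c5 ▸ k1)
    · have c7 : c * t = d * g * τ * (d * g)⁻¹ := by rw [c5]; group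
      exact c7 ▸ h.mon_of_conjZ h2 hs hs4 (mul_mem (hY hd) hg) hτ (c7 ▸ k1)
  have k4 : Mon (fun m => g (e m)) (c⁻¹ * (g * τ * g⁻¹)) 1 := by
    rcases c6 with c6 | c6
    · exact c6 ▸ h'.mon_of_conjZ h2 hs hs4 (hY hd') hu (c6 ▸ k2)
    · have c7 : c⁻¹ * (g * τ * g⁻¹) = d' * g⁻¹ * (g * t * g⁻¹) * (d' * g⁻¹)⁻¹ := by rw [c6]; group
      exact c7 ▸ h'.mon_of_conjZ h2 hs hs4 (mul_mem (hY hd') (inv_mem hg)) ht.map (c7 ▸ k2)
  have k5 : Mon e c 1 := by simpa using k3.mul (ht.mon.inv h.toON)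
  have k6 : Mon (fun m => g (e m)) c 1 := by
    simpa [mul_assoc] using (k4.mul (hu.mon.inv h'.toON)).inv h'.toON
  obtain ⟨l, hl⟩ := k6 0
  exact c1 (k5.scal h.toON (fun m h3 => hg' (h.zero g hg 0 m h3)) hl)

theorem not_mem_dbl {y : V ≃ₗ[F] V} {π : Perm (Fin 4)} (hy : Mon e y π) (hπ : π * π = 1)
    (hπ' : ∀ m, π m ≠ m) (hyy : y * y ∈ Sc F V) : y ∉ decStab (L F fun m => g (e m)) := by
  intro hy'
  have h' := h.map hg
  obtain ⟨ρ, hρ⟩ := mon_of hy'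
  obtain ⟨j', hj', h1⟩ := pt3 ρ ((hρ.mul hρ).unique h'.toON (mon_Sc hyy))
  obtain ⟨τ, hτX, hτ⟩ := h.exists_Z hj'
  have h3 : g * τ * g⁻¹ ∈ X ⊓ Cm F V y := ⟨X.mul_mem (X.mul_mem hg hτX) (X.inv_mem hg),
    hρ.comm_of_pt h'.toON hτ.map h1⟩
  have key : ∀ j, 0 ≠ j → ∃ t, IsZ e t 0 j ∧ ∃ d ∈ X ⊓ Cm F V y,
      d * t * d⁻¹ * (g * τ * g⁻¹)⁻¹ ∈ Sc F V := fun j hj => by
    obtain ⟨t, htX, ht⟩ := h.exists_Z hj
    exact ⟨t, ht, h.exists_conj h2 hs hs4 hg hg' ht hτ inf_le_left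
      ⟨htX, hy.comm_of_pt h.toON ht (pt5 π hπ hπ' j hj)⟩ h3⟩
  obtain ⟨j, hj, h4⟩ := pt4 π hπ hπ'
  obtain ⟨t1, ht1, d1, hd1, k1⟩ := key (π 0) (hπ' 0).symm
  obtain ⟨t2, ht2, d2, hd2, k2⟩ := key j hj
  have k3 : d1⁻¹ * d2 * t2 * (d1⁻¹ * d2)⁻¹ * t1⁻¹ ∈ Sc F V := by
    have := normal_Sc.conj_mem _ (mul_mem k2 (inv_mem k1)) d1⁻¹
    simpa [mul_assoc] using this
  have k4 := mul_mem (inv_mem hd1) hd2
  obtain ⟨κ, hκ⟩ := mon_of (h.mem_of_comm h2 k4.1 ht2 ht1 k3)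
  exact h4 κ (hy.perm_comm h.toON hκ k4.2) (hκ.pt h.toON h2 ht2 ht1 k3)

theorem exists_transp {z : V ≃ₗ[F] V} (hzX : z ∈ X) (hz : IsZ e z 0 1) {π : Perm (Fin 4)}
    (hπ : π * π = 1) (hπ' : ∀ m, π m ≠ m) (hπ1 : Perm.sign π = 1) :
    ∃ c ∈ X, c * (g * z * g⁻¹) * c⁻¹ * (g * z * g⁻¹)⁻¹ ∈ Sc F V ∧ ∃ ρ, Mon e c ρ ∧ ρ * ρ = 1 ∧
      ρ ≠ 1 ∧ (∃ m, ρ m = m) ∧ ρ * π = π * ρ := by
  have h' := h.map hg
  have hu : IsZ (fun m => g (e m)) (g * z * g⁻¹) 0 1 := hz.map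
  have huX := mul_mem (mul_mem hg hzX) (inv_mem hg)
  have := finite_linearEquiv (F := F) (V := V)
  obtain ⟨y, hy, h1⟩ := h.exists_mono π (d := fun _ => 1) (by simp) (by simp [hπ1])
  have hy1 : Mon e y π := fun m => ⟨_, h1 m⟩
  have hyy : y * y = 1 := ext_frame h.toON fun m => by
    simpa [h1] using congrArg (fun σ : Perm (Fin 4) => e (σ m)) hπ
  rcases dih (Sc F V) hyy (hu.sq h'.toON) hy.2 huX with ⟨d, hd, h3⟩ | ⟨c, hc, c1, c2, c3, c4, -⟩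
  · have h4 := normal_Sc.conj_mem _ h3 d⁻¹
    have h5 : d⁻¹ * g * z * (d⁻¹ * g)⁻¹ =
        (d⁻¹ * (d * y * d⁻¹ * (g * z * g⁻¹)⁻¹) * d⁻¹⁻¹)⁻¹ * y := by group
    have h6 : Mon e _ _ := h5 ▸ ((mon_Sc h4).inv h.toON).mul hy1
    have h7 := h6.unique h.toON
      (h.mon_of_conjZ h2 hs hs4 (mul_mem (inv_mem hd) hg) hz (h6.mem h.toON))
    exact absurd (by simpa using congrArg (· 0) h7) (hπ' 0)
  have k1 := h'.mem_of_comm h2 hc hu hu c4
  have k2 : c ∈ decStab (L F e) := by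
    by_contra k2
    refine h.not_mem_dbl h2 hs hs4 hc k2 hy1 hπ hπ' (hyy ▸ one_mem _)
      ((h.conj_mem (h.iso hc)).2 ?_)
    have := mul_mem (((mon_Sc (normal_Sc.conj_mem _ c3 c⁻¹)).inv h.toON).mem h.toON) hy.1
    simpa [mul_assoc] using this
  obtain ⟨ρ, hρ⟩ := mon_of k2
  have k3 : ρ * ρ = 1 := (hρ.mul hρ).unique h.toON (mon_Sc c2)
  refine ⟨c, hc, c4, ρ, hρ, k3, ?_, ?_, hρ.perm_comm h.toON hy1 c3⟩
  · rintro rfl
    obtain ⟨l, -, hl⟩ := comm_of_Sc c4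
    obtain ⟨d, hd⟩ := hρ 0
    refine c1 (hρ.scal h.toON (w := (g * z * g⁻¹) (e 0)) (fun m h3 => hg' (h.mem_of_conjZ h2 hs hs4
      hg hz (h.zero _ huX 0 m h3))) (l := l * d) ?_)
    rw [hl, hd, map_smul, mul_smul, Perm.coe_one, id]
  · by_contra! k4
    exact h.not_mem_dbl h2 hs hs4 hg hg' hρ k3 k4 c2 k1

theorem false_of_odd : False := by
  have h' := h.map hg
  obtain ⟨z, hzX, hz⟩ := h.exists_Z (by decide : (0 : Fin 4) ≠ 1)
  have hu : IsZ (fun m => g (e m)) (g * z * g⁻¹) 0 1 := hz.map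
  obtain ⟨c, hc, c1, ρ, c2, c3, c4, c5, c6⟩ := h.exists_transp h2 hs hs4 hg hg' hzX hz
    (π := swap 0 1 * swap 2 3) (by decide) (by decide) (by decide)
  obtain ⟨c', hc', c1', ρ', c2', c3', c4', c5', c6'⟩ := h.exists_transp h2 hs hs4 hg hg' hzX hz
    (π := swap 0 2 * swap 1 3) (by decide) (by decide) (by decide)
  obtain ⟨⟨m, hm⟩, k1⟩ := pt6 ρ ρ' c3 c4 c5 c6 c3' c4' c5' c6'
  have k2 : c * c' * (g * z * g⁻¹) * (c * c')⁻¹ * (g * z * g⁻¹)⁻¹ ∈ Sc F V := by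
    have := mul_mem (normal_Sc.conj_mem _ c1' c) c1
    simpa [mul_assoc] using this
  obtain ⟨κ, hκ⟩ := mon_of (h'.mem_of_comm h2 (mul_mem hc hc') hu hu k2)
  have k3 := pt2 κ 0 1 hu.1 (hκ.pt h'.toON h2 hu hu k2) ▸ (hκ.mul hκ).mul (hκ.mul hκ)
  have k4 := ((c2.mul c2').mul (c2.mul c2')).mul ((c2.mul c2').mul (c2.mul c2'))
  obtain ⟨l, hl⟩ := k4 m
  rw [hm] at hl
  exact k1 (k4.unique h.toON (mon_Sc (k3.scal h'.toON
    (fun n h3 => hg' (h.zero g hg n m (P.B_symm h3))) hl)))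

end F4

theorem frame_maximal (h : ON P e)
    (hb : Big P → ∃ a, nm P a = 1 ∧ a ^ 4 ≠ 1 ∧ a ^ 3 ≠ 1) :
    Geo.IsMaximalIn P.E (decStab (L F e) ⊓ P.E) := by
  refine isMaximalIn_of inf_le_right ?_ fun X hH hX g hg hg' => ?_
  · have hn : 4 ≤ finrank F V := by simp [h.finrank_eq]
    obtain ⟨y, hy⟩ := h.un.exists_nm (t := -1) (by simp)
    obtain ⟨c, hc⟩ := P.val_ex (e 0)
    obtain ⟨g, hg, h1⟩ := Small.E_trans (wild2 h.un) hn hn (v' := e 0 + e 1 + y • e 2) hc (by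
      rw [val_iff_of_unitary h.un.σ h.un.ε] at hc ⊢
      rw [nm] at hy
      simp [← hc, h.B]
      linear_combination hy) (h.ne_zero 0) fun h0 => by
        simpa [h.B] using congrArg (P.B · (e 0)) h0
    refine ⟨g, hg, fun h3 => ?_⟩
    obtain ⟨j, hj⟩ := h.mem_mon.1 h3.1 0
    rw [h1, h.mem_L_iff] at hj
    by_cases h4 : j = 0
    · simpa [h.B] using hj 1 (by simp [h4])
    · simpa [h.B] using hj 0 (Ne.symm h4)
  replace hg' : g ∉ decStab (L F e) := fun h => hg' ⟨h, hX hg⟩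
  have hC : C4 P e X := ⟨h, hH, hX⟩
  by_cases hB : Big P
  swap
  · exact hC.E_le_small hB hg hg'
  obtain ⟨a, ha, a4, a3⟩ := hb hB
  by_contra H
  have hF := hC.f4 ha a4 a3 fun g hg i j h1 => by
    by_contra h2; exact H (hC.E_le_of_fix hB ha a4 hg h2 h1)
  by_cases h2 : (2 : F) = 0
  · exact hg' (hF.le_of_even ha (fun h => a4 (by linear_combination (a ^ 2 + 1) * h)) h2 hg)
  · exact hF.false_of_odd h2 ha a4 hg hg'

open Geo in
theorem su_frame {F : Type*} [Field F] [Fintype F] {q : ℕ} (hF : Fintype.card F = q ^ 2)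
    (hq : q ≠ 3) (D : Fin 4 → Submodule F (Fin 4 → F))
    (hD : IsNondegenerateMDecomposition (hermForm 4 F q) 1 D) :
    IsMaximalIn (GU 4 F q ⊓ specialLinear (Fin 4) F)
      (decompositionStabilizer D ⊓ (GU 4 F q ⊓ specialLinear (Fin 4) F)) := by
  have hσ := GenSU.σ_ne (n := 4) hF
  have hU : Un (uStd hF 4) := ⟨hσ, rfl⟩
  have hP := pDec_of_geo (P := uStd hF 4) (Or.inr ⟨hσ, rfl⟩) (fun _ _ => rfl) hD
  choose e he he' using fun j => hU.exists_unit (hP.nd j) (hP.ne_bot j)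
  have h1 : D = L F e := funext fun i => hP.eq_span (he i) (by
    intro h0; simpa [h0] using he' i)
  subst h1
  refine isMaximalIn_of_equiv toLE (Small.mem_SU_iff hF le_rfl) (fun g => ?_)
    (frame_maximal ⟨hU, he', fun hij => hP.orth hij (he _) (he _), fun x hx => hP.eq_zero fun i =>
      hP.mem_perp_iff.1 (by rw [perp_span_singleton]; exact hx i)⟩ ?_)
  · rw [Subgroup.mem_inf, Small.mem_SU_iff hF le_rfl, mem_decompositionStabilizer_iff,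
      Subgroup.mem_inf]
  rintro ⟨t, ht, ht0, ht1⟩
  have hq1 := one_lt_q hF
  have hq2 : q ≠ 2 := by
    rintro rfl
    rw [unitPowPolar_σ, sq] at ht
    exact ht1 (mul_right_cancel₀ ht0 (by rw [ht, one_mul]))
  obtain ⟨r, rfl⟩ : ∃ r, q = r + 4 := ⟨q - 4, by omega⟩
  obtain ⟨a, a0, ha⟩ := exists_gen (F := F)
  refine ⟨a ^ (r + 3), ?_, ?_, ?_⟩
  · rw [nm, unitPowPolar_σ, ← FiniteField.pow_card_sub_one_eq_one a a0, hF, ← pow_mul, ← pow_add]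
    congr 1
    exact Nat.eq_sub_of_add_eq (by ring)
  · rw [← pow_mul]; exact ha _ (by omega) (by rw [hF]; nlinarith)
  · rw [← pow_mul]; exact ha _ (by omega) (by rw [hF]; nlinarith)

end Cfsg.Agent.H1.U4
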