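import Cfsg.Agent.H1.U4Or1
import Cfsg.Agent.H1.Small

/-!
The subgroups `O_4(q)` of `SU_4(q)` are maximal for odd `q ≥ 5`.
-/

set_option autoImplicit false
set_option linter.unusedSectionVars false

namespace Cfsg.Agent.H1.U4

open Module H7 H7.Polar H8 H9.UDec

variable {F : Type*} [Field F] {V : Type*} [AddCommGroup V] [Module F V] {P : Polar F V}
variable [Finite F] [FiniteDimensional F V] {F₀ : Subfield F}

theorem exists_notMem_finset_of_card (α : Type*) [Finite α] (s : Finset α)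
    (h : s.card < Nat.card α) : ∃ a, a ∉ s := by
  by_contra! h1
  have := Fintype.ofFinite α
  rw [Finset.eq_univ_of_forall h1, Finset.card_univ, Nat.card_eq_fintype_card] at h
  exact h.false

namespace O4

variable {R : RatStr F₀ V} {X : Subgroup (V ≃ₗ[F] V)} (h : O4 P R X)
include h

section

variable {T : V →+ V} (hs : ∀ (a : F) x, T (a • x) = P.σ a • T x)
  (hB : ∀ x y, P.B (T x) (T y) = P.σ (P.B x y)) {x : V} (hxs : P.Val x 0) (hx : T x = x)
  (hc : ∀ k ∈ X, k x = x → ∀ v, T (k v) = k (T v)) (hτ : R.τ x ∉ F ∙ x)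
include hs hB hxs hx hc hτ

theorem B_τ_ne : P.B x (R.τ x) ≠ 0 := fun h1 => by
  have h2 := h.two
  obtain ⟨j, hj0, hj⟩ := exists_lam_ne_of_unitary h.un.σ h.un.ε
  replace hj := h.un.lam.1 hj
  have hxx := sing_B hxs
  have hyy : P.B (R.τ x) (R.τ x) = 0 := by rw [h.B_τ, hxx, map_zero]
  have h1' := P.B_symm h1
  obtain ⟨k, hk, h3⟩ := h.mem (x + R.τ x) (j • (x - R.τ x)) 0 (by rw [map_add, h.ττ, add_comm])
    (by rw [h.τ_smul, hj, map_sub, h.ττ]; module) F₀.zero_mem
    (h.un.sing.2 (by simp [hxx, hyy, h1, h1'])) (by simp [hxx, hyy, h1, h1'])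
    (h.un.sing.2 (by simp [hxx, hyy, h1, h1']))
  have h4 : ∀ v, k v = v + (2 * j * P.B v x) • x - (2 * j * P.B v (R.τ x)) • R.τ x := fun v => by
    simp only [h3, eich, h.un.ε, map_add, map_sub, B_smul_right, hj, map_zero]
    module
  have h5 : x ∉ F ∙ R.τ x := fun h5 => by
    obtain ⟨a, ha⟩ := Submodule.mem_span_singleton.1 h5
    refine hτ (Submodule.mem_span_singleton.2 ⟨P.σ a, ?_⟩)
    conv_rhs => rw [← ha, h.τ_smul, h.ττ]
  obtain ⟨v, hv, hv'⟩ := exists_sep' (P := P) h5 1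
  replace hv : P.B v (R.τ x) = 0 := hv _ (Submodule.mem_span_singleton_self _)
  have h6 := hc k hk (by simp [h4, hxx, h1]) v
  have h7 := hB v x
  rw [hx, hv', map_one] at h7
  simp only [h4, hv, hv', h7, map_add, map_sub, hs, hx, map_mul, hj, map_ofNat, map_one,
    map_zero] at h6
  refine h5 (Submodule.mem_span_singleton.2 ⟨P.B (T v) (R.τ x) / 2, ?_⟩)
  refine smul_right_injective V (mul_ne_zero (mul_ne_zero h2 h2) hj0) ?_
  linear_combination (norm := skip) h6
  match_scalars <;> field_simp <;> ring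

variable (hT : ∀ x, T (T x) = x) (hq : 4 ≤ Nat.card F₀)
include hT hq

theorem exists_eq_smul : ∃ p : F, P.σ p * p = 1 ∧
    ∀ v ∈ P.pp x ⊓ P.pp (R.τ x), T v = p • R.τ v := by
  classical
  have h2 := h.two
  have h1 := h.B_τ_ne hs hB hxs hx hc hτ
  have h1' := P.B_ne_symm h1
  have hxx := sing_B hxs
  have hyy : P.B (R.τ x) (R.τ x) = 0 := by rw [h.B_τ, hxx, map_zero]
  have h0 : x ≠ 0 := by rintro rfl; simp at h1
  set M := P.pp x ⊓ P.pp (R.τ x) with hMdef
  have hM : R.Inv M := fun v hv => ⟨by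
    have := h.B_τ v (R.τ x)
    rwa [h.ττ, mem_pp.1 hv.2, map_zero] at this, by
    show P.B _ _ = 0
    rw [h.B_τ, mem_pp.1 hv.1, map_zero]⟩
  have hnd : ∀ v ∈ M, v ∈ P.perp M → v = 0 := fun v hv hv' => P.nondeg v fun y => by
    have h3 := hv' (y - (P.B y (R.τ x) / P.B x (R.τ x)) • x - (P.B y x / P.B (R.τ x) x) • R.τ x)
      ⟨by simp [hxx, h1'], by simp [hyy, h1]⟩
    exact P.B_symm (by simpa [mem_pp.1 hv.1, mem_pp.1 hv.2] using h3)
  have d1 : finrank F (P.pp x) ≤ finrank F M + 1 := finrank_inf_pp_ge (P := P) (P.pp x) (R.τ x)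
  have d2 := Polar.finrank_pp (P := P) h0
  have d3 : finrank F M < finrank F (P.pp x) := Submodule.finrank_lt_finrank_of_lt
    (lt_of_le_of_ne inf_le_left fun e => h1 (e.ge (show x ∈ P.pp x from hxx)).2)
  have d4 := h.dim
  obtain ⟨m, hm, hm1, hA⟩ := h.exists_aniso hM fun h3 => by
    have : finrank F M = 0 :=
      Submodule.finrank_eq_zero.2 (eq_bot_iff.2 fun v hv => hnd v hv (h3 hv))
    omega
  have d5 := finrank_inf_pp_ge (P := P) M m
  have d6 : finrank F ↥(M ⊓ P.pp m) < finrank F M := Submodule.finrank_lt_finrank_of_lt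
    (lt_of_le_of_ne inf_le_left fun e => hA (e.ge hm).2)
  obtain ⟨n, hn, hn1, hD⟩ := h.exists_aniso (hM.inf (h.ok.inv_pp hm1)) fun h3 => by
    have : finrank F ↥(M ⊓ P.pp m) = 0 :=
      Submodule.finrank_eq_zero.2 (eq_bot_iff.2 fun v hv => hnd v hv.1 fun y hy => by
        simpa [mem_pp.1 hv.2] using h3 hv (y - (P.B y m / P.B m m) • m)
          ⟨sub_mem hy (M.smul_mem _ hm), by simp [hA]⟩)
    omega
  have hnm : P.B n m = 0 := hn.2
  have hmn : P.B m n = 0 := P.B_symm hnm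
  have d7 : finrank F ↥(M ⊓ P.pp m ⊓ P.pp n) < finrank F ↥(M ⊓ P.pp m) :=
    Submodule.finrank_lt_finrank_of_lt (lt_of_le_of_ne inf_le_left fun e => hD (e.ge hn).2)
  have hsp : ∀ v ∈ M, v = (P.B v m / P.B m m) • m + (P.B v n / P.B n n) • n := fun v hv => by
    have : M ⊓ P.pp m ⊓ P.pp n = ⊥ := Submodule.finrank_eq_zero.1 (by omega)
    rw [← sub_eq_zero, ← Submodule.mem_bot F, ← this]
    exact ⟨⟨sub_mem hv (add_mem (M.smul_mem _ hm) (M.smul_mem _ hn.1)), by simp [hnm, hA]⟩,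
      by simp [hmn, hD]⟩
  have hA' := h.un.σB m
  have hD' := h.un.σB n
  have key : ∀ s, P.σ s = s → ∀ t, P.σ t = t → P.B m m * t ^ 2 + s ^ 2 * P.B n n ≠ 0 → ∀ v,
      T (rr P (t • m + s • n) (rr P m v)) = rr P (t • m + s • n) (rr P m (T v)) :=
    fun s hs' t ht h3 v => by
    obtain ⟨k, hk, -, h4⟩ := h.exists_rot (a := t • m + s • n) (by simp [h.θσ, hm1, hn1, hs', ht])
      hm1 (by convert h3 using 1; simp [hnm, hmn, hs', ht]; ring) hA
    rw [← h4, ← h4]
    refine hc k hk ?_ v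
    rw [h4, rr_fix (P.B_symm hm.1), rr_fix (by simp [P.B_symm hm.1, P.B_symm hn.1.1])]
  have k1 : ∀ v ∈ M, T v = (P.B (T v) m / P.B m m) • m + (P.B (T v) n / P.B n n) • n :=
    fun v hv => by
    have h3 := key 1 (map_one _) 0 (map_zero _) (by simpa using hD) v
    have h4 : rr P ((0 : F) • m + (1 : F) • n) (rr P m v) = -v := by
      simp only [rr, zero_smul, one_smul, zero_add, map_sub, map_smul, LinearMap.sub_apply,
        LinearMap.smul_apply, hmn]
      linear_combination (norm := skip) (2 : F) • hsp v hv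
      match_scalars <;> field_simp <;> ring
    rw [h4, map_neg] at h3
    simp only [rr, zero_smul, one_smul, zero_add, map_sub, map_smul, LinearMap.sub_apply,
      LinearMap.smul_apply, hmn] at h3
    linear_combination (norm := skip) (-(2 : F)⁻¹) • h3
    match_scalars <;> field_simp <;> ring
  have k2 : P.B (T n) m = P.B (T m) n := by
    rw [h.un.herm, ← hB, hT]
  obtain ⟨s, hs0, hs', h3⟩ : ∃ s : F, s ≠ 0 ∧ P.σ s = s ∧ P.B m m + s ^ 2 * P.B n n ≠ 0 := by
    by_contra! h3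
    obtain ⟨a, ha⟩ := exists_notMem_finset_of_card F₀ {0} (by simp; omega)
    obtain ⟨b, hb⟩ := exists_notMem_finset_of_card F₀ {0, a, -a}
      (Finset.card_le_three.trans_lt (by omega))
    simp only [Finset.mem_insert, Finset.mem_singleton, not_or] at ha hb
    have h4 := h3 a (fun e => ha (Subtype.ext e)) (h.real.1 a.2)
    have h5 := h3 b (fun e => hb.1 (Subtype.ext e)) (h.real.1 b.2)
    have h6 : ((b : F) - a) * (b + a) * P.B n n = 0 := by linear_combination h5 - h4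
    simp only [mul_eq_zero, hD, or_false, sub_eq_zero, add_eq_zero_iff_eq_neg] at h6
    exact h6.elim (fun e => hb.2.1 (Subtype.ext e)) (fun e => hb.2.2 (Subtype.ext e))
  have e1 : P.B ((1 : F) • m + s • n) ((1 : F) • m + s • n) = P.B m m + s ^ 2 * P.B n n := by
    simp [hnm, hmn, hs']; ring
  have h4 := key s hs' 1 (map_one _) (by simpa using h3) m
  rw [show rr P m m = -m by simp [rr, hA]; module, rr, rr, rr, e1] at h4
  have h5 := congrArg (P.B · m) h4
  have h6 := congrArg (P.B · n) h4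
  simp only [map_sub, map_add, map_neg, map_smul, hs, LinearMap.sub_apply, LinearMap.add_apply,
    LinearMap.neg_apply, LinearMap.smul_apply, B_smul_right, hmn, hnm, map_div₀, map_mul, map_pow,
    map_ofNat, map_one, hs', hA', hD', smul_eq_mul, k2, map_zero] at h5 h6
  have h7 : P.B (T m) n = 0 := by
    field_simp at h5
    refine (mul_eq_zero.1 (show (2 * 2 * s * P.B m m ^ 2) * P.B (T m) n = 0 by
      linear_combination h5)).resolve_left (by simp [h2, hs0, hA])
  have h8 : P.B (T n) n / P.B n n = P.B (T m) m / P.B m m := by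
    rw [h7] at h6
    field_simp at h6 ⊢
    refine mul_left_cancel₀ (mul_ne_zero (mul_ne_zero h2 hs0) hA) ?_
    linear_combination h6
  obtain ⟨p, h9, h10⟩ : ∃ p : F, T m = p • m ∧ T n = p • n :=
    ⟨P.B (T m) m / P.B m m, by simpa [h7] using k1 m hm, by simpa [h7, k2, h8] using k1 n hn.1⟩
  refine ⟨p, ?_, fun v hv => ?_⟩
  · have := hT m
    rw [h9, hs, h9, smul_smul] at this
    exact smul_left_injective F (show m ≠ 0 by rintro rfl; simp at hA) (by simpa using this)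
  · conv_lhs => rw [hsp v hv]
    conv_rhs => rw [hsp v hv]
    rw [map_add, map_add, hs, hs, h.τ_smul, h.τ_smul, hm1, hn1, h9, h10]
    module

end

theorem mem_N (hq : 4 ≤ Nat.card F₀) (hX : ¬ P.E ≤ X) {g : V ≃ₗ[F] V} (hg : g ∈ X) :
    g ∈ R.N := by
  by_contra hgN
  have hI := h.iso hg
  let T : V →+ V := g.toLinearMap.toAddMonoidHom.comp (R.τ.comp g.symm.toLinearMap.toAddMonoidHom)
  have hT : ∀ v, T v = g (R.τ (g.symm v)) := fun _ => rfl
  have hs : ∀ (a : F) x, T (a • x) = P.σ a • T x := fun a x => by simp [hT, h.τ_smul]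
  have hB : ∀ x y, P.B (T x) (T y) = P.σ (P.B x y) := fun x y => by
    rw [hT, hT, Iso.B hI, h.B_τ, ← Iso.B hI, g.apply_symm_apply, g.apply_symm_apply]
  have hTT : ∀ x, T (T x) = x := fun x => by simp [hT, h.ττ]
  have hτ : ∀ u, R.τ u = u → P.Val u 0 → u ≠ 0 → R.τ (g u) ∉ F ∙ g u := fun u hu hus h0 h1 =>
    hgN (h.mem_N_of_real hX (by rw [hu]; exact Submodule.mem_span_singleton_self u) hus h0 hg h1)
  have key : ∀ u, R.τ u = u → P.Val u 0 → u ≠ 0 → ∃ p : F, P.σ p * p = 1 ∧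
      ∀ v ∈ P.pp (g u) ⊓ P.pp (R.τ (g u)), T v = p • R.τ v := fun u hu hus h0 => by
    refine h.exists_eq_smul hs hB (Iso.val hI hus) (by simp [hT, hu]) (fun k hk h1 v => ?_)
      (hτ u hu hus h0) hTT hq
    obtain ⟨c, hc⟩ := h.mem_N_of_fix hX hu hus h0 (mul_mem (mul_mem (inv_mem hg) hk) hg) (l := 1)
      (by simp [h1])
    have h2 : (c : F) = 1 := by
      have := hc u
      simp only [LinearEquiv.mul_apply, hu, h1, LinearEquiv.coe_inv, g.symm_apply_apply] at this
      exact smul_left_injective F h0 (by simpa using this.symm)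
    simpa [hT, h2] using congrArg g (hc (g.symm v))
  have hM : ∀ x, R.Inv (P.pp x ⊓ P.pp (R.τ x)) := fun x v hv => ⟨by
    have := h.B_τ v (R.τ x)
    rwa [h.ττ, mem_pp.1 hv.2, map_zero] at this, by
    show P.B _ _ = 0
    rw [h.B_τ, mem_pp.1 hv.1, map_zero]⟩
  have hd : ∀ x, 2 ≤ finrank F ↥(P.pp x ⊓ P.pp (R.τ x)) := fun x => by
    have := finrank_inf_pp_ge (P := P) ⊤ x
    have := finrank_inf_pp_ge (P := P) (P.pp x) (R.τ x)
    have := h.dim
    rw [top_inf_eq, finrank_top] at *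
    omega
  have hd4 := h.dim
  obtain ⟨u, -, hu, hus, h0⟩ := h.ok.exists_sing h.wild RatStr.inv_top ⊥ (by
    rw [finrank_top, finrank_bot]; omega)
  obtain ⟨p, hp, h1⟩ := key u hu hus h0
  obtain ⟨m, hm, hm0⟩ := Submodule.exists_mem_ne_zero_of_ne_bot
    (p := P.pp (g u) ⊓ P.pp (R.τ (g u))) fun e => by
      have := hd (g u)
      rw [e, finrank_bot] at this
      omega
  obtain ⟨w, -, hw, hws, h2⟩ := h.ok.exists_sing_B_ne h.wild RatStr.inv_top (z := g.symm m)
    (by rw [perp_top, inf_bot_eq, finrank_top, finrank_bot]; omega) (by simpa [perp_top] using hm0)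
  rw [← Iso.B hI, g.apply_symm_apply] at h2
  have hw0 : w ≠ 0 := by rintro rfl; simp at h2
  obtain ⟨p', hp', h3⟩ := key w hw hws hw0
  by_cases h4 : p' = p
  · subst h4
    have h5 : finrank F ↥(P.pp (g w) ⊓ P.pp (R.τ (g w))) <
        finrank F ↥(P.pp (g u) ⊓ P.pp (R.τ (g u)) ⊔ P.pp (g w) ⊓ P.pp (R.τ (g w))) :=
      Submodule.finrank_lt_finrank_of_lt (lt_of_le_of_ne le_sup_right fun e =>
        h2 (P.B_symm (e.ge (Submodule.mem_sup_left hm)).1))
    obtain ⟨z, hz, hz1, hzs, hz0⟩ := h.ok.exists_sing h.wild ((hM (g u)).sup (hM (g w))) ⊥ (by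
      have := hd (g w)
      rw [finrank_bot]; omega)
    have h6 : T z = p' • z := by
      obtain ⟨a, ha, b, hb, rfl⟩ := Submodule.mem_sup.1 hz
      rw [map_add, h1 a ha, h3 b hb, ← smul_add, ← map_add, hz1]
    refine hgN (h.mem_N_of_real hX (u := g.symm z) (Submodule.mem_span_singleton.2 ⟨p', ?_⟩)
      (Iso.val (P.Iso.inv_mem hI) hzs) (by simpa using hz0) hg
      (by rw [g.apply_symm_apply, hz1]; exact Submodule.mem_span_singleton_self z))
    rw [← map_smul, ← h6, hT, g.symm_apply_apply]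
  · have h5 : P.pp (g w) ⊓ P.pp (R.τ (g w)) ≤ P.perp (P.pp (g u) ⊓ P.pp (R.τ (g u))) :=
      fun a ha b hb => by
      have h6 := hB a b
      rw [h3 a ha, h1 b hb, B_smul_right, map_smul, LinearMap.smul_apply, h.B_τ, smul_eq_mul] at h6
      have h7 : (p' - p) * P.σ (P.B a b) = 0 := by
        linear_combination p * h6 - p' * P.σ (P.B a b) * hp
      simpa [sub_eq_zero, h4] using h7
    have h6 := P.finrank_perp (P.pp (g u) ⊓ P.pp (R.τ (g u)))
    have h7 := h3 (g u) ((Submodule.eq_of_le_of_finrank_le h5 (by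
      have := hd (g w)
      have := hd (g u)
      omega)).ge (mem_perp'.2 fun a ha => ha.1))
    refine hτ u hu hus h0 (Submodule.mem_span_singleton.2 ⟨P.σ p', ?_⟩)
    conv_lhs => rw [show g u = p' • R.τ (g u) by simpa [hT, hu] using h7, smul_smul, hp', one_smul]

end O4

theorem N_maximal_orth (un : Un P) {R : RatStr F₀ V} (ok : P.RatOK R) (two : (2 : F) ≠ 0)
    (hθ : ∀ a, R.θ a = P.σ a) (hττ : ∀ x, R.τ (R.τ x) = x) (hn : finrank F V = 4)
    (hq : 4 ≤ Nat.card F₀) : Geo.IsMaximalIn P.E (R.N ⊓ P.E) := by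
  refine isMaximalIn_of inf_le_right ?_ fun X hHX hXE g hg hgH => ?_
  · have h : O4 P R P.E := ⟨un, ok, two, hθ, hττ, hn, inf_le_right, le_rfl⟩
    obtain ⟨u, -, hu, hus, h0⟩ := h.ok.exists_sing h.wild RatStr.inv_top ⊥ (by
      rw [finrank_top, finrank_bot]; omega)
    obtain ⟨f, hf, hff, huf, hfu⟩ := h.exists_partner hu (sing_B hus) h0
    obtain ⟨c, hc0, hc⟩ := exists_lam_ne_of_unitary un.σ un.ε
    refine ⟨eichE hus (by simp) hc, eichE_mem_E _ _ _, fun ⟨⟨d, hd⟩, _⟩ => ?_⟩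
    have h1 := congrArg (P.B · f) (hd u)
    have h2 := congrArg (P.B · f) (hd f)
    simp [eich, sing_B hus, hu, hf, huf, hfu, hff, hθ, un.lam.1 hc] at h1 h2
    rw [← h1] at h2
    exact hc0 ((mul_eq_zero.1 (show 2 * c = 0 by linear_combination -h2)).resolve_left two)
  · by_contra hX
    exact hgH ⟨O4.mem_N ⟨un, ok, two, hθ, hττ, hn, hHX, hXE⟩ hq hX hg, hXE hg⟩

open Geo in
theorem su_orth {F : Type*} [Field F] [Fintype F] {q : ℕ} (hF : Fintype.card F = q ^ 2)
    (hodd : Odd q) (hq5 : 5 ≤ q) (F₀ : Subfield F) (P : GL (Fin 4) F)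
    (hcard : Fintype.card F = Nat.card F₀ ^ 2)
    (hP : IsFormRationalStructure (hermForm 4 F q) F₀ 1 P) :
    IsMaximalIn (GU 4 F q ⊓ specialLinear (Fin 4) F)
      (subfieldSubgroup F₀ P ⊓ (GU 4 F q ⊓ specialLinear (Fin 4) F)) := by
  have hq : Nat.card F₀ = q := by
    rw [hF] at hcard
    exact (Nat.pow_left_injective two_ne_zero hcard).symm
  refine isMaximalIn_of_equiv toLE (Small.mem_SU_iff hF le_rfl) (fun g => ?_)
    (N_maximal_orth ⟨GenSU.σ_ne hF, rfl⟩ (GenSU.ratOK_orth hF hodd hP)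
      (two_ne_zero_of_odd_card (by rw [hF]; exact hodd.pow))
      (fun a => by rw [stdRat_θ, hq, unitPowPolar_σ]) (stdRat_τ_τ hcard P) (by simp) (by omega))
  rw [Subgroup.mem_inf, Small.mem_SU_iff hF le_rfl, mem_subfieldSubgroup_iff_N, Subgroup.mem_inf]


end Cfsg.Agent.H1.U4
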